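import Cfsg.Agent.INV.SC.K0

/-!
Normal form of 2-subgroups of the automorphism group.
-/

set_option autoImplicit false
set_option linter.unusedSectionVars false
set_option linter.unusedVariables false

namespace CL.SC

open Matrix Subgroup
open scoped commutatorElement

variable {m : ℕ} [NeZero m] {F : Type*} [Field F] [Finite F] [CharP F 2]
variable {G : Type*} [Group G] [Finite G]

theorem NF.conj_le {H : Type*} [Group H] [Finite H] {K P : Subgroup H} (hP : IsPGroup 2 P) (hK : Odd K.index) :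
    ∃ g : H, ∀ x ∈ P, g⁻¹ * x * g ∈ K := by
  obtain ⟨y, hy⟩ := hP.nonempty_fixed_point_of_prime_not_dvd_card (H ⧸ K) hK.not_two_dvd_nat
  obtain ⟨g, rfl⟩ := QuotientGroup.mk_surjective y
  refine ⟨g, fun x hx => ?_⟩
  have := QuotientGroup.eq.1 (hy ⟨x, hx⟩).symm
  rwa [mul_assoc]

theorem NF.conj_le' {H : Type*} [Group H] [Finite H] {K P L : Subgroup H} (hP : IsPGroup 2 P) (hL : P ≤ L)
    (hK : Odd (K.relIndex L)) : ∃ g ∈ L, ∀ x ∈ P, g⁻¹ * x * g ∈ K := by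
  obtain ⟨g, hg⟩ := NF.conj_le (P := P.subgroupOf L) (hP.comap_of_injective _ L.subtype_injective) hK
  exact ⟨g, g.2, fun x hx => hg ⟨x, hL hx⟩ hx⟩

/-- two 2-elements inducing the same inner automorphism are equal -/
theorem conj_inj2 {a b : SL m F} {n k : ℕ} (ha : a ^ 2 ^ n = 1) (hb : b ^ 2 ^ k = 1)
    (h : (MulAut.conj a : MulAut (SL m F)) = MulAut.conj b) : a = b :=
  Fr.inj2 (π := QuotientGroup.mk' (center (SL m F))) (QuotientGroup.ker_mk' _).le (n := n + k)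
    (by rw [pow_add, pow_mul, ha, one_pow]) (by rw [pow_add, mul_comm, pow_mul, hb, one_pow])
    (QuotientGroup.eq.2 (conj_eq_one.1 (by rw [map_mul, map_inv, h, inv_mul_cancel])))

theorem U_two {a : SL m F} (ha : a ∈ U m F) : ∃ n, a ^ 2 ^ n = 1 :=
  (pgroup_U ⟨a, ha⟩).imp fun _ e => congrArg Subtype.val e

variable (m F) in
/-- the standard subgroup containing a Sylow subgroup of the automorphism group -/
def NF.H : Subgroup (MulAut (SL m F)) where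
  carrier := {α | ∃ a ∈ U m F, ∃ σ ε, α = MulAut.conj a * std σ ε}
  one_mem' := ⟨1, Subgroup.one_mem _, 1, false, by rw [map_one, std_one, mul_one]⟩
  mul_mem' := by
    rintro _ _ ⟨a, ha, σ, ε, rfl⟩ ⟨b, hb, τ, δ, rfl⟩
    exact ⟨a * std σ ε b, Subgroup.mul_mem _ ha (std_mem_U σ ε hb), σ * τ, xor ε δ, by
      rw [map_mul, ← std_mul, mul_assoc, ← mul_assoc (std σ ε), mul_conj, mul_assoc, mul_assoc]⟩
  inv_mem' := by
    rintro _ ⟨a, ha, σ, ε, rfl⟩
    exact ⟨std σ⁻¹ ε a⁻¹, std_mem_U _ _ (Subgroup.inv_mem _ ha), σ⁻¹, ε, by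
      rw [_root_.mul_inv_rev, std_inv, ← map_inv, mul_conj]⟩

theorem NF.odd (hm : 3 ≤ m) : Odd (NF.H m F).index := by
  have e : Nat.card (U m F × (F ≃+* F) × Bool) = Nat.card (NF.H m F) := by
    refine Nat.card_eq_of_bijective (fun p => ⟨MulAut.conj p.1.1 * std p.2.1 p.2.2, _, p.1.2, _, _, rfl⟩)
      ⟨fun ⟨a, σ, ε⟩ ⟨b, τ, δ⟩ h => ?_, fun ⟨_, a, ha, σ, ε, rfl⟩ => ⟨(⟨a, ha⟩, σ, ε), rfl⟩⟩
    have h' : MulAut.conj a.1 * std σ ε = MulAut.conj b.1 * std τ δ := congrArg Subtype.val h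
    obtain ⟨rfl, rfl⟩ := (Si.ty ⟨_, h'⟩).unique hm (Si.ty ⟨_, rfl⟩)
    obtain ⟨n, hn⟩ := U_two a.2
    obtain ⟨k, hk⟩ := U_two b.2
    rw [show a = b from Subtype.ext (conj_inj2 hn hk (mul_right_cancel h'))]
  have h1 := (NF.H m F).card_mul_index
  obtain ⟨n, n0, -, hn⟩ := card_F F
  rw [← e, card_aut hm, ← (U m F).card_mul_index, Nat.card_prod, Nat.card_prod, hn, Nat.card_eq_fintype_card (α := Bool),
    Fintype.card_bool] at h1
  have h2 : (NF.H m F).index = (U m F).index := Nat.eq_of_mul_eq_mul_left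
    (Nat.mul_pos (Nat.card_pos (α := U m F)) (show 0 < n * 2 by omega)) (h1.trans (by ring))
  exact h2 ▸ odd_index_U

/-- `H = {conj a * std σ ε | a ∈ U}` is a subgroup of order `|U| · 2 · |Aut F|`, so of odd index
(`card_aut`, `odd_index_U`); a Sylow subgroup of `H` is one of `Aut`; the conjugating element is
`inn g * std τ δ` and `std τ δ ∈ H`. -/
theorem nf (hm : 3 ≤ m) {P : Subgroup (MulAut (SL m F))} (hP : IsPGroup 2 P) :
    ∃ g : GL (Fin m) F, ∀ α ∈ P, ∃ a ∈ U m F, ∃ σ ε,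
      (inn g)⁻¹ * α * inn g = MulAut.conj a * std σ ε := by
  obtain ⟨γ, h⟩ := NF.conj_le hP (NF.odd hm)
  obtain ⟨τ, δ, g, rfl⟩ := exists_ty hm γ
  have s : std τ δ ∈ NF.H m F := ⟨1, Subgroup.one_mem _, τ, δ, by rw [map_one, one_mul]⟩
  refine ⟨g, fun α hα => ?_⟩
  have := Subgroup.mul_mem _ (Subgroup.mul_mem _ s (h α hα)) (Subgroup.inv_mem _ s)
  rwa [show std τ δ * ((inn g * std τ δ)⁻¹ * α * (inn g * std τ δ)) * (std τ δ)⁻¹ = (inn g)⁻¹ * α * inn g by group]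
    at this

theorem Fr.nf (hm : 3 ≤ m) {π : SL m F →* G} (h : Fr π) {S : Subgroup G} (hS : IsPGroup 2 S)
    (hn : S ≤ normalizer (π.range : Set G)) : ∃ g : GL (Fin m) F, ∀ s ∈ S, ∃ a ∈ U m F, ∃ σ ε,
      Ac (CL.SC.rf π (inn g)) s (MulAut.conj a * std σ ε) := by
  obtain ⟨θ, hθ⟩ := h.exists_hom hm
  obtain ⟨g, hg⟩ := CL.SC.nf hm ((hS.comap_of_injective _ (normalizer (π.range : Set G)).subtype_injective).map θ)
  refine ⟨g, fun s hs => ?_⟩
  obtain ⟨a, ha, σ, ε, e⟩ := hg _ ⟨⟨s, hn hs⟩, hs, rfl⟩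
  exact ⟨a, ha, σ, ε, e ▸ (hθ ⟨s, hn hs⟩).rf (inn g)⟩

/-- an element of the image acting in standard form lies in `π(U)` if it is a 2-element -/
theorem Fr.mem_U (hm : 3 ≤ m) {π : SL m F →* G} (h : Fr π) {s : G} (hs : s ∈ π.range) {n : ℕ}
    (h2 : s ^ 2 ^ n = 1) {a : SL m F} (ha : a ∈ U m F) {σ : F ≃+* F} {ε : Bool}
    (hac : Ac π s (MulAut.conj a * std σ ε)) : s = π a := by
  obtain ⟨b, hb, rfl⟩ := h.lift hs h2
  have e := (ac_self π b).unique hm h hac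
  obtain ⟨rfl, rfl⟩ := (ty_conj b).unique hm (Si.ty ⟨_, e⟩)
  obtain ⟨k, hk⟩ := U_two ha
  rw [std_one, mul_one] at e
  rw [conj_inj2 hb hk e]

/-- `S ⊓ range` has odd index in the normal subgroup `range` of `H` and lies in the 2-group
`π(U)`. -/
theorem Fr.U_le (hm : 3 ≤ m) {π : SL m F →* G} (h : Fr π) {H S : Subgroup G} (hS : IsPGroup 2 S)
    (hSH : S ≤ H) (hodd : Odd (S.relIndex H)) (h1 : π.range ≤ H)
    (h2 : H ≤ normalizer (π.range : Set G))
    (hsd : ∀ s ∈ S, ∃ a ∈ U m F, ∃ σ ε, Ac π s (MulAut.conj a * std σ ε)) :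
    ∀ a ∈ U m F, π a ∈ S := by
  obtain ⟨g, gH, hg⟩ := NF.conj_le' (pgroup_U.map π) ((map_le_range π _).trans h1) hodd
  have k : cj g⁻¹ ((U m F).map π) ≤ (U m F).map π := by
    rintro _ ⟨y, hy, rfl⟩
    have e : (MulAut.conj g⁻¹).toMonoidHom y = g⁻¹ * y * g := by simp
    have s := hg y hy
    obtain ⟨a, ha, σ, ε, hac⟩ := hsd _ s
    obtain ⟨n, hn⟩ := hS ⟨_, s⟩
    rw [e, h.mem_U hm (s := g⁻¹ * y * g) (by
      simpa using (mem_normalizer_iff.1 (Subgroup.inv_mem _ (h2 gH)) y).1 (map_le_range π _ hy))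
      (congrArg Subtype.val hn) ha hac]
    exact ⟨a, ha, rfl⟩
  have e := Subgroup.eq_of_le_of_card_ge k (Subgroup.card_map_of_injective (MulAut.conj g⁻¹).injective).ge
  intro a ha
  obtain ⟨y, hy, e'⟩ := e.ge ⟨a, ha, rfl⟩
  rw [← e']
  simpa using hg y hy

/-- standard elements normalise `π(U)` and fix `π (zz 1)` -/
theorem Ac.sd_U {π : SL m F →* G} {s : G} {a : SL m F} (ha : a ∈ U m F) {σ : F ≃+* F} {ε : Bool}
    (hac : Ac π s (MulAut.conj a * std σ ε)) :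
    s ∈ normalizer (((U m F).map π : Subgroup G) : Set G) ∧ Commute s (π (zz 1)) := by
  refine ⟨Subgroup.mem_normalizer_fintype ?_, hac.commute ?_⟩
  · rintro _ ⟨u, hu, rfl⟩
    exact ⟨_, Subgroup.mul_mem _ (Subgroup.mul_mem _ ha (std_mem_U σ ε hu)) (Subgroup.inv_mem _ ha), (hac u).symm⟩
  · rw [MulAut.mul_apply, std_zz, map_one, MulAut.conj_apply, ← (zz_comm ha 1).eq, mul_inv_cancel_right]

end CL.SC
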