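import Cfsg.Agent.INV.SC.Base
import Cfsg.Agent.INV.SC.NF

/-!
The Sylow subgroup of the centraliser of the involution.
-/

set_option autoImplicit false
set_option linter.unusedSectionVars false
set_option linter.unusedVariables false

namespace CL.SC

open Matrix Subgroup
open scoped commutatorElement

variable {m : ℕ} [NeZero m] {F : Type*} [Field F] [Finite F] [CharP F 2]
variable {G : Type*} [Group G] [Finite G]
variable {ρ : SL m F →* G} {t : G}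

/-- a Sylow subgroup of `C(t)` in standard position -/
structure T0 (ρ : SL m F →* G) (t : G) (T : Subgroup G) : Prop extends St ρ t where
  pg : IsPGroup 2 T
  le : T ≤ centralizer {t}
  odd : Odd (T.relIndex (centralizer {t}))
  tT : t ∈ T
  US : ∀ a ∈ U m F, ρ a ∈ T
  sd : ∀ s ∈ T, ∃ a ∈ U m F, ∃ σ ε, Ac ρ s (MulAut.conj a * std σ ε)

/-- the Thompson subgroup of `T` -/
def Jt (ρ : SL m F →* G) (t : G) : Subgroup G :=
  zpowers t ⊔ (A m F (m / 2) ⊔ A m F (m - m / 2)).map ρ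

variable {T : Subgroup G}

/-- `exists_syl`, `Fr.nf`, `Fr.U_le` with `H = C(t)` -/
theorem St.exists_T0 (hm : 3 ≤ m) (h : St ρ t) :
    ∃ (g : GL (Fin m) F) (T : Subgroup G), T0 (rf ρ (inn g)) t T := by
  obtain ⟨S, h1, h2, h3, h4⟩ := exists_syl (H := centralizer {t}) (el_zpowers h.tt).pgroup
    (zpowers_le.2 (mem_centralizer_singleton_iff.2 rfl))
  obtain ⟨g, hg⟩ := h.fr.nf hm h1 fun s hs => h.nrm s (mem_centralizer_singleton_iff.1 (h3 hs))
  have h' := h.aut (inn g)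
  refine ⟨g, S, h', h1, h3, h4, h2 (mem_zpowers t), h'.fr.U_le hm h1 h3 h4 ?_
    (fun s hs => h'.nrm s (mem_centralizer_singleton_iff.1 hs)) hg, hg⟩
  rintro _ ⟨a, rfl⟩
  exact mem_centralizer_singleton_iff.2 (h'.tc a).symm

theorem T0.comm (h : T0 ρ t T) {s : G} (hs : s ∈ T) : Commute s t :=
  mem_centralizer_singleton_iff.1 (h.le hs)

theorem T0.mem_U (hm : 3 ≤ m) (h : T0 ρ t T) {a : SL m F} (ha : a * a = 1) (hT : ρ a ∈ T) :
    a ∈ U m F := by
  obtain ⟨b, hb, σ, ε, hac⟩ := h.sd _ hT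
  have e := h.fr.mem_U hm ⟨a, rfl⟩ (n := 1) (by rw [pow_one, sq, ← map_mul, ha, map_one]) hb hac
  obtain ⟨n, hn⟩ := U_two hb
  rwa [h.fr.inj2 (n := n + 1) (by rw [pow_succ', pow_mul, sq, ha, one_pow])
    (by rw [pow_succ, pow_mul, hn, one_pow]) e]

theorem St.zA (hm : 3 ≤ m) (h : St ρ t) {d : ℕ} (hd : d = m / 2 ∨ d = m - m / 2) :
    El (zpowers t ⊔ (A m F d).map ρ) ∧
      Nat.card (zpowers t ⊔ (A m F d).map ρ : Subgroup G) = 2 * Nat.card F ^ cc m := by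
  have c : ∀ v ∈ (A m F d).map ρ, Commute t v := by rintro _ ⟨a, -, rfl⟩; exact h.tc a
  refine ⟨(el_zpowers h.tt).sup ((el_A d).map ρ) (zp_comm h.tt c), ?_⟩
  rw [card_zsup h.tt c fun e => h.not_mem hm (map_le_range _ _ e), h.fr.card_map (el_A d).pgroup]
  rcases hd with rfl | rfl
  · rw [card_Ak]
  · rw [card_Ak']

theorem Jt_eq (ρ : SL m F →* G) (t : G) : Jt ρ t =
    (zpowers t ⊔ (A m F (m / 2)).map ρ) ⊔ (zpowers t ⊔ (A m F (m - m / 2)).map ρ) := by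
  rw [Jt, Subgroup.map_sup, sup_sup_distrib_left]

theorem St.of_kt (h : St ρ t) {e : G} (he : e * e = 1) (hc : Commute e t) {a : SL m F}
    (ha : a * a = 1) (hk : Kt ρ t ((ρ a)⁻¹ * e)) : e = ρ a ∨ e = t * ρ a :=
  h.inner' he hc ha (by simpa using (ac_self ρ a).mul (ac_one.2 hk.2))

/-- `rank_eq`, `Fr.mem_U`, `cj_A_le_U` -/
theorem T0.el_eq (hp : Par m F) (h : T0 ρ t T) {E : Subgroup G} (hE : El E) (hT : E ≤ T)
    (hn : 2 * Nat.card F ^ cc m ≤ Nat.card E) : E = zpowers t ⊔ (A m F (m / 2)).map ρ ∨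
      E = zpowers t ⊔ (A m F (m - m / 2)).map ρ := by
  obtain ⟨s, d, hd, e⟩ := h.toSt.rank_eq hp hE (fun e he => h.comm (hT he)) hn
  have := hp.1
  rw [cj_A_le_U (by omega) (by omega) fun a ha => h.mem_U hp.1 ((el_A d).map _ a ha)
    (hT (e ▸ mem_sup_right (mem_map_of_mem ρ ha)))] at e
  rcases hd with rfl | rfl
  exacts [Or.inl e, Or.inr e]

theorem T0.J_le (h : T0 ρ t T) : Jt ρ t ≤ T := by
  refine sup_le (zpowers_le.2 h.tT) ?_
  rintro _ ⟨a, ha, rfl⟩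
  exact h.US a (sup_le (A_le_U _) (A_le_U _) ha)

/-- `Jt` is generated by two elementary abelian subgroups of order `2 q ^ c` -/
theorem T0.weak (hp : Par m F) (h : T0 ρ t T) {g : G} (hg : cj g (Jt ρ t) ≤ T) :
    cj g (Jt ρ t) = Jt ρ t := by
  have k : ∀ d, d = m / 2 ∨ d = m - m / 2 → zpowers t ⊔ (A m F d).map ρ ≤ Jt ρ t →
      cj g (zpowers t ⊔ (A m F d).map ρ) ≤ Jt ρ t := fun d hd h1 => by
    obtain ⟨h2, h3⟩ := h.toSt.zA hp.1 hd
    rcases h.el_eq hp (h2.map _) ((map_mono h1).trans hg) (by rw [card_cj, h3]) with e | e <;>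
      rw [cj, e, Jt_eq]
    exacts [le_sup_left, le_sup_right]
  refine eq_of_le_of_card_ge ?_ (card_cj g _).ge
  conv_lhs => rw [Jt_eq, cj, Subgroup.map_sup]
  exact sup_le (k _ (Or.inl rfl) (Jt_eq ρ t ▸ le_sup_left)) (k _ (Or.inr rfl) (Jt_eq ρ t ▸ le_sup_right))

/-- `cent_Q` -/
theorem T0.omega (hm : 3 ≤ m) (h : T0 ρ t T) {e : G} (he : e * e = 1) (hc : ∀ s ∈ T, Commute e s) :
    ∃ c, e = ρ (zz c) ∨ e = t * ρ (zz c) := by
  obtain ⟨c, hk⟩ := h.toSt.cent_Q hm (hc t h.tT) fun a ha => hc _ (h.US a (Q_le_U ha))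
  exact ⟨c, h.toSt.of_kt he (hc t h.tT) (x_sq _ _ c) hk⟩

/-- `cent_A0` -/
theorem T0.omegaJ (hm : 3 ≤ m) (h : T0 ρ t T) {e : G} (he : e * e = 1)
    (hc : ∀ s ∈ Jt ρ t, Commute e s) : ∃ a ∈ A0 m F, e = ρ a ∨ e = t * ρ a := by
  have ct := hc t (mem_sup_left (mem_zpowers t))
  obtain ⟨α, hα⟩ := h.toSt.ac hm ct
  have k : ∀ d, A m F d ≤ A m F (m / 2) ⊔ A m F (m - m / 2) → ∀ a ∈ A m F d, α a = a :=
    fun d hd a ha => (hα.fix h.fr (k := 1) ((pow_two a).trans (el_A d a ha))).1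
      (hc _ (mem_sup_right (mem_map_of_mem ρ (hd ha))))
  obtain ⟨a, ha, rfl⟩ := cent_A0 hm (k _ le_sup_left) (k _ le_sup_right)
  exact ⟨a, ha, h.toSt.inner' he ct (el_A _ a (A0_eq.le ha).1) hα⟩

theorem T0.zz_comm (h : T0 ρ t T) {s : G} (hs : s ∈ T) : Commute s (ρ (zz 1)) := by
  obtain ⟨a, ha, σ, ε, hac⟩ := h.sd s hs
  exact (hac.sd_U ha).2

theorem cj_centralizer (g t : G) : cj g (centralizer {t}) = centralizer {g * t * g⁻¹} := by
  ext y
  rw [mem_cj, mem_centralizer_singleton_iff, mem_centralizer_singleton_iff]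
  exact (commute_cj (g := g)).symm.trans (by rw [show g * (g⁻¹ * y * g) * g⁻¹ = y by group]; rfl)

theorem T0.odd_cj (h : T0 ρ t T) (g : G) :
    Odd ((cj g T).relIndex (centralizer {g * t * g⁻¹})) := by
  rw [← cj_centralizer, cj, cj, relIndex_map_map_of_injective _ _ (MulAut.conj g).injective]
  exact h.odd

/-- If `z = ρ (zz 1) = g t g⁻¹`: `T` centralises `z`, so `T` and `g T g⁻¹` are Sylow subgroups of
`C(z)` and one may take `g ∈ N(T)`; then `g` normalises `Jt` (`weak`) and `⁅Jt, T⁆`, which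
contains `z = [x 0 (m-2) 1, x (m-2) la 1]` and lies in `range ρ ∌ t`. -/
theorem T0.nr (hp : Par m F) (h : T0 ρ t T) {r : SL m F} (hr : IsRoot r) : ¬ IsConj t (ρ r) := fun hc => by
  have hm := hp.1
  obtain ⟨g, hg⟩ := isConj_iff.1 (hc.trans (ρ.map_isConj hr).symm)
  obtain ⟨c, hc1, hc2⟩ := conj_into (h.pg.map _) (cj_centralizer g t ▸ map_mono h.le) (h.odd_cj g)
    h.pg fun s hs => mem_centralizer_singleton_iff.2 (hg ▸ h.zz_comm hs)
  have h1 : cj (g⁻¹ * c) T ≤ T := by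
    rw [cj_mul']
    refine (map_mono hc2).trans ?_
    change cj _ _ ≤ _
    rw [← cj_mul', inv_mul_cancel, cj_one]
  have h2 := h.weak hp ((map_mono h.J_le).trans h1)
  have h3 : ⁅Jt ρ t, T⁆ ≤ ρ.range := commutator_le.2 fun y hy s hs => by
    have n := mem_normalizer_iff.1 (h.nrm s (h.comm hs))
    have k : ∀ y ∈ ρ.range, y * s * y⁻¹ * s⁻¹ ∈ ρ.range := fun y hy => by
      simpa only [mul_assoc] using mul_mem hy ((n _).1 (inv_mem hy))
    rcases (mem_zsup h.toSt.tt (V := ρ.range) (by rintro _ ⟨a, rfl⟩; exact h.tc a)).1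
      (sup_le_sup_left (map_le_range _ _) _ hy) with e | e
    · exact k y e
    · obtain ⟨a, ha⟩ := k _ e
      have : t⁻¹ * ρ a * t ∈ ρ.range := by
        rw [mul_assoc, ← (h.tc a).eq, inv_mul_cancel_left]; exact ⟨a, rfl⟩
      rwa [ha, show t⁻¹ * (t * y * s * (t * y)⁻¹ * s⁻¹) * t = y * s * y⁻¹ * (t⁻¹ * (s⁻¹ * t)) by group,
        (h.comm (inv_mem hs)).eq, inv_mul_cancel_left] at this
  have h4 : ρ (zz 1) ∈ ⁅Jt ρ t, T⁆ := by
    have j0 : (0 : Fin m) ≠ ⟨m - 2, by omega⟩ := Fin.ne_of_val_ne (by simp; omega)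
    have jl : (⟨m - 2, by omega⟩ : Fin m) ≠ la := Fin.ne_of_val_ne (by rw [la_val]; simp; omega)
    rw [zz, ← one_mul (1 : F), ← x_tri j0 jl (zero_ne_la (by omega))]
    simp only [map_mul, map_inv]
    exact commutator_mem_commutator (mem_sup_right (mem_map_of_mem ρ (mem_sup_left (x_mem
      ⟨by simp; omega, by simp; omega⟩ 1)))) (h.US _ (x_mem (lt_of_le_of_ne (le_la _) jl) 1))
  have h5 := mem_map_of_mem (MulAut.conj (g⁻¹ * c)).toMonoidHom h4
  rw [map_commutator] at h5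
  refine h.toSt.not_mem hm (h3 (commutator_mono h2.le h1 ?_))
  convert h5
  change t = g⁻¹ * c * ρ (zz 1) * (g⁻¹ * c)⁻¹
  rw [mul_assoc g⁻¹, ← hg, mem_centralizer_singleton_iff.1 hc1]
  group

theorem exists_sq_mem {y : G} (n : ℕ) (h1 : y ^ 2 ^ n ∈ T) (h2 : y ∉ T) :
    ∃ k : ℕ, y ^ k ∉ T ∧ y ^ k * y ^ k ∈ T := by
  induction n generalizing y with
  | zero => exact (h2 (by simpa using h1)).elim
  | succ n ih =>
    by_cases h3 : y ^ 2 ∈ T
    · exact ⟨1, by simpa using h2, by simpa [pow_two] using h3⟩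
    · obtain ⟨k, hk⟩ := ih (y := y ^ 2) (by rwa [← pow_mul, ← pow_succ']) h3
      exact ⟨2 * k, by simpa only [pow_mul] using hk⟩

/-- There is `y ∈ N(T) ∖ T` with `y * y ∈ T` (normalisers grow in a 2-group); `y ∉ C(t)`;
`y t y⁻¹` is central in `T`, so equals `t ρ (zz c)`, `c ≠ 0` (`omega`, `nr`); `y * y ∈ C(t)`
gives `Commute y (ρ (zz c))`; conjugate by `exists_dg_zz`. -/
theorem T0.mv (hp : Par m F) (h : T0 ρ t T) (hns : Even T.index) :
    ∃ y, y * t * y⁻¹ = t * ρ (zz 1) ∧ Commute y (ρ (zz 1)) := by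
  obtain ⟨S, h1, h2, -, h3⟩ := exists_syl (H := ⊤) h.pg le_top
  have := h1.isNilpotent
  have h4 : T.subgroupOf S < ⊤ := lt_top_iff_ne_top.2 fun e => by
    rw [← le_antisymm h2 (subgroupOf_eq_top.1 e), relIndex_top_right] at h3
    exact Nat.not_even_iff_odd.2 h3 hns
  obtain ⟨y0, hy, hy'⟩ := SetLike.exists_of_lt (Group.normalizerCondition_of_isNilpotent _ h4)
  rw [← subgroupOf_normalizer_eq h2] at hy
  obtain ⟨n, hn⟩ := h1 y0
  have hn' : (y0 : G) ^ 2 ^ n = 1 := congrArg Subtype.val hn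
  obtain ⟨k, k1, k2⟩ := exists_sq_mem (T := T) (y := y0) n (hn' ▸ one_mem T) hy'
  have k3 : (y0 : G) ^ k ∈ normalizer (T : Set G) := pow_mem hy k
  have k4 : ((y0 : G) ^ k) ^ 2 ^ n = 1 := by rw [← pow_mul, mul_comm, pow_mul, hn', one_pow]
  generalize (y0 : G) ^ k = y at k1 k2 k3 k4
  have k5 : ¬ Commute y t := fun e => k1 (CL.SylowRel.mem_of_not_dvd_relIndex h.pg h.le
    (odd_iff_not.1 h.odd) (mem_centralizer_singleton_iff.2 e) k4 k3)
  obtain ⟨c, e | e⟩ := h.omega hp.1 (e := y * t * y⁻¹)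
    (by rw [conj_mul, h.toSt.tt, mul_one, mul_inv_cancel]) fun s hs => by
      have := (commute_cj (g := y)).2 (h.comm ((mem_normalizer_iff''.1 k3 s).1 hs)).symm
      rwa [show y * (y⁻¹ * s * y) * y⁻¹ = s by group] at this
  · by_cases c0 : c = 0
    · rw [c0, zz, x_zero, map_one, conj_eq_one_iff] at e
      exact (h.toSt.ne_one e).elim
    · exact (h.nr hp (isRoot_x hp.1 (zero_ne_la (by have := hp.1; omega)) c0)
        (isConj_iff.2 ⟨y, e⟩)).elim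
  have c0 : c ≠ 0 := by
    rintro rfl
    rw [zz, x_zero, map_one, mul_one] at e
    exact k5 (mul_inv_eq_iff_eq_mul.1 e)
  have cz : Commute y (ρ (zz c)) := by
    have e1 : t = t * ρ (zz c) * (y * ρ (zz c) * y⁻¹) := by
      calc t = y * y * t * (y * y)⁻¹ := by rw [(h.comm k2).eq, mul_inv_cancel_right]
        _ = y * (y * t * y⁻¹) * y⁻¹ := by group
        _ = y * t * y⁻¹ * (y * ρ (zz c) * y⁻¹) := by rw [e, ← e]; nth_rw 1 [e]; group
        _ = _ := by rw [e]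
    rw [mul_assoc, left_eq_mul, mul_eq_one_iff_inv_eq, ← map_inv, zz, x_inv] at e1
    exact mul_inv_eq_iff_eq_mul.1 e1.symm
  obtain ⟨d, -, hd⟩ := exists_dg_zz hp.1 (inv_ne_zero c0)
  have e2 : ρ (zz 1) = ρ (dg d) * ρ (zz c) * (ρ (dg d))⁻¹ := by
    rw [← map_inv, ← map_mul, ← map_mul, hd, inv_mul_cancel₀ c0]
  have c1 := (h.tc (dg d)).eq
  refine ⟨ρ (dg d) * y * (ρ (dg d))⁻¹, ?_, e2 ▸ commute_cj.2 cz⟩
  calc _ = ρ (dg d) * (y * ((ρ (dg d))⁻¹ * (t * ρ (dg d))) * y⁻¹) * (ρ (dg d))⁻¹ := by group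
    _ = _ := by rw [c1, inv_mul_cancel_left, e, e2, ← mul_assoc, ← c1]; group

end CL.SC
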