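import Cfsg.Agent.INV.SC.Std
import Cfsg.Agent.KSG.GLnJordan

/-!
Inner involutions.
-/

set_option autoImplicit false
set_option linter.unusedSectionVars false
set_option linter.unusedVariables false

namespace CL.SC

open Matrix Subgroup
open scoped commutatorElement

variable {m : ℕ} [NeZero m] {F : Type*} [Field F] [Finite F] [CharP F 2]

variable (m F) in
/-- the nilpotent part of `wr` -/
def K6.W (s : ℕ) : Matrix (Fin m) (Fin m) F :=
  Matrix.of fun i j : Fin m => if (i : ℕ) < s ∧ (j : ℕ) = m - s + i then 1 else 0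

theorem K6.W_apply (s : ℕ) (i j : Fin m) :
    K6.W m F s i j = if (i : ℕ) < s ∧ (j : ℕ) = m - s + i then 1 else 0 := rfl

theorem wr_val {s : ℕ} (hs : s ≤ m / 2) :
    ((wr m F s : SL m F) : Matrix (Fin m) (Fin m) F) = 1 + K6.W m F s :=
  Sup.val (s := fun i j => (i : ℕ) < s ∧ m - s ≤ (j : ℕ)) (fun i j k h h' => by omega)
    fun i j h => if_neg (by omega)

theorem K6.sW0 {s : ℕ} (i : Fin m) {j : Fin m} (h : s ≤ j) (c : F) : single i j c * K6.W m F s = 0 := by
  ext k l
  by_cases e : k = i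
  · rw [e, single_mul_apply_same, K6.W_apply, if_neg (by omega), mul_zero, Matrix.zero_apply]
  · rw [single_mul_apply_of_ne _ _ _ _ _ e, Matrix.zero_apply]

theorem K6.sW {s : ℕ} (i : Fin m) {j n : Fin m} (h : (j : ℕ) < s) (hn : (n : ℕ) = m - s + j) (c : F) :
    single i j c * K6.W m F s = single i n c := by
  ext k l
  by_cases e : k = i
  · rw [e, single_mul_apply_same, K6.W_apply, single_apply]
    by_cases e' : n = l
    · rw [if_pos ⟨h, e' ▸ hn⟩, if_pos ⟨rfl, e'⟩, mul_one]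
    · rw [if_neg fun k => e' (Fin.ext (hn.trans k.2.symm)), if_neg fun k => e' k.2, mul_zero]
  · rw [single_mul_apply_of_ne _ _ _ _ _ e, single_apply_of_row_ne (Ne.symm e)]

theorem K6.Ws0 {s : ℕ} {i : Fin m} (j : Fin m) (h : (i : ℕ) < m - s) (c : F) : K6.W m F s * single i j c = 0 := by
  ext k l
  by_cases e : l = j
  · rw [e, mul_single_apply_same, K6.W_apply, if_neg (by omega), zero_mul, Matrix.zero_apply]
  · rw [mul_single_apply_of_ne _ _ _ _ _ e, Matrix.zero_apply]

theorem K6.Ws {s : ℕ} {i n : Fin m} (j : Fin m) (h : (n : ℕ) < s) (hn : (i : ℕ) = m - s + n) (c : F) :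
    K6.W m F s * single i j c = single n j c := by
  ext k l
  by_cases e : l = j
  · rw [e, mul_single_apply_same, K6.W_apply, single_apply]
    by_cases e' : n = k
    · rw [if_pos ⟨e' ▸ h, e' ▸ hn⟩, if_pos ⟨e', rfl⟩, one_mul]
    · rw [if_neg fun k => e' (Fin.ext (by omega)), if_neg fun k => e' k.1, zero_mul]
  · rw [mul_single_apply_of_ne _ _ _ _ _ e, single_apply_of_col_ne _ _ (Ne.symm e)]

theorem K6.rank {s : ℕ} (hs : s ≤ m / 2) : (K6.W m F s).rank = s := by
  classical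
  have e : (diagonal fun i : Fin m => if (i : ℕ) < s then (1 : F) else 0).rank = s := by
    rw [rank_diagonal, Fintype.card_subtype]
    simp only [ne_eq, ite_eq_right_iff, one_ne_zero, imp_false, not_not]
    rw [Fin.card_filter_val_lt]
    omega
  have e1 : K6.W m F s * (K6.W m F s)ᵀ = diagonal fun i : Fin m => if (i : ℕ) < s then (1 : F) else 0 := by
    ext i j
    rw [Matrix.mul_apply, diagonal_apply]
    by_cases h : (i : ℕ) < s
    · rw [Finset.sum_eq_single ⟨m - s + i, by omega⟩ (fun k _ hk => by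
        rw [K6.W_apply, if_neg fun e => hk (Fin.ext e.2), zero_mul]) (by simp), K6.W_apply, if_pos ⟨h, rfl⟩, one_mul,
        transpose_apply, K6.W_apply, if_pos h]
      exact if_congr ⟨fun e => Fin.ext (by have := e.2; simp only at this; omega), fun e => e ▸ ⟨h, rfl⟩⟩ rfl rfl
    · simp [K6.W_apply, h]
  have e2 : K6.W m F s = (diagonal fun i : Fin m => if (i : ℕ) < s then (1 : F) else 0) * K6.W m F s := by
    ext i j
    rw [diagonal_mul, K6.W_apply]
    by_cases h : (i : ℕ) < s <;> simp [h]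
  refine le_antisymm (e2 ▸ (rank_mul_le_left _ _).trans e.le) ?_
  exact e.ge.trans (e1 ▸ rank_mul_le_left _ _)

theorem sq_sub_one {a : SL m F} (h : a * a = 1) : ((a : Matrix (Fin m) (Fin m) F) - 1) ^ 2 = 0 := by
  rw [← pow_one 2, sub_pow_char_pow_of_commute _ _ (Commute.one_right _), one_pow, pow_one, pow_two,
    ← Matrix.SpecialLinearGroup.coe_mul, h, Matrix.SpecialLinearGroup.coe_one, sub_self]

open CL.GLn in
/-- involutions are classified by the rank of `a - 1` -/
theorem isConj_of_rank {a b : SL m F} (ha : a * a = 1) (hb : b * b = 1)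
    (h : ((a : Matrix (Fin m) (Fin m) F) - 1).rank = ((b : Matrix (Fin m) (Fin m) F) - 1).rank) : IsConj a b := by
  refine isConj_sl_of_isConj (isConj_of_unipotent_of_rank ⟨_, sq_sub_one ha⟩ ⟨_, sq_sub_one hb⟩ ?_) ?_
  · intro k
    rcases k with _ | _ | k
    · simp
    · simpa using h
    · rw [pow_eq_zero_of_le (by omega) (sq_sub_one ha), pow_eq_zero_of_le (by omega) (sq_sub_one hb)]
  · intro c hc
    obtain ⟨μ, hμ⟩ := exists_hasJT_one ⟨_, sq_sub_one ha⟩
    have hne : μ ≠ 0 := by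
      rintro rfl
      have := hμ.sum_eq_card
      simp at this
      exact NeZero.ne m this.symm
    obtain ⟨e, he⟩ := Multiset.exists_mem_of_ne_zero hne
    have h1 := hμ.pos e he
    have h2 := (hμ.sub_one_pow_eq_zero_iff 2).1 (sq_sub_one ha) e he
    obtain ⟨d, hd⟩ : ∃ d : F, d ^ e = c := by
      obtain rfl | rfl : e = 1 ∨ e = 2 := by omega
      · exact ⟨c, pow_one c⟩
      · exact (exists_sq c).imp fun d hd => by rw [pow_two, hd]
    have hd0 : d ≠ 0 := by
      rintro rfl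
      rw [zero_pow h1.ne'] at hd
      exact hc hd.symm
    rw [← hd]
    exact exists_gl_commute_det (hμ.exists_commute_det_pow he hd0)

theorem wr_apply {s : ℕ} (hs : s ≤ m / 2) (i j : Fin m) : (wr m F s) i j =
    (1 : Matrix (Fin m) (Fin m) F) i j + if (i : ℕ) < s ∧ (j : ℕ) = m - s + i then 1 else 0 := congrFun (congrFun (wr_val hs) i) j

theorem wr_mem_A0 {s : ℕ} (hs : s ≤ m / 2) : wr m F s ∈ A0 m F := mem_A0.2 fun i j h => by
  rw [wr_apply hs, if_neg (by omega), add_zero]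

theorem wr_mem_U {s : ℕ} (hs : s ≤ m / 2) : wr m F s ∈ U m F := A_le_U _ (A0_eq.le (wr_mem_A0 hs)).1

theorem wr_sq {s : ℕ} (hs : s ≤ m / 2) : wr m F s * wr m F s = 1 := el_A _ _ (A0_eq.le (wr_mem_A0 hs)).1

theorem wr_zero : wr m F 0 = 1 := by
  ext i j
  simp [wr_apply]

theorem wr_one (hm : 2 ≤ m) : wr m F 1 = zz 1 := by
  ext i j
  rw [wr_apply (by omega), zz, x_val (zero_ne_la hm), Matrix.add_apply, single_apply]
  simp only [Fin.ext_iff, la_val, Fin.val_zero]
  exact congrArg _ (if_congr (by omega) rfl rfl)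

theorem wr_ne_one {s : ℕ} (h0 : 0 < s) (hs : s ≤ m / 2) : wr m F s ≠ 1 := fun e => by
  have := K6.rank (F := F) hs
  have e' := wr_val (F := F) hs
  rw [e, Matrix.SpecialLinearGroup.coe_one, left_eq_add] at e'
  rw [e', rank_zero] at this
  omega

theorem std_wr {s : ℕ} (hs : s ≤ m / 2) (σ : F ≃+* F) (ε : Bool) :
    std σ ε (wr m F s) = wr m F s := by
  have h1 : fld σ (wr m F s) = wr m F s := by
    ext i j
    rw [fld_apply, wr_apply hs, map_add, one_apply]
    split_ifs <;> simp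
  have h2 : gr (wr m F s) = wr m F s := by
    ext i j
    rw [gr_apply, inv_eq_of_mul_eq_one_right (wr_sq hs), wr_apply hs, wr_apply hs, one_apply, one_apply]
    simp only [Fin.rev_inj, Fin.val_rev, eq_comm (a := j)]
    exact congrArg _ (if_congr (by omega) rfl rfl)
  cases ε
  · rw [std_false, h1]
  · rw [std, cond_true, MulAut.mul_apply, h2, h1]

theorem Sd.wr {β : MulAut (SL m F)} (h : Sd β) {s : ℕ} (hs : s ≤ m / 2) :
    β (wr m F s) = wr m F s := by
  obtain ⟨e, -, σ, ε, rfl, -⟩ := h.form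
  rw [MulAut.mul_apply, std_wr hs, MulAut.conj_apply, (zz_comm (wr_mem_U hs) e).eq, mul_inv_cancel_right]

theorem map_wr {K : Type*} [Field K] [Finite K] [CharP K 2] (ι : F →+* K) {s : ℕ} (hs : s ≤ m / 2) :
    Matrix.SpecialLinearGroup.map ι (wr m F s) = wr m K s := by
  ext i j
  show ι (wr m F s i j) = _
  rw [wr_apply hs, wr_apply hs, map_add, one_apply, one_apply]
  split_ifs <;> simp

/-- Normal form of `N = a - 1`, `N ^ 2 = 0`, `s = rank N`: basis `N u 0, …, N u (s-1)`, a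
complement in `ker N`, `u 0, …, u (s-1)`.  The determinant of the base change is corrected by
scaling `u 0` (factor `λ ^ 2`, `exists_sq`). -/
theorem exists_wr {a : SL m F} (ha : a * a = 1) : ∃ s ≤ m / 2, IsConj (wr m F s) a := by
  have h := rank_add_rank_le_card_of_mul_eq_zero ((pow_two _).symm.trans (sq_sub_one ha))
  rw [Fintype.card_fin] at h
  have hs : ((a : Matrix (Fin m) (Fin m) F) - 1).rank ≤ m / 2 := by omega
  exact ⟨_, hs, isConj_of_rank (wr_sq hs) ha (by rw [wr_val hs, add_sub_cancel_left, K6.rank hs])⟩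

theorem exists_conj_A0 {a : SL m F} (ha : a * a = 1) : ∃ g : SL m F, g * a * g⁻¹ ∈ A0 m F := by
  obtain ⟨s, hs, h⟩ := exists_wr ha
  obtain ⟨g, hg⟩ := isConj_iff.1 h.symm
  exact ⟨g, hg ▸ wr_mem_A0 hs⟩

/-- every involution lies in a conjugate of `A k` -/
theorem exists_el {a : SL m F} (ha : a * a = 1) :
    ∃ B : Subgroup (SL m F), a ∈ B ∧ El B ∧ Nat.card B = Nat.card F ^ cc m := by
  obtain ⟨g, hg⟩ := exists_conj_A0 ha
  refine ⟨cj g⁻¹ (A m F (m / 2)), ⟨_, (A0_eq.le hg).1, by simp [mul_assoc]⟩, ?_, ?_⟩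
  · rintro _ ⟨b, hb, rfl⟩
    rw [← map_mul, el_A _ b hb, map_one]
  · rw [Subgroup.card_map_of_injective (MulAut.conj g⁻¹).injective, card_Ak]

/-- `s = 1`, `m ≥ 4`: `r = x 0 (m-2) 1 = [x 0 1 1, x 1 (m-2) 1]`; `s = 1`, `m = 3`: `r = zz c`,
`c ≠ 0, 1`.  `s ≥ 2`: `r = zz 1 = [x 0 (m-2) 1, x (s-2) (s-1) 1 * x (m-2) (m-1) 1]`, and
`x 0 (s-1) 1` conjugates `wr s` to `wr s * zz 1`. -/
theorem com_wr (hp : Par m F) {s : ℕ} (h0 : 0 < s) (hs : s ≤ m / 2) :
    ∃ r ∈ ⁅U m F ⊓ centralizer {wr m F s}, U m F ⊓ centralizer {wr m F s}⁆,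
      IsRoot r ∧ Commute r (wr m F s) ∧ IsConj (wr m F s) (wr m F s * r) := by
  have hm := hp.1
  have hz := zero_ne_la (m := m) (by omega)
  by_cases h1 : s = 1
  · subst h1
    rw [wr_one (by omega), inf_eq_left.2 fun u hu => mem_centralizer_singleton_iff.2 (zz_comm hu 1).symm]
    have zr : IsRoot (zz (1 : F) : SL m F) := IsConj.refl _
    by_cases h4 : m ≤ 4
    · obtain ⟨c, c0, c1⟩ := exists_ne_01 (F := F) (by have := hp.2 h4; omega)
      refine ⟨zz c, zz_mem_comm hm c, isRoot_x hm hz c0, zz_comm (zz_mem_U 1) c, zr.isConj ?_⟩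
      rw [zz, zz, ← x_add]
      exact isRoot_x hm hz fun e => c1 (CharTwo.add_eq_zero.1 e).symm
    · have a1 : (0 : Fin m) < ⟨1, by omega⟩ := Nat.zero_lt_one
      have a2 : (⟨1, by omega⟩ : Fin m) < ⟨2, by omega⟩ := Nat.one_lt_two
      have a3 : (⟨2, by omega⟩ : Fin m) ≠ la := fun e => by
        have := congrArg Fin.val e
        rw [la_val] at this
        simp only at this
        omega
      have a4 := a1.trans a2
      refine ⟨x 0 ⟨2, by omega⟩ 1, ?_, isRoot_x hm a4.ne one_ne_zero,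
        (zz_comm (x_mem (s := fun i j => i < j) a4 1) 1).symm, zr.isConj (isRoot_row hm (i := 0) ?_ fun e => ?_)⟩
      · rw [← mul_one (1 : F), ← x_tri a1.ne a2.ne a4.ne]
        exact Subgroup.commutator_mem_commutator (x_mem (s := fun i j => i < j) a1 1)
          (x_mem (s := fun i j => i < j) a2 1)
      · exact Subgroup.mul_mem _ (X_le_row 0 la (mem_X.2 ⟨1, rfl⟩)) (X_le_row 0 _ (mem_X.2 ⟨1, rfl⟩))
      · rw [zz, ← rv_single, ← rv_single, ← rv_add, ← rv_zero 0, rv_inj] at e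
        simpa [a3.symm] using e la hz.symm
  have hl := la_val (m := m)
  obtain ⟨i, hi⟩ : ∃ i : Fin m, (i : ℕ) = s - 2 := ⟨⟨s - 2, by omega⟩, rfl⟩
  obtain ⟨j, hj⟩ : ∃ i : Fin m, (i : ℕ) = s - 1 := ⟨⟨s - 1, by omega⟩, rfl⟩
  obtain ⟨k, hk⟩ : ∃ i : Fin m, (i : ℕ) = m - 2 := ⟨⟨m - 2, by omega⟩, rfl⟩
  have ij : i < j := by rw [Fin.lt_def]; omega
  have kl : k < la := by rw [Fin.lt_def]; omega
  have k0 : (0 : Fin m) < k := by rw [Fin.lt_def, Fin.val_zero]; omega
  have j0 : (0 : Fin m) < j := by rw [Fin.lt_def, Fin.val_zero]; omega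
  have jk : j ≠ k := fun e => by rw [e] at hj; omega
  have ik : k ≠ i := fun e => by rw [e] at hk; omega
  have u1 : x i j (1 : F) ∈ U m F := x_mem (s := fun i j => i < j) ij 1
  refine ⟨zz 1, ?_, IsConj.refl _, zz_comm (wr_mem_U hs) 1, isConj_iff.2 ⟨x 0 j 1, ?_⟩⟩
  · have e : zz (1 : F) = ⁅x 0 k (1 : F), x i j (1 : F) * x k la (1 : F)⁆ := by
      have e1 := x_tri k0.ne kl.ne hz (1 : F) 1
      rw [mul_one] at e1
      rw [commutatorElement_def, ← mul_assoc, (x_comm j0.ne ik 1 1).eq, _root_.mul_inv_rev,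
        show ∀ a b c : SL m F, b * a * c * a⁻¹ * (c⁻¹ * b⁻¹) = b * (a * c * a⁻¹ * c⁻¹) * b⁻¹ from fun a b c => by group,
        e1, ← zz, ← (zz_comm u1 1).eq, mul_inv_cancel_right]
    rw [e]
    refine Subgroup.commutator_mem_commutator ⟨x_mem (s := fun i j => i < j) k0 1, mem_centralizer_singleton_iff.2 ?_⟩
      ⟨Subgroup.mul_mem _ u1 (x_mem (s := fun i j => i < j) kl 1), mem_centralizer_singleton_iff.2 (Subtype.ext ?_)⟩
    · exact A_comm (x_mem ⟨by rw [Fin.val_zero]; omega, by omega⟩ 1) (A0_eq.le (wr_mem_A0 hs)).1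
    · simp only [Matrix.SpecialLinearGroup.coe_mul, x_val ij.ne, x_val kl.ne, wr_val hs, mul_add, add_mul, one_mul,
        mul_one, single_mul_single_of_ne _ _ _ _ jk, add_zero, K6.sW (s := s) i (j := j) (n := la) (by omega) (by omega),
        K6.sW0 (s := s) k (j := la) (by omega), K6.Ws0 (s := s) (i := i) j (by omega),
        K6.Ws (s := s) (i := k) (n := i) la (by omega) (by omega)]
      abel
  · rw [mul_inv_eq_iff_eq_mul]
    refine Subtype.ext ?_
    simp only [Matrix.SpecialLinearGroup.coe_mul, zz, x_val j0.ne, x_val hz, wr_val hs, mul_add, add_mul, one_mul,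
      mul_one, single_mul_single_of_ne _ _ _ _ hz.symm, add_zero,
      K6.sW (s := s) 0 (j := j) (n := la) (by omega) (by omega),
      fun (j : Fin m) => K6.Ws0 (F := F) (s := s) (i := 0) j (by rw [Fin.val_zero]; omega), zero_mul]
    abel

/-- `zz θ` for `std φ false`, otherwise `x 0 2 1 = [x 0 1 1, x 1 2 1]` -/
theorem mov (hm : 4 ≤ m) {β : MulAut (SL m F)} (h : Sd β) :
    ∃ e ∈ ⁅U m F, U m F⁆, e * e = 1 ∧ Commute e (zz 1) ∧ β e ≠ e := by
  obtain ⟨e, -, σ, ε, rfl, -, h3⟩ := h.form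
  have hz := zero_ne_la (m := m) (by omega)
  cases ε
  · obtain ⟨θ, hθ⟩ : ∃ θ, σ θ ≠ θ := by
      by_contra! k
      exact h3.resolve_right (by simp) (RingEquiv.ext k)
    refine ⟨zz θ, zz_mem_comm (by omega) θ, x_sq _ _ _, zz_comm (zz_mem_U 1) θ, fun k => hθ (x_inj hz ?_)⟩
    rwa [MulAut.mul_apply, std_zz, MulAut.conj_apply, (zz_comm (zz_mem_U _) e).eq, mul_inv_cancel_right] at k
  · have a1 : (0 : Fin m) < ⟨1, by omega⟩ := Nat.zero_lt_one
    have a2 : (⟨1, by omega⟩ : Fin m) < ⟨2, by omega⟩ := Nat.one_lt_two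
    have a4 := a1.trans a2
    have u : x 0 ⟨2, by omega⟩ (1 : F) ∈ U m F := x_mem (s := fun i j => i < j) a4 1
    refine ⟨x 0 ⟨2, by omega⟩ 1, ?_, x_sq _ _ _, (zz_comm u 1).symm, fun k => ?_⟩
    · rw [← mul_one (1 : F), ← x_tri a1.ne a2.ne a4.ne]
      exact Subgroup.commutator_mem_commutator (x_mem (s := fun i j => i < j) a1 1)
        (x_mem (s := fun i j => i < j) a2 1)
    · rw [MulAut.mul_apply, MulAut.conj_apply, (zz_comm (std_mem_U σ true u) e).eq, mul_inv_cancel_right, std,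
        cond_true, MulAut.mul_apply, gr_x, fld_x, map_one] at k
      have := congrFun (congrFun (congrArg Subtype.val k) 0) ⟨2, by omega⟩
      rw [x_val a4.ne, x_val (Fin.rev_injective.ne a4.ne'), Matrix.add_apply, Matrix.add_apply, add_right_inj,
        single_apply_same, single_apply_of_row_ne fun e => by
          have := congrArg Fin.val e
          simp only [Fin.val_rev, Fin.val_zero] at this
          omega] at this
      exact zero_ne_one this

theorem root_of_central (hm : 3 ≤ m) {a : SL m F} (ha : a * a = 1) (h1 : a ≠ 1)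
    {P : Subgroup (SL m F)} (hP : IsPGroup 2 P) (hc : Nat.card (U m F) ≤ Nat.card P)
    (h : ∀ p ∈ P, Commute a p) : IsRoot a := by
  obtain ⟨s, hs⟩ := conj_le_U hP
  have e := Subgroup.eq_of_le_of_card_ge hs
    (hc.trans (Subgroup.card_map_of_injective (MulAut.conj s).injective).ge)
  obtain ⟨c, hc⟩ := cent_U (by omega) (a := s * a * s⁻¹) (n := 1) (by rw [pow_one, pow_two, conj_mul, ha]; simp)
    fun u hu => by
      obtain ⟨p, hp, rfl⟩ := e.ge hu
      exact (h p hp).conj s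
  have := (isRoot_x hm (zero_ne_la (by omega)) (a := c) fun k => h1 (by simpa [k, zz, x_zero] using hc)).conj s⁻¹
  rwa [← zz, ← hc, inv_inv, ← mul_assoc, ← mul_assoc, inv_mul_cancel, one_mul, inv_mul_cancel_right] at this

end CL.SC
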