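import Cfsg.Agent.INV.SC.A1
import Cfsg.Agent.INV.SC.K6

/-!
Fusion of the involution.
-/

set_option autoImplicit false
set_option linter.unusedSectionVars false
set_option linter.unusedVariables false

namespace CL.SC

open Matrix Subgroup
open scoped commutatorElement

variable {m : ℕ} [NeZero m] {F : Type*} [Field F] [Finite F] [CharP F 2]
variable {G : Type*} [Group G] [Finite G]
variable {ρ : SL m F →* G} {t : G}
variable {T : Subgroup G}

/-- Let `u` act as `α`.  If `α` is inner-diagonal use `St.inner`.  Otherwise `out` gives `v, y`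
with `(ρ y)⁻¹ u ρ y = ρ v u`, `ρ v ∈ ⁅C(u), C(u)⁆`.  With `u = g t g⁻¹`, `e = g⁻¹ (ρ v) g ≠ 1` is an
involution of `⁅C(t), C(t)⁆` and `t e` is conjugate to `t`; `inner_comm`. -/
theorem St.exists_inner (hp : Par m F) (h : St ρ t) {u : G} (hu : IsConj t u) (hne : u ≠ t)
    (hc : Commute u t) :
    ∃ a : SL m F, a * a = 1 ∧ a ≠ 1 ∧ (IsConj t (ρ a) ∨ IsConj t (t * ρ a)) := by
  have n1 : ∀ a : SL m F, IsConj t (ρ a) → a ≠ 1 := by
    rintro _ e rfl
    rw [map_one, isConj_one_left] at e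
    exact h.ne_one e
  obtain ⟨α, hα⟩ := h.ac hp.1 hc
  obtain ⟨g, rfl⟩ := isConj_iff.1 hu
  have u2 : g * t * g⁻¹ * (g * t * g⁻¹) = 1 := by rw [conj_mul, h.tt, mul_one, mul_inv_cancel]
  by_cases ho : Ty α 1 false
  · obtain ⟨a, ha, e | e⟩ := h.inner hp.1 u2 hc hα ho
    · exact ⟨a, ha, n1 a (e ▸ hu), Or.inl (e ▸ hu)⟩
    · refine ⟨a, ha, ?_, Or.inr (e ▸ hu)⟩
      rintro rfl
      exact hne (by rw [e, map_one, mul_one])
  obtain ⟨v, hv, v1, v2, y, hy⟩ := out hp (hα.sq hp.1 h.fr u2) ho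
  have le : ((Fx α).map ρ).map (MulAut.conj g⁻¹).toMonoidHom ≤ centralizer {t} := by
    rintro _ ⟨_, ⟨b, hb, rfl⟩, rfl⟩
    have := (commute_cj (g := g⁻¹)).2 (hα.commute hb).symm
    rw [show g⁻¹ * (g * t * g⁻¹) * g⁻¹⁻¹ = t by group] at this
    exact mem_centralizer_singleton_iff.2 this
  have c : IsConj t (g⁻¹ * ρ v * g⁻¹⁻¹ * t) := isConj_iff.2 ⟨g⁻¹ * (ρ y)⁻¹ * g, by
    calc _ = g⁻¹ * ((ρ y)⁻¹ * (g * t * g⁻¹ * ρ y * (g * t * g⁻¹)⁻¹)) * g * t := by group
      _ = _ := by rw [hα, hy, map_mul]; group⟩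
  obtain ⟨b, hb, e | e⟩ := h.inner_comm hp.1 (e := g⁻¹ * ρ v * g⁻¹⁻¹)
    (by rw [conj_mul, ← map_mul, v2, map_one, mul_one, mul_inv_cancel])
    (commutator_mono le le (by
      rw [← map_commutator, ← map_commutator]
      exact mem_map_of_mem _ (mem_map_of_mem ρ hv)))
  · refine ⟨b, hb, ?_, Or.inr (by rwa [e, ← (h.tc b).eq] at c)⟩
    rintro rfl
    rw [map_one, conj_eq_one_iff] at e
    exact v1 (h.fr.eq_one (n := 1) ((pow_two v).trans v2) e)
  · rw [e, (h.tc b).eq, mul_assoc, h.tt, mul_one] at c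
    exact ⟨b, hb, n1 b c, Or.inl c⟩

theorem St.comm_J (h : St ρ t) {a : SL m F} (ha : a ∈ A0 m F) : Jt ρ t ≤ centralizer {ρ a} := by
  refine sup_le (zpowers_le.2 (mem_centralizer_singleton_iff.2 (h.tc a))) (map_le_iff_le_comap.2 ?_)
  exact sup_le (fun b hb => mem_centralizer_singleton_iff.2 ((A_comm hb (A0_eq.le ha).1).map ρ))
    fun b hb => mem_centralizer_singleton_iff.2 ((A_comm hb (A0_eq.le ha).2).map ρ)

/-- `u = ρ a` or `t ρ a` with `a ∈ A0` (`exists_conj_A0`) centralises `Jt`; if `u = g t g⁻¹` then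
`g⁻¹ Jt g ≤ C(t)` is conjugate in `C(t)` into `T`; `weak`. -/
theorem T0.exists_norm (hp : Par m F) (h : T0 ρ t T) {a : SL m F} (ha : a * a = 1) (h1 : a ≠ 1)
    (hc : IsConj t (ρ a) ∨ IsConj t (t * ρ a)) :
    ∃ n ∈ normalizer (Jt ρ t : Set G), ¬ Commute n t := by
  obtain ⟨s, hs⟩ := exists_conj_A0 ha
  have key : ∀ u, IsConj t u → u ≠ t → (∀ y ∈ Jt ρ t, Commute y u) →
      ∃ n ∈ normalizer (Jt ρ t : Set G), ¬ Commute n t := fun u hu hne hJ => by
    obtain ⟨g, rfl⟩ := isConj_iff.1 hu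
    obtain ⟨c, h2, h3⟩ := conj_into h.pg h.le h.odd (P := cj g⁻¹ (Jt ρ t))
      ((h.pg.to_le h.J_le).map _) (by
        rintro _ ⟨y, hy, rfl⟩
        have := (commute_cj (g := g⁻¹)).2 (hJ y hy)
        rw [show g⁻¹ * (g * t * g⁻¹) * g⁻¹⁻¹ = t by group] at this
        exact mem_centralizer_singleton_iff.2 this)
    rw [← cj_mul'] at h3
    refine ⟨_, cj_eq_iff.1 (h.weak hp h3), fun e => hne ?_⟩
    have c1 : Commute c t := mem_centralizer_singleton_iff.1 h2
    have c2 : Commute g t := by simpa using e.inv_left.mul_left c1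
    rw [c2.eq, mul_inv_cancel_right]
  have hJ := fun y hy => mem_centralizer_singleton_iff.1 (h.toSt.comm_J hs (x := y) hy)
  have c := ρ.map_isConj (isConj_iff.2 ⟨s, rfl⟩ : IsConj a (s * a * s⁻¹))
  rcases hc with hc | hc
  · exact key _ (hc.trans c) (fun e => h.toSt.not_mem hp.1 ⟨_, e⟩) hJ
  · refine key (t * ρ (s * a * s⁻¹)) (hc.trans (isConj_iff.2 ⟨ρ s, ?_⟩)) (fun e => h1 ?_)
      fun y hy => (h.comm (h.J_le hy)).mul_right (hJ y hy)
    · rw [← mul_assoc, ← (h.tc s).eq, map_mul, map_mul, map_inv]; group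
    · exact h.fr.eq_one (n := 1) ((pow_two a).trans ha)
        (isConj_one_left.1 (mul_eq_left.1 e ▸ c))

theorem cj_map (ρ : SL m F →* G) (g : SL m F) (H : Subgroup (SL m F)) :
    cj (ρ g) (H.map ρ) = (cj g H).map ρ := by
  rw [cj, cj, Subgroup.map_map, Subgroup.map_map]
  congr 1
  ext a
  simp

/-- Suppose `T` has odd index.  The orbit `O` of `t` under `N = N(Jt)` has odd length
(`T ≤ N ⊓ C(t)`) and lies in the abelian group `⟨t⟩ ρ(A0)` (`omegaJ`).  `O ∩ ρ(A0)` has even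
size, otherwise `ρ(U)` fixes one of its elements (`exists_fixed`), a root element (`cent_U`),
against `nr`.  So the product `p` of the elements of `O` is `t ρ a`, it is fixed by `N`, so
`a = 1` (`fix_A0`) and `N` centralises `t`. -/
theorem T0.even_index (hp : Par m F) (h : T0 ρ t T) {n : G} (hn : n ∈ normalizer (Jt ρ t : Set G))
    (hc : ¬ Commute n t) : Even T.index := by
  classical
  by_contra hodd
  rw [Nat.not_even_iff_odd] at hodd
  set N := normalizer (Jt ρ t : Set G)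
  have TN : T ≤ N := fun s hs => cj_eq_iff.1 (h.weak hp (by
    rintro _ ⟨y, hy, rfl⟩
    exact mul_mem (mul_mem hs (h.J_le hy)) (inv_mem hs)))
  set E := Jt ρ t ⊓ centralizer (Jt ρ t : Set G)
  have NE : N ≤ normalizer (E : Set G) := fun x hx => mem_norm_of_le fun y hy =>
    ⟨(mem_normalizer_iff.1 hx y).1 hy.1, fun s hs => by
      have := (commute_cj (g := x)).2 (hy.2 _ ((mem_normalizer_iff''.1 hx s).1 hs))
      rwa [show x * (x⁻¹ * s * x) * x⁻¹ = s by group] at this⟩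
  let _ : CommGroup E := { mul_comm := fun a b => Subtype.ext (b.2.2 a a.2.1) }
  let _ : MulDistribMulAction N E :=
    MulDistribMulAction.compHom E ((normalizerMonoidHom E).comp (inclusion NE))
  have sm : ∀ (x : N) (u : E), ((x • u : E) : G) = x * u * (x : G)⁻¹ := fun _ _ => rfl
  let t0 : E := ⟨t, mem_sup_left (mem_zpowers t), fun s hs => h.comm (h.J_le hs)⟩
  have : Fintype E := Fintype.ofFinite E
  set O := (MulAction.orbit N t0).toFinset with hO
  have mO : ∀ u, u ∈ O ↔ u ∈ MulAction.orbit N t0 := fun u => Set.mem_toFinset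
  have cO : ∀ u ∈ O, IsConj t u := fun u hu => by
    obtain ⟨x, rfl⟩ := (mO u).1 hu
    exact isConj_iff.2 ⟨x, rfl⟩
  have sO : ∀ u ∈ O, u * u = 1 := fun u hu => Subtype.ext (by
    obtain ⟨x, e⟩ := isConj_iff.1 (cO u hu)
    change (u : G) * u = 1
    rw [← e, conj_mul, h.toSt.tt, mul_one, mul_inv_cancel])
  have oO : Odd O.card := by
    rw [hO, ← Set.ncard_eq_toFinset_card', ← MulAction.index_stabilizer]
    refine hodd.of_dvd_nat ((index_dvd_of_le (H := T.subgroupOf N) fun x hx => Subtype.ext ?_).trans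
      (relIndex_dvd_index_of_le TN))
    exact mul_inv_eq_iff_eq_mul.2 (h.comm hx)
  set V := ρ.range.subgroupOf E
  have e1 : ¬ Odd (O.filter (· ∈ V)).card := fun e => by
    obtain ⟨_, ⟨u, hu, rfl⟩, h1⟩ := exists_fixed (pgroup_U.map ρ)
      (O := Subtype.val '' ((O.filter (· ∈ V) : Finset E) : Set E))
      (by rwa [Set.ncard_image_of_injective _ Subtype.val_injective, Set.ncard_coe_finset]) (by
        rintro _ ⟨a, ha, rfl⟩ _ ⟨u, hu, rfl⟩
        rw [Finset.mem_coe, Finset.mem_filter] at hu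
        refine ⟨(⟨ρ a, TN (h.US a ha)⟩ : N) • u, Finset.mem_coe.2 (Finset.mem_filter.2
          ⟨(mO _).2 (MulAction.mem_orbit_of_mem_orbit _ ((mO u).1 hu.1)), ?_⟩), rfl⟩
        exact ρ.range.mul_mem (ρ.range.mul_mem ⟨a, rfl⟩ hu.2) (ρ.range.inv_mem ⟨a, rfl⟩))
    rw [Finset.mem_coe, Finset.mem_filter] at hu
    obtain ⟨a, ha, e⟩ := h.fr.lift_inv hu.2 (congrArg Subtype.val (sO u hu.1))
    obtain ⟨c, rfl⟩ := cent_U (by have := hp.1; omega) (n := 1) ((pow_two a).trans ha) fun b hb =>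
      h.fr.commute (n := 1) ((pow_two a).trans ha) (e ▸ (h1 _ (mem_map_of_mem ρ hb)).symm)
    have c1 : IsConj t (ρ (zz c)) := e ▸ cO u hu.1
    refine h.nr hp (isRoot_x hp.1 (zero_ne_la (by have := hp.1; omega)) ?_) c1
    rintro rfl
    rw [zz, x_zero, map_one, isConj_one_left] at c1
    exact h.toSt.ne_one c1
  have e2 : Odd (O.filter (· ∉ V)).card := by
    rw [← Finset.card_filter_add_card_filter_not (· ∈ V)] at oO
    exact (Nat.odd_add'.1 oO).2 (Nat.not_odd_iff_even.1 e1)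
  have om : ∀ u : E, u * u = 1 → ∃ a ∈ A0 m F, (u : G) = ρ a ∨ (u : G) = t * ρ a := fun u hu =>
    h.omegaJ hp.1 (congrArg Subtype.val hu) fun s hs => (u.2.2 s hs).symm
  have e3 : (QuotientGroup.mk' V) (∏ u ∈ O, u) = QuotientGroup.mk' V t0 := by
    rw [map_prod, Finset.prod_congr rfl (g := fun u => if u ∈ V then 1 else QuotientGroup.mk' V t0),
      Finset.prod_ite, Finset.prod_const_one, one_mul, Finset.prod_const]
    · obtain ⟨k, hk⟩ := e2
      rw [hk, pow_succ, pow_mul, sq, ← map_mul, show t0 * t0 = 1 from Subtype.ext h.toSt.tt, map_one,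
        one_pow, one_mul]
    · intro u hu
      split_ifs with h1
      · exact (QuotientGroup.eq_one_iff u).2 h1
      · obtain ⟨a, -, e | e⟩ := om u (sO u hu)
        · exact (h1 ⟨a, e.symm⟩).elim
        · have : t0⁻¹ * u ∈ V := show t⁻¹ * u ∈ ρ.range from ⟨a, by rw [e, inv_mul_cancel_left]⟩
          exact (QuotientGroup.eq.2 this).symm
  have fx : ∀ x : N, x • (∏ u ∈ O, u) = ∏ u ∈ O, u := fun x => by
    rw [Finset.smul_prod']
    exact Finset.prod_bijective _ (MulAction.bijective x)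
      (fun u => by
        rw [mO, mO]
        exact ⟨MulAction.mem_orbit_of_mem_orbit x, fun hu => by
          simpa using MulAction.mem_orbit_of_mem_orbit x⁻¹ hu⟩) fun _ _ => rfl
  obtain ⟨a, ha, e | e⟩ := om (∏ u ∈ O, u) (by
    rw [← Finset.prod_mul_distrib, Finset.prod_congr rfl sO, Finset.prod_const_one])
  · have := mul_mem (show (∏ u ∈ O, u) ∈ V from ⟨a, e.symm⟩) (QuotientGroup.eq.1 e3)
    rw [mul_inv_cancel_left] at this
    exact h.toSt.not_mem hp.1 this
  have cm : ∀ x ∈ N, Commute x (t * ρ a) := fun x hx =>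
    e ▸ mul_inv_eq_iff_eq_mul.1 (congrArg Subtype.val (fx ⟨x, hx⟩))
  have a2 := el_A _ a (A0_eq.le ha).1
  have a1 := fix_A0 hp ha fun g h1 h2 => (h.fr.commute (n := 1) ((pow_two a).trans a2) (by
    have := cm (ρ g) (cj_eq_iff.1 (by
      rw [Jt, cj, Subgroup.map_sup, MonoidHom.map_zpowers]
      congr 1
      · exact congrArg zpowers (mul_inv_eq_iff_eq_mul.2 (h.tc g).symm)
      · change cj _ _ = _
        rw [cj_map, cj, Subgroup.map_sup]
        exact congrArg _ (congrArg₂ _ (cj_eq_iff.2 h1) (cj_eq_iff.2 h2))))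
    simpa using ((h.tc g).symm.inv_right.mul_right this).symm)).symm
  have := cm n hn
  rw [a1, map_one, mul_one] at this
  exact hc this

/-- If `T` has odd index it is a Sylow subgroup; `Al.zstar`, the three lemmas above; `St1.aut`
with `(inn g)⁻¹`. -/
theorem St.st1 (hp : Par m F) (h : St ρ t) {N : Subgroup G} (hN : Al N) : St1 ρ t := by
  obtain ⟨g, T, hT⟩ := h.exists_T0 hp.1
  have ev : Even T.index := by
    by_contra ho
    obtain ⟨u, h1, h2, h3⟩ := hN.zstar h.t2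
      (hT.pg.toSylow (odd_iff_not.1 (Nat.not_even_iff_odd.1 ho))) hT.tT
    obtain ⟨a, ha, a1, hc⟩ := hT.toSt.exists_inner hp h2 h3 (hT.comm h1)
    obtain ⟨n, hn, hc⟩ := hT.exists_norm hp ha a1 hc
    exact ho (hT.even_index hp hn hc)
  have := St1.aut hp.1 ⟨hT.toSt, fun r hr => hT.nr hp hr, hT.mv hp ev⟩ (inn g)⁻¹
  rwa [show rf (rf ρ (inn g)) (inn g)⁻¹ = ρ from
    MonoidHom.ext fun a => congrArg ρ ((inn g).apply_symm_apply a)] at this

end CL.SC
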