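import Cfsg.Agent.INV.SC.Defs

/-!
Matrix calculus in `SL m F`, characteristic 2.
-/

set_option autoImplicit false
set_option linter.unusedSectionVars false
set_option linter.unusedVariables false

namespace CL.SC

open Matrix Subgroup
open scoped commutatorElement

variable {m : ℕ} {F : Type*} [Field F]

theorem un_val {N : Matrix (Fin m) (Fin m) F} (h : N.det = 1) :
    ((un N : SL m F) : Matrix (Fin m) (Fin m) F) = N := by
  exact congrArg Subtype.val (dif_pos h)

theorem un_self (a : SL m F) : un (a : Matrix (Fin m) (Fin m) F) = a :=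
  Subtype.ext (un_val a.2)

/-- `1 + N` with `N ^ 2 = 0` has determinant one (nilpotent) -/
theorem det_one_add {N : Matrix (Fin m) (Fin m) F} (h : N * N = 0) : (1 + N).det = 1 := by
  have hn : IsNilpotent N := ⟨2, by rw [pow_two, h]⟩
  have h1 := Matrix.isNilpotent_charpoly_sub_pow_of_isNilpotent (M := -N) hn.neg
  rw [isNilpotent_iff_eq_zero, sub_eq_zero] at h1
  have h2 := Matrix.eval_charpoly (-N) 1
  rw [h1] at h2
  simpa using h2.symm

theorem x_self (i : Fin m) (a : F) : x i i a = 1 := by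
  unfold x; rw [dif_pos rfl]

theorem x_val {i j : Fin m} (h : i ≠ j) (a : F) :
    ((x i j a : SL m F) : Matrix (Fin m) (Fin m) F) = 1 + single i j a := by
  unfold x; rw [dif_neg h]; rfl

theorem x_zero (i j : Fin m) : x i j (0 : F) = 1 := by
  by_cases h : i = j
  · subst h; exact x_self i 0
  · exact Subtype.ext (by rw [x_val h]; simp)

theorem x_add (i j : Fin m) (a b : F) : x i j (a + b) = x i j a * x i j b := by
  by_cases h : i = j
  · subst h; simp [x_self]
  · unfold x; simp only [dif_neg h]; exact Matrix.SpecialLinearGroup.transvection_add h a b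

theorem x_inj {i j : Fin m} (h : i ≠ j) {a b : F} (hab : x i j a = x i j b) : a = b := by
  have := congrArg (fun g : SL m F => (g : Matrix (Fin m) (Fin m) F) i j) hab
  simpa [x_val h] using this

theorem x_eq_one {i j : Fin m} (h : i ≠ j) {a : F} : x i j a = 1 ↔ a = 0 :=
  ⟨fun h' => x_inj h (h'.trans (x_zero i j).symm), fun h' => h' ▸ x_zero i j⟩

theorem x_comm {i j k l : Fin m} (h1 : i ≠ l) (h2 : j ≠ k) (a b : F) :
    Commute (x i j a) (x k l b) := by
  by_cases h : i = j
  · subst h; rw [x_self]; exact Commute.one_left _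
  by_cases h' : k = l
  · subst h'; rw [x_self]; exact Commute.one_right _
  refine Subtype.ext ?_
  simp only [Matrix.SpecialLinearGroup.coe_mul, x_val h, x_val h', mul_add, add_mul, one_mul,
    mul_one, single_mul_single_of_ne _ _ _ _ h2, single_mul_single_of_ne _ _ _ _ h1.symm]
  abel

theorem x_inv' (i j : Fin m) (a : F) : (x i j a)⁻¹ = x i j (-a) :=
  inv_eq_of_mul_eq_one_right (by rw [← x_add, add_neg_cancel, x_zero])

theorem comm_of {a b c : SL m F} {M N : Matrix (Fin m) (Fin m) F}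
    (ha : (a : Matrix (Fin m) (Fin m) F) = 1 + M) (hb : (b : Matrix (Fin m) (Fin m) F) = 1 + N)
    (hc : (c : Matrix (Fin m) (Fin m) F) = 1 + M * N) (h1 : N * N = 0) (h2 : N * M = 0) :
    a * b * a⁻¹ * b⁻¹ = c := by
  rw [mul_inv_eq_iff_eq_mul, mul_inv_eq_iff_eq_mul]
  refine Subtype.ext ?_
  simp only [Matrix.SpecialLinearGroup.coe_mul, ha, hb, hc, mul_add, add_mul, one_mul, mul_one,
    mul_assoc, h1, h2, mul_zero, add_zero]
  abel

theorem x_tri {i j k : Fin m} (h1 : i ≠ j) (h2 : j ≠ k) (h3 : i ≠ k) (a b : F) :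
    x i j a * x j k b * (x i j a)⁻¹ * (x j k b)⁻¹ = x i k (a * b) := by
  refine comm_of (x_val h1 a) (x_val h2 b) ?_ (single_mul_single_of_ne _ _ _ _ h2.symm _)
    (single_mul_single_of_ne _ _ _ _ h3.symm _)
  rw [x_val h3, single_mul_single_same]

theorem weyl_val {i j : Fin m} (h : i ≠ j) {c : F} (hc : c ≠ 0) :
    ((x i j c * x j i (-c⁻¹) * x i j c : SL m F) : Matrix (Fin m) (Fin m) F) =
      1 + single i j c - single j i c⁻¹ - single i i 1 - single j j 1 := by
  simp only [Matrix.SpecialLinearGroup.coe_mul, x_val h, x_val h.symm, mul_add, add_mul, one_mul,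
    mul_one, single_mul_single_same, single_mul_single_of_ne _ _ _ _ h.symm, mul_neg, neg_mul,
    mul_inv_cancel₀ hc, inv_mul_cancel₀ hc, ← single_neg]
  abel

theorem closure_x : closure {g : SL m F | ∃ i j a, g = x i j a} = ⊤ := by
  rw [eq_top_iff]
  rintro g -
  have hx : ∀ i j a, x i j a ∈ closure {g : SL m F | ∃ i j a, g = x i j a} :=
    fun i j a => subset_closure ⟨i, j, a, rfl⟩
  rcases subsingleton_or_nontrivial (Fin m) with hm | hm
  · rw [Subsingleton.elim g 1]; exact one_mem _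
  refine Matrix.SpecialLinearGroup.diagonal_transvection_induction' _ g ?_ ?_
    fun A B => mul_mem
  · intro i j hij c hc
    have : Matrix.SpecialLinearGroup.diag2n hij c hc = (x i j c * x j i (-c⁻¹) * x i j c) *
        (x i j (-1) * x j i (-(-1 : F)⁻¹) * x i j (-1)) := by
      refine Subtype.ext ?_
      rw [Matrix.SpecialLinearGroup.coe_mul, weyl_val hij hc, weyl_val hij (by simp),
        Matrix.SpecialLinearGroup.diag2n_coe]
      simp only [mul_add, add_mul, mul_sub, sub_mul, one_mul, mul_one, single_mul_single_same,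
        single_mul_single_of_ne _ _ _ _ hij, single_mul_single_of_ne _ _ _ _ hij.symm]
      ext k l
      simp only [Matrix.add_apply, Matrix.sub_apply, Matrix.single_apply, Matrix.one_apply, diagonal_apply, Matrix.zero_apply]
      have := hij.symm
      by_cases h1 : k = i <;> by_cases h2 : k = j <;> by_cases h3 : l = i <;>
        by_cases h4 : l = j <;> simp_all [eq_comm]
    rw [this]
    exact mul_mem (mul_mem (mul_mem (hx _ _ _) (hx _ _ _)) (hx _ _ _))
      (mul_mem (mul_mem (hx _ _ _) (hx _ _ _)) (hx _ _ _))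
  · intro i j hij a
    have := hx i j a
    unfold x at this
    rwa [dif_neg hij] at this

/-- homomorphisms on `SL` are determined by the root elements -/
theorem hom_ext {H : Type*} [Group H] {f g : SL m F →* H}
    (h : ∀ i j a, i ≠ j → f (x i j a) = g (x i j a)) : f = g := by
  refine MonoidHom.eq_of_eqOn_dense closure_x ?_
  rintro _ ⟨i, j, a, rfl⟩
  by_cases hij : i = j
  · subst hij; rw [x_self, map_one, map_one]
  · exact h i j a hij

theorem x_mem {s : Fin m → Fin m → Prop} {i j : Fin m} (h : s i j) (a : F) : x i j a ∈ Pat F s :=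
  subset_closure ⟨i, j, a, h, rfl⟩

theorem Pat_mono {s s' : Fin m → Fin m → Prop} (h : ∀ i j, i ≠ j → s i j → s' i j) :
    Pat F s ≤ Pat F s' := by
  refine (closure_le _).2 ?_
  rintro _ ⟨i, j, a, hs, rfl⟩
  by_cases hij : i = j
  · subst hij; rw [x_self]; exact one_mem _
  · exact x_mem (h i j hij hs) a

theorem Pat_le {s : Fin m → Fin m → Prop} {H : Subgroup (SL m F)}
    (h : ∀ i j a, i ≠ j → s i j → x i j a ∈ H) : Pat F s ≤ H := by
  refine (closure_le _).2 ?_
  rintro _ ⟨i, j, a, hs, rfl⟩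
  by_cases hij : i = j
  · subst hij; rw [x_self]; exact one_mem _
  · exact h i j a hij hs

/-- matrices supported on `s` -/
def Sup (s : Fin m → Fin m → Prop) (N : Matrix (Fin m) (Fin m) F) : Prop :=
  ∀ i j, ¬ s i j → N i j = 0

theorem Sup.add {s : Fin m → Fin m → Prop} {N M : Matrix (Fin m) (Fin m) F} (hN : Sup s N)
    (hM : Sup s M) : Sup s (N + M) := fun i j h => by rw [Matrix.add_apply, hN i j h, hM i j h, add_zero]

theorem Sup.neg {s : Fin m → Fin m → Prop} {N : Matrix (Fin m) (Fin m) F} (hN : Sup s N) :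
    Sup s (-N) := fun i j h => by rw [Matrix.neg_apply, hN i j h, neg_zero]

theorem Sup.mul {s : Fin m → Fin m → Prop} (hs : ∀ i j k, s i j → ¬ s j k)
    {N M : Matrix (Fin m) (Fin m) F} (hN : Sup s N) (hM : Sup s M) : N * M = 0 := by
  ext i k
  rw [Matrix.mul_apply]
  refine Finset.sum_eq_zero fun j _ => ?_
  by_cases h : s i j
  · rw [hM j k (hs i j k h), mul_zero]
  · rw [hN i j h, zero_mul]

theorem Sup.val {s : Fin m → Fin m → Prop} (hs : ∀ i j k, s i j → ¬ s j k)
    {N : Matrix (Fin m) (Fin m) F} (hN : Sup s N) :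
    ((un (1 + N) : SL m F) : Matrix (Fin m) (Fin m) F) = 1 + N := un_val (det_one_add (hN.mul hs hN))

theorem Sup.un_add {s : Fin m → Fin m → Prop} (hs : ∀ i j k, s i j → ¬ s j k)
    {N M : Matrix (Fin m) (Fin m) F} (hN : Sup s N) (hM : Sup s M) :
    (un (1 + (N + M)) : SL m F) = un (1 + N) * un (1 + M) := Subtype.ext (by
  rw [Matrix.SpecialLinearGroup.coe_mul, (hN.add hM).val hs, hN.val hs, hM.val hs, mul_add, add_mul,
    add_mul, hN.mul hs hM]
  simp [add_assoc])

theorem un_one : (un (1 + 0) : SL m F) = 1 := by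
  rw [add_zero]; exact un_self (1 : SL m F)

theorem mem_Pat' {s : Fin m → Fin m → Prop} (hs : ∀ i j k, s i j → ¬ s j k) {a : SL m F} :
    a ∈ Pat F s ↔ ∃ N, Sup s N ∧ a = un (1 + N) := by
  constructor
  · intro h
    induction h using closure_induction with
    | mem y hy =>
      obtain ⟨i, j, c, hij, rfl⟩ := hy
      have hne : i ≠ j := fun h => hs _ _ _ hij (h ▸ hij)
      refine ⟨single i j c, fun k l h => single_apply_of_ne _ _ _ _ _ ?_, ?_⟩
      · rintro ⟨rfl, rfl⟩; exact h hij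
      · rw [← x_val hne, un_self]
    | one => exact ⟨0, fun _ _ _ => rfl, un_one.symm⟩
    | mul y z _ _ hy hz =>
      obtain ⟨N, hN, rfl⟩ := hy
      obtain ⟨M, hM, rfl⟩ := hz
      exact ⟨N + M, hN.add hM, (hN.un_add hs hM).symm⟩
    | inv y _ hy =>
      obtain ⟨N, hN, rfl⟩ := hy
      refine ⟨-N, hN.neg, inv_eq_of_mul_eq_one_right ?_⟩
      rw [← hN.un_add hs hN.neg, add_neg_cancel, un_one]
  · rintro ⟨N, hN, rfl⟩
    have key : ∀ {ι : Type} (T : Finset ι) (f : ι → Matrix (Fin m) (Fin m) F),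
        (∀ i, Sup s (f i) ∧ un (1 + f i) ∈ Pat F s) →
        Sup s (∑ i ∈ T, f i) ∧ un (1 + ∑ i ∈ T, f i) ∈ Pat F s := fun T f hf =>
      Finset.sum_induction f (fun M => Sup s M ∧ un (1 + M) ∈ Pat F s)
        (fun M M' h h' => ⟨h.1.add h'.1, by rw [h.1.un_add hs h'.1]; exact mul_mem h.2 h'.2⟩)
        ⟨fun _ _ _ => rfl, by rw [un_one]; exact one_mem _⟩ fun i _ => hf i
    rw [matrix_eq_sum_single N]
    refine (key _ _ fun i => key _ _ fun j => ?_).2
    by_cases h : s i j
    · have hne : i ≠ j := fun h' => hs _ _ _ h (h' ▸ h)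
      refine ⟨fun k l h' => single_apply_of_ne _ _ _ _ _ ?_, ?_⟩
      · rintro ⟨rfl, rfl⟩; exact h' h
      · rw [← x_val hne, un_self]; exact x_mem h _
    · rw [hN i j h, single_zero]
      exact ⟨fun _ _ _ => rfl, by rw [un_one]; exact one_mem _⟩

/-- patterns of square zero -/
theorem mem_Pat {s : Fin m → Fin m → Prop} (hs : ∀ i j k, s i j → ¬ s j k) {a : SL m F} :
    a ∈ Pat F s ↔ ∀ i j, ¬ s i j → a i j = (1 : Matrix (Fin m) (Fin m) F) i j := by
  rw [mem_Pat' hs]
  constructor
  · rintro ⟨N, hN, rfl⟩ i j h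
    rw [hN.val hs, Matrix.add_apply, hN i j h, add_zero]
  · intro h
    refine ⟨(a : Matrix (Fin m) (Fin m) F) - 1, fun i j hij => ?_, ?_⟩
    · rw [Matrix.sub_apply, sub_eq_zero]; exact h i j hij
    · rw [add_sub_cancel, un_self]

/-- in a pattern group of square zero the product is the sum -/
theorem Pat_mul_val {s : Fin m → Fin m → Prop} (hs : ∀ i j k, s i j → ¬ s j k) {a b : SL m F}
    (ha : a ∈ Pat F s) (hb : b ∈ Pat F s) :
    ((a * b : SL m F) : Matrix (Fin m) (Fin m) F) =
      (a : Matrix (Fin m) (Fin m) F) + (b : Matrix (Fin m) (Fin m) F) - 1 := by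
  obtain ⟨N, hN, rfl⟩ := (mem_Pat' hs).1 ha
  obtain ⟨M, hM, rfl⟩ := (mem_Pat' hs).1 hb
  rw [← hN.un_add hs hM, (hN.add hM).val hs, hN.val hs, hM.val hs]
  abel

theorem Pat_comm {s : Fin m → Fin m → Prop} (hs : ∀ i j k, s i j → ¬ s j k) {a b : SL m F}
    (ha : a ∈ Pat F s) (hb : b ∈ Pat F s) : Commute a b :=
  Subtype.ext (by
    rw [Pat_mul_val hs ha hb, Pat_mul_val hs hb ha, add_comm])

theorem card_Pat [Finite F] {s : Fin m → Fin m → Prop} (hs : ∀ i j k, s i j → ¬ s j k) :
    Nat.card (Pat F s) = Nat.card F ^ Nat.card {p : Fin m × Fin m // s p.1 p.2} := by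
  classical
  rw [← Nat.card_fun]
  refine Nat.card_congr (Equiv.ofBijective
    (fun (a : Pat F s) (p : {p : Fin m × Fin m // s p.1 p.2}) => (a : SL m F) p.1.1 p.1.2) ⟨?_, ?_⟩)
  · intro a b hab
    refine Subtype.ext (Subtype.ext (Matrix.ext fun i j => ?_))
    by_cases h : s i j
    · exact congrFun hab ⟨(i, j), h⟩
    · exact ((mem_Pat hs).1 a.2 i j h).trans ((mem_Pat hs).1 b.2 i j h).symm
  · intro f
    have hN : Sup s (Matrix.of fun i j => if h : s i j then f ⟨(i, j), h⟩ else 0) :=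
      fun i j h => by simp [h]
    refine ⟨⟨un (1 + _), (mem_Pat' hs).2 ⟨_, hN, rfl⟩⟩, funext fun p => ?_⟩
    change ((un (1 + _) : SL m F) : Matrix (Fin m) (Fin m) F) p.1.1 p.1.2 = _
    have hne : p.1.1 ≠ p.1.2 := fun h => hs _ _ _ p.2 (h ▸ p.2)
    rw [hN.val hs, Matrix.add_apply, Matrix.one_apply_ne hne, zero_add, of_apply, dif_pos p.2]

theorem mem_U {a : SL m F} :
    a ∈ U m F ↔ ∀ i j, j ≤ i → a i j = (1 : Matrix (Fin m) (Fin m) F) i j := by
  constructor
  · intro h
    have key : ∀ (i j : Fin m) (c : F) (b : SL m F), i < j →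
        (∀ k l, l ≤ k → b k l = (1 : Matrix (Fin m) (Fin m) F) k l) →
        ∀ k l, l ≤ k → (x i j c * b) k l = (1 : Matrix (Fin m) (Fin m) F) k l := by
      intro i j c b hij hb k l hkl
      rw [Matrix.SpecialLinearGroup.coe_mul, x_val hij.ne, add_mul, one_mul, Matrix.add_apply]
      have h1 : (b : Matrix (Fin m) (Fin m) F) k l = _ := hb k l hkl
      rw [h1, add_eq_left]
      by_cases hk : k = i
      · subst hk
        have h2 : (b : Matrix (Fin m) (Fin m) F) j l = _ := hb j l (hkl.trans hij.le)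
        rw [single_mul_apply_same, h2, Matrix.one_apply_ne (hkl.trans_lt hij).ne', mul_zero]
      · exact single_mul_apply_of_ne _ _ _ _ _ hk _
    induction h using closure_induction_left with
    | one => intro i j _; rfl
    | mul_left y hy b _ hb =>
      obtain ⟨i, j, c, hij, rfl⟩ := hy
      exact key i j c b hij hb
    | inv_mul_cancel y hy b _ hb =>
      obtain ⟨i, j, c, hij, rfl⟩ := hy
      rw [x_inv']
      exact key i j _ b hij hb
  · intro h
    have key : ∀ d : ℕ, ∀ b : SL m F, (∀ i j, j ≤ i → b i j = (1 : Matrix (Fin m) (Fin m) F) i j) →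
        (∀ i j : Fin m, d ≤ i → b i j = (1 : Matrix (Fin m) (Fin m) F) i j) → b ∈ U m F := by
      intro d
      induction d with
      | zero =>
        intro b _ hb
        have : b = 1 := Subtype.ext (Matrix.ext fun i j => hb i j (Nat.zero_le _))
        rw [this]; exact one_mem _
      | succ d ih =>
        intro b hb hb'
        have hs : ∀ i j k : Fin m, ((i : ℕ) = d ∧ d < (j : ℕ)) → ¬ ((j : ℕ) = d ∧ d < (k : ℕ)) := by
          intro i j k h1 h2; omega
        set N : Matrix (Fin m) (Fin m) F := Matrix.of fun k l =>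
          if (k : ℕ) = d then (1 : Matrix (Fin m) (Fin m) F) k l - b k l else 0 with hNd
        have hN : Sup (fun i j : Fin m => (i : ℕ) = d ∧ d < (j : ℕ)) N := by
          intro k l hkl
          simp only [hNd, of_apply]
          split_ifs with hk
          · rw [hb k l (by rw [Fin.le_def]; omega), sub_self]
          · rfl
        have hr : un (1 + N) ∈ U m F := by
          refine Pat_mono ?_ ((mem_Pat' hs).2 ⟨N, hN, rfl⟩)
          intro i j _ h1
          rw [Fin.lt_def]; omega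
        have hNb : N * (b : Matrix (Fin m) (Fin m) F) = N := by
          conv_rhs => rw [← mul_one N]
          ext k l
          rw [Matrix.mul_apply, Matrix.mul_apply]
          refine Finset.sum_congr rfl fun j _ => ?_
          by_cases hj : d < (j : ℕ)
          · have h1 : (b : Matrix (Fin m) (Fin m) F) j l = _ := hb' j l hj
            rw [h1]
          · rw [hN k j (fun h => hj h.2), zero_mul, zero_mul]
        have hv : ∀ k l, (un (1 + N) * b : SL m F) k l =
            if (k : ℕ) = d then (1 : Matrix (Fin m) (Fin m) F) k l else b k l := by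
          intro k l
          rw [Matrix.SpecialLinearGroup.coe_mul, hN.val hs, add_mul, one_mul, hNb, Matrix.add_apply]
          simp only [hNd, of_apply]
          split_ifs
          · exact add_sub_cancel _ _
          · exact add_zero _
        have := ih (un (1 + N) * b) (fun k l hkl => by
          rw [hv]; split_ifs
          · rfl
          · exact hb k l hkl) (fun k l hk => by
          rw [hv]; split_ifs with h1
          · rfl
          · exact hb' k l (by omega))
        exact (mul_mem_cancel_left hr).1 this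
    exact key m a h fun i j hi => absurd i.2 (by omega)

theorem mem_A {d : ℕ} {a : SL m F} : a ∈ A m F d ↔
    ∀ i j : Fin m, ¬ ((i : ℕ) < d ∧ d ≤ (j : ℕ)) → a i j = (1 : Matrix (Fin m) (Fin m) F) i j :=
  mem_Pat fun i j k h1 h2 => by omega

theorem mem_A0 {a : SL m F} : a ∈ A0 m F ↔ ∀ i j : Fin m,
    ¬ ((i : ℕ) < m / 2 ∧ m - m / 2 ≤ (j : ℕ)) → a i j = (1 : Matrix (Fin m) (Fin m) F) i j :=
  mem_Pat fun i j k h1 h2 => by omega

theorem A0_eq : A0 m F = A m F (m / 2) ⊓ A m F (m - m / 2) := by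
  ext a
  rw [mem_inf, mem_A0, mem_A, mem_A]
  constructor
  · intro h
    exact ⟨fun i j hij => h i j (by omega), fun i j hij => h i j (by omega)⟩
  · rintro ⟨h1, h2⟩ i j hij
    by_cases hi : (i : ℕ) < m / 2
    · exact h2 i j (by omega)
    · exact h1 i j (by omega)

theorem A_le_U (d : ℕ) : A m F d ≤ U m F :=
  Pat_mono fun i j _ h => by rw [Fin.lt_def]; omega

theorem A_comm {d : ℕ} {a b : SL m F} (ha : a ∈ A m F d) (hb : b ∈ A m F d) : Commute a b :=
  Pat_comm (fun i j k h1 h2 => by omega) ha hb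

theorem card_lt {d : ℕ} (h : d ≤ m) : Nat.card {i : Fin m // (i : ℕ) < d} = d := by
  rw [Nat.card_eq_fintype_card, Fintype.card_subtype]
  simp [Fin.card_filter_val_lt, h]

theorem card_ge {d : ℕ} (h : d ≤ m) : Nat.card {i : Fin m // d ≤ (i : ℕ)} = m - d := by
  have h1 := card_lt h
  rw [Nat.card_eq_fintype_card] at h1 ⊢
  have := Fintype.card_subtype_compl (fun i : Fin m => (i : ℕ) < d)
  rw [h1, Fintype.card_fin] at this
  rw [← this]
  exact Fintype.card_congr (Equiv.subtypeEquivRight fun i => not_lt.symm)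

theorem card_A [Finite F] {d : ℕ} (h : d ≤ m) :
    Nat.card (A m F d) = Nat.card F ^ (d * (m - d)) := by
  unfold A
  rw [card_Pat fun i j k h1 h2 => by omega]
  congr 1
  rw [Nat.card_congr (Equiv.subtypeProdEquivProd (p := fun i : Fin m => (i : ℕ) < d)
    (q := fun j : Fin m => d ≤ (j : ℕ))), Nat.card_prod, card_lt h, card_ge h]

theorem card_Ak [Finite F] : Nat.card (A m F (m / 2)) = Nat.card F ^ cc m :=
  card_A (Nat.div_le_self _ _)

theorem card_Ak' [Finite F] : Nat.card (A m F (m - m / 2)) = Nat.card F ^ cc m := by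
  rw [card_A (Nat.sub_le _ _), cc, Nat.sub_sub_self (Nat.div_le_self _ _), mul_comm]

theorem mul_inv_val (g : SL m F) :
    (g : Matrix (Fin m) (Fin m) F) * ((g⁻¹ : SL m F) : Matrix (Fin m) (Fin m) F) = 1 := by
  rw [← Matrix.SpecialLinearGroup.coe_mul, mul_inv_cancel]; rfl

theorem conj_val {g a : SL m F} {N : Matrix (Fin m) (Fin m) F}
    (h : (a : Matrix (Fin m) (Fin m) F) = 1 + N) :
    ((g * a * g⁻¹ : SL m F) : Matrix (Fin m) (Fin m) F) = 1 + (g : Matrix (Fin m) (Fin m) F) * N *
      ((g⁻¹ : SL m F) : Matrix (Fin m) (Fin m) F) := by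
  rw [Matrix.SpecialLinearGroup.coe_mul, Matrix.SpecialLinearGroup.coe_mul, h, mul_add, add_mul,
    mul_one, mul_inv_val]

theorem BT_inv {p : Fin m → Prop} {g : SL m F} (h : ∀ i j, p j → ¬ p i → g i j = 0) :
    ∀ i j, p j → ¬ p i → (g⁻¹ : SL m F) i j = 0 := by
  classical
  have h1 : (g : Matrix (Fin m) (Fin m) F).BlockTriangular fun i => if p i then 0 else 1 := by
    intro i j hij
    by_cases h1 : p i <;> by_cases h2 : p j <;> simp [h1, h2] at hij
    exact h i j h2 h1
  let _ : Invertible (g : Matrix (Fin m) (Fin m) F) := invertibleOfRightInverse _ _ (mul_inv_val g)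
  have h2 := blockTriangular_inv_of_blockTriangular h1
  rw [inv_eq_right_inv (mul_inv_val g)] at h2
  intro i j hj hi
  exact h2 (by simp [hj, hi])

theorem norm_BT {p : Fin m → Prop} {g : SL m F} (h : ∀ i j, p j → ¬ p i → g i j = 0) :
    g ∈ normalizer (Pat F (fun i j => p i ∧ ¬ p j) : Set (SL m F)) := by
  have hs : ∀ i j k : Fin m, (p i ∧ ¬ p j) → ¬ (p j ∧ ¬ p k) := fun i j k h1 h2 => h1.2 h2.1
  have key : ∀ g : SL m F, (∀ i j, p j → ¬ p i → g i j = 0) →
      ∀ a ∈ Pat F (fun i j => p i ∧ ¬ p j), g * a * g⁻¹ ∈ Pat F (fun i j => p i ∧ ¬ p j) := by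
    intro g h a ha
    obtain ⟨N, hN, rfl⟩ := (mem_Pat' hs).1 ha
    refine (mem_Pat' hs).2 ⟨_, ?_, by rw [← conj_val (hN.val hs), un_self]⟩
    intro k l hkl
    rw [Matrix.mul_apply]
    refine Finset.sum_eq_zero fun j _ => ?_
    rw [Matrix.mul_apply, Finset.sum_mul]
    refine Finset.sum_eq_zero fun i _ => ?_
    by_cases hij : p i ∧ ¬ p j
    · by_cases hk : p k
      · exact mul_eq_zero_of_right _ (BT_inv h j l (by tauto) hij.2)
      · exact mul_eq_zero_of_left (mul_eq_zero_of_left (h k i hij.1 hk) _) _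
    · rw [hN i j hij, mul_zero, zero_mul]
  refine mem_normalizer_iff.2 fun a => ⟨key g h a, fun ha => ?_⟩
  simpa [mul_assoc] using key g⁻¹ (BT_inv h) _ ha

/-- block upper triangular matrices normalise `A d` -/
theorem norm_A {d : ℕ} {g : SL m F} (h : ∀ i j : Fin m, (j : ℕ) < d → d ≤ (i : ℕ) → g i j = 0) :
    g ∈ normalizer (A m F d : Set (SL m F)) := by
  have := norm_BT (p := fun i : Fin m => (i : ℕ) < d) (g := g) fun i j hj hi => h i j hj (by omega)
  simp only [not_lt] at this
  exact this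

theorem U_norm_A (d : ℕ) : U m F ≤ normalizer (A m F d : Set (SL m F)) :=
  fun g hg =>
  norm_A fun i j hj hi => by
    rw [mem_U.1 hg i j (by rw [Fin.le_def]; omega), Matrix.one_apply_ne (by rintro rfl; omega)]

theorem mem_X {i j : Fin m} {g : SL m F} : g ∈ X F i j ↔ ∃ a, g = x i j a := by
  constructor
  · intro h
    induction h using closure_induction with
    | mem y hy => obtain ⟨k, l, a, ⟨rfl, rfl⟩, rfl⟩ := hy; exact ⟨a, rfl⟩
    | one => exact ⟨0, (x_zero i j).symm⟩
    | mul y z _ _ hy hz =>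
      obtain ⟨a, rfl⟩ := hy; obtain ⟨b, rfl⟩ := hz; exact ⟨a + b, (x_add i j a b).symm⟩
    | inv y _ hy => obtain ⟨a, rfl⟩ := hy; exact ⟨-a, x_inv' i j a⟩
  · rintro ⟨a, rfl⟩; exact x_mem ⟨rfl, rfl⟩ a

theorem card_X [Finite F] {i j : Fin m} (h : i ≠ j) : Nat.card (X F i j) = Nat.card F := by
  refine (Nat.card_congr (Equiv.ofBijective
    (fun a : F => (⟨x i j a, mem_X.2 ⟨a, rfl⟩⟩ : X F i j)) ⟨?_, ?_⟩)).symm
  · intro a b hab; exact x_inj h (congrArg Subtype.val hab)
  · rintro ⟨g, hg⟩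
    obtain ⟨a, rfl⟩ := mem_X.1 hg
    exact ⟨a, rfl⟩

theorem X_le_row (i j : Fin m) : X F i j ≤ row F i :=
  Pat_mono fun k l h h' => ⟨h'.1, h'.1 ▸ h.symm⟩

theorem X_le_col (i j : Fin m) : X F i j ≤ col F j :=
  Pat_mono fun k l h h' => ⟨h'.2, h'.2 ▸ h⟩

theorem hs_row (i : Fin m) : ∀ k l n : Fin m, (k = i ∧ l ≠ i) → ¬ (l = i ∧ n ≠ i) :=
  fun _ _ _ h h' => h.2 h'.1

theorem hs_col (j : Fin m) : ∀ k l n : Fin m, (l = j ∧ k ≠ j) → ¬ (n = j ∧ l ≠ j) :=
  fun _ _ _ h h' => h'.2 h.1

theorem Pat_inf {s s' : Fin m → Fin m → Prop} (hs : ∀ i j k, s i j → ¬ s j k)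
    (hs' : ∀ i j k, s' i j → ¬ s' j k) :
    Pat F s ⊓ Pat F s' = Pat F fun i j => s i j ∧ s' i j := by
  ext a
  rw [mem_inf, mem_Pat hs, mem_Pat hs', mem_Pat fun i j k h h' => hs i j k h.1 h'.1]
  constructor
  · rintro ⟨h1, h2⟩ i j h
    by_cases h3 : s i j
    · exact h2 i j fun h4 => h ⟨h3, h4⟩
    · exact h1 i j h3
  · intro h
    exact ⟨fun i j h1 => h i j fun h2 => h1 h2.1, fun i j h1 => h i j fun h2 => h1 h2.2⟩

theorem row_inf_col {i j : Fin m} : row F i ⊓ col F j = X F i j := by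
  refine le_antisymm ?_ (le_inf (X_le_row i j) (X_le_col i j))
  refine (Pat_inf (hs_row i) (hs_col j)).trans_le (Pat_mono fun k l _ h => ⟨h.1.1, h.2.1⟩)

theorem row_inf_row {i j : Fin m} (h : i ≠ j) : row F i ⊓ row F j = ⊥ := by
  rw [eq_bot_iff]
  refine (Pat_inf (hs_row i) (hs_row j)).trans_le
    (Pat_le fun k l _ _ h' => absurd (h'.1.1.symm.trans h'.2.1) h)

theorem col_inf_col {i j : Fin m} (h : i ≠ j) : col F i ⊓ col F j = ⊥ := by
  rw [eq_bot_iff]
  refine (Pat_inf (hs_col i) (hs_col j)).trans_le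
    (Pat_le fun k l _ _ h' => absurd (h'.1.1.symm.trans h'.2.1) h)

theorem row_eq (i : Fin m) : row F i = ⨆ (j : Fin m) (_ : i ≠ j), X F i j := by
  refine le_antisymm (Pat_le ?_) (iSup₂_le fun j _ => X_le_row i j)
  rintro k l a h ⟨rfl, -⟩
  exact (le_iSup₂_of_le (f := fun (j : Fin m) (_ : k ≠ j) => X F k j) l h le_rfl)
    (mem_X.2 ⟨a, rfl⟩)

theorem col_eq (j : Fin m) : col F j = ⨆ (i : Fin m) (_ : i ≠ j), X F i j := by
  refine le_antisymm (Pat_le ?_) (iSup₂_le fun i _ => X_le_col i j)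
  rintro k l a h ⟨rfl, -⟩
  exact (le_iSup₂_of_le (f := fun (i : Fin m) (_ : i ≠ l) => X F i l) k h le_rfl)
    (mem_X.2 ⟨a, rfl⟩)

theorem card_row [Finite F] (i : Fin m) : Nat.card (row F i) = Nat.card F ^ (m - 1) := by
  unfold row
  rw [card_Pat (hs_row i)]
  congr 1
  rw [Nat.card_congr (Equiv.subtypeProdEquivProd (p := fun k : Fin m => k = i)
    (q := fun l : Fin m => l ≠ i)), Nat.card_prod]
  simp

theorem card_col [Finite F] (j : Fin m) : Nat.card (col F j) = Nat.card F ^ (m - 1) := by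
  unfold col
  rw [card_Pat (hs_col j)]
  congr 1
  simp only [and_comm (a := _ = j)]
  rw [Nat.card_congr (Equiv.subtypeProdEquivProd (p := fun k : Fin m => k ≠ j)
    (q := fun l : Fin m => l = j)), Nat.card_prod]
  simp

theorem sup_row (i : Fin m) (v : Fin m → F) : Sup (fun k l => k = i ∧ l ≠ i)
    (Matrix.of fun k l => if k = i ∧ l ≠ i then v l else 0) := fun k l h => by
  rw [of_apply, if_neg h]

theorem sup_col (j : Fin m) (v : Fin m → F) : Sup (fun k l => l = j ∧ k ≠ j)
    (Matrix.of fun k l => if l = j ∧ k ≠ j then v k else 0) := fun k l h => by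
  rw [of_apply, if_neg h]

theorem rv_apply (i : Fin m) (v : Fin m → F) (k l : Fin m) : (rv i v : SL m F) k l =
    (1 : Matrix (Fin m) (Fin m) F) k l + if k = i ∧ l ≠ i then v l else 0 := by
  change ((un _ : SL m F) : Matrix (Fin m) (Fin m) F) k l = _
  rw [(sup_row i v).val (hs_row i), Matrix.add_apply, of_apply]

theorem cv_apply (j : Fin m) (v : Fin m → F) (k l : Fin m) : (cv j v : SL m F) k l =
    (1 : Matrix (Fin m) (Fin m) F) k l + if l = j ∧ k ≠ j then v k else 0 := by
  change ((un _ : SL m F) : Matrix (Fin m) (Fin m) F) k l = _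
  rw [(sup_col j v).val (hs_col j), Matrix.add_apply, of_apply]

theorem mem_row {i : Fin m} {g : SL m F} : g ∈ row F i ↔ ∃ v, v i = 0 ∧ g = rv i v := by
  constructor
  · intro h
    have h1 := (mem_Pat (hs_row i)).1 h
    refine ⟨fun l => if l = i then 0 else g i l, by simp, Subtype.ext (Matrix.ext fun k l => ?_)⟩
    change g k l = (rv i _ : SL m F) k l
    rw [rv_apply]
    split_ifs with h2 h3
    · exact absurd h3 h2.2
    · obtain ⟨rfl, h4⟩ := h2
      rw [Matrix.one_apply_ne h4.symm, zero_add]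
    · rw [add_zero, h1 k l h2]
  · rintro ⟨v, -, rfl⟩
    exact (mem_Pat' (hs_row i)).2 ⟨_, sup_row i v, rfl⟩

theorem mem_col {j : Fin m} {g : SL m F} : g ∈ col F j ↔ ∃ v, v j = 0 ∧ g = cv j v := by
  constructor
  · intro h
    have h1 := (mem_Pat (hs_col j)).1 h
    refine ⟨fun k => if k = j then 0 else g k j, by simp, Subtype.ext (Matrix.ext fun k l => ?_)⟩
    change g k l = (cv j _ : SL m F) k l
    rw [cv_apply]
    split_ifs with h2 h3
    · exact absurd h3 h2.2
    · obtain ⟨rfl, h4⟩ := h2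
      rw [Matrix.one_apply_ne h4, zero_add]
    · rw [add_zero, h1 k l h2]
  · rintro ⟨v, -, rfl⟩
    exact (mem_Pat' (hs_col j)).2 ⟨_, sup_col j v, rfl⟩

theorem rv_mem (i : Fin m) (v : Fin m → F) : rv i v ∈ row F i :=
  (mem_Pat' (hs_row i)).2 ⟨_, sup_row i v, rfl⟩

theorem cv_mem (j : Fin m) (v : Fin m → F) : cv j v ∈ col F j :=
  (mem_Pat' (hs_col j)).2 ⟨_, sup_col j v, rfl⟩

theorem rv_add (i : Fin m) (v w : Fin m → F) : rv i (v + w) = rv i v * rv i w := by
  unfold rv
  rw [← (sup_row i v).un_add (hs_row i) (sup_row i w)]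
  congr 2
  ext k l
  simp only [of_apply, Matrix.add_apply, Pi.add_apply]
  split_ifs <;> simp

theorem cv_add (j : Fin m) (v w : Fin m → F) : cv j (v + w) = cv j v * cv j w := by
  unfold cv
  rw [← (sup_col j v).un_add (hs_col j) (sup_col j w)]
  congr 2
  ext k l
  simp only [of_apply, Matrix.add_apply, Pi.add_apply]
  split_ifs <;> simp

theorem rv_zero (i : Fin m) : rv i (0 : Fin m → F) = 1 :=
  Subtype.ext (Matrix.ext fun k l => by
    change (rv i 0 : SL m F) k l = _
    rw [rv_apply]; simp)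

theorem cv_zero (j : Fin m) : cv j (0 : Fin m → F) = 1 :=
  Subtype.ext (Matrix.ext fun k l => by
    change (cv j 0 : SL m F) k l = _
    rw [cv_apply]; simp)

theorem rv_inj {i : Fin m} {v w : Fin m → F} : rv i v = rv i w ↔ ∀ l, l ≠ i → v l = w l := by
  constructor
  · intro h l hl
    have := congrArg (fun g : SL m F => g i l) h
    simpa [rv_apply, hl] using this
  · intro h
    refine Subtype.ext (Matrix.ext fun k l => ?_)
    change (rv i v : SL m F) k l = (rv i w : SL m F) k l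
    rw [rv_apply, rv_apply]
    split_ifs with h1
    · rw [h l h1.2]
    · rfl

theorem cv_inj {j : Fin m} {v w : Fin m → F} : cv j v = cv j w ↔ ∀ l, l ≠ j → v l = w l := by
  constructor
  · intro h l hl
    have := congrArg (fun g : SL m F => g l j) h
    simpa [cv_apply, hl] using this
  · intro h
    refine Subtype.ext (Matrix.ext fun k l => ?_)
    change (cv j v : SL m F) k l = (cv j w : SL m F) k l
    rw [cv_apply, cv_apply]
    split_ifs with h1
    · rw [h k h1.2]
    · rfl

theorem rv_val {i : Fin m} {v : Fin m → F} (hv : v i = 0) :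
    ((rv i v : SL m F) : Matrix (Fin m) (Fin m) F) = 1 + vecMulVec (Pi.single i 1) v := by
  ext k l
  rw [rv_apply, Matrix.add_apply, vecMulVec_apply]
  by_cases hk : k = i <;> by_cases hl : l = i <;> simp [hk, hl, hv]

theorem cv_val {j : Fin m} {v : Fin m → F} (hv : v j = 0) :
    ((cv j v : SL m F) : Matrix (Fin m) (Fin m) F) = 1 + vecMulVec v (Pi.single j 1) := by
  ext k l
  rw [cv_apply, Matrix.add_apply, vecMulVec_apply]
  by_cases hk : k = j <;> by_cases hl : l = j <;> simp [hk, hl, hv]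

theorem single_eq_single_vecMulVec' (i j : Fin m) (a : F) :
    single i j a = vecMulVec (Pi.single i 1) (Pi.single j a) := by
  ext k l
  rw [vecMulVec_apply, Matrix.single_apply]
  by_cases hk : k = i <;> by_cases hl : l = j <;> simp_all [eq_comm]

theorem single_eq_single_vecMulVec'' (i j : Fin m) (a : F) :
    single i j a = vecMulVec (Pi.single i a) (Pi.single j 1) := by
  ext k l
  rw [vecMulVec_apply, Matrix.single_apply]
  by_cases hk : k = i <;> by_cases hl : l = j <;> simp_all [eq_comm]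

theorem smul_vecMulVec_right (c : F) (u v : Fin m → F) :
    vecMulVec (c • u) v = vecMulVec u (c • v) := by
  ext k l
  simp only [vecMulVec_apply, Pi.smul_apply, smul_eq_mul]; ring

theorem rv_single (i j : Fin m) (a : F) : rv i (Pi.single j a) = x i j a := by
  by_cases h : i = j
  · subst h
    rw [x_self, ← rv_zero i, rv_inj]
    intro l hl; simp [hl]
  · refine Subtype.ext ?_
    rw [rv_val (by simp [h]), x_val h, ← single_eq_single_vecMulVec']

theorem cv_single (i j : Fin m) (a : F) : cv j (Pi.single i a) = x i j a := by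
  by_cases h : i = j
  · subst h
    rw [x_self, ← cv_zero i, cv_inj]
    intro l hl; simp [hl]
  · refine Subtype.ext ?_
    rw [cv_val (by simp [Ne.symm h]), x_val h, ← single_eq_single_vecMulVec'']

/-- action of the stabiliser of the line `F e i` on the row group -/
theorem conj_rv {i : Fin m} {g : SL m F} (hg : ∀ k, k ≠ i → g k i = 0) {v : Fin m → F}
    (hv : v i = 0) : g * rv i v * g⁻¹ =
      rv i (g i i • (v ᵥ* ((g⁻¹ : SL m F) : Matrix (Fin m) (Fin m) F))) := by
  have hi := BT_inv (p := fun k => k = i) (g := g) fun k l hl hk => hl ▸ hg k hk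
  have h0 : (v ᵥ* ((g⁻¹ : SL m F) : Matrix (Fin m) (Fin m) F)) i = 0 := by
    unfold vecMul dotProduct
    refine Finset.sum_eq_zero fun k _ => ?_
    by_cases hk : k = i
    · rw [hk, hv, zero_mul]
    · exact mul_eq_zero_of_right _ (hi k i rfl hk)
  refine Subtype.ext ?_
  rw [conj_val (rv_val hv), rv_val (by rw [Pi.smul_apply, h0, smul_zero]), mul_vecMulVec,
    vecMulVec_mul, ← smul_vecMulVec_right]
  congr 2
  funext k
  by_cases hk : k = i
  · subst hk; simp
  · have : (g : Matrix (Fin m) (Fin m) F) k i = 0 := hg k hk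
    simp [hk, this]

/-- action of the stabiliser of the hyperplane `v j = 0` on the column group -/
theorem conj_cv {j : Fin m} {g : SL m F} (hg : ∀ k, k ≠ j → g j k = 0) {v : Fin m → F}
    (hv : v j = 0) : g * cv j v * g⁻¹ =
      cv j ((g j j)⁻¹ • ((g : Matrix (Fin m) (Fin m) F) *ᵥ v)) := by
  have hi := BT_inv (p := fun k => k ≠ j) (g := g) fun k l hl hk => by
    rw [not_not.1 hk]; exact hg l hl
  have h0 : ((g : Matrix (Fin m) (Fin m) F) *ᵥ v) j = 0 := by
    unfold mulVec dotProduct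
    refine Finset.sum_eq_zero fun k _ => ?_
    by_cases hk : k = j
    · rw [hk, hv, mul_zero]
    · exact mul_eq_zero_of_left (hg k hk) _
  have h1 : g j j * (g⁻¹ : SL m F) j j = 1 := by
    have := congrFun (congrFun (mul_inv_val g) j) j
    rw [Matrix.mul_apply, Matrix.one_apply_eq, Finset.sum_eq_single j (fun k _ hk =>
      mul_eq_zero_of_left (hg k hk) _) (by simp)] at this
    exact this
  refine Subtype.ext ?_
  rw [conj_val (cv_val hv), cv_val (by rw [Pi.smul_apply, h0, smul_zero]), mul_vecMulVec,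
    vecMulVec_mul, smul_vecMulVec_right]
  congr 2
  funext k
  rw [single_one_vecMul]
  by_cases hk : k = j
  · subst hk
    rw [Pi.smul_apply, Pi.single_eq_same, smul_eq_mul, mul_one]
    exact eq_inv_of_mul_eq_one_right h1
  · rw [Pi.smul_apply, Pi.single_eq_of_ne hk, smul_zero]
    exact hi j k hk (not_not.2 rfl)

theorem norm_row {i : Fin m} {g : SL m F} (hg : ∀ k, k ≠ i → g k i = 0) :
    g ∈ normalizer (row F i : Set (SL m F)) :=
  norm_BT (p := fun k => k = i) fun k l hl hk => hl ▸ hg k hk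

theorem norm_col {j : Fin m} {g : SL m F} (hg : ∀ k, k ≠ j → g j k = 0) :
    g ∈ normalizer (col F j : Set (SL m F)) := by
  have := norm_BT (p := fun k => k ≠ j) (g := g) fun k l hl hk => by
    rw [not_not.1 hk]; exact hg l hl
  simp only [not_not, and_comm (a := _ ≠ j)] at this
  exact this

theorem rv_cv {i j : Fin m} (h : i ≠ j) {v w : Fin m → F} (hv : v i = 0) (hw : w j = 0) :
    rv i v * cv j w * (rv i v)⁻¹ * (cv j w)⁻¹ = x i j (v ⬝ᵥ w) := by
  refine comm_of (rv_val hv) (cv_val hw) ?_ ?_ ?_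
  · rw [x_val h, vecMulVec_mul_vecMulVec, single_eq_single_vecMulVec', ← Pi.single_smul,
      smul_eq_mul, mul_one]
  · rw [vecMulVec_mul_vecMulVec, single_dotProduct, hw]; simp
  · rw [vecMulVec_mul_vecMulVec, single_dotProduct, Pi.single_eq_of_ne h.symm]; simp

theorem dg_val {d : Fin m → F} (h : ∏ i, d i = 1) :
    ((dg d : SL m F) : Matrix (Fin m) (Fin m) F) = diagonal d :=
  un_val (by rw [det_diagonal, h])

theorem dg_mul {d e : Fin m → F} (hd : ∏ i, d i = 1) (he : ∏ i, e i = 1) :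
    dg (d * e) = dg d * dg e :=
  Subtype.ext (by
    rw [Matrix.SpecialLinearGroup.coe_mul, dg_val hd, dg_val he,
      dg_val (by simp [Finset.prod_mul_distrib, hd, he]), diagonal_mul_diagonal]; rfl)

theorem ne_zero_of_prod {d : Fin m → F} (h : ∏ i, d i = 1) (i : Fin m) : d i ≠ 0 := fun h' =>
  zero_ne_one ((Finset.prod_eq_zero (Finset.mem_univ i) h').symm.trans h)

theorem dg_inv {d : Fin m → F} (h : ∏ i, d i = 1) : (dg d)⁻¹ = dg fun i => (d i)⁻¹ := by
  have h1 : ∏ i, (d i)⁻¹ = 1 := by rw [Finset.prod_inv_distrib, h, inv_one]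
  refine inv_eq_of_mul_eq_one_right (Subtype.ext ?_)
  rw [Matrix.SpecialLinearGroup.coe_mul, dg_val h, dg_val h1, diagonal_mul_diagonal]
  simp [ne_zero_of_prod h]

theorem dg_conj {d : Fin m → F} (h : ∏ i, d i = 1) {a b : SL m F}
    (hab : ∀ k l, d k * a k l = b k l * d l) : dg d * a * (dg d)⁻¹ = b := by
  rw [mul_inv_eq_iff_eq_mul]
  refine Subtype.ext (Matrix.ext fun k l => ?_)
  rw [Matrix.SpecialLinearGroup.coe_mul, Matrix.SpecialLinearGroup.coe_mul, dg_val h, diagonal_mul,
    mul_diagonal]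
  exact hab k l

theorem dg_rv' {d : Fin m → F} (h : ∏ i, d i = 1) (i : Fin m) (v : Fin m → F) :
    dg d * rv i v * (dg d)⁻¹ = rv i fun l => d i * v l * (d l)⁻¹ := by
  refine dg_conj h fun k l => ?_
  rw [rv_apply, rv_apply]
  have := ne_zero_of_prod h
  by_cases h1 : k = l
  · subst h1; simp
  · rw [Matrix.one_apply_ne h1]
    split_ifs with h2
    · obtain ⟨rfl, -⟩ := h2
      field_simp [this l]
      simp
    · simp

theorem dg_x {d : Fin m → F} (h : ∏ i, d i = 1) (i j : Fin m) (a : F) :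
    dg d * x i j a * (dg d)⁻¹ = x i j (d i * a * (d j)⁻¹) := by
  rw [← rv_single, ← rv_single, dg_rv' h, rv_inj]
  intro l _
  by_cases hl : l = j
  · subst hl; simp
  · simp [hl]

theorem dg_rv {d : Fin m → F} (h : ∏ i, d i = 1) (i : Fin m) (v : Fin m → F) :
    dg d * rv i v * (dg d)⁻¹ = rv i fun l => d i * v l * (d l)⁻¹ :=
  dg_rv' h i v

theorem dg_cv {d : Fin m → F} (h : ∏ i, d i = 1) (j : Fin m) (v : Fin m → F) :
    dg d * cv j v * (dg d)⁻¹ = cv j fun l => d l * v l * (d j)⁻¹ := by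
  refine dg_conj h fun k l => ?_
  rw [cv_apply, cv_apply]
  have := ne_zero_of_prod h
  by_cases h1 : k = l
  · subst h1; simp
  · rw [Matrix.one_apply_ne h1]
    split_ifs with h2
    · obtain ⟨rfl, -⟩ := h2
      field_simp [this l]
      simp
    · simp

theorem inn_toGL (s : SL m F) : inn (Matrix.SpecialLinearGroup.toGL s) = MulAut.conj s :=
  MulEquiv.ext fun a => Subtype.ext (by
    rw [inn_val, ← map_inv]; rfl)

theorem map_x' {K : Type*} [Field K] (ι : F →+* K) (i j : Fin m) (a : F) :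
    Matrix.SpecialLinearGroup.map ι (x i j a) = x i j (ι a) := by
  by_cases h : i = j
  · subst h; rw [x_self, x_self, map_one]
  refine Subtype.ext ?_
  change ι.mapMatrix ((x i j a : SL m F) : Matrix (Fin m) (Fin m) F) = _
  rw [x_val h, x_val h, map_add, map_one, RingHom.mapMatrix_apply, Matrix.map_single]

theorem fld_x (σ : F ≃+* F) (i j : Fin m) (a : F) : fld σ (x i j a) = x i j (σ a) :=
  map_x' (σ : F →+* F) i j a

theorem map_x {K : Type*} [Field K] (ι : F →+* K) (i j : Fin m) (a : F) :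
    Matrix.SpecialLinearGroup.map ι (x i j a) = x i j (ι a) :=
  map_x' ι i j a

theorem gr_mul_gr : (gr : MulAut (SL m F)) * gr = 1 :=
  MulEquiv.ext gr_gr

theorem fld_gr (σ : F ≃+* F) : Commute (fld σ : MulAut (SL m F)) gr :=
  MulEquiv.ext fun a => Subtype.ext (Matrix.ext fun i j => by
    change (fld σ (gr a) : SL m F) i j = (gr (fld σ a) : SL m F) i j
    rw [fld_apply, gr_apply, gr_apply, ← map_inv, fld_apply])

theorem std_false (σ : F ≃+* F) : (std σ false : MulAut (SL m F)) = fld σ :=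
  mul_one _

theorem std_one_true : (std 1 true : MulAut (SL m F)) = gr := by
  rw [std, map_one, one_mul]; rfl

theorem std_one : (std 1 false : MulAut (SL m F)) = 1 := by
  rw [std_false, map_one]

theorem std_mul (σ τ : F ≃+* F) (ε δ : Bool) :
    (std σ ε : MulAut (SL m F)) * std τ δ = std (σ * τ) (xor ε δ) := by
  have h := (fld_gr (m := m) τ).eq
  cases ε <;> cases δ <;> simp only [std, cond, mul_one, map_mul, Bool.xor_false, Bool.xor_true,
    Bool.not_false, Bool.not_true, mul_assoc]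
  · rw [h]
  · rw [← mul_assoc gr, ← h, mul_assoc, gr_mul_gr, mul_one]

theorem gr_val (a : SL m F) : ((gr a : SL m F) : Matrix (Fin m) (Fin m) F) =
    (((a⁻¹ : SL m F) : Matrix (Fin m) (Fin m) F)ᵀ).submatrix Fin.revPerm Fin.revPerm := rfl

theorem fld_val (σ : F ≃+* F) (a : SL m F) : ((fld σ a : SL m F) : Matrix (Fin m) (Fin m) F) =
    (σ : F →+* F).mapMatrix (a : Matrix (Fin m) (Fin m) F) := rfl

theorem gr_inn (g : GL (Fin m) F) :
    ∃ g' : GL (Fin m) F, (gr : MulAut (SL m F)) * inn g = inn g' * gr := by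
  have key : ∀ u v : GL (Fin m) F, ((u : Matrix (Fin m) (Fin m) F)ᵀ).submatrix Fin.revPerm
      Fin.revPerm * ((v : Matrix (Fin m) (Fin m) F)ᵀ).submatrix Fin.revPerm Fin.revPerm =
      (((v * u : GL (Fin m) F) : Matrix (Fin m) (Fin m) F)ᵀ).submatrix Fin.revPerm Fin.revPerm := by
    intro u v
    rw [submatrix_mul_equiv, ← transpose_mul, Units.val_mul]
  refine ⟨⟨(((g⁻¹ : GL (Fin m) F) : Matrix (Fin m) (Fin m) F)ᵀ).submatrix Fin.revPerm Fin.revPerm,
    ((g : Matrix (Fin m) (Fin m) F)ᵀ).submatrix Fin.revPerm Fin.revPerm, ?_, ?_⟩,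
    MulEquiv.ext fun a => Subtype.ext ?_⟩
  · rw [key, mul_inv_cancel]; simp
  · rw [key, inv_mul_cancel]; simp
  · rw [MulAut.mul_apply, MulAut.mul_apply, gr_val, ← map_inv, inn_val, inn_val, gr_val,
      transpose_mul, transpose_mul,
      ← submatrix_mul_equiv _ _ _ Fin.revPerm, ← submatrix_mul_equiv _ _ _ Fin.revPerm,
      Matrix.mul_assoc]
    rfl

/-- standard automorphisms normalise the inner-diagonal ones -/
theorem std_inn (σ : F ≃+* F) (ε : Bool) (g : GL (Fin m) F) :
    ∃ g' : GL (Fin m) F, (std σ ε : MulAut (SL m F)) * inn g = inn g' * std σ ε := by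
  have h1 : ∀ g : GL (Fin m) F, ∃ g' : GL (Fin m) F,
      (fld σ : MulAut (SL m F)) * inn g = inn g' * fld σ := fun g =>
    ⟨Matrix.GeneralLinearGroup.map (σ : F →+* F) g, MulEquiv.ext fun a => Subtype.ext (by
      rw [MulAut.mul_apply, MulAut.mul_apply, fld_val, inn_val, inn_val, map_mul, map_mul,
        ← map_inv, fld_val]; rfl)⟩
  cases ε
  · rw [std_false]; exact h1 g
  · obtain ⟨g1, hg1⟩ := gr_inn g
    obtain ⟨g2, hg2⟩ := h1 g1
    refine ⟨g2, ?_⟩
    simp only [std, cond]
    rw [mul_assoc, hg1, ← mul_assoc, hg2, mul_assoc]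

theorem map_Pat_eq {f : MulAut (SL m F)} {s s' : Fin m → Fin m → Prop}
    (h : ∀ i j a, s i j → f (x i j a) ∈ Pat F s') (h' : ∀ i j a, s' i j → f⁻¹ (x i j a) ∈ Pat F s) :
    (Pat F s).map f.toMonoidHom = Pat F s' := by
  refine le_antisymm (map_le_iff_le_comap.2 (Pat_le fun i j a _ hs => h i j a hs))
    (Pat_le fun i j a _ hs => ⟨_, h' i j a hs, ?_⟩)
  exact MulAut.apply_inv_self _ f _

theorem map_Pat_fld (σ : F ≃+* F) (s : Fin m → Fin m → Prop) :
    (Pat F s).map (fld σ : MulAut (SL m F)).toMonoidHom = Pat F s := by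
  refine map_Pat_eq (f := (fld σ : MulAut (SL m F))) (fun i j a h => ?_) fun i j a h => ?_
  · rw [fld_x]; exact x_mem h _
  · rw [← map_inv, fld_x]; exact x_mem h _

section two

variable [CharP F 2]

theorem x_sq (i j : Fin m) (a : F) : x i j a * x i j a = 1 := by
  rw [← x_add, CharTwo.add_self_eq_zero, x_zero]

theorem x_inv (i j : Fin m) (a : F) : (x i j a)⁻¹ = x i j a :=
  inv_eq_of_mul_eq_one_right (x_sq i j a)

theorem el_Pat {s : Fin m → Fin m → Prop} (hs : ∀ i j k, s i j → ¬ s j k) : El (Pat F s) :=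
  fun e he => Subtype.ext (by
    rw [Pat_mul_val hs he he]
    ext i j
    simp only [Matrix.sub_apply, Matrix.add_apply, CharTwo.add_self_eq_zero, zero_sub, CharTwo.neg_eq]; rfl)

theorem el_A (d : ℕ) : El (A m F d) :=
  el_Pat fun i j k h1 h2 => by omega

theorem el_row (i : Fin m) : El (row F i) :=
  el_Pat (hs_row i)

theorem el_col (j : Fin m) : El (col F j) :=
  el_Pat (hs_col j)

theorem gr_x (i j : Fin m) (a : F) : gr (x i j a) = x j.rev i.rev a := by
  by_cases h : i = j
  · subst h; rw [x_self, x_self, map_one]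
  refine Subtype.ext (Matrix.ext fun k l => ?_)
  change (gr (x i j a) : SL m F) k l = _
  rw [gr_apply, x_inv, x_val (fun h' => h (Fin.rev_injective h').symm)]
  rw [x_val h]
  simp only [Matrix.add_apply, Matrix.one_apply, Matrix.single_apply, Fin.rev_rev, Fin.rev_eq_iff, eq_comm (a := l),
    and_comm]

theorem gr_rv (i : Fin m) (v : Fin m → F) : gr (rv i v) = cv i.rev fun l => v l.rev := by
  refine Subtype.ext (Matrix.ext fun k l => ?_)
  change (gr (rv i v) : SL m F) k l = (cv i.rev _ : SL m F) k l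
  rw [gr_apply, inv_eq_of_mul_eq_one_right (el_row i _ (rv_mem i v)), rv_apply, cv_apply]
  simp only [Matrix.one_apply, Fin.rev_rev, Fin.rev_eq_iff, eq_comm (a := l) (b := k), ne_eq]

theorem gr_cv (j : Fin m) (v : Fin m → F) : gr (cv j v) = rv j.rev fun l => v l.rev := by
  refine Subtype.ext (Matrix.ext fun k l => ?_)
  change (gr (cv j v) : SL m F) k l = (rv j.rev _ : SL m F) k l
  rw [gr_apply, inv_eq_of_mul_eq_one_right (el_col j _ (cv_mem j v)), rv_apply, cv_apply]
  simp only [Matrix.one_apply, Fin.rev_rev, Fin.rev_eq_iff, eq_comm (a := l) (b := k), ne_eq]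

theorem gr_dg {d : Fin m → F} (h : ∏ i, d i = 1) : gr (dg d) = dg fun l => (d l.rev)⁻¹ := by
  have h1 : ∏ i, (d i)⁻¹ = 1 := by rw [Finset.prod_inv_distrib, h, inv_one]
  have h2 : ∏ i : Fin m, (d i.rev)⁻¹ = 1 := by
    rw [← h1]; exact Equiv.prod_comp Fin.revPerm fun i => (d i)⁻¹
  refine Subtype.ext (Matrix.ext fun k l => ?_)
  change (gr (dg d) : SL m F) k l = _
  rw [gr_apply, dg_inv h, dg_val h2]
  rw [dg_val h1]
  by_cases hk : k = l
  · subst hk; simp
  · rw [diagonal_apply_ne _ hk, diagonal_apply_ne _ (fun h' => hk (Fin.rev_injective h').symm)]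

theorem map_Pat_gr (s : Fin m → Fin m → Prop) :
    (Pat F s).map (gr : MulAut (SL m F)).toMonoidHom = Pat F fun i j => s j.rev i.rev := by
  refine map_Pat_eq (f := (gr : MulAut (SL m F))) (fun i j a h => ?_) fun i j a h => ?_
  · rw [gr_x]; exact x_mem (by simpa using h) _
  · rw [inv_eq_of_mul_eq_one_right gr_mul_gr, gr_x]; exact x_mem h _

theorem std_mem_Pat {s : Fin m → Fin m → Prop} (hs : ∀ i j, s j.rev i.rev → s i j) (σ : F ≃+* F)
    (ε : Bool) {a : SL m F} (h : a ∈ Pat F s) : std σ ε a ∈ Pat F s := by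
  have h1 : ∀ b ∈ Pat F s, fld σ b ∈ Pat F s := fun b hb => by
    rw [← map_Pat_fld σ s]; exact ⟨b, hb, rfl⟩
  cases ε
  · rw [std_false]; exact h1 a h
  · refine h1 (gr a) (Pat_mono (fun i j _ => hs i j) ?_)
    rw [← map_Pat_gr]; exact ⟨a, h, rfl⟩

theorem std_mem_U (σ : F ≃+* F) (ε : Bool) {a : SL m F} (h : a ∈ U m F) : std σ ε a ∈ U m F := by
  refine std_mem_Pat (fun i j hij => ?_) σ ε h
  exact Fin.rev_lt_rev.1 hij

theorem gr_mem_A {d : ℕ} (hd : d ≤ m) {a : SL m F} (h : a ∈ A m F d) : gr a ∈ A m F (m - d) := by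
  have h1 : gr a ∈ (A m F d).map (gr : MulAut (SL m F)).toMonoidHom := ⟨a, h, rfl⟩
  unfold A at h1
  rw [map_Pat_gr] at h1
  refine Pat_mono (fun i j _ hij => ?_) h1
  simp only [Fin.val_rev] at hij
  omega

theorem std_mem_A0 (σ : F ≃+* F) (ε : Bool) {a : SL m F} (h : a ∈ A0 m F) :
    std σ ε a ∈ A0 m F := by
  refine std_mem_Pat (fun i j hij => ?_) σ ε h
  simp only [Fin.val_rev] at hij
  omega

theorem map_row_gr (i : Fin m) :
    (row F i).map (gr : MulAut (SL m F)).toMonoidHom = col F i.rev := by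
  unfold row col
  rw [map_Pat_gr]
  simp only [Fin.rev_eq_iff, ne_eq]

theorem map_col_gr (j : Fin m) :
    (col F j).map (gr : MulAut (SL m F)).toMonoidHom = row F j.rev := by
  unfold row col
  rw [map_Pat_gr]
  simp only [Fin.rev_eq_iff, ne_eq]

theorem pm_apply (s : Equiv.Perm (Fin m)) (i j : Fin m) :
    (pm F s : SL m F) i j = if i = s j then 1 else 0 := by
  change ((un _ : SL m F) : Matrix (Fin m) (Fin m) F) i j = _
  rw [un_val, of_apply]
  have : (Matrix.of fun i j => if i = s j then (1 : F) else 0) =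
      (1 : Matrix (Fin m) (Fin m) F).submatrix id s := by
    ext i j; simp [Matrix.one_apply]
  rw [this, det_permute', det_one, mul_one]
  rcases Int.units_eq_one_or (Equiv.Perm.sign s) with h | h <;> simp [h, CharTwo.neg_eq]

theorem pm_mul (s s' : Equiv.Perm (Fin m)) : pm F (s * s') = pm F s * pm F s' := by
  refine Subtype.ext (Matrix.ext fun i j => ?_)
  rw [Matrix.SpecialLinearGroup.coe_mul, Matrix.mul_apply]
  change (pm F (s * s') : SL m F) i j = ∑ k, (pm F s : SL m F) i k * (pm F s' : SL m F) k j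
  simp only [pm_apply, mul_ite, mul_one, mul_zero, Finset.sum_ite_eq', Finset.mem_univ, if_true,
    Equiv.Perm.mul_apply]
  rfl

theorem pm_one : pm F (1 : Equiv.Perm (Fin m)) = 1 := by
  refine Subtype.ext (Matrix.ext fun i j => ?_)
  change (pm F 1 : SL m F) i j = _
  rw [pm_apply]
  exact (Matrix.one_apply ..).symm

theorem pm_inv (s : Equiv.Perm (Fin m)) : (pm F s)⁻¹ = pm F s⁻¹ :=
  inv_eq_of_mul_eq_one_right (by rw [← pm_mul, mul_inv_cancel, pm_one])

theorem pm_conj (s : Equiv.Perm (Fin m)) (a : SL m F) (k l : Fin m) :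
    (pm F s * a * (pm F s)⁻¹ : SL m F) k l = a (s⁻¹ k) (s⁻¹ l) := by
  rw [pm_inv]
  rw [Matrix.SpecialLinearGroup.coe_mul, Matrix.SpecialLinearGroup.coe_mul, Matrix.mul_apply]
  simp only [Matrix.mul_apply]
  change ∑ j, (∑ i, (pm F s : SL m F) k i * a i j) * (pm F s⁻¹ : SL m F) j l = _
  simp only [pm_apply, ← Equiv.Perm.inv_eq_iff_eq (f := s), mul_ite, ite_mul, mul_one, one_mul,
    mul_zero, zero_mul, Finset.sum_ite_eq, Finset.sum_ite_eq', Finset.mem_univ, if_true]

theorem pm_x (s : Equiv.Perm (Fin m)) (i j : Fin m) (a : F) :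
    pm F s * x i j a * (pm F s)⁻¹ = x (s i) (s j) a := by
  by_cases h : i = j
  · subst h; simp [x_self]
  refine Subtype.ext (Matrix.ext fun k l => ?_)
  change (pm F s * x i j a * (pm F s)⁻¹ : SL m F) k l = _
  rw [pm_conj, x_val (s.injective.ne h)]
  rw [x_val h]
  simp only [Matrix.add_apply, Matrix.one_apply, Matrix.single_apply, Equiv.Perm.eq_inv_iff_eq]
  simp

theorem pm_swap {i j : Fin m} (h : i ≠ j) :
    pm F (Equiv.swap i j) = x i j 1 * x j i 1 * x i j 1 := by
  have := weyl_val h (one_ne_zero (α := F))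
  rw [inv_one, CharTwo.neg_eq] at this
  refine Subtype.ext ?_
  rw [this]
  ext k l
  change (pm F _ : SL m F) k l = _
  simp only [pm_apply, Matrix.add_apply, Matrix.sub_apply, Matrix.single_apply, Matrix.one_apply, Equiv.swap_apply_def,
    CharTwo.sub_eq_add]
  have := h.symm
  by_cases h1 : k = i <;> by_cases h2 : k = j <;> by_cases h3 : l = i <;>
    by_cases h4 : l = j <;> simp_all [eq_comm, CharTwo.add_self_eq_zero]

theorem cj_pm_Pat (s : Equiv.Perm (Fin m)) (p : Fin m → Fin m → Prop) :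
    cj (pm F s) (Pat F p) = Pat F fun i j => p (s⁻¹ i) (s⁻¹ j) := by
  refine map_Pat_eq (f := MulAut.conj (pm F s)) (fun i j a h => ?_) fun i j a h => ?_
  · rw [MulAut.conj_apply, pm_x]; exact x_mem (by simpa using h) _
  · rw [← map_inv, pm_inv, MulAut.conj_apply, pm_x]; exact x_mem h _

theorem cj_pm_row (s : Equiv.Perm (Fin m)) (i : Fin m) : cj (pm F s) (row F i) = row F (s i) := by
  unfold row
  rw [cj_pm_Pat]
  simp only [Equiv.Perm.inv_eq_iff_eq, ne_eq]

theorem cj_pm_col (s : Equiv.Perm (Fin m)) (j : Fin m) : cj (pm F s) (col F j) = col F (s j) := by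
  unfold col
  rw [cj_pm_Pat]
  simp only [Equiv.Perm.inv_eq_iff_eq, ne_eq]

theorem fld_pm (σ : F ≃+* F) (s : Equiv.Perm (Fin m)) : fld σ (pm F s) = pm F s := by
  refine Subtype.ext (Matrix.ext fun i j => ?_)
  change (fld σ (pm F s) : SL m F) i j = (pm F s : SL m F) i j
  rw [fld_apply, pm_apply]
  split_ifs <;> simp

theorem gr_pm (s : Equiv.Perm (Fin m)) :
    gr (pm F s) = pm F (Fin.revPerm * s * Fin.revPerm) := by
  refine Subtype.ext (Matrix.ext fun i j => ?_)
  change (gr (pm F s) : SL m F) i j = (pm F _ : SL m F) i j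
  rw [gr_apply, pm_inv, pm_apply, pm_apply]
  simp only [Equiv.Perm.eq_inv_iff_eq, Equiv.Perm.mul_apply, Fin.revPerm_apply]
  congr 1
  rw [eq_comm (a := i), Fin.rev_eq_iff]

/-- the monomial element `n i j c` is a diagonal matrix times a transposition -/
theorem x_weyl {i j : Fin m} (h : i ≠ j) {c : F} (hc : c ≠ 0) :
    x i j c * x j i c⁻¹ * x i j c =
      dg (fun l => if l = i then c else if l = j then c⁻¹ else 1) * pm F (Equiv.swap i j) := by
  have h1 := weyl_val h hc
  rw [CharTwo.neg_eq] at h1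
  have h2 : ∏ l, (fun l => if l = i then c else if l = j then c⁻¹ else 1) l = 1 := by
    have := (Matrix.SpecialLinearGroup.diag2n h c hc).2
    rwa [Matrix.SpecialLinearGroup.diag2n_coe, det_diagonal] at this
  refine Subtype.ext ?_
  rw [h1, Matrix.SpecialLinearGroup.coe_mul, dg_val h2]
  ext k l
  rw [diagonal_mul]
  change _ = _ * (pm F _ : SL m F) k l
  simp only [pm_apply, Matrix.add_apply, Matrix.sub_apply, Matrix.single_apply, Matrix.one_apply, Equiv.swap_apply_def,
    CharTwo.sub_eq_add]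
  clear h1 h2
  have := h.symm
  by_cases h1 : k = i <;> by_cases h2 : k = j <;> by_cases h3 : l = i <;>
    by_cases h4 : l = j <;> simp_all [eq_comm, CharTwo.add_self_eq_zero]

variable [NeZero m]

theorem zero_ne_la (h : 2 ≤ m) : (0 : Fin m) ≠ la :=
  fun h' => by
  have := congrArg Fin.val h'
  simp only [Fin.val_rev, Fin.val_zero] at this
  omega

theorem la_val : ((la : Fin m) : ℕ) = m - 1 := by
  simp [Fin.val_rev]

theorem row_zero : row F (0 : Fin m) = A m F 1 := by
  unfold row A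
  congr 1
  ext k l
  simp only [ne_eq, Fin.ext_iff, Fin.val_zero]
  omega

theorem col_la : col F (la : Fin m) = A m F (m - 1) := by
  unfold col A
  congr 1
  ext k l
  simp only [ne_eq, Fin.ext_iff, la_val]
  omega

theorem zz_mem_A {d : ℕ} (h0 : 0 < d) (h : d < m) (a : F) : zz a ∈ A m F d :=
  x_mem ⟨by simpa using h0, by rw [la_val]; omega⟩ a

theorem zz_mem_A0 (h : 2 ≤ m) (a : F) : zz a ∈ A0 m F :=
  x_mem ⟨by simp only [Fin.val_zero]; omega, by rw [la_val]; omega⟩ a

theorem zz_mem_U (a : F) : zz a ∈ U m F :=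
  Pat_mono (s := fun k l => k = 0 ∧ l = la)
    (fun k l h h' => by
      obtain ⟨rfl, rfl⟩ := h'
      exact lt_of_le_of_ne (Fin.zero_le _) h) (x_mem ⟨rfl, rfl⟩ a)

theorem zz_comm {u : SL m F} (h : u ∈ U m F) (a : F) : Commute (zz a) u := by
  have : U m F ≤ centralizer {zz a} := Pat_le fun i j b _ hij => by
    rw [mem_centralizer_singleton_iff]
    refine (x_comm (fun h' => ?_) (ne_of_gt (lt_of_le_of_lt (Fin.zero_le _) hij)) b a).eq
    have h1 := congrArg Fin.val h'
    rw [la_val] at h1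
    rw [Fin.lt_def] at hij
    omega
  exact (mem_centralizer_singleton_iff.1 (this h)).symm

theorem std_zz (σ : F ≃+* F) (ε : Bool) (a : F) :
    (std σ ε : MulAut (SL m F)) (zz a) = zz (σ a) := by
  cases ε
  · rw [std_false]; exact fld_x ..
  · change fld σ (gr (x 0 la a)) = _
    rw [gr_x, Fin.rev_rev]; exact fld_x ..

theorem Q_le_U : Q m F ≤ U m F := by
  unfold Q
  rw [row_zero, col_la]
  exact sup_le (A_le_U _) (A_le_U _)

theorem mem_Q {g : SL m F} : g ∈ Q m F ↔ ∃ v w, v 0 = 0 ∧ w la = 0 ∧ g = rv 0 v * cv la w := by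
  constructor
  · intro h
    have hn : row F (0 : Fin m) ≤ normalizer (col F (la : Fin m) : Set (SL m F)) := by
      rw [col_la, row_zero]; exact (A_le_U _).trans (U_norm_A _)
    have h1 : g ∈ ((row F (0 : Fin m) ⊔ col F la : Subgroup (SL m F)) : Set (SL m F)) := h
    rw [coe_mul_of_left_le_normalizer_right _ _ hn] at h1
    obtain ⟨a, ha, b, hb, rfl⟩ := h1
    obtain ⟨v, hv, rfl⟩ := mem_row.1 ha
    obtain ⟨w, hw, rfl⟩ := mem_col.1 hb
    exact ⟨v, w, hv, hw, rfl⟩
  · rintro ⟨v, w, -, -, rfl⟩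
    exact mul_mem (mem_sup_left (rv_mem _ _)) (mem_sup_right (cv_mem _ _))

end two

end CL.SC
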