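import Cfsg.Agent.INV.SC.Bas
import Cfsg.Agent.CLAS.FieldAut
import Cfsg.Agent.S0249

/-!
Group theoretic facts on `SL m F`, `F` finite of characteristic 2, `m ≥ 3`.
-/

set_option autoImplicit false
set_option linter.unusedSectionVars false
set_option linter.unusedVariables false

namespace CL.SC

open Matrix Subgroup
open scoped commutatorElement

variable {m : ℕ} [NeZero m] {F : Type*} [Field F] [Finite F] [CharP F 2]

theorem card_F (F : Type*) [Field F] [Finite F] [CharP F 2] :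
    ∃ n, 0 < n ∧ Nat.card F = 2 ^ n ∧ Nat.card (F ≃+* F) = n := by
  have := Fintype.ofFinite F
  obtain ⟨n, -, hn⟩ := FiniteField.card F 2
  exact ⟨n, n.2, by rw [Nat.card_eq_fintype_card, hn], CL.FieldAut.card_ringAut hn⟩

theorem exists_sq (a : F) : ∃ b, b * b = a := by
  obtain ⟨b, hb⟩ := FiniteField.isSquare_of_char_two (ringChar.eq F 2) a
  exact ⟨b, hb.symm⟩

theorem aut_comm (σ τ : F ≃+* F) : σ * τ = τ * σ := CL.FieldAut.ringAut_mul_comm σ τ

/-- the Galois group is cyclic -/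
theorem aut_inv_unique {σ τ : F ≃+* F} (h1 : σ ≠ 1) (h2 : σ * σ = 1) (h3 : τ ≠ 1)
    (h4 : τ * τ = 1) : σ = τ := by
  classical
  have := Fintype.ofFinite (F ≃+* F)
  by_contra hne
  have h5 := IsCyclic.card_pow_eq_one_le (α := F ≃+* F) (n := 2) (by decide)
  have h6 : ({1, σ, τ} : Finset (F ≃+* F)) ⊆ Finset.univ.filter fun a => a ^ 2 = 1 := by
    intro a ha
    simp only [Finset.mem_insert, Finset.mem_singleton] at ha
    rcases ha with rfl | rfl | rfl <;> simp [pow_two, h2, h4]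
  have h7 := Finset.card_le_card h6
  rw [Finset.card_insert_of_notMem (by simp [h1.symm, h3.symm]), Finset.card_pair hne] at h7
  omega

/-- an automorphism of order 2 is `a ↦ a ^ q0`, `q = q0 ^ 2` -/
theorem aut_two {φ : F ≃+* F} (h1 : φ ≠ 1) (h2 : φ * φ = 1) :
    ∃ n, 0 < n ∧ Nat.card F = (2 ^ n) ^ 2 ∧ (∀ a, φ a = a ^ 2 ^ n) ∧
      Nat.card {a : F // φ a = a} = 2 ^ n := by
  have := Fintype.ofFinite F
  obtain ⟨⟨f, f0⟩, -, hf⟩ := FiniteField.card F 2
  have o : orderOf φ = 2 := orderOf_eq_prime (by rw [pow_two, h2]) h1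
  obtain ⟨n, hn⟩ := o ▸ CL.FieldAut.orderOf_dvd hf φ
  simp only [PNat.mk_coe] at hf hn
  have c1 := CL.FieldAut.card_fixF hf φ
  rw [o, hn, Nat.mul_div_cancel_left _ two_pos] at c1
  refine ⟨n, by omega, by rw [Nat.card_eq_fintype_card, hf, hn, ← pow_mul, mul_comm], fun a => ?_, ?_⟩
  · let ψ : F ≃+* F := iterateFrobeniusEquiv F 2 n
    have e : ∀ a, ψ a = a ^ 2 ^ n := fun a => iterateFrobeniusEquiv_def F 2 n a
    rw [← e, aut_inv_unique h1 h2 (τ := ψ) (fun h => ?_) (RingEquiv.ext fun a => ?_)]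
    · obtain ⟨b, hb⟩ : ∃ b, φ b ≠ b := by
        by_contra! k
        exact h1 (RingEquiv.ext k)
      refine hb (CL.FieldAut.mem_fixF.1 ((CL.FieldAut.mem_fixF_iff_pow φ b).2 ?_))
      rw [c1, ← e, h]; rfl
    · rw [RingAut.mul_apply, e, e, ← pow_mul, ← pow_add, ← two_mul, ← hn, ← hf, FiniteField.pow_card]; rfl
  · rw [← c1]
    exact Nat.card_congr (Equiv.subtypeEquivRight fun a => CL.FieldAut.mem_fixF.symm)

theorem exists_trace {φ : F ≃+* F} (h1 : φ ≠ 1) (h2 : φ * φ = 1) {a : F} (ha : φ a = a) :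
    ∃ θ, θ + φ θ = a := by
  obtain ⟨b, hb⟩ : ∃ b, φ b ≠ b := by
    by_contra! k
    exact h1 (RingEquiv.ext k)
  have e : φ (φ b) = b := congr($h2 b)
  have n : b + φ b ≠ 0 := fun h => hb (by rw [← CharTwo.add_eq_zero, add_comm, h])
  refine ⟨a * b / (b + φ b), ?_⟩
  rw [map_div₀, map_mul, map_add, e, ha, add_comm (φ b), ← add_div, ← mul_add, mul_div_assoc, div_self n, mul_one]

theorem exists_norm {φ : F ≃+* F} (h1 : φ ≠ 1) (h2 : φ * φ = 1) {a : F} (ha : φ a = a) :
    ∃ b, b * φ b = a := by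
  obtain ⟨b, hb⟩ := exists_sq a
  refine ⟨b, ?_⟩
  have : φ b * φ b = b * b := by rw [← map_mul, hb, ha]
  rw [← pow_two, ← pow_two] at this
  rw [CharTwo.sq_injective this, hb]

theorem exists_ne_01 (h : 2 < Nat.card F) : ∃ a : F, a ≠ 0 ∧ a ≠ 1 := by
  classical
  have := Fintype.ofFinite F
  by_contra! k
  have h1 : (Finset.univ : Finset F) ⊆ {0, 1} := fun a _ => by
    by_cases e : a = 0 <;> simp [e, k]
  have h2 := (Finset.card_le_card h1).trans Finset.card_le_two
  rw [Finset.card_univ, ← Nat.card_eq_fintype_card] at h2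
  omega

theorem odd_card_sub : Odd (Nat.card F - 1) := by
  obtain ⟨n, h0, h1, -⟩ := card_F F
  rw [h1]
  exact Nat.Even.sub_odd Nat.one_le_two_pow ((Nat.even_pow' h0.ne').2 even_two) odd_one

theorem order_center {c : SL m F} (h : c ∈ center (SL m F)) : orderOf c ∣ Nat.card F - 1 := by
  have := Fintype.ofFinite F
  obtain ⟨r, h1, h2⟩ := Matrix.SpecialLinearGroup.mem_center_iff.1 h
  have r0 : r ≠ 0 := fun e => by simp [e, NeZero.ne m] at h1
  refine orderOf_dvd_of_pow_eq_one (Subtype.ext ?_)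
  rw [Matrix.SpecialLinearGroup.coe_pow, ← h2, ← map_pow, Nat.card_eq_fintype_card,
    FiniteField.pow_card_sub_one_eq_one r r0, map_one, Matrix.SpecialLinearGroup.coe_one]

theorem odd_center {c : SL m F} (h : c ∈ center (SL m F)) : Odd (orderOf c) := odd_card_sub.of_dvd_nat (order_center h)

theorem eq_one_of_center {c : SL m F} (h : c ∈ center (SL m F)) {n : ℕ} (hc : c ^ 2 ^ n = 1) :
    c = 1 := orderOf_eq_one_iff.1 (Nat.eq_one_of_dvd_coprimes
    ((Nat.coprime_two_right.2 (odd_center h)).pow_right n) dvd_rfl (orderOf_dvd_of_pow_eq_one hc))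

theorem exists_third (hm : 3 ≤ m) (i k : Fin m) : ∃ j, j ≠ i ∧ j ≠ k := by
  classical
  by_contra! h
  have h1 : (Finset.univ : Finset (Fin m)) ⊆ {i, k} := fun a _ => by
    by_cases e : a = i
    · simp [e]
    · simp [h a e]
  have h2 := (Finset.card_le_card h1).trans Finset.card_le_two
  rw [Finset.card_univ, Fintype.card_fin] at h2
  omega

theorem commutator_SL (hm : 3 ≤ m) : commutator (SL m F) = ⊤ := by
  rw [eq_top_iff, ← closure_x, closure_le]
  rintro _ ⟨i, k, a, rfl⟩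
  by_cases h : i = k
  · rw [h, x_self]; exact Subgroup.one_mem _
  obtain ⟨j, h1, h2⟩ := exists_third hm i k
  rw [← mul_one a, ← x_tri h1.symm h2 h]
  exact Subgroup.commutator_mem_commutator (mem_top _) (mem_top _)

/-- `SL` is quasisimple (S0249) -/
theorem normal_SL (hm : 3 ≤ m) (N : Subgroup (SL m F)) [N.Normal] : N ≤ center _ ∨ N = ⊤ := by
  have := Cfsg.Agent.S0249.result (F := F) m hm
  have hs := QuotientGroup.mk'_surjective (center (SL m F))
  rcases (‹N.Normal›.map _ hs).eq_bot_or_eq_top with h | h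
  · left
    rwa [Subgroup.map_eq_bot_iff, QuotientGroup.ker_mk'] at h
  · right
    have h1 : N ⊔ center (SL m F) = ⊤ := by
      have := congrArg (Subgroup.comap (QuotientGroup.mk' (center (SL m F)))) h
      rwa [Subgroup.comap_map_eq, QuotientGroup.ker_mk', comap_top] at this
    rw [eq_top_iff, ← commutator_SL hm, commutator_def, Subgroup.commutator_le]
    intro a _ b _
    obtain ⟨n, hn, z, hz, rfl⟩ := Subgroup.mem_sup_of_normal_left.1 (h1.ge (mem_top a))
    have := N.mul_mem hn (‹N.Normal›.conj_mem _ (N.inv_mem hn) b)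
    convert this using 1
    rw [commutatorElement_def, mul_assoc n z b, ← mem_center_iff.1 hz b]
    group

/-- an automorphism which is trivial modulo the centre is trivial -/
theorem aut_eq_one (hm : 3 ≤ m) {α : MulAut (SL m F)}
    (h : ∀ b, α b * b⁻¹ ∈ center (SL m F)) : α = 1 := by
  have : ⊤ ≤ Fx α := by
    rw [← commutator_SL hm, commutator_def, Subgroup.commutator_le]
    intro a _ b _
    have e1 := mem_center_iff.1 (h a)
    have e2 := mem_center_iff.1 (h b)
    rw [mem_Fx, map_commutatorElement, show α a = α a * a⁻¹ * a by simp, show α b = α b * b⁻¹ * b by simp]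
    generalize α a * a⁻¹ = y at *
    generalize α b * b⁻¹ = z at *
    calc _ = y * (a * (z * (b * a⁻¹ * y⁻¹ * b⁻¹) * z⁻¹)) := by rw [commutatorElement_def]; group
      _ = y * (a * b * a⁻¹) * y⁻¹ * b⁻¹ := by rw [← e2]; group
      _ = _ := by rw [← e1, commutatorElement_def]; group
  exact MulEquiv.ext fun a => this (mem_top a)

theorem conj_eq_one {a : SL m F} : (MulAut.conj a : MulAut (SL m F)) = 1 ↔ a ∈ center _ := by
  rw [mem_center_iff, MulEquiv.ext_iff]
  exact forall_congr' fun b => by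
    rw [MulAut.conj_apply, MulAut.one_apply, mul_inv_eq_iff_eq_mul, eq_comm]

/-- the second centre is the centre -/
theorem center_of_comm (hm : 3 ≤ m) {a : SL m F} (h : ∀ b, a * b * a⁻¹ * b⁻¹ ∈ center (SL m F)) :
    a ∈ center (SL m F) := conj_eq_one.1 (aut_eq_one hm h)

theorem inn_eq_one (hm : 2 ≤ m) {g : GL (Fin m) F} : (inn g : MulAut (SL m F)) = 1 ↔
    ∃ c : F, (g : Matrix (Fin m) (Fin m) F) = c • (1 : Matrix (Fin m) (Fin m) F) := by
  constructor
  · intro h
    obtain ⟨c, hc⟩ := Matrix.mem_range_scalar_of_commute_single (M := (g : Matrix (Fin m) (Fin m) F))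
      fun i j hij => by
        have := congrArg Subtype.val (congr($h (x i j 1)))
        rw [inn_val, MulAut.one_apply, Units.mul_inv_eq_iff_eq_mul, x_val hij, mul_add, add_mul, mul_one,
          one_mul] at this
        exact (add_left_cancel this).symm
    exact ⟨c, by rw [← hc, scalar_apply, smul_one_eq_diagonal]⟩
  · rintro ⟨c, hc⟩
    refine MulEquiv.ext fun a => Subtype.ext ?_
    rw [inn_val, MulAut.one_apply, Units.mul_inv_eq_iff_eq_mul, hc]
    simp

/-- `GL = SL · (diagonal matrices diag(d, 1, …, 1))` -/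
theorem inn_eq (g : GL (Fin m) F) : ∃ (s : SL m F) (h : GL (Fin m) F) (d : Fin m → F),
    (h : Matrix (Fin m) (Fin m) F) = diagonal d ∧ (inn g : MulAut (SL m F)) = MulAut.conj s * inn h := by
  have h0 : (g : Matrix (Fin m) (Fin m) F).det ≠ 0 := g.det_ne_zero
  have hd : (diagonal (Function.update (1 : Fin m → F) 0 (g : Matrix (Fin m) (Fin m) F).det)).det =
      (g : Matrix (Fin m) (Fin m) F).det := by
    rw [det_diagonal, Finset.prod_update_of_mem (Finset.mem_univ _)]; simp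
  let h : GL (Fin m) F := Matrix.GeneralLinearGroup.mkOfDetNeZero _ (hd ▸ h0)
  have hh : (h : Matrix (Fin m) (Fin m) F).det = (g : Matrix (Fin m) (Fin m) F).det := hd
  let s : SL m F := ⟨(g * h⁻¹ : GL (Fin m) F), by
    rw [Units.val_mul, det_mul, Matrix.coe_units_inv, det_nonsing_inv, hh, Ring.inverse_eq_inv', mul_inv_cancel₀ h0]⟩
  refine ⟨s, h, _, rfl, ?_⟩
  rw [← inn_toGL, ← map_mul, show Matrix.SpecialLinearGroup.toGL s = g * h⁻¹ from Units.ext rfl, inv_mul_cancel_right]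

theorem diag_ne {h : GL (Fin m) F} {d : Fin m → F} (hd : (h : Matrix (Fin m) (Fin m) F) = diagonal d) (i : Fin m) :
    d i ≠ 0 := by
  have := h.det_ne_zero
  rw [hd, det_diagonal] at this
  exact Finset.prod_ne_zero_iff.1 this i (Finset.mem_univ _)

theorem inn_diag_x {h : GL (Fin m) F} {d : Fin m → F}
    (hd : (h : Matrix (Fin m) (Fin m) F) = diagonal d) (i j : Fin m) (a : F) :
    inn h (x i j a) = x i j (d i * a * (d j)⁻¹) := by
  by_cases e : i = j
  · rw [e, x_self, x_self, map_one]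
  refine Subtype.ext ?_
  rw [inn_val, Units.mul_inv_eq_iff_eq_mul, x_val e, x_val e, hd, mul_add, add_mul, mul_one, one_mul]
  congr 1
  ext k l
  rw [diagonal_mul, mul_diagonal, single_apply, single_apply]
  split_ifs with h1
  · rw [← h1.1, ← h1.2, inv_mul_cancel_right₀ (diag_ne hd j)]
  · simp

theorem map_Pat_diag {h : GL (Fin m) F} {d : Fin m → F}
    (hd : (h : Matrix (Fin m) (Fin m) F) = diagonal d) (s : Fin m → Fin m → Prop) :
    (Pat F s).map (inn h : MulAut (SL m F)).toMonoidHom = Pat F s := by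
  unfold Pat
  rw [MonoidHom.map_closure]
  congr 1
  ext g
  constructor
  · rintro ⟨_, ⟨i, j, a, h1, rfl⟩, rfl⟩
    exact ⟨i, j, _, h1, inn_diag_x hd i j a⟩
  · rintro ⟨i, j, a, h1, rfl⟩
    refine ⟨_, ⟨i, j, (d i)⁻¹ * a * d j, h1, rfl⟩, (inn_diag_x hd i j _).trans ?_⟩
    congr 1
    have := diag_ne hd i
    have := diag_ne hd j
    field_simp

theorem eq_one_of_pow {a : F} {n : ℕ} (h : a ^ 2 ^ n = 1) : a = 1 := by
  have := sub_pow_char_pow a 1 (p := 2) (n := n)
  rw [h, one_pow, sub_self] at this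
  exact sub_eq_zero.1 (pow_eq_zero_iff (by positivity) |>.1 this)

/-- an inner-diagonal automorphism of order `2 ^ n` is induced by a 2-element of `SL`
(replace `g` by an odd power, the determinant of a 2-element is 1) -/
theorem inn_two {g : GL (Fin m) F} {n : ℕ} (h : (inn g : MulAut (SL m F)) ^ 2 ^ n = 1)
    (hm : 2 ≤ m) : ∃ a : SL m F, a ^ 2 ^ n = 1 ∧ inn g = MulAut.conj a := by
  rw [← map_pow] at h
  obtain ⟨c, hc⟩ := (inn_eq_one hm).1 h
  obtain ⟨e, he⟩ := (iterateFrobeniusEquiv F 2 n).surjective c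
  rw [iterateFrobeniusEquiv_def] at he
  have c0 : c ≠ 0 := fun k => by
    have := (g ^ 2 ^ n).det_ne_zero
    rw [hc, k, zero_smul, det_zero] at this
    exact this rfl
  have e0 : e ≠ 0 := fun k => c0 (by rw [← he, k, zero_pow (by positivity)])
  have h1 : (e⁻¹ • (g : Matrix (Fin m) (Fin m) F)) ^ 2 ^ n = 1 := by
    rw [smul_pow, ← Units.val_pow_eq_pow_val, hc, smul_smul, inv_pow, he, inv_mul_cancel₀ c0, one_smul]
  let a : SL m F := ⟨e⁻¹ • (g : Matrix (Fin m) (Fin m) F), eq_one_of_pow (n := n) (by rw [← det_pow, h1, det_one])⟩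
  refine ⟨a, Subtype.ext (by rw [Matrix.SpecialLinearGroup.coe_pow]; exact h1), ?_⟩
  rw [← inn_toGL, eq_comm, ← mul_inv_eq_one, ← map_inv, ← map_mul, inn_eq_one hm]
  refine ⟨e⁻¹, ?_⟩
  rw [Units.val_mul, Matrix.SpecialLinearGroup.coe_GL_coe_matrix]
  show e⁻¹ • (g : Matrix (Fin m) (Fin m) F) * _ = _
  rw [smul_mul_assoc, Units.mul_inv]

theorem card_U : Nat.card (U m F) = Nat.card F ^ (m * (m - 1) / 2) := by
  have := Fintype.ofFinite F
  have e : Nat.card (U m F) = Nat.card ({p : Fin m × Fin m // p.1 < p.2} → F) := by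
    refine Nat.card_eq_of_bijective (fun a p => (a.1 : SL m F) p.1.1 p.1.2) ⟨fun a b h => ?_, fun f => ?_⟩
    · ext i j
      by_cases e : i < j
      · exact congrFun h ⟨(i, j), e⟩
      · rw [mem_U.1 a.2 i j (not_lt.1 e), mem_U.1 b.2 i j (not_lt.1 e)]
    · refine ⟨⟨⟨1 + Matrix.of fun i j => if h : i < j then f ⟨(i, j), h⟩ else 0, ?_⟩, mem_U.2 fun i j h => ?_⟩, ?_⟩
      · rw [det_of_isUpperTriangular]
        · simp
        · intro i j h
          have h' : j < i := h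
          simp [h'.ne', h'.not_gt]
      · show (1 + Matrix.of _ : Matrix _ _ F) i j = _
        simp [h.not_gt]
      · funext ⟨⟨i, j⟩, h⟩
        show (1 + Matrix.of _ : Matrix _ _ F) i j = _
        have h' : i < j := h
        simp [h', h'.ne]
  rw [e, Nat.card_fun, Nat.card_eq_fintype_card (α := {p : Fin m × Fin m // p.1 < p.2}), Fintype.card_subtype,
    Fintype.card_product_filter_lt, Fintype.card_fin, Nat.choose_two_right]

theorem pgroup_U : IsPGroup 2 (U m F) := by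
  obtain ⟨n, -, h, -⟩ := card_F F
  exact IsPGroup.of_card (by rw [card_U, h, ← pow_mul])

theorem card_GL_eq : Nat.card (GL (Fin m) F) = (Nat.card F - 1) * Nat.card (SL m F) := by
  have h1 := (Matrix.GeneralLinearGroup.det : GL (Fin m) F →* Fˣ).ker.card_mul_index
  rw [Subgroup.index_ker, MonoidHom.range_eq_top.2 Matrix.GeneralLinearGroup.det_surjective, Subgroup.card_top,
    Nat.card_units] at h1
  rw [← h1, mul_comm]
  congr 1
  refine (Nat.card_eq_of_bijective (fun a : SL m F => (⟨Matrix.SpecialLinearGroup.toGL a, Units.ext a.2⟩ :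
    (Matrix.GeneralLinearGroup.det : GL (Fin m) F →* Fˣ).ker)) ⟨fun a b h => ?_, fun ⟨g, hg⟩ => ?_⟩).symm
  · exact Matrix.SpecialLinearGroup.toGL_injective (congrArg Subtype.val h)
  · exact ⟨⟨g, congrArg Units.val hg⟩, Subtype.ext (Units.ext rfl)⟩

theorem odd_index_U : Odd (U m F).index := by
  have := Fintype.ofFinite F
  obtain ⟨n, n0, h, -⟩ := card_F F
  have h1 := card_GL_eq (m := m) (F := F)
  rw [← (U m F).card_mul_index, card_U, Matrix.card_GL_field, ← Nat.card_eq_fintype_card] at h1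
  have h2 : ∏ i : Fin m, (Nat.card F ^ m - Nat.card F ^ (i : ℕ)) =
      Nat.card F ^ (m * (m - 1) / 2) * ∏ i : Fin m, (Nat.card F ^ (m - i) - 1) := by
    rw [← Finset.sum_range_id, ← Fin.sum_univ_eq_sum_range (fun i => i), ← Finset.prod_pow_eq_pow_sum,
      ← Finset.prod_mul_distrib]
    refine Finset.prod_congr rfl fun i _ => ?_
    rw [Nat.mul_sub_one, ← pow_add, Nat.add_sub_cancel' i.2.le]
  rw [h2, mul_left_comm] at h1
  have h3 := Nat.eq_of_mul_eq_mul_left (pow_pos Nat.card_pos _) h1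
  refine (Nat.odd_mul.1 (?_ : Odd ((Nat.card F - 1) * _))).2
  rw [← h3]
  refine Finset.prod_induction _ Odd (fun _ _ => Odd.mul) odd_one fun i _ => ?_
  rw [h, ← pow_mul]
  exact Nat.Even.sub_odd Nat.one_le_two_pow
    ((Nat.even_pow' (Nat.mul_pos n0 (Nat.sub_pos_of_lt i.2)).ne').2 even_two) odd_one

theorem exists_sylow_U : ∃ P : Sylow 2 (SL m F), (P : Subgroup (SL m F)) = U m F := ⟨pgroup_U.toSylow odd_index_U.not_two_dvd_nat, rfl⟩

theorem conj_le_U {P : Subgroup (SL m F)} (h : IsPGroup 2 P) : ∃ s : SL m F, cj s P ≤ U m F := by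
  obtain ⟨S, hS⟩ := exists_sylow_U (m := m) (F := F)
  obtain ⟨Q, hQ⟩ := h.exists_le_sylow
  obtain ⟨s, hs⟩ := MulAction.exists_smul_eq (SL m F) Q S
  refine ⟨s, ?_⟩
  rw [← hS, ← hs]
  exact Subgroup.map_mono hQ

/-- 2-elements are unipotent -/
theorem two_iff {a : SL m F} : (∃ n, a ^ 2 ^ n = 1) ↔
    IsNilpotent ((a : Matrix (Fin m) (Fin m) F) - 1) := by
  have e : ∀ n, ((a : Matrix (Fin m) (Fin m) F) - 1) ^ 2 ^ n = (a : Matrix (Fin m) (Fin m) F) ^ 2 ^ n - 1 :=
    fun n => by rw [sub_pow_char_pow_of_commute _ _ (Commute.one_right _), one_pow]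
  constructor
  · rintro ⟨n, h⟩
    exact ⟨2 ^ n, by rw [e, ← Matrix.SpecialLinearGroup.coe_pow, h, Matrix.SpecialLinearGroup.coe_one, sub_self]⟩
  · rintro ⟨n, h⟩
    refine ⟨n, Subtype.ext ?_⟩
    rw [Matrix.SpecialLinearGroup.coe_pow, Matrix.SpecialLinearGroup.coe_one, ← sub_eq_zero, ← e]
    exact pow_eq_zero_of_le Nat.lt_two_pow_self.le h

/-- an element centralising `U` up to the centre -/
theorem cent_U (hm : 2 ≤ m) {a : SL m F} {n : ℕ} (h2 : a ^ 2 ^ n = 1)
    (h : ∀ u ∈ U m F, Commute a u) : ∃ c, a = zz c := by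
  have k : ∀ i j : Fin m, i < j → Commute (single i j (1 : F)) (a : Matrix (Fin m) (Fin m) F) := fun i j hij => by
    have := congrArg Subtype.val (h _ (x_mem (s := fun i j => i < j) hij 1)).eq
    rw [Matrix.SpecialLinearGroup.coe_mul, Matrix.SpecialLinearGroup.coe_mul, x_val hij.ne, mul_add, add_mul,
      mul_one, one_mul] at this
    exact (add_left_cancel this).symm
  have h0 := zero_ne_la (m := m) hm
  have e : (a : Matrix (Fin m) (Fin m) F) = a 0 0 • (1 : Matrix (Fin m) (Fin m) F) + single 0 la (a 0 la) := by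
    ext i j
    rw [Matrix.add_apply, Matrix.smul_apply, single_apply, smul_eq_mul]
    by_cases e : i = j
    · subst e
      rw [one_apply_eq, mul_one, if_neg (fun e => h0 (e.1.trans e.2.symm)), add_zero]
      by_cases e : i = 0
      · rw [e]
      · exact (diag_eq_of_commute_single (k 0 i (Fin.pos_iff_ne_zero.2 e))).symm
    rw [one_apply_ne e, mul_zero, zero_add]
    by_cases e1 : i = 0
    · by_cases e2 : j = la
      · rw [if_pos ⟨e1.symm, e2.symm⟩, e1, e2]
      · rw [if_neg fun e => e2 e.2.symm]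
        refine col_eq_zero_of_commute_single (k j la (lt_of_le_of_ne ?_ e2)) e
        rw [Fin.le_def, la_val]; omega
    · rw [if_neg fun e => e1 e.1.symm]
      exact row_eq_zero_of_commute_single (k 0 i (Fin.pos_iff_ne_zero.2 e1)) (Ne.symm e)
  have e1 : a 0 0 = 1 := by
    have h3 : (a : Matrix (Fin m) (Fin m) F) ^ 2 ^ (n + 1) = 1 := by
      rw [← Matrix.SpecialLinearGroup.coe_pow, pow_succ, pow_mul, h2, one_pow, Matrix.SpecialLinearGroup.coe_one]
    rw [e, add_pow_char_pow_of_commute _ _ ((Commute.one_left _).smul_left _), smul_pow, one_pow, pow_succ' 2 n,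
      pow_mul (single _ _ _), pow_two, single_mul_single_of_ne _ _ _ _ h0.symm, zero_pow (by positivity), add_zero,
      ← pow_succ'] at h3
    exact eq_one_of_pow (n := n + 1) (by simpa using congrFun (congrFun h3 0) 0)
  exact ⟨a 0 la, Subtype.ext (by rw [zz, x_val h0, e, e1, one_smul]; simp [h0])⟩

theorem zz_mem_comm (hm : 3 ≤ m) (c : F) : zz c ∈ ⁅U m F, U m F⁆ := by
  have h1 : (0 : Fin m) < ⟨1, by omega⟩ := Nat.zero_lt_one
  have h2 : (⟨1, by omega⟩ : Fin m) < la := by rw [Fin.lt_def, la_val]; show 1 < _; omega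
  rw [zz, ← mul_one c, ← x_tri h1.ne h2.ne (h1.trans h2).ne]
  exact Subgroup.commutator_mem_commutator (x_mem (s := fun i j => i < j) h1 c) (x_mem (s := fun i j => i < j) h2 1)

theorem IsRoot.conj {a : SL m F} (h : IsRoot a) (s : SL m F) : IsRoot (s * a * s⁻¹) := IsConj.trans h (isConj_iff.2 ⟨s, rfl⟩)

theorem IsRoot.std (hm : 3 ≤ m) {a : SL m F} (h : IsRoot a) (σ : F ≃+* F) (ε : Bool) :
    IsRoot (std σ ε a) := by
  have := (CL.SC.std σ ε : MulAut (SL m F)).toMonoidHom.map_isConj h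
  rwa [MulEquiv.coe_toMonoidHom, std_zz, map_one] at this

theorem row_step {i : Fin m} {v w : Fin m → F} (hv : v i ≠ 0) (hw : w i = v i) (h0 : w 0 = v 0) (i0 : i ≠ 0) :
    ∃ g : SL m F, (g : Matrix (Fin m) (Fin m) F) *ᵥ Pi.single 0 1 = Pi.single 0 1 ∧
      v ᵥ* ((g⁻¹ : SL m F) : Matrix (Fin m) (Fin m) F) = w := by
  refine ⟨rv i ((v i)⁻¹ • (w - v)), ?_, ?_⟩
  · ext k
    rw [mulVec_single_one, col_apply, rv_apply]
    simp [h0, one_apply, Pi.single_apply]
  · rw [inv_eq_of_mul_eq_one_right (el_row i _ (rv_mem i _))]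
    ext l
    simp only [vecMul, dotProduct, rv_apply, mul_add, Finset.sum_add_distrib, one_apply, mul_ite, mul_one, mul_zero,
      Finset.sum_ite_eq', Finset.mem_univ, if_true, ite_and]
    split_ifs with h
    · simp [mul_inv_cancel_left₀ hv]
    · rw [not_not.1 h, hw, add_zero]

/-- the subgroup fixing `e 0` and the complement acts transitively on the first row group -/
theorem row_trans (hm : 3 ≤ m) {v w : Fin m → F} (hv0 : v 0 = 0) (hw0 : w 0 = 0) (hv : v ≠ 0)
    (hw : w ≠ 0) : ∃ g : SL m F, (∀ k, k ≠ 0 → g k 0 = 0) ∧ g 0 0 = 1 ∧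
      v ᵥ* ((g⁻¹ : SL m F) : Matrix (Fin m) (Fin m) F) = w := by
  have tr : ∀ {u v w : Fin m → F},
      (∃ g : SL m F, (g : Matrix (Fin m) (Fin m) F) *ᵥ Pi.single 0 1 = Pi.single 0 1 ∧
        u ᵥ* ((g⁻¹ : SL m F) : Matrix (Fin m) (Fin m) F) = v) →
      (∃ g : SL m F, (g : Matrix (Fin m) (Fin m) F) *ᵥ Pi.single 0 1 = Pi.single 0 1 ∧
        v ᵥ* ((g⁻¹ : SL m F) : Matrix (Fin m) (Fin m) F) = w) →
      ∃ g : SL m F, (g : Matrix (Fin m) (Fin m) F) *ᵥ Pi.single 0 1 = Pi.single 0 1 ∧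
        u ᵥ* ((g⁻¹ : SL m F) : Matrix (Fin m) (Fin m) F) = w := by
    rintro u v w ⟨g, a, b⟩ ⟨g', a', b'⟩
    exact ⟨g' * g, by rw [Matrix.SpecialLinearGroup.coe_mul, ← mulVec_mulVec, a, a'],
      by rw [_root_.mul_inv_rev, Matrix.SpecialLinearGroup.coe_mul, ← vecMul_vecMul, b, b']⟩
  obtain ⟨j, hj⟩ := Function.ne_iff.1 hw
  have j0 : j ≠ 0 := fun e => hj (e ▸ hw0)
  have k1 : ∀ {v : Fin m → F} {i : Fin m}, v 0 = 0 → v i ≠ 0 → i ≠ j →
      ∃ g : SL m F, (g : Matrix (Fin m) (Fin m) F) *ᵥ Pi.single 0 1 = Pi.single 0 1 ∧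
        v ᵥ* ((g⁻¹ : SL m F) : Matrix (Fin m) (Fin m) F) = w := fun {v i} a b c => by
    have i0 : i ≠ 0 := fun e => b (e ▸ a)
    exact tr (row_step (w := Function.update w i (v i)) b (by simp) (by simp [i0.symm, a, hw0]) i0)
      (row_step (i := j) (by simpa [c.symm] using hj) (by simp [c.symm]) (by simp [i0.symm]) j0)
  obtain ⟨g, a, b⟩ : ∃ g : SL m F, (g : Matrix (Fin m) (Fin m) F) *ᵥ Pi.single 0 1 = Pi.single 0 1 ∧
      v ᵥ* ((g⁻¹ : SL m F) : Matrix (Fin m) (Fin m) F) = w := by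
    obtain ⟨i, hi⟩ := Function.ne_iff.1 hv
    by_cases e : i = j
    · obtain ⟨k, h1, h2⟩ := exists_third hm 0 j
      exact tr (row_step (w := Function.update v k 1) hi (by simp [e, h2.symm]) (by simp [h1.symm]) (e ▸ j0))
        (k1 (i := k) (by simp [h1.symm, hv0]) (by simp) h2)
    · exact k1 hv0 hi e
  rw [mulVec_single_one] at a
  exact ⟨g, fun k hk => by simpa [hk] using congrFun a k, by simpa using congrFun a 0, b⟩

theorem row_trans' (hm : 3 ≤ m) {a b : SL m F} (ha : a ∈ row F 0) (hb : b ∈ row F 0) (ha1 : a ≠ 1)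
    (hb1 : b ≠ 1) : ∃ g ∈ normalizer (row F (0 : Fin m) : Set (SL m F)), g * a * g⁻¹ = b := by
  obtain ⟨v, v0, rfl⟩ := mem_row.1 ha
  obtain ⟨w, w0, rfl⟩ := mem_row.1 hb
  obtain ⟨g, h1, h2, h3⟩ := row_trans hm v0 w0 (fun e => ha1 (e ▸ rv_zero 0)) (fun e => hb1 (e ▸ rv_zero 0))
  exact ⟨g, norm_row h1, by rw [conj_rv h1 v0, h2, h3, one_smul]⟩

theorem isRoot_row (hm : 3 ≤ m) {i : Fin m} {a : SL m F} (h : a ∈ row F i) (h1 : a ≠ 1) :
    IsRoot a := by
  have h0 := zero_ne_la (m := m) (by omega)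
  have h2 : pm F (Equiv.swap i 0) * a * (pm F (Equiv.swap i 0))⁻¹ ∈ row F 0 := by
    have := cj_pm_row (F := F) (Equiv.swap i 0) i
    rw [Equiv.swap_apply_left] at this
    exact this ▸ ⟨a, h, rfl⟩
  obtain ⟨g, -, e⟩ := row_trans' hm (x_mem (s := fun k l => k = 0 ∧ l ≠ 0) ⟨rfl, h0.symm⟩ (1 : F)) h2
    (fun e => one_ne_zero ((x_eq_one h0).1 e)) (fun e => h1 (by simpa using e))
  exact (isConj_iff.2 ⟨g, e⟩).trans (isConj_iff.2 ⟨_, rfl⟩ : IsConj a _).symm

theorem isRoot_x (hm : 3 ≤ m) {i j : Fin m} (h : i ≠ j) {a : F} (ha : a ≠ 0) :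
    IsRoot (x i j a) := isRoot_row hm (x_mem (s := fun k l => k = i ∧ l ≠ i) ⟨rfl, h.symm⟩ a) fun e => ha ((x_eq_one h).1 e)

theorem conj_vv {a : SL m F} (g : SL m F) (h : ∃ u v : Fin m → F, u ≠ 0 ∧ v ≠ 0 ∧
    v ⬝ᵥ u = 0 ∧ (a : Matrix (Fin m) (Fin m) F) = 1 + vecMulVec u v) {u : Fin m → F} (hu : u = h.choose) :
    ∃ v : Fin m → F, (g : Matrix (Fin m) (Fin m) F) *ᵥ u ≠ 0 ∧ v ≠ 0 ∧ v ⬝ᵥ ((g : Matrix (Fin m) (Fin m) F) *ᵥ u) = 0 ∧
      ((g * a * g⁻¹ : SL m F) : Matrix (Fin m) (Fin m) F) = 1 + vecMulVec ((g : Matrix (Fin m) (Fin m) F) *ᵥ u) v := by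
  obtain ⟨v, h1, h2, h3, h4⟩ := h.choose_spec
  rw [← hu] at h1 h3 h4
  have e1 : ((g⁻¹ : SL m F) : Matrix (Fin m) (Fin m) F) * g = 1 := by
    rw [← Matrix.SpecialLinearGroup.coe_mul, inv_mul_cancel, Matrix.SpecialLinearGroup.coe_one]
  have e2 : (g : Matrix (Fin m) (Fin m) F) * (g⁻¹ : SL m F) = 1 := by
    rw [← Matrix.SpecialLinearGroup.coe_mul, mul_inv_cancel, Matrix.SpecialLinearGroup.coe_one]
  refine ⟨v ᵥ* ((g⁻¹ : SL m F) : Matrix (Fin m) (Fin m) F), fun e => h1 ?_, fun e => h2 ?_, ?_, ?_⟩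
  · rw [← one_mulVec u, ← e1, ← mulVec_mulVec, e, mulVec_zero]
  · rw [← vecMul_one v, ← e1, ← vecMul_vecMul, e, zero_vecMul]
  · rw [dotProduct_mulVec, vecMul_vecMul, e1, vecMul_one, h3]
  · rw [Matrix.SpecialLinearGroup.coe_mul, Matrix.SpecialLinearGroup.coe_mul, h4, mul_add, add_mul, mul_one, e2,
      mul_vecMulVec, vecMulVec_mul]

theorem isRoot_iff (hm : 3 ≤ m) {a : SL m F} : IsRoot a ↔ ∃ u v : Fin m → F, u ≠ 0 ∧ v ≠ 0 ∧
    v ⬝ᵥ u = 0 ∧ (a : Matrix (Fin m) (Fin m) F) = 1 + vecMulVec u v := by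
  constructor
  · intro h
    obtain ⟨g, rfl⟩ := isConj_iff.1 h
    have h0 := zero_ne_la (m := m) (by omega)
    exact ⟨_, conj_vv g ⟨Pi.single 0 1, Pi.single la 1, by simp, by simp, by simp [h0],
      by rw [zz, x_val h0, single_eq_single_vecMulVec_single]⟩ rfl⟩
  · intro h
    obtain ⟨i, hi⟩ : ∃ i, h.choose i ≠ 0 := Function.ne_iff.1 h.choose_spec.choose_spec.1
    obtain ⟨v, -, h2, h3, h4⟩ := conj_vv (cv i ((h.choose i)⁻¹ • -h.choose)) h rfl
    generalize h.choose = u at *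
    have e : ((cv i ((u i)⁻¹ • -u) : SL m F) : Matrix (Fin m) (Fin m) F) *ᵥ u = Pi.single i (u i) := by
      ext k
      simp only [mulVec, dotProduct, cv_apply, add_mul, Finset.sum_add_distrib, one_apply, ite_mul, one_mul, zero_mul,
        Finset.sum_ite_eq, Finset.sum_ite_eq', Finset.mem_univ, if_true, ite_and]
      split_ifs with h
      · simp [h, mul_right_comm _ _ (u i), hi]
      · simp [not_not.1 h]
    rw [e] at h3 h4
    have v0 : v i = 0 := by simpa [hi] using h3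
    have e' : cv i ((u i)⁻¹ • -u) * a * (cv i ((u i)⁻¹ • -u))⁻¹ = rv i (u i • v) := by
      ext k l
      rw [h4, rv_apply, Matrix.add_apply, vecMulVec_apply, Pi.single_apply]
      by_cases h : k = i <;> by_cases h' : l = i <;> simp [h, h', v0]
    have := (isRoot_row hm (rv_mem i (u i • v)) fun e => h2 (funext fun l => by
      by_cases h' : l = i
      · rw [h', v0]; rfl
      · simpa [hi] using rv_inj.1 (e.trans (rv_zero i).symm) l h')).conj (cv i ((u i)⁻¹ • -u))⁻¹
    rwa [← e', inv_inv, ← mul_assoc, ← mul_assoc, inv_mul_cancel, one_mul, inv_mul_cancel_right] at this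

theorem eq_zero_of_rank {N : Matrix (Fin m) (Fin m) F} (h : N.rank = 0) : N = 0 := by
  rw [Matrix.rank, Submodule.finrank_eq_zero, LinearMap.range_eq_bot] at h
  ext i j
  simpa using congrFun (LinearMap.congr_fun h (Pi.single j 1)) i

theorem isRoot_iff_rank (hm : 3 ≤ m) {a : SL m F} :
    IsRoot a ↔ ((a : Matrix (Fin m) (Fin m) F) - 1).rank = 1 := by
  rw [isRoot_iff hm]
  constructor
  · rintro ⟨u, v, h1, h2, -, h4⟩
    rw [h4, add_sub_cancel_left]
    have := rank_vecMulVec_le u v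
    have := mt eq_zero_of_rank (vecMulVec_ne_zero h1 h2)
    omega
  · intro h
    obtain ⟨⟨u, hu⟩, u0, k⟩ := finrank_eq_one_iff'.1 h
    choose v hv using fun j : Fin m => k ⟨_, Pi.single j 1, rfl⟩
    have e : (a : Matrix (Fin m) (Fin m) F) - 1 = vecMulVec u v := by
      ext i j
      have := congrFun (congrArg Subtype.val (hv j)) i
      simp only [SetLike.mk_smul_mk, Pi.smul_apply, smul_eq_mul, mulVecLin_apply, mulVec_single_one, col_apply] at this
      rw [vecMulVec_apply, mul_comm, this]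
    refine ⟨u, v, fun e => u0 (Subtype.ext e), fun e' => ?_, ?_, by rw [← e, add_sub_cancel]⟩
    · rw [e, e', vecMulVec_zero, rank_zero] at h
      exact zero_ne_one h
    · have := det_one_add_replicateCol_mul_replicateRow (ι := Unit) u v
      rw [← vecMulVec_eq, ← e, add_sub_cancel, a.det_coe] at this
      simpa using this

theorem IsRoot.sq {a : SL m F} (h : IsRoot a) : a * a = 1 := by
  obtain ⟨g, rfl⟩ := isConj_iff.1 h
  rw [conj_mul, zz, x_sq, mul_one, mul_inv_cancel]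

theorem IsRoot.ne_one (hm : 2 ≤ m) {a : SL m F} (h : IsRoot a) : a ≠ 1 := by
  rintro rfl
  exact one_ne_zero ((x_eq_one (zero_ne_la hm)).1 (isConj_one_left.1 h))

theorem IsRoot.isConj {a b : SL m F} (h : IsRoot a) (h' : IsRoot b) : IsConj a b := IsConj.trans (IsConj.symm h) h'

theorem IsRoot.inn (hm : 3 ≤ m) {a : SL m F} (h : IsRoot a) (g : GL (Fin m) F) :
    IsRoot (inn g a) := by
  obtain ⟨s, k, d, hd, e⟩ := inn_eq g
  have := (CL.SC.inn k : MulAut (SL m F)).toMonoidHom.map_isConj h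
  rw [MulEquiv.coe_toMonoidHom, zz, inn_diag_x hd] at this
  rw [e]
  exact IsRoot.conj (IsConj.trans (isRoot_x hm (zero_ne_la (by omega))
    (by simp [diag_ne hd])) this) s

theorem isRoot_col (hm : 3 ≤ m) {j : Fin m} {a : SL m F} (h : a ∈ col F j) (h1 : a ≠ 1) :
    IsRoot a := by
  have h2 : gr a ∈ row F j.rev := map_col_gr (F := F) j ▸ ⟨a, h, rfl⟩
  have := (isRoot_row hm h2 (by simpa using h1)).std hm 1 true
  rwa [std_one_true, gr_gr] at this

theorem isRoot_three (hm : m = 3) {a : SL m F} (h : a * a = 1) (h1 : a ≠ 1) : IsRoot a := by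
  rw [isRoot_iff_rank hm.ge]
  have e : ((a : Matrix (Fin m) (Fin m) F) - 1) * ((a : Matrix (Fin m) (Fin m) F) - 1) = 0 := by
    rw [← pow_two, ← pow_one 2, sub_pow_char_pow_of_commute _ _ (Commute.one_right _), one_pow, pow_one, pow_two,
      ← Matrix.SpecialLinearGroup.coe_mul, h, Matrix.SpecialLinearGroup.coe_one, sub_self]
  have h2 := rank_add_rank_le_card_of_mul_eq_zero e
  have h3 := mt eq_zero_of_rank fun e : (a : Matrix (Fin m) (Fin m) F) - 1 = 0 => h1 (Subtype.ext (sub_eq_zero.1 e))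
  rw [Fintype.card_fin] at h2
  omega

theorem closure_root (hm : 3 ≤ m) : closure {a : SL m F | IsRoot a} = ⊤ := by
  rw [eq_top_iff, ← closure_x, closure_le]
  rintro _ ⟨i, j, a, rfl⟩
  by_cases h : i = j
  · rw [h, x_self]; exact Subgroup.one_mem _
  by_cases ha : a = 0
  · rw [ha, x_zero]; exact Subgroup.one_mem _
  exact subset_closure (isRoot_x hm h ha)

theorem exists_three (hm : 2 ≤ m) : ∃ a : SL m F, orderOf a = 3 ∧ a ∉ center (SL m F) := by
  have h0 := zero_ne_la (m := m) hm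
  have e1 := pm_swap (F := F) h0
  have e2 := pm_swap (F := F) h0.symm
  have n : x 0 la 1 * x la 0 1 ∉ center (SL m F) := fun h => by
    have := mem_center_iff.1 h (x 0 la 1)
    rw [← e1, ← mul_assoc, x_sq, one_mul] at this
    have := congrFun (congrFun (congrArg Subtype.val this) 0) 0
    rw [x_val h0.symm, pm_apply] at this
    simp [h0, h0.symm] at this
  refine ⟨_, orderOf_eq_prime ?_ fun e => n (by rw [e]; exact Subgroup.one_mem _), n⟩
  have : pm F (Equiv.swap (0 : Fin m) la) * pm F (Equiv.swap la 0) = 1 := by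
    rw [← pm_mul, Equiv.swap_comm la, Equiv.swap_mul_self, pm_one]
  rw [← this, e1, e2]
  simp only [pow_succ, pow_zero, one_mul, mul_assoc]

/-- a torus element moving `zz 1` to `zz c` -/
theorem exists_dg_zz (hm : 3 ≤ m) {c : F} (hc : c ≠ 0) : ∃ d : Fin m → F, ∏ i, d i = 1 ∧
    ∀ a, dg d * zz a * (dg d)⁻¹ = zz (c * a) := by
  obtain ⟨j, h1, h2⟩ := exists_third hm 0 la
  have h0 := zero_ne_la (m := m) (by omega)
  have e : ∏ i, Function.update (Function.update (1 : Fin m → F) 0 c) j c⁻¹ i = 1 := by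
    rw [Finset.prod_update_of_mem (Finset.mem_univ _), Finset.prod_update_of_mem (by simp [h1.symm])]
    simp [hc]
  exact ⟨_, e, fun a => by rw [zz, dg_x e]; simp [zz, h1.symm, h2.symm, h0.symm]⟩

theorem dg_norm_Pat {d : Fin m → F} (h : ∏ i, d i = 1) (s : Fin m → Fin m → Prop) :
    dg d ∈ normalizer (Pat F s : Set (SL m F)) := by
  have := map_Pat_diag (h := Matrix.SpecialLinearGroup.toGL (dg d)) (dg_val h) s
  rw [inn_toGL] at this
  exact mem_normalizer_iff_map_conj_eq.2 this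

theorem two_lt_pow_cc (hp : Par m F) : 2 < Nat.card F ^ cc m := by
  have h1 : 2 ≤ cc m := by
    have := hp.1
    calc 2 = 1 * 2 := rfl
      _ ≤ _ := Nat.mul_le_mul (by omega) (by omega)
  calc 2 < 2 ^ 2 := by decide
    _ ≤ 2 ^ cc m := Nat.pow_le_pow_right two_pos h1
    _ ≤ _ := Nat.pow_le_pow_left Finite.one_lt_card _

end CL.SC
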