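import Cfsg.Agent.INV.SC.K0

/-!
Centralisers in the automorphism group.
-/

set_option autoImplicit false
set_option linter.unusedSectionVars false
set_option linter.unusedVariables false

namespace CL.SC

open Matrix Subgroup
open scoped commutatorElement

variable {m : ℕ} [NeZero m] {F : Type*} [Field F] [Finite F] [CharP F 2]

theorem inn_eq_iff {g : GL (Fin m) F} {u w : SL m F} : inn g u = w ↔
    (g : Matrix (Fin m) (Fin m) F) * u = w * (g : Matrix (Fin m) (Fin m) F) := by
  rw [← Units.mul_inv_eq_iff_eq_mul, ← inn_val]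
  exact ⟨fun h => by rw [h], fun h => Subtype.ext h⟩

theorem two_cols (g : GL (Fin m) F) {i j k : Fin m}
    (hi : ∀ r, r ≠ k → (g : Matrix (Fin m) (Fin m) F) r i = 0)
    (hj : ∀ r, r ≠ k → (g : Matrix (Fin m) (Fin m) F) r j = 0) : i = j := by
  by_contra hne
  have h : ∀ a b : Fin m, (∀ r, r ≠ k → (g : Matrix (Fin m) (Fin m) F) r b = 0) →
      ((g⁻¹ : GL (Fin m) F) : Matrix (Fin m) (Fin m) F) a k * (g : Matrix (Fin m) (Fin m) F) k b =
        (1 : Matrix (Fin m) (Fin m) F) a b := by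
    intro a b hb
    rw [← Units.inv_mul g, Matrix.mul_apply, Finset.sum_eq_single k]
    · intro r _ hr
      rw [hb r hr, mul_zero]
    · simp
  have h1 := h i i hi
  have h2 := h i j hj
  have h3 := h j j hj
  rw [one_apply_eq] at h1 h3
  rw [one_apply_ne hne] at h2
  rcases mul_eq_zero.1 h2 with e | e
  · rw [e, zero_mul] at h1
    exact zero_ne_one h1
  · rw [e, mul_zero] at h3
    exact zero_ne_one h3

theorem col_ne (g : GL (Fin m) F) {i k : Fin m}
    (hi : ∀ r, r ≠ k → (g : Matrix (Fin m) (Fin m) F) r i = 0) :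
    (g : Matrix (Fin m) (Fin m) F) k i ≠ 0 := fun h =>
  g.det_ne_zero (det_eq_zero_of_column_eq_zero i fun r => by
    by_cases e : r = k
    · rw [e, h]
    · exact hi r e)

theorem inn_x_iff {g : GL (Fin m) F} {i j k l : Fin m} (hij : i ≠ j) (hkl : k ≠ l) {a b : F} :
    inn g (x i j a) = x k l b ↔ ∀ r s, (if s = j then (g : Matrix (Fin m) (Fin m) F) r i * a else 0) =
      if r = k then b * (g : Matrix (Fin m) (Fin m) F) l s else 0 := by
  rw [inn_eq_iff, x_val hij, x_val hkl, mul_add, add_mul, mul_one, one_mul, add_right_inj,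
    ← Matrix.ext_iff]
  refine forall_congr' fun r => forall_congr' fun s => Eq.congr ?_ ?_
  · split_ifs with e
    · rw [e, mul_single_apply_same]
    · rw [mul_single_apply_of_ne _ _ _ _ _ e]
  · split_ifs with e
    · rw [e, single_mul_apply_same]
    · rw [single_mul_apply_of_ne _ _ _ _ _ e]

/-- the entries of `g` if it conjugates a root element to a root element -/
theorem supp {g : GL (Fin m) F} {i j k l : Fin m} (hij : i ≠ j) (hkl : k ≠ l) {a b : F} (ha : a ≠ 0)
    (h : inn g (x i j a) = x k l b) :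
    (∀ r, r ≠ k → (g : Matrix (Fin m) (Fin m) F) r i = 0) ∧
      (∀ s, s ≠ j → (g : Matrix (Fin m) (Fin m) F) l s = 0) ∧
      (g : Matrix (Fin m) (Fin m) F) k i ≠ 0 ∧
      (g : Matrix (Fin m) (Fin m) F) k i * a = b * (g : Matrix (Fin m) (Fin m) F) l j := by
  have h0 := (inn_x_iff hij hkl).1 h
  have h1 : ∀ r, r ≠ k → (g : Matrix (Fin m) (Fin m) F) r i = 0 := fun r hr => by
    have := h0 r j
    rw [if_pos rfl, if_neg hr] at this
    exact (mul_eq_zero.1 this).resolve_right ha
  have h2 := col_ne g h1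
  have h3 := h0 k j
  rw [if_pos rfl, if_pos rfl] at h3
  have hb : b ≠ 0 := fun e => mul_ne_zero h2 ha (by rw [h3, e, zero_mul])
  refine ⟨h1, fun s hs => ?_, h2, h3⟩
  have := h0 k s
  rw [if_neg hs, if_pos rfl] at this
  exact (mul_eq_zero.1 this.symm).resolve_left hb

/-- a triangular matrix with constant diagonal induces an inner automorphism -/
theorem exists_sl {g : GL (Fin m) F} {c : F} (hc : c ≠ 0) (h : ∀ r s, s ≤ r →
    (g : Matrix (Fin m) (Fin m) F) r s = c * (1 : Matrix (Fin m) (Fin m) F) r s) :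
    ∃ a : SL m F, (∀ r s, (g : Matrix (Fin m) (Fin m) F) r s = c * a r s) ∧
      (inn g : MulAut (SL m F)) = MulAut.conj a := by
  have hd : (c⁻¹ • (g : Matrix (Fin m) (Fin m) F)).det = 1 := by
    rw [det_of_isUpperTriangular]
    · refine Finset.prod_eq_one fun r _ => ?_
      rw [Matrix.smul_apply, h r r le_rfl, one_apply_eq, mul_one, smul_eq_mul, inv_mul_cancel₀ hc]
    · intro r s hrs
      have hrs' : s < r := hrs
      rw [Matrix.smul_apply, h r s hrs'.le, one_apply_ne hrs'.ne', mul_zero, smul_zero]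
  obtain ⟨a, he⟩ : ∃ a : SL m F,
      (g : Matrix (Fin m) (Fin m) F) = c • (a : Matrix (Fin m) (Fin m) F) :=
    ⟨⟨_, hd⟩, by rw [smul_smul, mul_inv_cancel₀ hc, one_smul]⟩
  refine ⟨a, fun r s => by rw [he]; rfl, MulEquiv.ext fun u => inn_eq_iff.2 ?_⟩
  rw [he, smul_mul_assoc, mul_smul_comm]
  exact congrArg (fun b : SL m F => c • (b : Matrix (Fin m) (Fin m) F))
    (show a * u = MulAut.conj a u * a by rw [MulAut.conj_apply, inv_mul_cancel_right])

theorem std_x_false (σ : F ≃+* F) (i j : Fin m) (a : F) :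
    (std σ false : MulAut (SL m F)) (x i j a) = x i j (σ a) := by rw [std_false, fld_x]

theorem std_x_true (σ : F ≃+* F) (i j : Fin m) (a : F) :
    (std σ true : MulAut (SL m F)) (x i j a) = x j.rev i.rev (σ a) := by
  rw [std, cond_true, MulAut.mul_apply, gr_x, fld_x]

theorem conj_inj_sq {a b : SL m F} (ha : a * a = 1) (hb : b * b = 1)
    (h : (MulAut.conj a : MulAut (SL m F)) = MulAut.conj b) : a = b := by
  have h1 : a⁻¹ * b ∈ center (SL m F) :=
    conj_eq_one.1 (by rw [map_mul, map_inv, h, inv_mul_cancel])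
  have h2 := mem_center_iff.1 h1 a
  have h3 : a⁻¹ = a := inv_eq_of_mul_eq_one_right ha
  refine inv_mul_eq_one.1 (eq_one_of_center h1 (n := 1) ?_)
  rw [h3] at h2 ⊢
  rw [pow_one, pow_two, ← mul_assoc, ← h2, ← mul_assoc, ha, one_mul, hb]

theorem mem_Q' (hm : 2 ≤ m) {s : SL m F} (h0 : s 0 0 = 1)
    (hl : ∀ c, s la c = (1 : Matrix (Fin m) (Fin m) F) la c)
    (h : ∀ r c, r ≠ 0 → c ≠ la → s r c = (1 : Matrix (Fin m) (Fin m) F) r c) : s ∈ Q m F := by
  have h0l := zero_ne_la (m := m) hm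
  have h1 : s * cv la (fun k => - s k la) ∈ row F (0 : Fin m) := by
    rw [row, mem_Pat (hs_row 0)]
    intro r c hrc
    rw [Matrix.SpecialLinearGroup.coe_mul, Matrix.mul_apply]
    simp only [cv_apply, mul_add, Finset.sum_add_distrib]
    rw [← Matrix.mul_apply, mul_one]
    by_cases hc : c = la
    · subst hc
      have hr : r ≠ 0 := fun e => hrc ⟨e, h0l.symm⟩
      by_cases hr' : r = la
      · subst hr'
        rw [hl, add_eq_left]
        refine Finset.sum_eq_zero fun k _ => ?_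
        split_ifs with e
        · rw [hl, one_apply_ne e.2.symm, zero_mul]
        · rw [mul_zero]
      · rw [Finset.sum_eq_single r, if_pos ⟨rfl, hr'⟩, h r r hr hr', one_apply_eq, one_apply_ne hr']
        · ring
        · intro k _ hk
          split_ifs with e
          · rw [h r k hr e.2, one_apply_ne hk.symm, zero_mul]
          · rw [mul_zero]
        · simp
    · rw [Finset.sum_eq_zero fun k _ => by rw [if_neg fun e => hc e.1, mul_zero], add_zero]
      by_cases hr : r = 0
      · have : c = 0 := by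
          by_contra e
          exact hrc ⟨hr, e⟩
        rw [hr, this, h0, one_apply_eq]
      · exact h r c hr hc
  have h2 : s = s * cv la (fun k => - s k la) * (cv la (fun k => - s k la))⁻¹ := by group
  rw [h2]
  exact mul_mem (mem_sup_left h1) (inv_mem (mem_sup_right (cv_mem _ _)))

theorem le_la (i : Fin m) : i ≤ la := by
  rw [Fin.le_def, la_val]
  omega

/-- entries of `g u = z u' g` -/
theorem ent_X {g : GL (Fin m) F} (hm : 2 ≤ m) {i j k l : Fin m} (hij : i ≠ j) (hkl : k ≠ l)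
    (hk : k ≠ la) (h : inn g (x i j (1 : F)) * (x k l 1)⁻¹ ∈ X F 0 la) : ∃ c : F, ∀ r s,
      (if s = j then (g : Matrix (Fin m) (Fin m) F) r i else 0) =
        (if r = 0 then c * (g : Matrix (Fin m) (Fin m) F) la s else 0) +
          if r = k then (g : Matrix (Fin m) (Fin m) F) l s else 0 := by
  obtain ⟨c, hc⟩ := mem_X.1 h
  refine ⟨c, fun r s => ?_⟩
  rw [mul_inv_eq_iff_eq_mul, inn_eq_iff, Matrix.SpecialLinearGroup.coe_mul, x_val hij, x_val hkl,
    x_val (zero_ne_la hm), mul_add, add_mul, add_mul, mul_add, mul_add, mul_one, one_mul, one_mul,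
    mul_one, single_mul_single_of_ne _ _ _ _ hk.symm, add_zero, add_mul, one_mul, add_assoc,
    add_right_inj] at hc
  have := congrFun (congrFun hc r) s
  rw [Matrix.add_apply, add_comm] at this
  convert this using 1
  · split_ifs with e
    · rw [e, mul_single_apply_same, mul_one]
    · rw [mul_single_apply_of_ne _ _ _ _ _ e]
  · congr 1
    · split_ifs with e
      · rw [e, single_mul_apply_same]
      · rw [single_mul_apply_of_ne _ _ _ _ _ e]
    · split_ifs with e
      · rw [e, single_mul_apply_same, one_mul]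
      · rw [single_mul_apply_of_ne _ _ _ _ _ e]

theorem map_mul_aut (β γ : MulAut (SL m F)) (H : Subgroup (SL m F)) :
    H.map (β * γ).toMonoidHom = (H.map γ.toMonoidHom).map β.toMonoidHom := by
  rw [Subgroup.map_map]; rfl

theorem cj_eq_of_norm {G : Type*} [Group G] {g : G} {H : Subgroup G}
    (h : g ∈ normalizer (H : Set G)) : cj g H = H := mem_normalizer_iff_map_conj_eq.1 h

/-- Write `α = inn g * std σ ε`.  `ε = true`: on `N = u vᵀ` (`u` supported on `i < d`, `v` on
`j ≥ d`) `α` acts as `N ↦ g J N^{σ T} J g⁻¹`, whose column space is spanned by `g J v^σ`; this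
must be proportional to `u` for all `u, v`, impossible as `d ≥ 2` or `m - d ≥ 2`.  `ε = false`:
`σ(c) g E g⁻¹ = c E` for all `c` gives `σ = 1`; `g` commutes with all `E i j`, `i < d ≤ j`, so
`g = λ (1 + N)` with `1 + N ∈ A d`. -/
theorem cent_A (hm : 3 ≤ m) {d : ℕ} (h0 : 0 < d) (hd : d < m) {α : MulAut (SL m F)}
    (h : ∀ a ∈ A m F d, α a = a) : ∃ a ∈ A m F d, α = MulAut.conj a := by
  obtain ⟨σ, ε, g, rfl⟩ := exists_ty hm α
  have hx : ∀ (i j : Fin m) (a : F), (i : ℕ) < d → d ≤ (j : ℕ) →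
      inn g (std σ ε (x i j a)) = x i j a := fun i j a hi hj =>
    h _ (x_mem (s := fun i j : Fin m => (i : ℕ) < d ∧ d ≤ (j : ℕ)) ⟨hi, hj⟩ a)
  have hne : ∀ {i j : Fin m}, (i : ℕ) < d → d ≤ (j : ℕ) → i ≠ j := fun hi hj e => by
    rw [e] at hi
    omega
  have hla : d ≤ ((la : Fin m) : ℕ) := by rw [la_val]; omega
  cases ε
  · simp only [std_x_false] at hx
    have h1 := fun (i j : Fin m) (hi : (i : ℕ) < d) (hj : d ≤ (j : ℕ)) =>
      supp (hne hi hj) (hne hi hj) (by simp) (hx i j 1 hi hj)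
    simp only [map_one, mul_one, one_mul] at h1
    obtain ⟨-, -, hc, hc'⟩ := h1 0 la h0 hla
    have hσ : σ = 1 := RingEquiv.ext fun a => by
      by_cases ha : a = 0
      · simp [ha]
      · have := (supp (hne h0 hla) (hne h0 hla) (by simpa using ha) (hx 0 la a h0 hla)).2.2.2
        rw [← hc', mul_comm] at this
        exact mul_right_cancel₀ hc this
    have h2 : ∀ r s : Fin m, ¬ ((r : ℕ) < d ∧ d ≤ (s : ℕ)) → (g : Matrix (Fin m) (Fin m) F) r s =
        (g : Matrix (Fin m) (Fin m) F) 0 0 * (1 : Matrix (Fin m) (Fin m) F) r s := by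
      intro r s hrs
      by_cases e : r = s
      · subst e
        rw [one_apply_eq, mul_one]
        by_cases hr : (r : ℕ) < d
        · rw [(h1 r la hr hla).2.2.2, hc']
        · rw [(h1 0 r h0 (not_lt.1 hr)).2.2.2]
      · rw [one_apply_ne e, mul_zero]
        by_cases hs : (s : ℕ) < d
        · exact (h1 s la hs hla).1 r e
        · exact (h1 0 r h0 (by omega)).2.1 s (Ne.symm e)
    obtain ⟨a, ha, he⟩ := exists_sl hc fun r s hrs => h2 r s (by
      have := Fin.le_def.1 hrs
      omega)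
    refine ⟨a, mem_A.2 fun r s hrs => mul_left_cancel₀ hc ?_, by rw [hσ, std_one, mul_one, he]⟩
    rw [← ha, h2 r s hrs]
  · exfalso
    simp only [std_x_true] at hx
    have h1 := fun (i j : Fin m) (hi : (i : ℕ) < d) (hj : d ≤ (j : ℕ)) =>
      supp (by simpa using (hne hi hj).symm) (hne hi hj) (by simp) (hx i j 1 hi hj)
    by_cases hd2 : 2 ≤ d
    · exact (h1 0 la h0 hla).2.2.1 ((h1 ⟨1, by omega⟩ la (by simp only; omega) hla).1 0
        (fun e => by simpa using congrArg Fin.val e))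
    · have := two_cols g (h1 0 la h0 hla).1 (h1 0 ⟨1, by omega⟩ h0 (by simp only; omega)).1
      have := congrArg Fin.val (Fin.rev_injective this)
      rw [la_val] at this
      simp only at this
      omega

theorem cent_row (hm : 3 ≤ m) {α : MulAut (SL m F)} (h : ∀ a ∈ row F 0, α a = a) :
    ∃ a ∈ row F 0, α = MulAut.conj a := by
  rw [row_zero] at h ⊢
  exact cent_A hm one_pos (by omega) h

theorem cent_A0 (hm : 3 ≤ m) {α : MulAut (SL m F)} (h : ∀ a ∈ A m F (m / 2), α a = a)
    (h' : ∀ a ∈ A m F (m - m / 2), α a = a) : ∃ a ∈ A0 m F, α = MulAut.conj a := by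
  obtain ⟨a, ha, e⟩ := cent_A hm (by omega) (by omega) h
  obtain ⟨b, hb, e'⟩ := cent_A hm (by omega) (by omega) h'
  have := conj_inj_sq (el_A _ a ha) (el_A _ b hb) (e.symm.trans e')
  exact ⟨a, by rw [A0_eq]; exact ⟨ha, this ▸ hb⟩, e⟩

theorem cent_Q (hm : 3 ≤ m) {α : MulAut (SL m F)} (h : ∀ a ∈ Q m F, α a = a) :
    ∃ c, α = MulAut.conj (zz c) := by
  obtain ⟨a, ha, e⟩ := cent_row hm fun a ha => h a (mem_sup_left ha)
  obtain ⟨b, hb, e'⟩ := cent_A hm (d := m - 1) (by omega) (by omega) fun a ha =>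
    h a (mem_sup_right (col_la (F := F) (m := m) ▸ ha))
  have := conj_inj_sq (el_row _ a ha) (el_A _ b hb) (e.symm.trans e')
  rw [← col_la, ← this] at hb
  obtain ⟨c, hc⟩ := (mem_X (i := 0) (j := la) (g := a)).1 (by rw [← row_inf_col]; exact ⟨ha, hb⟩)
  exact ⟨c, by rw [e, hc, zz]⟩

/-- `std σ ε` maps `zz a` to `zz (σ a)` and fixes or swaps the two groups, so one may assume
`α = inn g`; `g E g⁻¹ = c E` (`E = E 0 la`) says that `g` fixes the line `F e 0` and the
hyperplane `v la = 0`. -/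
theorem nz (hm : 3 ≤ m) {α : MulAut (SL m F)} {a b : F} (ha : a ≠ 0) (h : α (zz a) = zz b) :
    ((row F 0).map α.toMonoidHom = row F 0 ∧ (col F la).map α.toMonoidHom = col F la ∧
      ∃ σ, Ty α σ false) ∨
    ((row F 0).map α.toMonoidHom = col F la ∧ (col F la).map α.toMonoidHom = row F 0 ∧
      ∃ σ, Ty α σ true) := by
  obtain ⟨σ, ε, g, rfl⟩ := exists_ty hm α
  obtain ⟨s, k, d, hd, e⟩ := inn_eq g
  have h0l := zero_ne_la (m := m) (by omega)
  rw [MulAut.mul_apply, std_zz, e, MulAut.mul_apply, zz, inn_diag_x hd, ← inn_toGL, zz] at h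
  obtain ⟨h1, h2, -⟩ := supp h0l h0l (mul_ne_zero (mul_ne_zero (diag_ne hd _) (by simpa using ha))
    (inv_ne_zero (diag_ne hd _))) h
  have hr : ((row F 0).map (inn k : MulAut (SL m F)).toMonoidHom).map
      (MulAut.conj s).toMonoidHom = row F 0 := by
    rw [row, map_Pat_diag hd]
    exact cj_eq_of_norm (norm_row h1)
  have hc : ((col F la).map (inn k : MulAut (SL m F)).toMonoidHom).map
      (MulAut.conj s).toMonoidHom = col F la := by
    rw [col, map_Pat_diag hd]
    exact cj_eq_of_norm (norm_col h2)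
  have hfr : (row F 0).map (fld σ : MulAut (SL m F)).toMonoidHom = row F 0 := map_Pat_fld _ _
  have hfc : (col F la).map (fld σ : MulAut (SL m F)).toMonoidHom = col F la := map_Pat_fld _ _
  cases ε
  · refine .inl ⟨?_, ?_, σ, g, rfl⟩
    · rw [e, std_false, map_mul_aut, map_mul_aut, hfr, hr]
    · rw [e, std_false, map_mul_aut, map_mul_aut, hfc, hc]
  · refine .inr ⟨?_, ?_, σ, g, rfl⟩
    · rw [e, std, cond_true, map_mul_aut, map_mul_aut, map_mul_aut, map_row_gr, hfc, hc]
    · rw [e, std, cond_true, map_mul_aut, map_mul_aut, map_mul_aut, map_col_gr, Fin.rev_rev, hfr, hr]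

theorem nz_Q (hm : 3 ≤ m) {α : MulAut (SL m F)} {a b : F} (ha : a ≠ 0) (h : α (zz a) = zz b) :
    (Q m F).map α.toMonoidHom = Q m F := by
  rcases nz hm ha h with ⟨h1, h2, -⟩ | ⟨h1, h2, -⟩
  · rw [Q, Subgroup.map_sup, h1, h2]
  · rw [Q, Subgroup.map_sup, h1, h2, sup_comm]

theorem nz_inner (hm : 3 ≤ m) {α : MulAut (SL m F)} (hα : Ty α 1 false) {a : F} (ha : a ≠ 0)
    (h : α (zz a) = zz a) (c : F) : α (zz c) = zz c := by
  obtain ⟨g, rfl⟩ := ty_inner.1 hα
  have h0l := zero_ne_la (m := m) (by omega)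
  obtain ⟨h1, h2, -, h3⟩ := supp h0l h0l ha h
  rw [mul_comm] at h3
  have h4 := mul_left_cancel₀ ha h3
  refine (inn_x_iff h0l h0l).2 fun r s => ?_
  by_cases hs : s = la <;> by_cases hr : r = 0
  · rw [if_pos hs, if_pos hr, hs, hr, h4, mul_comm]
  · rw [if_pos hs, if_neg hr, h1 r hr, zero_mul]
  · rw [if_neg hs, if_pos hr, h2 s hs, mul_zero]
  · rw [if_neg hs, if_neg hr]

/-- An automorphism trivial on `Z` and on `Q / Z` is induced by `Q`: by `nz` the type is
`(σ, false)` (`x 0 1 1` stays in the row), `σ = 1` as in `cent_A`, and `g` is block triangular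
with blocks `d0, h, dl`, `h = d0 = dl` scalar by `conj_rv`, `conj_cv`. -/
theorem cent_QZ (hm : 3 ≤ m) {α : MulAut (SL m F)} (hz : ∀ c, α (zz c) = zz c)
    (h : ∀ g ∈ Q m F, α g * g⁻¹ ∈ X F 0 la) : ∃ g ∈ Q m F, α = MulAut.conj g := by
  obtain ⟨σ, ε, g, rfl⟩ := exists_ty hm α
  have h0l := zero_ne_la (m := m) (by omega)
  simp only [MulAut.mul_apply, std_zz] at hz h
  obtain ⟨h1, h2, hc, hc'⟩ := supp h0l h0l (by simp) (hz 1)
  rw [map_one, mul_one, one_mul] at hc'
  have hσ : σ = 1 := RingEquiv.ext fun a => by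
    by_cases ha : a = 0
    · simp [ha]
    · have := (supp h0l h0l (by simpa using ha) (hz a)).2.2.2
      rw [← hc', mul_comm] at this
      exact mul_right_cancel₀ hc this
  subst hσ
  cases ε
  · have h3 : ∀ r k, r ≠ 0 → k ≠ la → (g : Matrix (Fin m) (Fin m) F) r k =
        (g : Matrix (Fin m) (Fin m) F) 0 0 * (1 : Matrix (Fin m) (Fin m) F) r k := by
      intro r k hr hk
      have := h (x k la 1) (mem_sup_right (X_le_col k la (mem_X.2 ⟨1, rfl⟩)))
      rw [std_one, MulAut.one_apply] at this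
      obtain ⟨c, hc⟩ := ent_X (by omega) hk hk hk this
      have := hc r la
      rw [if_pos rfl, if_neg hr, zero_add, ← hc'] at this
      rw [this, one_apply]
      split_ifs <;> simp
    have h4 : ∀ r s, s ≤ r → (g : Matrix (Fin m) (Fin m) F) r s =
        (g : Matrix (Fin m) (Fin m) F) 0 0 * (1 : Matrix (Fin m) (Fin m) F) r s := by
      intro r s hrs
      by_cases hr : r = 0
      · rw [hr, nonpos_iff_eq_zero] at hrs
        rw [hr, hrs, one_apply_eq, mul_one]
      by_cases hs : s = la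
      · rw [hs] at hrs
        rw [le_antisymm (le_la r) hrs, hs, one_apply_eq, mul_one, hc']
      · exact h3 r s hr hs
    obtain ⟨a, ha, he⟩ := exists_sl hc h4
    refine ⟨a, mem_Q' (by omega) (mul_left_cancel₀ hc ?_) (fun c => mul_left_cancel₀ hc ?_)
      fun r c hr hl => mul_left_cancel₀ hc ?_, by rw [std_one, mul_one, he]⟩
    · rw [← ha, mul_one]
    · rw [← ha, h4 _ _ (le_la c)]
    · rw [← ha, h3 r c hr hl]
  · exfalso
    obtain ⟨k, hk0, hkl⟩ := exists_third hm 0 (la : Fin m)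
    have := h (x 0 k 1) (mem_sup_left (X_le_row 0 k (mem_X.2 ⟨1, rfl⟩)))
    rw [std_x_true, map_one] at this
    obtain ⟨c, hc⟩ := ent_X (by omega) (by simpa using hk0) hk0.symm h0l this
    have := two_cols g (i := k.rev) (fun r hr => by simpa [hr] using hc r la) h1
    exact hkl (by rw [← Fin.rev_rev k, this])

/-- `a` commutes with `U`, so `a = zz c`; then use `x 1 0 1` (`m ≥ 4`) or a diagonal matrix
(`m = 3`, `q ≥ 4`); all of these are block triangular (`norm_A`). -/
theorem fix_A0 (hp : Par m F) {a : SL m F} (ha : a ∈ A0 m F)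
    (h : ∀ g, g ∈ normalizer (A m F (m / 2) : Set (SL m F)) →
      g ∈ normalizer (A m F (m - m / 2) : Set (SL m F)) → Commute g a) : a = 1 := by
  have hm := hp.1
  have h0l := zero_ne_la (m := m) (by omega)
  have ha2 : a ^ 2 ^ 1 = 1 := by
    rw [pow_one, pow_two]
    rw [A0_eq] at ha
    exact el_A _ a ha.1
  obtain ⟨c, rfl⟩ := cent_U (by omega) ha2 fun u hu => (h u (U_norm_A _ hu) (U_norm_A _ hu)).symm
  rw [zz, x_eq_one h0l]
  by_cases h4 : m ≤ 4
  · obtain ⟨b, hb0, hb1⟩ := exists_ne_01 (F := F) (by have := hp.2 h4; omega)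
    obtain ⟨d, hd, e⟩ := exists_dg_zz hm hb0
    have h1 := (h (dg d) (dg_norm_Pat hd _) (dg_norm_Pat hd _)).eq
    have h2 := e c
    rw [h1, mul_inv_cancel_right] at h2
    have h3 := x_inj h0l h2
    by_contra hc
    exact hb1 (mul_right_cancel₀ hc (by rw [← h3, one_mul]))
  · have h10 : (⟨1, by omega⟩ : Fin m) ≠ 0 := fun e => by simpa using congrArg Fin.val e
    have h1l : (⟨1, by omega⟩ : Fin m) ≠ la := fun e => by
      have := congrArg Fin.val e
      rw [la_val] at this
      simp only at this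
      omega
    have hn : ∀ d, 2 ≤ d → x (⟨1, by omega⟩ : Fin m) 0 (1 : F) ∈ normalizer (A m F d : Set (SL m F)) :=
      fun d hd => norm_A fun i j hj hi => by
        rw [x_val h10, Matrix.add_apply, one_apply_ne (fun e => by rw [e] at hi; omega),
          single_apply_of_row_ne (fun e => by rw [← e] at hi; simp only at hi; omega), add_zero]
    have h1 := (h _ (hn _ (by omega)) (hn _ (by omega))).eq
    have h2 := x_tri h10 h0l h1l (1 : F) c
    rw [zz] at h1
    rw [h1, mul_inv_cancel_right, mul_inv_cancel, one_mul] at h2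
    exact (x_eq_one h1l).1 h2.symm

theorem mem_Q_of_col (hm : 3 ≤ m) {s : SL m F} (hs : s ∈ U m F)
    (h : ∀ u ∈ col F la, s * u * s⁻¹ * u⁻¹ ∈ X F 0 la) : s ∈ Q m F := by
  rw [mem_U] at hs
  refine mem_Q' (by omega) (by rw [hs 0 0 le_rfl, one_apply_eq]) (fun c => hs _ _ (le_la c))
    fun r k hr hk => ?_
  have := h (x k la 1) (X_le_col k la (mem_X.2 ⟨1, rfl⟩))
  rw [← MulAut.conj_apply, ← inn_toGL] at this
  obtain ⟨c, hc⟩ := ent_X (by omega) hk hk hk this
  have h1 : s r k = 0 + if r = k then s la la else 0 := by simpa [hr] using hc r la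
  rw [h1, hs _ _ le_rfl, one_apply_eq, zero_add, one_apply]

theorem mem_Q_of_row (hm : 3 ≤ m) {s : SL m F} (hs : s ∈ U m F)
    (h : ∀ u ∈ row F 0, s * u * s⁻¹ * u⁻¹ ∈ X F 0 la) : s ∈ Q m F := by
  rw [mem_U] at hs
  refine mem_Q' (by omega) (by rw [hs 0 0 le_rfl, one_apply_eq]) (fun c => hs _ _ (le_la c))
    fun k l hk hl => ?_
  have := h (x 0 k 1) (X_le_row 0 k (mem_X.2 ⟨1, rfl⟩))
  rw [← MulAut.conj_apply, ← inn_toGL] at this
  obtain ⟨c, hc⟩ := ent_X (by omega) hk.symm hk.symm (zero_ne_la (by omega)) this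
  have h1 : (if l = k then s 0 0 else 0) = c * s la l + s k l := by simpa using hc 0 l
  rw [hs la l (le_la l), one_apply_ne (Ne.symm hl), mul_zero, zero_add, hs _ _ le_rfl,
    one_apply_eq] at h1
  rw [← h1, one_apply]
  simp only [eq_comm]

/-- All `s E i j s⁻¹` (`i < d ≤ j`) are strictly upper triangular.  Let `W = s ⟨e i, i < d⟩`; the
group is `1 + Hom(V / W, W)`.  If `e j ∉ W` then all of `W` lies in `⟨e i, i < j⟩`; with `j`
minimal `W = ⟨e i, i < j⟩`, and `j = d` by dimension. -/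
theorem cj_A_le_U {d : ℕ} (h0 : 0 < d) (hd : d < m) {s : SL m F}
    (h : cj s (A m F d) ≤ U m F) : cj s (A m F d) = A m F d := by
  refine cj_eq_of_norm (norm_A fun r i hi hr => ?_)
  by_contra hne
  have h1 : ∀ j c : Fin m, (c : ℕ) < d → ¬ (j : ℕ) < d → (s⁻¹ : SL m F) j c = 0 := by
    intro j c hc hj
    have hij : i ≠ j := fun e => hj (e ▸ hi)
    have h2 := mem_U.1 (h ⟨x i j 1, x_mem (s := fun i j : Fin m => (i : ℕ) < d ∧ d ≤ (j : ℕ))
      ⟨hi, not_lt.1 hj⟩ 1, rfl⟩) r c (by rw [Fin.le_def]; omega)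
    have h3 : (s * x i j 1 * s⁻¹ : SL m F) r c = (1 : Matrix (Fin m) (Fin m) F) r c +
        s r i * (s⁻¹ : SL m F) j c := by
      rw [conj_val (x_val hij 1), Matrix.add_apply, Matrix.mul_apply, Finset.sum_eq_single j,
        mul_single_apply_same, mul_one]
      · intro k _ hk
        rw [mul_single_apply_of_ne _ _ _ _ _ hk, zero_mul]
      · simp
    exact (mul_eq_zero.1 (add_eq_left.1 (h3.symm.trans h2))).resolve_left hne
  have := BT_inv (p := fun i : Fin m => (i : ℕ) < d) h1 r i hi (not_lt.2 hr)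
  rw [inv_inv] at this
  exact hne this

end CL.SC
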