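import Cfsg.Agent.INV.SC.Std

/-!
Explicit commutators of root elements.
-/

set_option autoImplicit false
set_option linter.unusedSectionVars false

namespace CL.SC.OA

open Matrix Subgroup
open scoped commutatorElement

variable {m : ℕ} [NeZero m] {F : Type*} [Field F] [Finite F] [CharP F 2]

/-- matrix units -/
def E (F : Type*) [Field F] (i j : Fin m) : Matrix (Fin m) (Fin m) F := single i j 1

theorem xE {i j : Fin m} (h : i ≠ j) (a : F) : ((x i j a : SL m F) : Matrix (Fin m) (Fin m) F) = 1 + a • E F i j := by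
  rw [x_val h, E, smul_single, smul_eq_mul, mul_one]

theorem EE (i j k l : Fin m) : E F i j * E F k l = if j = k then E F i l else 0 := by
  unfold E
  split_ifs with h
  · rw [h, single_mul_single_same, mul_one]
  · exact single_mul_single_of_ne _ _ _ _ h _

theorem comm_eq {a b c : SL m F} (h : ((a * b : SL m F) : Matrix (Fin m) (Fin m) F) = (c * (b * a) : SL m F)) :
    ⁅a, b⁆ = c := by
  rw [commutatorElement_def, Subtype.ext h]; group

theorem L1 {p q r s : Fin m} (h1 : p < q) (h2 : q < r) (h3 : r < s) (a a' b : F) :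
    ⁅x p q a * x r s a', x q r b⁆ = x p r (a * b) * x q s (a' * b) * x p s (a * a' * b) := by
  have h4 := h1.trans h2
  have h5 := h2.trans h3
  have h6 := h4.trans h3
  refine comm_eq ?_
  simp only [Matrix.SpecialLinearGroup.coe_mul, xE, mul_add, add_mul, one_mul, mul_one, smul_mul_assoc, mul_smul_comm,
    EE, if_true, if_false, smul_zero, add_zero, zero_mul, ne_eq, not_false_eq_true, h1.ne, h1.ne', h2.ne, h2.ne', h3.ne,
    h3.ne', h4.ne, h4.ne', h5.ne, h5.ne', h6.ne, h6.ne']
  match_scalars <;> grind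

theorem L2 {p q r s : Fin m} (h1 : p < q) (h2 : q < r) (h3 : r < s) (a a' b b' : F) :
    ⁅x p q a * x r s a', x q s b * x p r b'⁆ = x p s (a * b + a' * b') := by
  have h4 := h1.trans h2
  have h5 := h2.trans h3
  have h6 := h4.trans h3
  refine comm_eq ?_
  simp only [Matrix.SpecialLinearGroup.coe_mul, xE, mul_add, add_mul, one_mul, mul_one, smul_mul_assoc, mul_smul_comm,
    EE, if_true, if_false, smul_zero, add_zero, zero_mul, ne_eq, not_false_eq_true, h1.ne, h1.ne', h2.ne, h2.ne', h3.ne,
    h3.ne', h4.ne, h4.ne', h5.ne, h5.ne', h6.ne, h6.ne']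
  match_scalars <;> grind

theorem L3 {p q s : Fin m} (h1 : p < q) (h2 : q < s) (a a' c b b' c' : F) :
    ⁅x p q a * x q s a' * x p s c, x p q b * x q s b' * x p s c'⁆ = x p s (a * b' + a' * b) := by
  have h4 := h1.trans h2
  refine comm_eq ?_
  simp only [Matrix.SpecialLinearGroup.coe_mul, xE, mul_add, add_mul, one_mul, mul_one, smul_mul_assoc, mul_smul_comm,
    EE, if_true, if_false, smul_zero, add_zero, zero_mul, ne_eq, not_false_eq_true, h1.ne, h1.ne', h2.ne, h2.ne',
    h4.ne, h4.ne']
  match_scalars <;> grind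

theorem L3' {p q s : Fin m} (h1 : p < q) (h2 : q < s) (a a' c : F) :
    x q s a' * x p q a * x p s c = x p q a * x q s a' * x p s (c + a * a') := by
  have h4 := h1.trans h2
  refine Subtype.ext ?_
  simp only [Matrix.SpecialLinearGroup.coe_mul, xE, mul_add, add_mul, one_mul, mul_one, smul_mul_assoc, mul_smul_comm,
    EE, if_true, if_false, smul_zero, add_zero, zero_mul, ne_eq, not_false_eq_true, h1.ne, h1.ne', h2.ne, h2.ne',
    h4.ne, h4.ne']
  match_scalars <;> grind

theorem L4 {p q r r' q' s : Fin m} (h1 : p < q) (h2 : q < r) (h3 : r < r') (h4 : r' < q') (h5 : q' < s) :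
    ⁅x p r (1 : F) * x r' s 1, x q r' (1 : F) * x r q' 1⁆ = x p q' 1 * x q s 1 := by
  have a1 := h1.trans h2
  have a2 := a1.trans h3
  have a3 := a2.trans h4
  have a4 := a3.trans h5
  have a5 := h2.trans h3
  have a6 := a5.trans h4
  have a7 := a6.trans h5
  have a8 := h3.trans h4
  have a9 := a8.trans h5
  have a10 := h4.trans h5
  refine comm_eq ?_
  simp only [Matrix.SpecialLinearGroup.coe_mul, xE, mul_add, add_mul, one_mul, mul_one, smul_mul_assoc, mul_smul_comm,
    EE, if_true, if_false, smul_zero, add_zero, zero_mul, ne_eq, not_false_eq_true, h1.ne, h1.ne', h2.ne, h2.ne', h3.ne,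
    h3.ne', h4.ne, h4.ne', h5.ne, h5.ne', a1.ne, a1.ne', a2.ne, a2.ne', a3.ne, a3.ne', a4.ne, a4.ne', a5.ne, a5.ne',
    a6.ne, a6.ne', a7.ne, a7.ne', a8.ne, a8.ne', a9.ne, a9.ne', a10.ne, a10.ne']
  match_scalars <;> grind

theorem pow4 {p s : Fin m} (h : p ≠ s) (a : F) : ((x p s a * x s p a) ^ 4 : SL m F) p s = a ^ 7 := by
  have e1 : ((x p s a * x s p a : SL m F) : Matrix (Fin m) (Fin m) F) =
      1 + (a • E F p s + a • E F s p + a ^ 2 • E F p p) := by
    simp only [Matrix.SpecialLinearGroup.coe_mul, xE, mul_add, add_mul, one_mul, mul_one, smul_mul_assoc,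
      mul_smul_comm, EE, if_true, ne_eq, not_false_eq_true, h, h.symm]
    match_scalars <;> grind
  have e2 : ((x p s a * x s p a : SL m F) : Matrix (Fin m) (Fin m) F) ^ 2 =
      1 + (a ^ 3 • E F p s + a ^ 3 • E F s p + (a ^ 4 + a ^ 2) • E F p p + a ^ 2 • E F s s) := by
    simp only [e1, pow_two, mul_add, add_mul, one_mul, mul_one, smul_mul_assoc, mul_smul_comm, EE, if_true, if_false,
      smul_zero, add_zero, h, h.symm]
    match_scalars <;> grind
  have e3 : ((x p s a * x s p a : SL m F) : Matrix (Fin m) (Fin m) F) ^ 4 =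
      1 + (a ^ 7 • E F p s + a ^ 7 • E F s p + (a ^ 8 + a ^ 6 + a ^ 4) • E F p p + (a ^ 6 + a ^ 4) • E F s s) := by
    rw [show 4 = 2 * 2 from rfl, pow_mul, e2]
    simp only [pow_two, mul_add, add_mul, one_mul, mul_one, smul_mul_assoc, mul_smul_comm, EE, if_true, if_false,
      smul_zero, add_zero, h, h.symm]
    match_scalars <;> grind
  show (((x p s a * x s p a) ^ 4 : SL m F) : Matrix (Fin m) (Fin m) F) p s = _
  rw [Matrix.SpecialLinearGroup.coe_pow, e3]
  simp [E, h, h.symm]

end CL.SC.OA
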