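import Cfsg.Agent.INV.SC.Std
import Cfsg.Agent.INV.SC.OutA
import Cfsg.Agent.INV.SC.CA

/-!
Fixed points of outer involutions.
-/

set_option autoImplicit false
set_option linter.unusedSectionVars false
set_option linter.unusedVariables false

namespace CL.SC

open Matrix Subgroup
open scoped commutatorElement

variable {m : ℕ} [NeZero m] {F : Type*} [Field F] [Finite F] [CharP F 2]

namespace OA

theorem xU {i j : Fin m} (h : i < j) (a : F) : x i j a ∈ U m F := x_mem (s := fun i j => i < j) h a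

theorem ex (k : ℕ) (h : k < m) : ∃ i : Fin m, (i : ℕ) = k := ⟨⟨k, h⟩, rfl⟩

theorem zz_F (hm : 3 ≤ m) {φ : F ≃+* F} (h1 : φ ≠ 1) (h2 : φ * φ = 1) (ε : Bool) :
    zz 1 ∈ ⁅U m F ⊓ Fx (std φ ε), U m F ⊓ Fx (std φ ε)⁆ ∧ ∃ y ∈ U m F, std φ ε y = y * zz 1 := by
  obtain ⟨θ, hθ⟩ := exists_trace h1 h2 (map_one φ)
  have e : φ (φ θ) = θ := congr($h2 θ)
  refine ⟨?_, zz θ, zz_mem_U θ, by rw [std_zz, zz, zz, zz, ← x_add, ← hθ, ← add_assoc, CharTwo.add_self_eq_zero, zero_add]⟩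
  obtain ⟨i, hi⟩ := ex (m := m) 1 (by omega)
  have hl := la_val (m := m)
  have a1 : 0 < i := by rw [Fin.lt_def, Fin.val_zero]; omega
  have a2 : i < la := by rw [Fin.lt_def]; omega
  have a3 := a1.trans a2
  cases ε
  · rw [zz, ← mul_one (1 : F), ← x_tri a1.ne a2.ne a3.ne]
    exact Subgroup.commutator_mem_commutator ⟨xU a1 1, mem_Fx.2 (by rw [std_x_false, map_one])⟩
      ⟨xU a2 1, mem_Fx.2 (by rw [std_x_false, map_one])⟩
  by_cases h3 : m = 3
  · have r : i.rev = i := Fin.ext (by rw [Fin.val_rev]; omega)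
    have k : ∀ a c : F, φ c + a * φ a = c → x 0 i a * x i la (φ a) * x 0 la c ∈ U m F ⊓ Fx (std φ true) := fun a c h =>
      ⟨Subgroup.mul_mem _ (Subgroup.mul_mem _ (xU a1 _) (xU a2 _)) (xU a3 _), mem_Fx.2 <| by
        rw [map_mul, map_mul, std_x_true, std_x_true, std_x_true, r, Fin.rev_rev,
          show φ (φ a) = a from congr($h2 a), L3' a1 a2, h]⟩
    have := Subgroup.commutator_mem_commutator (k 1 θ (by rw [map_one]; grind))
      (k θ (θ * θ * φ θ) (by rw [map_mul, map_mul, e]; grind))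
    rwa [L3 a1 a2, map_one, one_mul, one_mul, add_comm, hθ] at this
  · have b1 : i < i.rev := by rw [Fin.lt_def, Fin.val_rev]; omega
    have b2 : i.rev < la := by rw [Fin.lt_def, Fin.val_rev]; omega
    have := L2 a1 b1 b2 1 1 θ (φ θ)
    rw [one_mul, one_mul, hθ] at this
    rw [zz, ← this]
    refine Subgroup.commutator_mem_commutator ⟨Subgroup.mul_mem _ (xU a1 _) (xU b2 _), ?_⟩
      ⟨Subgroup.mul_mem _ (xU a2 _) (xU (a1.trans b1) _), ?_⟩
    · refine mem_Fx.2 ?_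
      rw [map_mul, std_x_true, std_x_true, Fin.rev_rev, Fin.rev_rev, map_one,
        (x_comm a3.ne b1.ne 1 1).eq]
    · refine mem_Fx.2 ?_
      rw [map_mul, std_x_true, std_x_true, Fin.rev_rev, Fin.rev_rev, e,
        (x_comm b1.ne a3.ne' _ _).eq]

theorem g1 (hm : 4 ≤ m) {i : Fin m} (hi : (i : ℕ) = 1) (a b : F) :
    x 0 i.rev (a * b) * x i la (a * b) * zz (a * a * b) ∈ ⁅U m F ⊓ Fx gr, U m F ⊓ Fx gr⁆ := by
  have hl := la_val (m := m)
  have a1 : 0 < i := by rw [Fin.lt_def, Fin.val_zero]; omega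
  have b1 : i < i.rev := by rw [Fin.lt_def, Fin.val_rev]; omega
  have b2 : i.rev < la := by rw [Fin.lt_def, Fin.val_rev]; omega
  rw [zz, ← L1 a1 b1 b2]
  refine Subgroup.commutator_mem_commutator ⟨Subgroup.mul_mem _ (xU a1 _) (xU b2 _), ?_⟩ ⟨xU b1 _, ?_⟩
  · refine mem_Fx.2 ?_
    rw [map_mul, gr_x, gr_x, Fin.rev_rev, Fin.rev_rev,
      (x_comm (a1.trans (b1.trans b2)).ne b1.ne a a).eq]
  · refine mem_Fx.2 ?_
    rw [gr_x, Fin.rev_rev]

theorem g2 (hm : 6 ≤ m) {i : Fin m} (hi : (i : ℕ) = 1) :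
    x 0 i.rev 1 * x i la 1 ∈ ⁅U m F ⊓ Fx gr, U m F ⊓ Fx gr⁆ := by
  have hl := la_val (m := m)
  obtain ⟨j, hj⟩ := ex (m := m) 2 (by omega)
  have a1 : 0 < i := by rw [Fin.lt_def, Fin.val_zero]; omega
  have a2 : i < j := by rw [Fin.lt_def]; omega
  have a3 : j < j.rev := by rw [Fin.lt_def, Fin.val_rev]; omega
  have a4 : j.rev < i.rev := Fin.rev_lt_rev.2 a2
  have a5 : i.rev < la := Fin.rev_lt_rev.2 a1
  rw [← L4 a1 a2 a3 a4 a5]
  refine Subgroup.commutator_mem_commutator ⟨Subgroup.mul_mem _ (xU (a1.trans a2) _) (xU (a4.trans a5) _), ?_⟩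
    ⟨Subgroup.mul_mem _ (xU (a2.trans a3) _) (xU (a3.trans a4) _), ?_⟩
  · refine mem_Fx.2 ?_
    rw [map_mul, gr_x, gr_x, Fin.rev_rev, Fin.rev_rev,
      (x_comm (a1.trans (a2.trans (a3.trans (a4.trans a5)))).ne a3.ne 1 1).eq]
  · refine mem_Fx.2 ?_
    rw [map_mul, gr_x, gr_x, Fin.rev_rev, Fin.rev_rev,
      (x_comm (a2.trans (a3.trans a4)).ne a3.ne' 1 1).eq]

theorem core_g (hp : Par m F) (hm : 4 ≤ m) : ∃ v ∈ ⁅U m F ⊓ Fx gr, U m F ⊓ Fx gr⁆, v ≠ 1 ∧ v * v = 1 ∧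
    ∃ y ∈ U m F, gr y = y * v := by
  have hl := la_val (m := m)
  obtain ⟨i, hi⟩ := ex (m := m) 1 (by omega)
  have a1 : 0 < i := by rw [Fin.lt_def, Fin.val_zero]; omega
  have b1 : i < i.rev := by rw [Fin.lt_def, Fin.val_rev]; omega
  have b2 : i.rev < la := Fin.rev_lt_rev.2 a1
  have a2 := b1.trans b2
  have a3 := a1.trans a2
  have cm : ∀ a b : F, Commute (x 0 i.rev a) (x i la b) := fun a b => x_comm a3.ne b1.ne' a b
  have n1 : ∀ d c : F, d ≠ 0 → x 0 i.rev d * x i la d * zz c ≠ 1 := fun d c hd e => by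
    have := congrFun (congrFun (congrArg Subtype.val e) i) la
    simp [zz, x_val, (a1.trans b1).ne, a2.ne, a3.ne, a1.ne, a1.ne', mul_add, add_mul, b1.ne', a3.ne', b2.ne] at this
    exact hd this
  have n2 : ∀ d c : F, x 0 i.rev d * x i la d * zz c * (x 0 i.rev d * x i la d * zz c) = 1 := fun d c => by
    rw [(zz_comm (Subgroup.mul_mem _ (xU (a1.trans b1) d) (xU a2 d)) c).mul_mul_mul_comm,
      (cm d d).symm.mul_mul_mul_comm, zz, x_sq, x_sq, x_sq, mul_one, mul_one]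
  have k : ∀ d : F, d ≠ 0 → x 0 i.rev d * x i la d ∈ ⁅U m F ⊓ Fx gr, U m F ⊓ Fx gr⁆ →
      ∃ v ∈ ⁅U m F ⊓ Fx gr, U m F ⊓ Fx gr⁆, v ≠ 1 ∧ v * v = 1 ∧ ∃ y ∈ U m F, gr y = y * v := fun d hd h =>
    ⟨_, h, by simpa [zz, x_zero] using n1 d 0 hd, by simpa [zz, x_zero] using n2 d 0, x 0 i.rev d,
      xU (a1.trans b1) d, by rw [gr_x, Fin.rev_rev, ← mul_assoc, x_sq, one_mul]⟩
  by_cases h4 : m = 4
  · obtain ⟨c, c0, c1⟩ := exists_ne_01 (F := F) (by have := hp.2 h4.le; omega)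
    refine k (c * c + c) (fun e => ?_) ?_
    · rw [CharTwo.add_eq_zero] at e
      exact c1 (mul_right_cancel₀ c0 (e.trans (one_mul c).symm))
    · have := Subgroup.mul_mem _ (g1 hm hi 1 (c * c)) (g1 hm hi c 1)
      simp only [one_mul, mul_one] at this
      rwa [(zz_comm (Subgroup.mul_mem _ (xU (a1.trans b1) c) (xU a2 c)) _).mul_mul_mul_comm,
        (cm _ _).symm.mul_mul_mul_comm, zz, x_sq, mul_one, ← x_add, ← x_add] at this
  by_cases h5 : m = 5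
  · obtain ⟨j, hj⟩ := ex (m := m) 2 (by omega)
    have r : j.rev = j := Fin.ext (by rw [Fin.val_rev]; omega)
    have c1 : 0 < j := by rw [Fin.lt_def, Fin.val_zero]; omega
    have c2 : j < la := by rw [Fin.lt_def]; omega
    refine ⟨_, g1 hm hi 1 1, n1 _ _ (by simp), n2 _ _, x 0 j 1 * x j la 1 * x 0 i.rev 1,
      Subgroup.mul_mem _ (Subgroup.mul_mem _ (xU c1 _) (xU c2 _)) (xU (a1.trans b1) _), ?_⟩
    have := L3' c1 c2 (1 : F) 1 0
    rw [x_zero, mul_one, zero_add, mul_one] at this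
    rw [map_mul, map_mul, gr_x, gr_x, gr_x, r, Fin.rev_rev, Fin.rev_rev, this]
    simp only [mul_one, mul_assoc]
    rw [← mul_assoc (x 0 i.rev 1), x_sq, one_mul, ← (zz_comm (xU a2 1) 1).eq, zz]
  · exact k 1 one_ne_zero (g2 (by omega) hi)

theorem sd_U {β : MulAut (SL m F)} (h : Sd β) : (∃ φ ε, φ ≠ 1 ∧ φ * φ = 1 ∧ β = std φ ε) ∨
    (β = gr ∨ Even m) ∧ Ty β 1 true ∧ ∀ u ∈ U m F, β u = gr u := by
  rcases h with h | rfl | ⟨e, rfl⟩
  · exact .inl h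
  · exact .inr ⟨.inl rfl, std_one_true (m := m) (F := F) ▸ ty_std 1 true, fun _ _ => rfl⟩
  · refine .inr ⟨.inr e, Si.ty ⟨_, by rw [std_one_true]⟩, fun u hu => ?_⟩
    rw [MulAut.mul_apply, MulAut.conj_apply, (zz_comm (std_one_true (m := m) (F := F) ▸ std_mem_U 1 true hu) 1).eq,
      mul_inv_cancel_right]

theorem zz_g (hp : Par m F) (hm : m = 3) : 
    ∃ a : F, a ≠ 0 ∧ (zz a : SL m F) ∈ ⁅Fx (gr : MulAut (SL m F)), Fx (gr : MulAut (SL m F))⁆ := by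
  obtain ⟨b, b0, b1⟩ := exists_ne_01 (F := F) (by have := hp.2 (by omega); omega)
  have h0 := zero_ne_la (m := m) (by omega)
  let d : Fin m → F := fun i => if i = 0 then b else if i = la then b⁻¹ else 1
  have e : ∏ i, d i = 1 := by
    rw [Finset.prod_eq_mul 0 la h0] <;> simp +contextual [d, h0.symm, b0]
  refine ⟨b * b + 1, fun k => b1 (eq_one_of_pow (n := 1) (by rw [pow_one, pow_two, CharTwo.add_eq_zero.1 k])), ?_⟩
  have : ⁅dg d, (zz 1 : SL m F)⁆ = zz (b * b + 1) := by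
    rw [commutatorElement_def, zz, dg_x e, x_inv, zz, x_add]; simp [d, h0.symm]
  rw [← this]
  refine Subgroup.commutator_mem_commutator ?_ (by rw [mem_Fx, ← std_one_true, std_zz, map_one])
  rw [mem_Fx, gr_dg e]
  congr 1
  ext i
  simp only [d, Fin.rev_eq_iff (i := i), Fin.rev_rev]
  split_ifs with h1 h2 h2 <;> simp_all

theorem comm_conj (β γ : MulAut (SL m F)) {v : SL m F} (h : v ∈ ⁅Fx β, Fx β⁆) :
    γ v ∈ ⁅Fx (γ * β * γ⁻¹), Fx (γ * β * γ⁻¹)⁆ := by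
  rw [Fx_conj, ← Subgroup.map_commutator]
  exact ⟨v, h, rfl⟩

end OA

/-- Notation `i' = i.rev`, `θ + φ θ = 1`, `l = la`.
* `std φ false`: `v = zz 1 = [x 0 1 1, x 1 l 1]`, `y = zz θ`.
* `std φ true`, `m ≥ 4`: `h = x 0 1 1 * x 1' l 1`, `b = x 1 l θ * x 0 1' (φ θ)`, `[h, b] = zz 1`,
  `y = zz θ`; `m = 3`: `h = x 0 1 1 * x 1 2 1 * zz θ`, `b = x 0 1 θ * x 1 2 (φ θ) * zz (θ θ φθ)`.
* `gr`, `m ≥ 5` odd, `c` the middle index: `v = [x 0 1 1 * x 1' l 1, x 1 1' 1]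
  = x 0 1' 1 * x 1 l 1 * zz 1`, `y = x 0 c 1 * x c l 1 * x 0 1' 1`.
* `gr` or `conj (zz 1) * gr` (they agree on `U`), `m ≥ 6`:
  `v = x 0 1' 1 * x 1 l 1 = [x 0 2 1 * x 2' l 1, x 1 2' 1 * x 2 1' 1]`, `y = x 0 1' 1`;
  `m = 4`: `[x 0 1 a * x 2 3 a, x 1 2 b] = x 0 2 (a b) * x 1 3 (a b) * zz (a a b)`; multiply the
  cases `(a, b) = (1, c c)` and `(c, 1)`, `c ≠ 0, 1`; `y = x 0 2 (c c + c)`. -/
theorem out2 (hp : Par m F) {β : MulAut (SL m F)} (h : Sd β) (h3 : ¬ (m = 3 ∧ β = gr)) :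
    ∃ v ∈ ⁅U m F ⊓ Fx β, U m F ⊓ Fx β⁆, v ≠ 1 ∧ v * v = 1 ∧ ∃ y, β y = y * v := by
  have h0 := zero_ne_la (m := m) (by have := hp.1; omega)
  rcases OA.sd_U h with ⟨φ, ε, h1, h2, rfl⟩ | ⟨h4, -, h5⟩
  · obtain ⟨a, y, -, b⟩ := OA.zz_F hp.1 h1 h2 ε
    exact ⟨_, a, fun e => one_ne_zero ((x_eq_one h0).1 e), x_sq _ _ _, y, b⟩
  · have hm : 4 ≤ m := by
      have := hp.1
      rcases h4 with e | ⟨k, e⟩
      · by_contra k
        exact h3 ⟨by omega, e⟩
      · omega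
    obtain ⟨v, a, b, c, y, hy, d⟩ := OA.core_g hp hm
    have e : U m F ⊓ Fx gr ≤ U m F ⊓ Fx β := fun u hu => ⟨hu.1, (h5 u hu.1).trans hu.2⟩
    exact ⟨v, Subgroup.commutator_mono e e a, b, c, y, (h5 y hy).trans d⟩

/-- `y = x 0 1 a * x 1 2 a`, `a * a = c` -/
theorem out3 (hm : m = 3) (c : F) : ∃ y : SL m F, gr y = y * zz c := by
  obtain ⟨a, rfl⟩ := exists_sq c
  obtain ⟨i, hi⟩ := OA.ex (m := m) 1 (by omega)
  have hl := la_val (m := m)
  have a1 : 0 < i := by rw [Fin.lt_def, Fin.val_zero]; omega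
  have a2 : i < la := by rw [Fin.lt_def]; omega
  have r : i.rev = i := Fin.ext (by rw [Fin.val_rev]; omega)
  have := OA.L3' a1 a2 a a 0
  rw [x_zero, mul_one, zero_add] at this
  exact ⟨x 0 i a * x i la a, by rw [map_mul, gr_x, gr_x, r, Fin.rev_rev, this, zz]⟩

/-- `std_gl`, `out2`; for `m = 3`, `β = gr`: `v = [dg (b, 1, b⁻¹), zz 1] = zz (b b + 1)`. -/
theorem out (hp : Par m F) {α : MulAut (SL m F)} (h2 : α * α = 1) (ho : Ou α) :
    ∃ v ∈ ⁅Fx α, Fx α⁆, v ≠ 1 ∧ v * v = 1 ∧ ∃ y, α y = y * v := by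
  obtain ⟨β, g, h, rfl⟩ := std_gl hp.1 h2 ho
  obtain ⟨v, a, b, c, y, d⟩ : ∃ v ∈ ⁅Fx β, Fx β⁆, v ≠ 1 ∧ v * v = 1 ∧ ∃ y, β y = y * v := by
    by_cases h3 : m = 3 ∧ β = gr
    · obtain ⟨h3, rfl⟩ := h3
      obtain ⟨a, a0, ha⟩ := OA.zz_g hp h3
      exact ⟨_, ha, fun e => a0 ((x_eq_one (zero_ne_la (by omega))).1 e), x_sq _ _ _, out3 h3 a⟩
    · obtain ⟨v, a, b⟩ := out2 hp h h3
      exact ⟨v, Subgroup.commutator_mono inf_le_right inf_le_right a, b⟩
  exact ⟨inn g v, OA.comm_conj β _ a, by simpa using b, by rw [← map_mul, c, map_one], inn g y, by simp [d]⟩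

theorem OA.mem_U3 (hm : m = 3) {b : SL m F} (hb : b * b = 1) (h : Commute (zz 1) b) : b ∈ U m F := by
  have h0 := zero_ne_la (m := m) (by omega)
  have k : Commute (single 0 la (1 : F)) (b : Matrix (Fin m) (Fin m) F) := by
    have := congrArg Subtype.val h.eq
    rw [Matrix.SpecialLinearGroup.coe_mul, Matrix.SpecialLinearGroup.coe_mul, zz, x_val h0, mul_add, add_mul,
      mul_one, one_mul] at this
    exact add_left_cancel this
  have k1 : ∀ i j : Fin m, j < i → b i j = 0 := fun i j hij => by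
    by_cases e : j = 0
    · exact e ▸ col_eq_zero_of_commute_single k (e ▸ hij.ne')
    · have : i = la := Fin.ext (by
        have := i.2
        rw [Fin.lt_def] at hij
        rw [Fin.ext_iff, Fin.val_zero] at e
        rw [la_val]; omega)
      exact this ▸ row_eq_zero_of_commute_single k (this ▸ hij.ne)
  refine mem_U.2 fun i j hij => ?_
  rcases hij.lt_or_eq with e | rfl
  · rw [k1 i j e, one_apply_ne e.ne']
  · have := congrFun (congrFun (congrArg Subtype.val hb) j) j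
    rw [Matrix.SpecialLinearGroup.coe_mul, Matrix.mul_apply, Finset.sum_eq_single j (fun l _ hl => by
      rcases lt_or_gt_of_ne hl with e | e
      · rw [k1 j l e, zero_mul]
      · rw [k1 l j e, mul_zero]) (by simp)] at this
    rw [one_apply_eq]
    exact eq_one_of_pow (n := 1) (by rw [pow_one, pow_two, this]; simp)

theorem pow_sub_one {a : SL m F} {n : ℕ} (h : a ^ 2 ^ n = 1) : ((a : Matrix (Fin m) (Fin m) F) - 1) ^ m = 0 := by
  have := aeval_self_charpoly ((a : Matrix (Fin m) (Fin m) F) - 1)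
  rwa [sub_eq_zero.1 (Matrix.isNilpotent_charpoly_sub_pow_of_isNilpotent (two_iff.1 ⟨n, h⟩)).eq_zero, map_pow,
    Polynomial.aeval_X, Fintype.card_fin] at this

/-- One may assume `a = zz 1`; then `b, c` are upper triangular (they fix `F e 0` and the
hyperplane) involutions, so in `U`, which has exponent 4. -/
theorem m3a (hm : m = 3) {a b c : SL m F} (ha : a * a = 1) (h1 : a ≠ 1) (hb : b * b = 1)
    (hc : c * c = 1) (hab : Commute a b) (hac : Commute a c) : (b * c) ^ 4 = 1 := by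
  obtain ⟨g, rfl⟩ := isConj_iff.1 (isRoot_three hm ha h1)
  have k : ∀ b : SL m F, b * b = 1 → Commute (g * zz 1 * g⁻¹) b → g⁻¹ * b * g ∈ U m F := fun b hb h =>
    OA.mem_U3 hm (by rw [show g⁻¹ * b * g * (g⁻¹ * b * g) = g⁻¹ * (b * b) * g by group, hb]; simp)
      (by simpa [mul_assoc] using h.conj g⁻¹)
  obtain ⟨n, hn⟩ := U_two (Subgroup.mul_mem _ (k b hb hab) (k c hc hac))
  have h3 := pow_sub_one (a := b * c) (n := n) (by
    have := congrArg (fun y => g * y * g⁻¹) hn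
    simp only [← conj_pow] at this
    simpa [mul_assoc] using this)
  refine Subtype.ext ?_
  have := sub_pow_char_pow_of_commute (p := 2) (n := 2) (Commute.one_right ((b * c : SL m F) : Matrix (Fin m) (Fin m) F))
  rw [pow_eq_zero_of_le (by omega) h3, one_pow, eq_comm, sub_eq_zero] at this
  rw [Matrix.SpecialLinearGroup.coe_pow]
  exact this

/-- In the standard cases `v = zz a`, `a ≠ 0`, as above and `h = pm revPerm`;
`x 0 2 a * x 2 0 a` fixes `e 1` and has trace `1 + a a`, its fourth power has trace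
`1 + a ^ 8 ≠ 1`. -/
theorem m3b (hm : m = 3) (hp : Par m F) {α : MulAut (SL m F)} (h2 : α * α = 1) (ho : Ou α) :
    ∃ v ∈ ⁅Fx α, Fx α⁆, ∃ h ∈ Fx α, v * v = 1 ∧
      (v * (h * v * h⁻¹)) ^ 4 ∉ center (SL m F) := by
  obtain ⟨β, g, h, rfl⟩ := std_gl hp.1 h2 ho
  have h0 := zero_ne_la (m := m) (by omega)
  obtain ⟨a, a0, ha, hb⟩ : ∃ a : F, a ≠ 0 ∧ zz a ∈ ⁅Fx β, Fx β⁆ ∧ pm F Fin.revPerm ∈ Fx β := by
    have e : gr (pm F Fin.revPerm : SL m F) = pm F Fin.revPerm := by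
      rw [gr_pm]; congr 1; ext i; simp
    rcases h with ⟨φ, ε, h1, h3, rfl⟩ | rfl | ⟨⟨k, e⟩, -⟩
    · refine ⟨1, one_ne_zero, Subgroup.commutator_mono inf_le_right inf_le_right (OA.zz_F hp.1 h1 h3 ε).1, ?_⟩
      cases ε
      · rw [mem_Fx, std_false, fld_pm]
      · rw [mem_Fx, std, cond_true, MulAut.mul_apply, e, fld_pm]
    · obtain ⟨a, a0, ha⟩ := OA.zz_g hp hm
      exact ⟨a, a0, ha, e⟩
    · omega
  refine ⟨inn g (zz a), OA.comm_conj β _ ha, inn g (pm F Fin.revPerm), mem_Fx_conj.2 hb,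
    by rw [← map_mul, zz, x_sq, map_one], ?_⟩
  rw [← map_inv, ← map_mul, ← map_mul, ← map_mul, ← map_pow, aut_center, zz, pm_x]
  intro k
  obtain ⟨r, -, hr⟩ := Matrix.SpecialLinearGroup.mem_center_iff.1 k
  have := congrFun (congrFun hr 0) la
  rw [scalar_apply, diagonal_apply_ne _ h0, Fin.revPerm_apply, Fin.revPerm_apply, Fin.rev_rev] at this
  exact pow_ne_zero 7 a0 ((OA.pow4 h0 a).symm.trans this.symm)

theorem OA.fx_sd (he : Even m) {β : MulAut (SL m F)} (h : Sd β) (hm : 3 ≤ m) :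
    Nat.card F ^ cc m ≤ Nat.card ↥(A m F (m / 2) ⊓ Fx β) ^ 2 ∧
      (Ty β 1 true → Nat.card F ^ (cc m + m / 2) ≤ Nat.card ↥(A m F (m / 2) ⊓ Fx β) ^ 2) := by
  have hk : m - m / 2 = m / 2 := by obtain ⟨k, rfl⟩ := he; omega
  have e0 : A0 m F = A m F (m / 2) := by rw [A0_eq, hk, inf_idem]
  have n : ∀ a ∈ A m F (m / 2), β a ∈ A m F (m / 2) := fun a ha => by
    obtain ⟨e, -, σ, ε, rfl, -⟩ := h.form
    have := std_mem_A0 σ ε (e0.ge ha)
    rw [MulAut.mul_apply, MulAut.conj_apply, (zz_comm (A_le_U _ (e0.le this)) e).eq, mul_inv_cancel_right]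
    exact e0.le this
  let φ : A m F (m / 2) →* SL m F := MonoidHom.mk' (fun a => β a * a) fun a b => by
    rw [Subgroup.coe_mul, map_mul, (A_comm (n _ b.2) a.2).mul_mul_mul_comm]
  have r : φ.range ≤ A m F (m / 2) ⊓ Fx β := by
    rintro _ ⟨a, rfl⟩
    refine ⟨Subgroup.mul_mem _ (n _ a.2) a.2, ?_⟩
    show β (β a * a) = β a * a
    rw [map_mul, show β (β a) = a from congr($h.sq a), (A_comm (n _ a.2) a.2).eq]
  have k : Nat.card φ.ker = Nat.card ↥(A m F (m / 2) ⊓ Fx β) := by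
    rw [← Subgroup.card_map_of_injective (A m F (m / 2)).subtype_injective]
    congr 2
    ext a
    constructor
    · rintro ⟨a, ha, rfl⟩
      exact ⟨a.2, (eq_inv_of_mul_eq_one_left ha).trans (inv_eq_of_mul_eq_one_right (el_A _ _ a.2))⟩
    · rintro ⟨h1, h2⟩
      exact ⟨⟨a, h1⟩, show β a * a = 1 by rw [mem_Fx.1 h2, el_A _ _ h1], rfl⟩
  have c := φ.ker.card_mul_index
  rw [Subgroup.index_ker, k, card_Ak] at c
  refine ⟨by rw [← c, pow_two]; exact Nat.mul_le_mul_left _ (Subgroup.card_le_of_le r), fun t => ?_⟩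
  have u : ∀ u ∈ U m F, β u = gr u := by
    rcases OA.sd_U h with ⟨ψ, ε, h1, -, rfl⟩ | h
    · exact (h1 ((ty_std ψ ε).unique hm t).1).elim
    · exact h.2.2
  have hs : ∀ i j k : Fin m, ((i : ℕ) < m / 2 ∧ j = i.rev) → ¬ ((j : ℕ) < m / 2 ∧ k = j.rev) := by
    rintro i _ k ⟨a, rfl⟩ ⟨b, -⟩
    rw [Fin.val_rev] at b
    omega
  have d : Pat F (fun i j : Fin m => (i : ℕ) < m / 2 ∧ j = i.rev) ≤ A m F (m / 2) ⊓ Fx β := Pat_le (by
    rintro i _ a - ⟨b, rfl⟩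
    have : x i i.rev a ∈ A m F (m / 2) := x_mem ⟨b, by rw [Fin.val_rev]; omega⟩ a
    exact ⟨this, (u _ (A_le_U _ this)).trans (by rw [gr_x, Fin.rev_rev]; rfl)⟩)
  have dj : Disjoint φ.range (Pat F fun i j : Fin m => (i : ℕ) < m / 2 ∧ j = i.rev) := by
    rw [Subgroup.disjoint_def]
    rintro _ ⟨a, rfl⟩ hb
    ext i j
    by_cases e : (i : ℕ) < m / 2 ∧ j = i.rev
    · obtain ⟨e, rfl⟩ := e
      have := congrFun (congrFun (Pat_mul_val (s := fun i j => (i : ℕ) < m / 2 ∧ m / 2 ≤ (j : ℕ))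
        (fun i j k h h' => by omega) (n _ a.2) a.2) i) i.rev
      refine this.trans ?_
      rw [Matrix.sub_apply, Matrix.add_apply, u _ (A_le_U _ a.2), gr_apply, inv_eq_of_mul_eq_one_right (el_A _ _ a.2),
        Fin.rev_rev, CharTwo.add_self_eq_zero, zero_sub, CharTwo.neg_eq]
      rfl
    · exact (mem_Pat hs).1 hb i j e
  have c2 := Nat.card_le_card_of_injective (fun p : φ.range × Pat F fun i j : Fin m => (i : ℕ) < m / 2 ∧ j = i.rev =>
    (⟨p.1 * p.2, Subgroup.mul_mem _ (r p.1.2) (d p.2.2)⟩ : ↥(A m F (m / 2) ⊓ Fx β)))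
    fun p q e => Subgroup.mul_injective_of_disjoint dj (congrArg Subtype.val e)
  have c3 : Nat.card {p : Fin m × Fin m // (p.1 : ℕ) < m / 2 ∧ p.2 = p.1.rev} = m / 2 := by
    refine Eq.trans (Nat.card_eq_of_bijective (fun p => (⟨p.1.1, p.2.1⟩ : Fin (m / 2))) ⟨?_, fun i => ?_⟩) (by simp)
    · intro p q e
      have e' : p.1.1 = q.1.1 := Fin.ext (Fin.mk.inj e)
      exact Subtype.ext (Prod.ext e' (by rw [p.2.2, q.2.2, e']))
    · exact ⟨⟨(⟨i, by omega⟩, Fin.rev ⟨i, by omega⟩), i.2, rfl⟩, rfl⟩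
  rw [Nat.card_prod, card_Pat hs, c3] at c2
  rw [pow_add, ← c, pow_two, mul_assoc]
  exact Nat.mul_le_mul_left _ c2

/-- `B = A k ⊓ Fx β` for the standard form `β` (`m = 2 k`): an involution on an elementary abelian
group has `|A| ≤ |B| ^ 2`; for `gr` (and `conj (zz 1) * gr`, which agrees with it on `A k`) `B`
consists of the matrices symmetric with respect to the antidiagonal, `q ^ (k (k + 1) / 2)`. -/
theorem fxr (hm : 3 ≤ m) (he : Even m) {α : MulAut (SL m F)} (h2 : α * α = 1) (ho : Ou α) :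
    ∃ B ≤ Fx α, El B ∧ Nat.card F ^ cc m ≤ Nat.card B ^ 2 ∧
      (Ty α 1 true → Nat.card F ^ (cc m + m / 2) ≤ Nat.card B ^ 2) := by
  obtain ⟨β, g, h, rfl⟩ := std_gl hm h2 ho
  obtain ⟨a, b⟩ := OA.fx_sd he h hm
  refine ⟨(A m F (m / 2) ⊓ Fx β).map (inn g : MulAut (SL m F)).toMonoidHom, Fx_conj β _ ▸ map_mono inf_le_right, ?_, ?_⟩
  · rintro _ ⟨y, hy, rfl⟩
    rw [← map_mul, el_A _ _ hy.1, map_one]
  · rw [Subgroup.card_map_of_injective (inn g : MulAut (SL m F)).injective]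
    refine ⟨a, fun t => b ?_⟩
    simpa [mul_assoc] using t.conj hm (inn g)⁻¹

end CL.SC
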