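import Cfsg.Agent.INV.SC.K0
import Cfsg.Agent.KSG.Zsigmondy

/-!
Elements of large prime order.
-/

set_option autoImplicit false
set_option linter.unusedSectionVars false
set_option linter.unusedVariables false

namespace CL.SC

open Matrix Subgroup
open scoped commutatorElement

variable {m : ℕ} [NeZero m] {F : Type*} [Field F] [Finite F] [CharP F 2]

/-- an odd prime not dividing `q ^ d - 1` for `1 ≤ d ≤ m - 2` -/
def Good (m q r : ℕ) : Prop := r.Prime ∧ r ≠ 2 ∧ ∀ d, 1 ≤ d → d ≤ m - 2 → ¬ r ∣ q ^ d - 1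

namespace Pp

theorem not_dvd_card {r : ℕ} (hr : r.Prime) (h2 : r ≠ 2) (i : ℕ) : ¬ r ∣ Nat.card F ^ i := by
  obtain ⟨n, -, h, -⟩ := card_F F
  rw [h, ← pow_mul]
  exact fun h => h2 ((Nat.prime_dvd_prime_iff_eq hr Nat.prime_two).1 (hr.dvd_of_dvd_pow h))

theorem eq_one {r k : ℕ} (hr : r.Prime) (h2 : r ≠ 2)
    (h : ∀ d, 1 ≤ d → d ≤ k → ¬ r ∣ Nat.card F ^ d - 1) {W : Type*} [AddCommGroup W] [Module F W]
    [Module.Finite F W] {φ : Module.End F W} (hφ : φ ^ r = 1)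
    (hk : Module.finrank F W ≤ Module.finrank F (LinearMap.ker (φ - 1)) + k) : φ = 1 := by
  classical
  have : Fact r.Prime := ⟨hr⟩
  have : Finite W := Module.finite_of_finite F
  have := Fintype.ofFinite W
  let f : Function.End W := fun w => φ w
  have hf : f ^ r ^ 1 = 1 := by
    rw [pow_one]
    funext w
    have : ∀ n : ℕ, (f ^ n) w = (φ ^ n) w := fun n => by
      induction n with
      | zero => rfl
      | succ n ih => rw [pow_succ', pow_succ', Module.End.mul_apply, ← ih]; rfl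
    rw [this, hφ]; rfl
  have h1 := Equiv.Perm.card_fixedPoints_modEq hf
  have h3 : Nat.card f.fixedPoints = Nat.card (LinearMap.ker (φ - 1)) := by
    refine Nat.card_congr (Equiv.subtypeEquivRight fun w => ?_)
    rw [LinearMap.mem_ker, LinearMap.sub_apply, sub_eq_zero]
    rfl
  rw [← Nat.card_eq_fintype_card, ← Nat.card_eq_fintype_card, h3, Module.natCard_eq_pow_finrank (K := F) (V := W),
    Module.natCard_eq_pow_finrank (K := F) (V := LinearMap.ker (φ - 1))] at h1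
  have hle := Submodule.finrank_le (LinearMap.ker (φ - 1))
  obtain ⟨d, hd⟩ := Nat.exists_eq_add_of_le hle
  have hq : 0 < Nat.card F := Nat.card_pos
  have h4 := (Nat.modEq_iff_dvd' (Nat.pow_le_pow_right hq hle)).1 h1.symm
  rw [hd, pow_add, ← Nat.mul_sub_one] at h4
  have h5 := ((Nat.Prime.dvd_mul hr).1 h4).resolve_left (not_dvd_card hr h2 _)
  have h6 : d = 0 := by
    by_contra h0
    exact h d (by omega) (by omega) h5
  rw [h6, add_zero] at hd
  exact sub_eq_zero.1 (LinearMap.ker_eq_top.1 (Submodule.eq_top_of_finrank_eq hd.symm))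

theorem core {r : ℕ} (hr : r.Prime) (h2 : r ≠ 2) {W : Type*} [AddCommGroup W] [Module F W]
    [Module.Finite F W] (h3 : 3 ≤ Module.finrank F W)
    (h : ∀ d, 1 ≤ d → d ≤ Module.finrank F W - 2 → ¬ r ∣ Nat.card F ^ d - 1)
    {φ N : Module.End F W} (hφ : φ ^ r = 1) (hN : N * N = 0) (h0 : N ≠ 0) (hc : Commute φ N) :
    φ = 1 := by
  have hle : LinearMap.range N ≤ LinearMap.ker N := LinearMap.range_le_ker_iff.2 hN
  have h4 := LinearMap.finrank_range_add_finrank_ker N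
  have h5 := Submodule.finrank_mono hle
  have hi : ∀ w ∈ LinearMap.range N, φ w ∈ LinearMap.range N := by
    rintro _ ⟨v, rfl⟩
    exact ⟨φ v, (LinearMap.congr_fun hc.eq v).symm⟩
  have h6 : φ.restrict hi = 1 := by
    refine eq_one hr h2 h ?_ (by omega)
    rw [Module.End.pow_restrict]
    ext w
    simp [hφ, LinearMap.restrict_apply]
  have h7 : φ * N = N := LinearMap.ext fun v =>
    congrArg Subtype.val (LinearMap.congr_fun h6 ⟨N v, v, rfl⟩)
  obtain ⟨v, hv⟩ : ∃ v, N v ≠ 0 := by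
    by_contra hn
    push Not at hn
    exact h0 (LinearMap.ext hn)
  have h8 : ∀ i : ℕ, N * φ ^ i = N := fun i => by
    induction i with
    | zero => simp
    | succ i ih => rw [pow_succ, ← mul_assoc, ih, ← hc.eq, h7]
  let S : Module.End F W := ∑ i ∈ Finset.range r, φ ^ i
  have h9 : (φ - 1) * S = 0 := by rw [mul_geom_sum, hφ, sub_self]
  have h10 : N * S = N := by
    obtain ⟨j, hj⟩ := hr.odd_of_ne_two h2
    have : (r : F) = 1 := by
      rw [hj]; push_cast; rw [CharTwo.two_eq_zero, zero_mul, zero_add]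
    rw [Finset.mul_sum, Finset.sum_congr rfl fun i _ => h8 i, Finset.sum_const, Finset.card_range,
      ← Nat.cast_smul_eq_nsmul F, this, one_smul]
  have e1 : N (S v) = N v := LinearMap.congr_fun h10 v
  have e2 : N (N v) = 0 := LinearMap.congr_fun hN v
  let a : LinearMap.ker (φ - 1) := ⟨S v, LinearMap.congr_fun h9 v⟩
  let b : LinearMap.ker (φ - 1) := ⟨N v, by
    rw [LinearMap.mem_ker, LinearMap.sub_apply, sub_eq_zero]; exact LinearMap.congr_fun h7 v⟩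
  have hl : LinearIndependent F ![a, b] := by
    refine LinearIndependent.pair_iff.2 fun s t hst => ?_
    have e3 : s • S v + t • N v = 0 := congrArg Subtype.val hst
    have e4 := congrArg N e3
    rw [map_add, map_smul, map_smul, e1, e2, smul_zero, add_zero, map_zero] at e4
    have hs := (smul_eq_zero.1 e4).resolve_right hv
    rw [hs, zero_smul, zero_add] at e3
    exact ⟨hs, (smul_eq_zero.1 e3).resolve_right hv⟩
  have h11 := hl.fintype_card_le_finrank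
  rw [Fintype.card_fin] at h11
  exact eq_one hr h2 h hφ (by omega)

theorem mat (hm : 3 ≤ m) {r : ℕ} (hr : Good m (Nat.card F) r) {g : Matrix (Fin m) (Fin m) F}
    (hg : g ^ r = 1) {a : SL m F} (ha : a * a = 1) (h1 : a ≠ 1)
    (hc : Commute g (a : Matrix (Fin m) (Fin m) F)) : g = 1 := by
  let e := Matrix.toLinAlgEquiv' (R := F) (n := Fin m)
  have hd : Module.finrank F (Fin m → F) = m := by simp
  have h2 : ((a : Matrix (Fin m) (Fin m) F) - 1) * ((a : Matrix (Fin m) (Fin m) F) - 1) = 0 := by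
    have : (a : Matrix (Fin m) (Fin m) F) * a = 1 := congrArg Subtype.val ha
    rw [sub_mul, mul_sub, mul_sub, this, mul_one, one_mul, one_mul]
    generalize (a : Matrix (Fin m) (Fin m) F) = b
    ext i j
    rw [Matrix.sub_apply, Matrix.sub_apply, Matrix.sub_apply, Matrix.zero_apply, CharTwo.sub_eq_add,
      CharTwo.sub_eq_add, CharTwo.sub_eq_add, add_comm (b i j), CharTwo.add_self_eq_zero]
  refine e.injective ((core hr.1 hr.2.1 (hd.symm ▸ hm) (hd.symm ▸ hr.2.2)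
    (N := e ((a : Matrix (Fin m) (Fin m) F) - 1)) ?_ ?_ ?_ ?_).trans (map_one e).symm)
  · rw [← map_pow, hg, map_one]
  · rw [← map_mul, h2, map_zero]
  · exact fun h => h1 (Subtype.ext (sub_eq_zero.1 (e.map_eq_zero_iff.1 h)))
  · exact (hc.sub_right (Commute.one_right g)).map e

theorem zs {e : ℕ} (h3 : 3 ≤ e) (h6 : e ≠ 6) :
    ∃ r, r.Prime ∧ r ≠ 2 ∧ e < r ∧ ∀ j, r ∣ 2 ^ j - 1 ↔ e ∣ j := by
  obtain ⟨r, hr, h⟩ := Zsig.exists_prime_orderOf_eq_of_three_le (a := 2) one_lt_two h3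
    fun h => h6 h.2
  have h1 := Zsig.orderOf_lt (q := 2) hr
  exact ⟨r, hr, by omega, h ▸ h1, fun j => by rw [← h, Zsig.orderOf_dvd_iff one_le_two]⟩

theorem plus {r e : ℕ} (hr : r.Prime) (he : 0 < e) (h : ∀ j, r ∣ 2 ^ j - 1 ↔ 2 * e ∣ j) :
    r ∣ 2 ^ e + 1 := by
  have h1 := (h _).2 dvd_rfl
  rw [mul_comm, pow_mul, ← one_pow 2, Nat.sq_sub_sq] at h1
  refine ((Nat.Prime.dvd_mul hr).1 h1).resolve_right fun h2 => ?_
  have := Nat.le_of_dvd he ((h _).1 h2)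
  omega

theorem exists_d {m : ℕ} (hm : 3 ≤ m) : ∃ d, Odd d ∧ 3 ≤ d ∧ d ≤ m ∧ m ≤ d + 1 := by
  rcases Nat.even_or_odd' m with ⟨j, rfl | rfl⟩
  · exact ⟨2 * j - 1, ⟨j - 1, by omega⟩, by omega, by omega, by omega⟩
  · exact ⟨2 * j + 1, ⟨j, rfl⟩, hm, le_rfl, by omega⟩

theorem nd {n a j : ℕ} (hn : 0 < n) (hj : 1 ≤ j) (h : j < a) : ¬ n * a ∣ n * j := fun h' => by
  have := Nat.le_of_dvd hj (Nat.dvd_of_mul_dvd_mul_left hn h')
  omega

theorem nd' {r n : ℕ} (hn : 0 < n) (h : n < r) : ¬ r ∣ n := fun h' => by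
  have := Nat.le_of_dvd hn h'
  omega

end Pp

/-- `α = inn g`, `g ^ r` is a scalar and `r ∤ q - 1`, so one may assume `g ^ r = 1`.  `g` fixes the
flag `im N ≤ ker N`, `N = a - 1`, whose factors have dimensions `s, m - 2 s, s ≤ m - 2`; an
element of order dividing `r` acts trivially on a space of dimension `d ≤ m - 2` (`r ∤ |GL d|`).
So `(g - 1) ^ 4 = 0`, `g ^ 4 = 1`, `g = 1`. -/
theorem ppd (hm : 3 ≤ m) {r : ℕ} (hr : Good m (Nat.card F) r) {α : MulAut (SL m F)}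
    (hα : Ty α 1 false) (h : α ^ r = 1) {a : SL m F} (ha : a * a = 1) (h1 : a ≠ 1)
    (hf : α a = a) : α = 1 := by
  obtain ⟨g, rfl⟩ := ty_inner.1 hα
  have := Fintype.ofFinite F
  obtain ⟨c, hc⟩ := (inn_eq_one (by omega)).1 ((map_pow inn g r).trans h)
  have hc0 : c ≠ 0 := by
    rintro rfl
    rw [zero_smul] at hc
    exact (g ^ r).ne_zero hc
  have h2 : (g : Matrix (Fin m) (Fin m) F) ^ (Nat.card F - 1) = 1 := by
    refine Pp.mat hm hr ?_ ha h1 (Commute.pow_left ?_ _)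
    · rw [← pow_mul, mul_comm, pow_mul, ← Units.val_pow_eq_pow_val, hc, smul_pow, one_pow,
        Nat.card_eq_fintype_card, FiniteField.pow_card_sub_one_eq_one c hc0, one_smul]
    · have := congrArg Subtype.val hf
      rw [inn_val] at this
      exact (Units.mul_inv_eq_iff_eq_mul g).1 this
  have h3 : (inn g : MulAut (SL m F)) ^ (Nat.card F - 1) = 1 := by
    rw [← map_pow, show g ^ (Nat.card F - 1) = 1 from Units.ext h2, map_one]
  have h4 : r.Coprime (Nat.card F - 1) :=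
    (Nat.Prime.coprime_iff_not_dvd hr.1).2 (by simpa using hr.2.2 1 le_rfl (by omega))
  exact orderOf_eq_one_iff.1 (Nat.eq_one_of_dvd_coprimes h4 (orderOf_dvd_of_pow_eq_one h)
    (orderOf_dvd_of_pow_eq_one h3))

theorem ppd' (hm : 3 ≤ m) {r : ℕ} (hr : Good m (Nat.card F) r) {g : SL m F} (hg : orderOf g = r)
    {a : SL m F} (ha : a * a = 1) (h1 : a ≠ 1) : ¬ Commute g a := fun hc => by
  have h2 : g = 1 := Subtype.ext (Pp.mat hm hr
    (congrArg Subtype.val (hg ▸ pow_orderOf_eq_one g : g ^ r = 1)) ha h1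
    (congrArg Subtype.val hc.eq))
  rw [h2, orderOf_one] at hg
  exact hr.1.one_lt.ne hg

theorem not_dvd_card_SL {r : ℕ} (hr : r.Prime) (h2 : r ≠ 2)
    (h : ∀ i, 1 ≤ i → i ≤ m → ¬ r ∣ Nat.card F ^ i - 1) : ¬ r ∣ Nat.card (SL m F) := by
  intro h1
  have := Fintype.ofFinite F
  have h3 := h1.mul_left (Nat.card F - 1)
  rw [← card_GL_eq, Matrix.card_GL_field, ← Nat.card_eq_fintype_card] at h3
  obtain ⟨i, -, h4⟩ := (Prime.dvd_finsetProd_iff hr.prime _).1 h3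
  have hi := i.2
  rw [← pow_mul_pow_sub _ hi.le, ← Nat.mul_sub_one] at h4
  exact ((Nat.Prime.dvd_mul hr).1 h4).elim (Pp.not_dvd_card hr h2 _) (h _ (by omega) (by omega))

/-! Zsigmondy primes (`CL.Zsig.exists_zsigmondy_prime` with base 2; such a prime for
`2 ^ e - 1` has `e ∣ r - 1`, and `r ∣ 2 ^ j - 1` iff `e ∣ j`).  `d` is the odd number in
`{m - 1, m}`. -/

/-- `e = n d`; if `e = 6` then `m = 4`, `n = 2`, `d = 3`, `r = 7` -/
theorem zs_f {m n : ℕ} (hm : 4 ≤ m) (hn : 0 < n) : ∃ d r, 1 ≤ d ∧ d ≤ m ∧ r ∣ (2 ^ n) ^ d - 1 ∧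
    Good m ((2 ^ n) ^ 2) r ∧ ¬ r ∣ 2 * n := by
  obtain ⟨d, ho, h3, h1, h2⟩ := Pp.exists_d (m := m) (by omega)
  by_cases h6 : n * d = 6
  · have hd : d ≤ 6 := Nat.le_of_dvd (by norm_num) (Dvd.intro_left _ h6)
    obtain ⟨j, rfl⟩ := ho
    have : j = 1 ∨ j = 2 := by omega
    rcases this with rfl | rfl
    · obtain rfl : n = 2 := by omega
      obtain rfl : m = 4 := by omega
      refine ⟨3, 7, by norm_num, by norm_num, by norm_num, ⟨by norm_num, by norm_num, ?_⟩,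
        by norm_num⟩
      intro d h1 h2
      have : d = 1 ∨ d = 2 := by omega
      rcases this with rfl | rfl <;> norm_num
    · omega
  obtain ⟨r, hr, r2, hl, h⟩ := Pp.zs (e := n * d) (by nlinarith) h6
  refine ⟨d, r, by omega, h1, by rw [← pow_mul, h], ⟨hr, r2, fun j j1 j2 => ?_⟩, fun h' => ?_⟩
  · rw [← pow_mul, ← pow_mul, h]
    intro h'
    have := Nat.le_of_dvd j1 ((Nat.coprime_two_right.2 ho).dvd_of_dvd_mul_left
      (Nat.dvd_of_mul_dvd_mul_left hn h'))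
    omega
  · exact ((Nat.Prime.dvd_mul hr).1 h').elim
      (fun h => r2 ((Nat.prime_dvd_prime_iff_eq hr Nat.prime_two).1 h)) (Pp.nd' hn (by nlinarith))

/-- `e = 2 n d` -/
theorem zs_gf {m n : ℕ} (hm : 4 ≤ m) (hn : 0 < n) (h : ¬ (m = 4 ∧ n = 1)) : ∃ d r, Odd d ∧ d ≤ m ∧
    r ∣ (2 ^ n) ^ d + 1 ∧ Good m ((2 ^ n) ^ 2) r ∧ ¬ r ∣ 2 * n := by
  obtain ⟨d, ho, h3, h1, h2⟩ := Pp.exists_d (m := m) (by omega)
  have h4 : 3 * n ≤ n * d := by nlinarith
  obtain ⟨r, hr, r2, hl, hh⟩ := Pp.zs (e := 2 * (n * d)) (by omega) fun e => by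
    obtain rfl : n = 1 := by omega
    omega
  refine ⟨d, r, ho, h1, ?_, ⟨hr, r2, fun j j1 j2 => ?_⟩, Pp.nd' (by omega) (by omega)⟩
  · rw [← pow_mul]; exact Pp.plus hr (by omega) hh
  · rw [← pow_mul, ← pow_mul, hh, ← mul_assoc, ← mul_assoc, mul_comm 2 n]
    exact Pp.nd (by omega) j1 (by omega)

/-- `e = 2 k n` -/
theorem zs_g {k n : ℕ} (hk : 2 ≤ k) (hn : 0 < n) (h : ¬ (k = 3 ∧ n = 1)) : ∃ r,
    r ∣ (2 ^ n) ^ k + 1 ∧ Good (2 * k + 1) (2 ^ n) r ∧ ¬ r ∣ n := by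
  have h4 : 2 * n ≤ n * k := by nlinarith
  obtain ⟨r, hr, r2, hl, hh⟩ := Pp.zs (e := 2 * (n * k)) (by omega) fun e => by
    obtain rfl : n = 1 := by omega
    omega
  refine ⟨r, ?_, ⟨hr, r2, fun j j1 j2 => ?_⟩, Pp.nd' hn (by omega)⟩
  · rw [← pow_mul]; exact Pp.plus hr (by omega) hh
  · rw [← pow_mul, hh, mul_left_comm]
    exact Pp.nd hn j1 (by omega)

/-- `e = 2 n d` -/
theorem zs_gf' {m n : ℕ} (hm : 3 ≤ m) (hn : 0 < n) (h : m ≤ 4 → 2 ≤ n) : ∃ d r, Odd d ∧ d ≤ m ∧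
    r ∣ (2 ^ n) ^ d + 1 ∧ Good m ((2 ^ n) ^ 2) r ∧ ¬ r ∣ n ∧
      ∀ i, 1 ≤ i → i ≤ m → ¬ r ∣ (2 ^ n) ^ i - 1 := by
  obtain ⟨d, ho, h3, h1, h2⟩ := Pp.exists_d (m := m) hm
  have h4 : 3 * n ≤ n * d := by nlinarith
  obtain ⟨r, hr, r2, hl, hh⟩ := Pp.zs (e := 2 * (n * d)) (by omega) fun e => by
    obtain rfl : n = 1 := by omega
    omega
  refine ⟨d, r, ho, h1, ?_, ⟨hr, r2, fun j j1 j2 => ?_⟩, Pp.nd' hn (by omega), fun i i1 i2 => ?_⟩
  · rw [← pow_mul]; exact Pp.plus hr (by omega) hh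
  · rw [← pow_mul, ← pow_mul, hh, ← mul_assoc, ← mul_assoc, mul_comm 2 n]
    exact Pp.nd (by omega) j1 (by omega)
  · rw [← pow_mul, hh, mul_left_comm]
    exact Pp.nd hn i1 (by omega)

/-- `e = 4 k n` -/
theorem zs_g' {k n : ℕ} (hk : 1 ≤ k) (hn : 0 < n) : ∃ r,
    r ∣ ((2 ^ n) ^ 2) ^ k + 1 ∧ Good (2 * k + 1) ((2 ^ n) ^ 2) r ∧ ¬ r ∣ n ∧
      ∀ i, 1 ≤ i → i ≤ 2 * k + 1 → ¬ r ∣ (2 ^ n) ^ i - 1 := by
  have h4 : n ≤ n * k := by nlinarith
  have h5 : n * (2 * k) = 2 * (n * k) := by ring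
  obtain ⟨r, hr, r2, hl, hh⟩ := Pp.zs (e := 2 * (n * (2 * k))) (by omega) (by omega)
  refine ⟨r, ?_, ⟨hr, r2, fun j j1 j2 => ?_⟩, Pp.nd' hn (by omega), fun i i1 i2 => ?_⟩
  · rw [← pow_mul, ← pow_mul]; exact Pp.plus hr (by omega) hh
  · rw [← pow_mul, ← pow_mul, hh, ← mul_assoc, ← mul_assoc n 2 j, mul_comm 2 n]
    exact Pp.nd (by omega) j1 (by omega)
  · rw [← pow_mul, hh, mul_left_comm]
    exact Pp.nd hn i1 (by omega)

end CL.SC
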