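import Cfsg.Agent.INV.SC.K1
import Cfsg.Agent.INV.SC.Out
import Cfsg.Agent.INV.SC.Ppd
import Cfsg.Agent.INV.SC.Gen

/-!
Consequences of the basic configuration.
-/

set_option autoImplicit false
set_option maxHeartbeats 200000
set_option linter.unusedSectionVars false
set_option linter.unusedVariables false

namespace CL.SC

open Matrix Subgroup
open scoped commutatorElement

variable {m : ℕ} [NeZero m] {F : Type*} [Field F] [Finite F] [CharP F 2]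
variable {G : Type*} [Group G] [Finite G]
variable {ρ : SL m F →* G} {t : G}

theorem St.tt (h : St ρ t) : t * t = 1 := by rw [← sq, ← h.t2, pow_orderOf_eq_one]

theorem St.ne_one (h : St ρ t) : t ≠ 1 := fun e => by simpa [e] using h.t2

theorem St.conj (h : St ρ t) (g : G) : St (tw g ρ) (g * t * g⁻¹) := by
  have c : ∀ {a b : G}, Commute a (g * b * g⁻¹) → Commute (g⁻¹ * a * g) b := fun {a b} e => by
    simpa [mul_assoc] using e.map (MulAut.conj g⁻¹)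
  refine ⟨h.fr.tw g, (orderOf_injective (MulAut.conj g).toMonoidHom (MulAut.conj g).injective t).trans h.t2,
    fun a => (h.tc a).map (MulAut.conj g), fun y hy => ?_, fun k hk e => ?_⟩
  · rw [range_tw, ← cj_eq_iff, ← cj_mul0, show y * g = g * (g⁻¹ * y * g) by group, cj_mul0,
      cj_eq_iff.2 (h.nrm _ (c hy))]
  · rcases h.inv _ ⟨c hk.1, fun a => c (hk.2 a)⟩ (by
      rw [show g⁻¹ * k * g * (g⁻¹ * k * g) = g⁻¹ * (k * k) * g by group, e]; group) with e | e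
    · exact Or.inl (by rw [← conj_eq_one_iff (a := g⁻¹), inv_inv, e])
    · exact Or.inr (by rw [← e]; group)

theorem St.aut (h : St ρ t) (α : MulAut (SL m F)) : St (rf ρ α) t := 
  ⟨h.fr.rf α, h.t2, fun a => h.tc _, fun g hg => range_rf ρ α ▸ h.nrm g hg,
    fun k hk => h.inv k ⟨hk.1, fun a => by simpa [rf_apply] using hk.2 (α.symm a)⟩⟩

theorem St.of_conj (h : St ρ t) {u : G} (hu : IsConj t u) : ∃ ρ' : SL m F →* G, St ρ' u := by
  obtain ⟨g, rfl⟩ := isConj_iff.1 hu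
  exact ⟨_, h.conj g⟩

theorem St.not_mem (hm : 3 ≤ m) (h : St ρ t) : t ∉ ρ.range := fun e => by
  obtain ⟨a, ha, rfl⟩ := h.fr.lift_inv e h.tt
  exact h.ne_one (by rw [eq_one_of_center (h.fr.center hm h.tc) (n := 1) ((pow_two a).trans ha), map_one])

theorem St.ac (hm : 3 ≤ m) (h : St ρ t) {g : G} (hg : Commute g t) : ∃ α, Ac ρ g α := h.fr.exists_ac hm (h.nrm g hg)

theorem St.kt (h : St ρ t) {n : G} (hn : Commute n t) {a : SL m F}
    (hac : Ac ρ n (MulAut.conj a)) : Kt ρ t ((ρ a)⁻¹ * n) := 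
  ⟨(h.tc a).symm.inv_left.mul_left hn, ac_one.1 (inv_mul_cancel (MulAut.conj a) ▸ (ac_self ρ a).inv.mul hac)⟩

theorem Kt.mul {k k' : G} (h : Kt ρ t k) (h' : Kt ρ t k') : Kt ρ t (k * k') := ⟨h.1.mul_left h'.1, fun a => (h.2 a).mul_left (h'.2 a)⟩

theorem Kt.pow {k : G} (h : Kt ρ t k) (n : ℕ) : Kt ρ t (k ^ n) := ⟨h.1.pow_left n, fun a => (h.2 a).pow_left n⟩

theorem Kt.inv {k : G} (h : Kt ρ t k) : Kt ρ t k⁻¹ := ⟨h.1.inv_left, fun a => (h.2 a).inv_left⟩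

theorem St.kt_two (hm : 3 ≤ m) (h : St ρ t) {a : SL m F} {n : ℕ} (ha : a ^ 2 ^ n = 1)
    (hk : Kt ρ t (ρ a)) : a = 1 := eq_one_of_center (h.fr.center hm hk.2) ha

/-- the 2-part of `k` is `1` or `t` -/
theorem St.kt_dec (h : St ρ t) (r2 : ∀ k, Kt ρ t k → k * k ≠ t) {k : G} (hk : Kt ρ t k) :
    ∃ o, Kt ρ t o ∧ Odd (orderOf o) ∧ (k = o ∨ k = t * o) := by
  have two : ∀ n : ℕ, ∀ s, Kt ρ t s → s ^ 2 ^ n = 1 → s = 1 ∨ s = t := by
    intro n
    induction n with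
    | zero => exact fun s _ e => Or.inl (by simpa using e)
    | succ n ih =>
      exact fun s hs e => h.inv s hs ((ih _ (hs.mul hs) (by rwa [← sq, ← pow_mul, ← pow_succ'])).resolve_right
        (r2 s hs))
  obtain ⟨a, b, hb, e⟩ := Nat.exists_eq_two_pow_mul_odd (orderOf_pos k).ne'
  rcases two a _ (hk.pow b) (by rw [← pow_mul, mul_comm, ← e, pow_orderOf_eq_one]) with e | e
  · exact ⟨k, hk, hb.of_dvd_nat (orderOf_dvd_of_pow_eq_one e), Or.inl rfl⟩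
  · refine ⟨t * k, Kt.mul ⟨Commute.refl t, h.tc⟩ hk, hb.of_dvd_nat (orderOf_dvd_of_pow_eq_one ?_),
      Or.inr (by rw [← mul_assoc, h.tt, one_mul])⟩
    obtain ⟨c, rfl⟩ := hb
    rw [hk.1.symm.mul_pow, e, pow_succ, pow_mul, sq, h.tt, one_pow, one_mul, h.tt]

theorem St.inner' (h : St ρ t) {e : G} (he : e * e = 1) (hc : Commute e t) {a : SL m F} (ha : a * a = 1)
    (hac : Ac ρ e (MulAut.conj a)) : e = ρ a ∨ e = t * ρ a := by
  have k := h.kt hc hac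
  have e1 : (ρ a)⁻¹ = ρ a := inv_eq_of_mul_eq_one_right (by rw [← map_mul, ha, map_one])
  refine (h.inv _ k ?_).imp (fun e => (inv_mul_eq_one.1 e).symm) fun e => ?_
  · have := (k.2 a).eq
    rw [e1] at this ⊢
    rw [← mul_assoc, this, ← mul_assoc, ← map_mul, ha, map_one, one_mul, he]
  · rw [(h.tc a).eq, ← e, mul_inv_cancel_left]

theorem St.inner (hm : 3 ≤ m) (h : St ρ t) {e : G} (he : e * e = 1) (hc : Commute e t)
    {α : MulAut (SL m F)} (hac : Ac ρ e α) (hα : Ty α 1 false) :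
    ∃ a : SL m F, a * a = 1 ∧ (e = ρ a ∨ e = t * ρ a) := by
  obtain ⟨a, ha, rfl⟩ := hα.invol hm (hac.sq hm h.fr he)
  exact ⟨a, ha, h.inner' he hc ha hac⟩

theorem St.inner_comm (hm : 3 ≤ m) (h : St ρ t) {e : G} (he : e * e = 1)
    (hc : e ∈ ⁅centralizer ({t} : Set G), centralizer ({t} : Set G)⁆) :
    ∃ a : SL m F, a * a = 1 ∧ (e = ρ a ∨ e = t * ρ a) := by
  have c : Commute e t := mem_centralizer_singleton_iff.1 (commutator_le_self _ hc)
  obtain ⟨α, hα⟩ := h.ac hm c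
  exact h.inner hm he c hα (h.fr.ty_comm hm (fun g hg => h.nrm g (mem_centralizer_singleton_iff.1 hg)) hc hα)

theorem St.exists_f (hm : 3 ≤ m) (h : St ρ t) {E : Subgroup G} (hE : El E) (hc : ∀ e ∈ E, Commute e t) :
    ∃ f : E →* MulAut (SL m F), (∀ e : E, Ac ρ e (f e)) ∧ El f.range ∧ Nat.card E ≤ 2 * Nat.card f.range := by
  obtain ⟨θ, hθ⟩ := h.fr.exists_hom hm
  let f := θ.comp (inclusion fun e he => h.nrm e (hc e he))
  have hf : ∀ e : E, Ac ρ e (f e) := fun e => hθ (inclusion _ e)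
  refine ⟨f, hf, by rintro _ ⟨e, rfl⟩; exact (hf e).sq hm h.fr (hE e e.2), ?_⟩
  rw [← f.ker.card_mul_index, index_ker]
  refine Nat.mul_le_mul_right _ ?_
  rw [← h.t2, ← Nat.card_zpowers, ← card_map_of_injective E.subtype_injective]
  refine card_le_of_le ?_
  rintro _ ⟨e, he, rfl⟩
  rcases h.inv e ⟨hc e e.2, ac_one.1 ((show f e = 1 from he) ▸ hf e)⟩ (hE e e.2) with e | e <;> simp [e]

/-- the kernel of the action of `E` on the frame lies in `{1, t}`; `aut_card_le` -/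
theorem St.rank (hp : Par m F) (h : St ρ t) {E : Subgroup G} (hE : El E)
    (hc : ∀ e ∈ E, Commute e t) : Nat.card E ≤ 2 * Nat.card F ^ cc m := by
  obtain ⟨f, -, h1, h2⟩ := h.exists_f hp.1 hE hc
  exact h2.trans (Nat.mul_le_mul_left _ (aut_card_le hp h1))

theorem St.rank_conj (hp : Par m F) (h : St ρ t) {u : G} (hu : IsConj t u) {E : Subgroup G}
    (hE : El E) (hc : ∀ e ∈ E, Commute e u) : Nat.card E ≤ 2 * Nat.card F ^ cc m := by
  obtain ⟨ρ', h'⟩ := h.of_conj hu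
  exact h'.rank hp hE hc

theorem St.rank_eq (hp : Par m F) (h : St ρ t) {E : Subgroup G} (hE : El E)
    (hc : ∀ e ∈ E, Commute e t) (hn : 2 * Nat.card F ^ cc m ≤ Nat.card E) :
    ∃ (s : SL m F) (d : ℕ), (d = m / 2 ∨ d = m - m / 2) ∧
      E = zpowers t ⊔ (cj s (A m F d)).map ρ := by
  obtain ⟨f, hf, h1, h2⟩ := h.exists_f hp.1 hE hc
  obtain ⟨s, d, hd, e⟩ := aut_eq_A hp h1 (Nat.le_of_mul_le_mul_left (hn.trans h2) two_pos)
  have c : ∀ v ∈ (cj s (A m F d)).map ρ, Commute t v := by rintro _ ⟨a, -, rfl⟩; exact h.tc a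
  refine ⟨s, d, hd, eq_of_le_of_card_ge (fun y hy => ?_) (le_trans ?_ hn)⟩
  · obtain ⟨a, ha, e⟩ := e.le ⟨⟨y, hy⟩, rfl⟩
    rcases h.inner' (hE y hy) (hc y hy) ((el_A d).map _ a ha) (e ▸ hf ⟨y, hy⟩) with rfl | rfl
    · exact mem_sup_right ⟨a, ha, rfl⟩
    · exact mul_mem_sup (mem_zpowers t) ⟨a, ha, rfl⟩
  · rw [card_zsup h.tt c fun e => h.not_mem hp.1 (map_le_range _ _ e), h.fr.card_map ((el_A d).map _).pgroup,
      card_cj]
    rcases hd with rfl | rfl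
    · rw [card_Ak]
    · rw [card_Ak']

theorem St.cent_row (hm : 3 ≤ m) (h : St ρ t) {n : G} (hn : Commute n t)
    (hc : ∀ a ∈ row F 0, Commute n (ρ a)) : ∃ a ∈ row F 0, Kt ρ t ((ρ a)⁻¹ * n) := by
  obtain ⟨α, hα⟩ := h.ac hm hn
  obtain ⟨a, ha, rfl⟩ := CL.SC.cent_row hm (α := α) fun a ha =>
    (hα.fix h.fr (k := 1) ((pow_two a).trans (el_row 0 a ha))).1 (hc a ha)
  exact ⟨a, ha, h.kt hn hα⟩

theorem St.cent_Q (hm : 3 ≤ m) (h : St ρ t) {n : G} (hn : Commute n t)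
    (hc : ∀ a ∈ Q m F, Commute n (ρ a)) : ∃ c, Kt ρ t ((ρ (zz c))⁻¹ * n) := by
  obtain ⟨α, hα⟩ := h.ac hm hn
  obtain ⟨c, rfl⟩ := CL.SC.cent_Q hm (α := α) fun a ha => by
    obtain ⟨k, hk⟩ := pgroup_U ⟨a, Q_le_U ha⟩
    exact (hα.fix h.fr (congrArg Subtype.val hk)).1 (hc a ha)
  exact ⟨c, h.kt hn hα⟩

theorem St.cent_QZ (hm : 3 ≤ m) (h : St ρ t) {n : G} (hn : Commute n t)
    (hz : ∀ c, Commute n (ρ (zz c)))
    (hc : ∀ a ∈ Q m F, n * ρ a * n⁻¹ * (ρ a)⁻¹ ∈ (X F 0 la).map ρ) :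
    ∃ a ∈ Q m F, Kt ρ t ((ρ a)⁻¹ * n) := by
  obtain ⟨α, hα⟩ := h.ac hm hn
  have z : ∀ c, α (zz c) = zz c := fun c => (hα.fix h.fr (k := 1) ((pow_two _).trans (x_sq _ _ c))).1 (hz c)
  obtain ⟨a, ha, rfl⟩ := CL.SC.cent_QZ hm z fun a ha => by
    obtain ⟨b, hb, e⟩ := hc a ha
    rw [hα, ← map_inv, ← map_mul] at e
    exact h.fr.inj_U (Q_le_U (mem_sup_left (X_le_row _ _ hb)))
      (Q_le_U (mul_mem ((nz_Q hm one_ne_zero (z 1)).le ⟨a, ha, rfl⟩) (inv_mem ha))) e ▸ hb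
  exact ⟨a, ha, h.kt hn hα⟩

theorem St.norm_Q (hm : 3 ≤ m) (h : St ρ t) {n : G} (hn : Commute n t) {c : F} (hc : c ≠ 0)
    (hz : Commute n (ρ (zz c))) : n ∈ normalizer (((Q m F).map ρ : Subgroup G) : Set G) := by
  obtain ⟨α, hα⟩ := h.ac hm hn
  have z := (hα.fix h.fr (k := 1) ((pow_two _).trans (x_sq _ _ c))).1 hz
  refine mem_norm_of_le ?_
  rintro _ ⟨a, ha, rfl⟩
  exact ⟨_, (nz_Q hm hc z).le ⟨a, ha, rfl⟩, (hα a).symm⟩

theorem St.odd_cent (h : St ρ t) {H : Subgroup G} (hle : ρ.range ≤ H)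
    (hn : t ∈ normalizer (H : Set G)) (ht : t ∉ centralizer (H : Set G)) :
    Odd (Nat.card (centralizer (H : Set G))) := by
  refine odd_of_no_inv h.tt (mem_norm_of_le fun y hy u hu => ?_) fun c hc e ct =>
    (h.inv c ⟨ct, fun a => (hc _ (hle ⟨a, rfl⟩)).symm⟩ e).resolve_right fun e => ht (e ▸ hc)
  have := hy _ ((mem_normalizer_iff''.1 hn u).1 hu)
  calc u * (t * y * t⁻¹) = t * (t⁻¹ * u * t * y) * t⁻¹ := by group
    _ = t * y * t⁻¹ * u := by rw [this]; group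

/-- `mv`: `α (zz 1) = s (zz 1) s⁻¹` (`IsRoot.aut`); conjugate `y` by `ρ s` -/
theorem St1.aut (hm : 3 ≤ m) (h : St1 ρ t) (α : MulAut (SL m F)) : St1 (rf ρ α) t := by
  refine ⟨h.toSt.aut α, fun r hr => h.nr _ (hr.aut hm α), ?_⟩
  obtain ⟨y, h1, h2⟩ := h.mv
  obtain ⟨s, hs⟩ := isConj_iff.1 (IsRoot.aut hm (IsConj.refl _) α)
  have c := (h.tc s).eq
  refine ⟨ρ s * y * (ρ s)⁻¹, ?_, ?_⟩ <;> rw [rf_apply, ← hs, map_mul, map_mul, map_inv]
  · calc _ = ρ s * (y * ((ρ s)⁻¹ * (t * ρ s)) * y⁻¹) * (ρ s)⁻¹ := by group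
      _ = _ := by rw [c, inv_mul_cancel_left, h1, ← mul_assoc, ← c]; group
  · exact h2.map (MulAut.conj (ρ s))

/-- `out` gives an involution `v ∈ ⁅Fx α, Fx α⁆`; `π v` is `ρ b` or `t ρ b` (`inner_comm`), so
commutes with `π a`; `ppd'`. -/
theorem St.kill (h : St ρ t) {K : Type*} [Field K] [Finite K] [CharP K 2] (hp : Par m K)
    {π : SL m K →* G} (hπ : Fr π) {α : MulAut (SL m K)} (hac : Ac π t α) (ho : Ou α) {r : ℕ}
    (hr : Good m (Nat.card K) r) {a : SL m K} (ha : orderOf a = r) (hk : Kt ρ t (π a)) : False :=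
  by
  obtain ⟨v, hv, v1, v2, -⟩ := out hp (hac.sq hp.1 hπ h.tt) ho
  have le : (Fx α).map π ≤ centralizer {t} := by
    rintro _ ⟨b, hb, rfl⟩
    exact mem_centralizer_singleton_iff.2 (hac.commute hb).symm
  obtain ⟨b, -, e⟩ := h.inner_comm hp.1 (e := π v) (by rw [← map_mul, v2, map_one])
    (commutator_mono le le (map_commutator _ _ π ▸ mem_map_of_mem π hv))
  refine ppd' hp.1 hr ha v2 v1 (hπ.commute (n := 1) ((pow_two v).trans v2) ?_).symm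
  rcases e with e | e <;> rw [e]
  exacts [(hk.2 b).symm, (hk.1.mul_right (hk.2 b)).symm]

/-- `C_Y(t)` normalises `ρ(Q)` (`norm_Q`), so centralises it (`comm_of_norm`);
`C_Y(t ρ a) = y C_Y(t) y⁻¹`; `le_of_four` for `t`, `ρ a`. -/
theorem St.sig (hm : 3 ≤ m) (h : St ρ t) {Y : Subgroup G} (hY : Odd (Nat.card Y))
    (ht : t ∈ normalizer (Y : Set G)) (hz : ∀ w ∈ Y, Commute w (ρ (zz 1)))
    (hQ : ∀ a ∈ Q m F, ρ a ∈ normalizer (Y : Set G)) {a : SL m F} (ha : a ∈ Q m F) (ha2 : a * a = 1)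
    {y : G} (hy : y ∈ normalizer (Y : Set G)) (hyt : y * t * y⁻¹ = t * ρ a)
    (hya : Commute y (ρ a)) : ∀ w ∈ Y, Commute w (ρ a) := by
  have k : ∀ w ∈ Y, Commute w t → Commute w (ρ a) := fun w hw c =>
    comm_of_norm hY ((pgroup_U.to_le Q_le_U).map ρ) hw ⟨a, ha, rfl⟩ (h.norm_Q hm c one_ne_zero (hz w hw)) (hQ a ha)
  refine fun w hw => mem_centralizer_singleton_iff.1 (le_of_four (H := centralizer {ρ a}) hY h.tt
    (by rw [← map_mul, ha2, map_one]) (h.tc a) ht (hQ a ha)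
    (fun w hw c => mem_centralizer_singleton_iff.2 (k w hw c)) (fun w hw c => mem_centralizer_singleton_iff.2 c)
    (fun w hw c => mem_centralizer_singleton_iff.2 ?_) hw)
  have c1 := (hyt ▸ c).map (MulAut.conj y⁻¹)
  have c2 := (k _ ((mem_normalizer_iff''.1 hy w).1 hw) (by simpa [mul_assoc] using c1)).map (MulAut.conj y)
  simp only [MulAut.conj_apply, hya.eq, mul_inv_cancel_right, mul_assoc y⁻¹, mul_inv_cancel_left] at c2
  exact c2

end CL.SC
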