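import Cfsg.Agent.INV.SC.Base

/-!
Commutator relations of the doubled root groups.
-/

set_option autoImplicit false
set_option linter.unusedSectionVars false
set_option linter.unusedVariables false

namespace CL.SC

open Matrix Subgroup
open scoped commutatorElement

variable {m : ℕ} [NeZero m] {F : Type*} [Field F] [Finite F] [CharP F 2]
variable {G : Type*} [Group G] [Finite G]
variable {ρ : SL m F →* G} {t : G}

namespace D1h

theorem cj_inf (g : G) (H K : Subgroup G) : cj g (H ⊓ K) = cj g H ⊓ cj g K :=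
  Subgroup.map_inf H K _ (MulAut.conj g).injective

theorem cjm (n : SL m F) (H : Subgroup (SL m F)) : cj (ρ n) (H.map ρ) = (cj n H).map ρ := by
  rw [cj, cj, Subgroup.map_map, Subgroup.map_map]
  congr 1
  ext a
  simp

theorem cjt (h : St ρ t) (n : SL m F) : ρ n * t * (ρ n)⁻¹ = t := by
  rw [← (h.tc n).eq, mul_inv_cancel_right]

theorem cjT (h : St ρ t) {n : SL m F} {H K : Subgroup (SL m F)} (e : cj n H = K) :
    cj (ρ n) (til t (H.map ρ)) = til t (K.map ρ) := by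
  rw [cj_til, cjt h, cjm, e]

theorem mon (h : St ρ t) (n : SL m F) (i j i' j' : Fin m) (e1 : cj n (row F i) = row F i')
    (e2 : cj n (col F j) = col F j') : cj (ρ n) (Xt ρ t i j) = Xt ρ t i' j' := by
  rw [Xt, Xt, cj_inf, Rt, Rt, Ct, Ct, cjT h e1, cjT h e2]

theorem exists_s (hm : 3 ≤ m) {i j : Fin m} (h : i ≠ j) :
    ∃ s : Equiv.Perm (Fin m), s 0 = i ∧ s la = j := by
  have h0 := zero_ne_la (m := m) (by omega)
  refine ⟨Equiv.swap (Equiv.swap 0 i la) j * Equiv.swap 0 i, ?_, by simp⟩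
  rw [Equiv.Perm.mul_apply, Equiv.swap_apply_left, Equiv.swap_apply_of_ne_of_ne _ h]
  intro e
  exact h0 ((Equiv.swap 0 i).injective ((Equiv.swap_apply_left 0 i).trans e))

theorem gen {s : Fin m → Fin m → Prop} {R W : Subgroup G} (h : Dbl t ((Pat F s).map ρ) R)
    (hW : W ≤ R) (h1 : ∀ i j a, i ≠ j → s i j → ρ (x i j a) ∈ W ∧
      ∃ w ∈ W, w * t * w⁻¹ * t⁻¹ = ρ (x i j a)) : R ≤ W := by
  let H : Subgroup (SL m F) :=
    { carrier := {a | ρ a ∈ W ∧ ∃ w ∈ W, w * t * w⁻¹ * t⁻¹ = ρ a}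
      one_mem' := ⟨by simp, 1, one_mem _, by simp⟩
      mul_mem' := by
        rintro a b ⟨a1, w, hw, e⟩ ⟨b1, w', hw', e'⟩
        refine ⟨map_mul ρ a b ▸ mul_mem a1 b1, w' * w, mul_mem hw' hw, ?_⟩
        calc w' * w * t * (w' * w)⁻¹ * t⁻¹
            = w' * (w * t * w⁻¹ * t⁻¹) * w'⁻¹ * (w' * t * w'⁻¹ * t⁻¹) := by group
          _ = _ := by rw [e, e', (h.sq.comm (hW hw') (hW a1)).eq, mul_inv_cancel_right, map_mul]
      inv_mem' := by
        rintro a ⟨a1, w, hw, e⟩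
        have : ρ a⁻¹ = ρ a := by rw [map_inv, inv_eq_of_mul_eq_one_right (h.sq _ (hW a1))]
        exact ⟨this ▸ a1, w, hw, this ▸ e⟩ }
  have hH : Pat F s ≤ H := Pat_le h1
  intro y hy
  obtain ⟨a, ha, e⟩ := h.lam y hy
  obtain ⟨-, w, hw, e'⟩ := hH ha
  obtain ⟨b, hb, e2⟩ := h.ker (w⁻¹ * y) (mul_mem (inv_mem (hW hw)) hy) (by
    have e3 := mul_right_cancel (e'.trans e)
    refine mul_inv_eq_iff_eq_mul.1 ?_
    calc w⁻¹ * y * t * (w⁻¹ * y)⁻¹ = w⁻¹ * (y * t * y⁻¹) * w := by group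
      _ = t := by rw [← e3]; group)
  simpa [e2] using mul_mem hw (hH hb).1

end D1h

open D1h

/-- Transport by `ρ (pm s)` with `s 0 = i`, `s la = j` (`cj_til`, `Dbl.cj`, `cj_pm_row`).
`comm`: same row or column: `Rt`, `Ct` are elementary abelian; otherwise the commutator lies in
`Xt i l ⊓ Xt k j`, and an element `y` of this group has `λ y ∈ ρ(X i l) ⊓ ρ(X k j) = 1`, so lies in
`ρ(X i l) ⊓ ρ(X k j) = 1`.  `genr`: for `y ∈ Rt i`, `λ y = ∏ x i j (c j)`; `λ` is a homomorphism on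
`Rt i`, divide by elements of `Xt i j` with these values. -/
theorem KP.rel (hm : 3 ≤ m) (h : KP ρ t) : Rel ρ t := by
  have S := h.toSt
  have dR : ∀ i, Dbl t ((row F i).map ρ) (Rt ρ t i) := fun i => by
    have := h.r.cj (ρ (pm F (Equiv.swap 0 i)))
    rwa [cjt S, cjm, Rt, cjT S (row_cj i).symm, ← row_cj] at this
  have dC : ∀ j, Dbl t ((col F j).map ρ) (Ct ρ t j) := fun j => by
    have := h.c.cj (ρ (pm F (Equiv.swap la j)))
    rwa [cjt S, cjm, Ct, cjT S (col_cj j).symm, ← col_cj] at this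
  have dX : ∀ i j, i ≠ j → Dbl t ((X F i j).map ρ) (Xt ρ t i j) := fun i j hij => by
    obtain ⟨s, rfl, rfl⟩ := exists_s hm hij
    have := h.z.cj (ρ (pm F s))
    rwa [cjt S, cjm, mon S _ _ _ _ _ (cj_pm_row s 0) (cj_pm_col s la), ← row_inf_col, cj_inf,
      cj_pm_row, cj_pm_col, row_inf_col] at this
  have cm : ∀ i j, i ≠ j → ⁅Rt ρ t i, Ct ρ t j⁆ ≤ Xt ρ t i j := fun i j hij => by
    obtain ⟨s, rfl, rfl⟩ := exists_s hm hij
    rw [← mon S _ _ _ _ _ (cj_pm_row s 0) (cj_pm_col s la), Rt, Ct, ← cjT S (cj_pm_row s 0),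
      ← cjT S (cj_pm_col s la), ← Subgroup.map_commutator]
    exact map_mono h.comm
  refine ⟨S, dX, fun i j k l h1 h2 h3 h4 y hy y' hy' => ?_, fun i j k _ _ h3 =>
    (commutator_mono inf_le_left inf_le_right).trans (cm i k h3), mon S, fun i => ?_, fun j => ?_⟩
  · by_cases e : i = k
    · subst e
      exact (dR i).sq.comm hy.1 hy'.1
    have key : ∀ v ∈ (row F i).map ρ, v ∈ (row F k).map ρ → v = 1 := by
      rintro _ ⟨a, ha, rfl⟩ ⟨b, hb, e1⟩
      obtain rfl := S.fr.inj_inv (el_row k b hb) (el_row i a ha) e1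
      rw [mem_bot.1 ((row_inf_row e).le ⟨ha, hb⟩), map_one]
    have c1 := (cm i l h3 (commutator_mem_commutator hy.1 hy'.2)).1
    have c2 := (Rt ρ t k).inv_mem (cm k j h4.symm (commutator_mem_commutator hy'.1 hy.2)).1
    rw [commutatorElement_inv] at c2
    have c3 : Commute ⁅y, y'⁆ t := commutatorElement_eq_one_iff_commute.1
      (key _ ((dR i).lam _ c1) ((dR k).lam _ c2))
    exact commutatorElement_eq_one_iff_commute.1 (key _ ((dR i).ker _ c1 c3) ((dR k).ker _ c2 c3))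
  · refine gen (dR i) (iSup₂_le fun j _ => inf_le_left) ?_
    rintro k j a hij ⟨rfl, -⟩
    have hx : ρ (x k j a) ∈ (X F k j).map ρ := mem_map_of_mem _ (mem_X.2 ⟨a, rfl⟩)
    have le := le_iSup₂ (f := fun (j : Fin m) (_ : k ≠ j) => Xt ρ t k j) j hij
    obtain ⟨w, hw, e⟩ := (dX k j hij).sur _ hx
    exact ⟨le ((dX k j hij).le hx), w, le hw, e⟩
  · refine gen (dC j) (iSup₂_le fun i _ => inf_le_right) ?_
    rintro i l a hij ⟨rfl, -⟩
    have hx : ρ (x i l a) ∈ (X F i l).map ρ := mem_map_of_mem _ (mem_X.2 ⟨a, rfl⟩)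
    have le := le_iSup₂ (f := fun (i : Fin m) (_ : i ≠ l) => Xt ρ t i l) i hij
    obtain ⟨w, hw, e⟩ := (dX i l hij).sur _ hx
    exact ⟨le ((dX i l hij).le hx), w, le hw, e⟩

end CL.SC
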