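import Cfsg.Agent.INV.SC.D2a
import Cfsg.Agent.INV.SC.Base

/-!
Coordinates for the doubled root groups.
-/

set_option autoImplicit false
set_option maxHeartbeats 200000
set_option linter.unusedSectionVars false
set_option linter.unusedVariables false

namespace CL.SC

open Matrix Subgroup
open scoped commutatorElement

variable {m : ℕ} [NeZero m] {F : Type*} [Field F] [Finite F] [CharP F 2]
variable {G : Type*} [Group G] [Finite G]
variable {ρ : SL m F →* G} {t : G}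

namespace D2

variable {R : Type*} [AddCommGroup R]

theorem exists_perm {a b c i j k : Fin m} (h1 : a ≠ b) (h2 : b ≠ c) (h3 : a ≠ c) (k1 : i ≠ j) (k2 : j ≠ k)
    (k3 : i ≠ k) : ∃ s : Equiv.Perm (Fin m), s a = i ∧ s b = j ∧ s c = k := by
  have inj : ∀ {a b c : Fin m}, a ≠ b → b ≠ c → a ≠ c → Function.Injective ![a, b, c] := by
    intro a b c h1 h2 h3 u v e
    fin_cases u <;> fin_cases v <;> simp_all
  obtain ⟨s, hs⟩ := Equiv.Perm.exists_extending_pair _ _ (inj h1 h2 h3) (inj k1 k2 k3)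
  exact ⟨s, hs 0, hs 1, hs 2⟩

theorem xX (i j : Fin m) (a : F) : ρ (x i j a) ∈ (X F i j).map ρ := ⟨_, mem_X.2 ⟨a, rfl⟩, rfl⟩

theorem fix (h : Rel ρ t) {i j : Fin m} (hij : i ≠ j) {y : G} (hy : y ∈ Xt ρ t i j) (s : Equiv.Perm (Fin m))
    (hi : s i = i) (hj : s j = j) : Commute (ρ (pm F s)) y := by
  induction hn : s.support.card using Nat.strong_induction_on generalizing s with
  | _ n ih =>
    by_cases h1 : s = 1
    · rw [h1, pm_one, map_one]; exact Commute.one_left y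
    obtain ⟨k, hk⟩ := not_forall.1 (mt Equiv.ext h1)
    have hk : s k ≠ k := hk
    have ne : ∀ a, s a = a → a ≠ k ∧ a ≠ s k := fun a ha =>
      ⟨fun e => hk (e ▸ ha), fun e => hk (s.injective (e ▸ ha))⟩
    have := ih _ (hn ▸ Equiv.Perm.card_support_swap_mul hk) (Equiv.swap k (s k) * s)
      (by simp [hi, Equiv.swap_apply_of_ne_of_ne (ne i hi).1 (ne i hi).2])
      (by simp [hj, Equiv.swap_apply_of_ne_of_ne (ne j hj).1 (ne j hj).2]) rfl
    have c : ∀ a b, a ≠ b → a ≠ j → b ≠ i → Commute (ρ (x a b 1)) y := fun a b e1 e2 e3 =>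
      h.comm a b i j e1 hij e2 e3 _ ((h.d a b e1).le (xX a b 1)) y hy
    rw [← Equiv.swap_mul_self_mul k (s k) s, pm_mul, map_mul, pm_swap hk.symm, map_mul, map_mul]
    have c1 := c k (s k) hk.symm (ne j hj).1.symm (ne i hi).2.symm
    exact ((c1.mul_left (c (s k) k hk (ne j hj).2.symm (ne i hi).1.symm)).mul_left c1).mul_left this

theorem disj (h : Rel ρ t) {i j k l : Fin m} (hij : i ≠ j) (hkl : k ≠ l) (hd : X F i j ⊓ X F k l ≤ ⊥) {y : G}
    (h1 : y ∈ Xt ρ t i j) (h2 : y ∈ Xt ρ t k l) : y = 1 := by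
  have key : ∀ u, u ∈ (X F i j).map ρ → u ∈ (X F k l).map ρ → u = 1 := by
    rintro _ ⟨a, ha, rfl⟩ ⟨b, hb, e⟩
    obtain rfl := h.fr.inj_inv (el_row k b (X_le_row _ _ hb)) (el_row i a (X_le_row _ _ ha)) e
    rw [mem_bot.1 (hd ⟨ha, hb⟩), map_one]
  have c : Commute y t := commutatorElement_eq_one_iff_commute.1
    (key _ ((h.d i j hij).lam y h1) ((h.d k l hkl).lam y h2))
  exact key y ((h.d i j hij).ker y h1 c) ((h.d k l hkl).ker y h2 c)

/-- coordinates in an abstract group -/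
structure Pre (ρ : SL m F →* G) (t : G) (E : Fin m → Fin m → R → G) (mul : R → R → R) (ι : F →+ R)
    (lam : R →+ F) : Prop where
  add : ∀ i j r s, E i j (r + s) = E i j r * E i j s
  inj : ∀ i j, Function.Injective (E i j)
  mem : ∀ i j, i ≠ j → ∀ y, y ∈ Xt ρ t i j ↔ ∃ r, y = E i j r
  pm : ∀ (s : Equiv.Perm (Fin m)) i j, i ≠ j → ∀ r, ρ (pm F s) * E i j r * (ρ (pm F s))⁻¹ = E (s i) (s j) r
  tri : ∀ i j k, i ≠ j → j ≠ k → i ≠ k → ∀ r s, E i j r * E j k s * (E i j r)⁻¹ * (E j k s)⁻¹ = E i k (mul r s)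
  sub : ∀ i j, i ≠ j → ∀ a, E i j (ι a) = ρ (x i j a)
  act : ∀ i j r, t * E i j r * t⁻¹ = E i j (r + ι (lam r))

theorem exists_pre (hm : 3 ≤ m) (h : Rel ρ t) (f : R → G) (fa : ∀ r s, f (r + s) = f r * f s)
    (fi : Function.Injective f) (fm : ∀ y, y ∈ Xt ρ t 0 la ↔ ∃ r, f r = y) :
    ∃ (E : Fin m → Fin m → R → G) (mul : R → R → R) (ι : F →+ R) (lam : R →+ F), Pre ρ t E mul ι lam := by
  have h0 : (0 : Fin m) ≠ la := zero_ne_la (by omega)
  have Z := h.d 0 la h0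
  have fZ : ∀ r, f r ∈ Xt ρ t 0 la := fun r => (fm _).2 ⟨r, rfl⟩
  obtain ⟨k0, k1, k2⟩ := exists_third hm (0 : Fin m) la
  have ew : ∀ i j : Fin m, ∃ s : Equiv.Perm (Fin m), i ≠ j → s 0 = i ∧ s la = j := fun i j => by
    by_cases e : i = j
    · exact ⟨1, fun n => absurd e n⟩
    · obtain ⟨k, e1, e2⟩ := exists_third hm i j
      obtain ⟨s, hs⟩ := exists_perm k1.symm k2 h0 e1.symm e2 e
      exact ⟨s, fun _ => ⟨hs.1, hs.2.2⟩⟩
  choose w hw using ew
  let E : Fin m → Fin m → R → G := fun i j r => ρ (pm F (w i j)) * f r * (ρ (pm F (w i j)))⁻¹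
  have any : ∀ s : Equiv.Perm (Fin m), ∀ r, ρ (pm F s) * f r * (ρ (pm F s))⁻¹ = E (s 0) (s la) r := by
    intro s r
    obtain ⟨e1, e2⟩ := hw _ _ (s.injective.ne h0)
    have := (fix h h0 (fZ r) ((w (s 0) (s la))⁻¹ * s) (by simp [Equiv.symm_apply_eq, e1])
      (by simp [Equiv.symm_apply_eq, e2])).eq
    rw [pm_mul, ← pm_inv, map_mul, map_inv] at this
    simp only [E]
    generalize ρ (pm F (w (s 0) (s la))) = a at *
    calc _ = a * (a⁻¹ * ρ (pm F s) * f r) * (ρ (pm F s))⁻¹ := by group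
      _ = _ := by rw [this]; group
  have Epm : ∀ (s : Equiv.Perm (Fin m)) i j, i ≠ j → ∀ r,
      ρ (pm F s) * E i j r * (ρ (pm F s))⁻¹ = E (s i) (s j) r := fun s i j hij r => by
    have := any (s * w i j) r
    rw [Equiv.Perm.mul_apply, Equiv.Perm.mul_apply, (hw i j hij).1, (hw i j hij).2, pm_mul, map_mul] at this
    rw [← this]; simp only [E]; group
  have Em : ∀ i j, i ≠ j → ∀ y, y ∈ Xt ρ t i j ↔ ∃ r, y = E i j r := fun i j hij y => by
    rw [← h.mon (pm F (w i j)) 0 la i j (by rw [cj_pm_row, (hw i j hij).1]) (by rw [cj_pm_col, (hw i j hij).2])]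
    constructor
    · rintro ⟨u, hu, rfl⟩
      obtain ⟨r, rfl⟩ := (fm u).1 hu
      exact ⟨r, rfl⟩
    · rintro ⟨r, rfl⟩
      exact ⟨_, fZ r, rfl⟩
  choose mul hmul using fun r s => (fm _).1 (h.tri 0 k0 la k1.symm k2 h0
    (commutator_mem_commutator ((Em _ _ k1.symm _).2 ⟨r, rfl⟩) ((Em _ _ k2 _).2 ⟨s, rfl⟩)))
  choose ι hι using fun a : F => (fm _).1 (Z.le (xX 0 la a))
  have el : ∀ r, ∃ c, t * f r * t⁻¹ = f (r + ι c) := fun r => by
    obtain ⟨_, ha, e⟩ := Z.lam _ (fZ r)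
    obtain ⟨c, rfl⟩ := mem_X.1 ha
    refine ⟨c, ?_⟩
    rw [fa, hι, e, inv_eq_of_mul_eq_one_right (Z.sq _ (fZ r)), ← mul_assoc, ← mul_assoc, ← mul_assoc,
      Z.sq _ (fZ r), one_mul]
  choose lam hlam using el
  have ιa : ∀ a b, ι (a + b) = ι a + ι b := fun a b => fi (by rw [fa, hι, hι, hι, x_add, map_mul])
  have ιi : Function.Injective ι := fun a b e =>
    x_inj h0 (h.fr.inj_inv (x_sq _ _ a) (x_sq _ _ b) (by rw [← hι, ← hι, e]))
  refine ⟨E, mul, AddMonoidHom.mk' ι ιa, AddMonoidHom.mk' lam fun r s => ιi (add_left_cancel (a := r + s) (fi ?_)),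
    fun i j r s => by simp only [E, fa, conj_mul], fun i j r s e => fi (by simpa [E] using e), Em, Epm,
    fun i j k e1 e2 e3 r s => ?_, fun i j e a => ?_, fun i j r => ?_⟩
  · rw [← hlam, fa, ← conj_mul, hlam, hlam, ← fa, ιa]
    congr 1
    abel
  · obtain ⟨u, rfl, rfl, rfl⟩ := exists_perm k1.symm k2 h0 e1 e2 e3
    rw [← any, hmul, ← Epm u _ _ k1.symm, ← Epm u _ _ k2, commutatorElement_def]
    group
  · simp only [E, AddMonoidHom.mk'_apply, hι, ← map_inv, ← map_mul, pm_x, (hw i j e).1, (hw i j e).2]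
  · have c := (h.tc (pm F (w i j))).eq
    simp only [E, AddMonoidHom.mk'_apply, ← hlam]
    calc _ = t * ρ (pm F (w i j)) * f r * (t * ρ (pm F (w i j)))⁻¹ := by group
      _ = _ := by rw [c]; group

/-- the torus elements -/
noncomputable def hd (j k : Fin m) (c : F) : SL m F := dg fun l => if l = j then c else if l = k then c⁻¹ else 1

theorem prod_hd {j k : Fin m} (h : j ≠ k) {c : F} (hc : c ≠ 0) :
    ∏ l, (if l = j then c else if l = k then c⁻¹ else 1) = 1 := by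
  rw [Finset.prod_eq_mul j k h] <;> simp +contextual [h.symm, hc]

theorem hd_mul {j k : Fin m} (h : j ≠ k) {c d : F} (hc : c ≠ 0) (hd' : d ≠ 0) :
    hd j k (c * d) = hd j k c * hd j k d := by
  rw [hd, hd, hd, ← dg_mul (prod_hd h hc) (prod_hd h hd')]
  congr 1
  ext l
  simp only [Pi.mul_apply]
  split_ifs <;> simp [mul_comm]

theorem hd_comm {i j k l : Fin m} (h : i ≠ j) (h' : k ≠ l) {c d : F} (hc : c ≠ 0) (hd' : d ≠ 0) :
    hd i j c * hd k l d = hd k l d * hd i j c := by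
  rw [hd, hd, ← dg_mul (prod_hd h hc) (prod_hd h' hd'), ← dg_mul (prod_hd h' hd') (prod_hd h hc), mul_comm]

theorem hd_tri {i j k : Fin m} (h1 : i ≠ j) (h2 : j ≠ k) (h3 : i ≠ k) {c : F} (hc : c ≠ 0) :
    hd i k c = hd i j c * hd j k c := by
  rw [hd, hd, hd, ← dg_mul (prod_hd h1 hc) (prod_hd h2 hc)]
  congr 1
  ext l
  simp only [Pi.mul_apply]
  split_ifs <;> simp_all

theorem weyl_mon (h : Rel ρ t) {j k : Fin m} (hjk : j ≠ k) {c : F} (hc : c ≠ 0) (a b : Fin m) {y : G}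
    (hy : y ∈ Xt ρ t a b) : ρ (x j k c) * (ρ (x k j c⁻¹) * (ρ (x j k c) * y * (ρ (x j k c))⁻¹) * (ρ (x k j c⁻¹))⁻¹) *
      (ρ (x j k c))⁻¹ = ρ (hd j k c) * (ρ (pm F (Equiv.swap j k)) * y * (ρ (pm F (Equiv.swap j k)))⁻¹) *
      (ρ (hd j k c))⁻¹ ∧ ∀ y ∈ Xt ρ t a b, ρ (hd j k c) * y * (ρ (hd j k c))⁻¹ ∈ Xt ρ t a b := by
  refine ⟨?_, fun y hy => (h.mon (hd j k c) a b a b (cj_eq_iff.2 (dg_norm_Pat (prod_hd hjk hc) _))
    (cj_eq_iff.2 (dg_norm_Pat (prod_hd hjk hc) _))).le ⟨y, hy, rfl⟩⟩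
  have := congrArg (fun n => ρ n * y * (ρ n)⁻¹) (x_weyl hjk hc)
  simp only [map_mul, _root_.mul_inv_rev, mul_assoc] at this ⊢
  exact this

variable {E : Fin m → Fin m → R → G} {mul : R → R → R} {ι : F →+ R} {lam : R →+ F}

theorem Pre.co (p : Pre ρ t E mul ι lam) (hm : 3 ≤ m) (h : Rel ρ t) : ∃ c ξ, Co ρ t c ξ := by
  have mem : ∀ {i j}, i ≠ j → ∀ r, E i j r ∈ Xt ρ t i j := fun e r => (p.mem _ _ e _).2 ⟨r, rfl⟩
  have e0 : ∀ i j, E i j 0 = 1 := fun i j => by simpa using p.add i j 0 0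
  have sq : ∀ {i j}, i ≠ j → ∀ r, (E i j r)⁻¹ = E i j r := fun e r =>
    inv_eq_of_mul_eq_one_right ((h.d _ _ e).sq _ (mem e r))
  have cm : ∀ {i j k l}, i ≠ j → k ≠ l → i ≠ l → j ≠ k → ∀ r s, E i j r * E k l s = E k l s * E i j r :=
    fun e1 e2 e3 e4 r s => h.comm _ _ _ _ e1 e2 e3 e4 _ (mem e1 r) _ (mem e2 s)
  have cf : ∀ {i j k l}, i ≠ j → k ≠ l → i ≠ l → j ≠ k → ∀ r s, E i j r * E k l s * (E i j r)⁻¹ = E k l s :=
    fun e1 e2 e3 e4 r s => by rw [cm e1 e2 e3 e4, mul_inv_cancel_right]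
  have c1 : ∀ {i j k}, i ≠ j → j ≠ k → i ≠ k → ∀ r s,
      E i j r * E j k s * (E i j r)⁻¹ = E i k (mul r s) * E j k s := fun e1 e2 e3 r s => by
    rw [← p.tri _ _ _ e1 e2 e3, inv_mul_cancel_right]
  have c2 : ∀ {i j k}, i ≠ j → j ≠ k → i ≠ k → ∀ r s,
      E j k s * E i j r * (E j k s)⁻¹ = E i j r * E i k (mul r s) := fun {i j k} e1 e2 e3 r s => by
    rw [← p.tri _ _ _ e1 e2 e3, sq e1, ← mul_assoc, ← mul_assoc, ← mul_assoc, (h.d _ _ e1).sq _ (mem e1 r), one_mul]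
  have h0 : (0 : Fin m) ≠ la := zero_ne_la (by omega)
  obtain ⟨j, j0, jl⟩ := exists_third hm (0 : Fin m) la
  have hl : ∀ r r' s, mul (r + r') s = mul r s + mul r' s := fun r r' s => p.inj 0 la (by
    refine mul_right_cancel (b := E j la s) ?_
    rw [← c1 j0.symm jl h0, add_comm r, p.add, _root_.mul_inv_rev, mul_assoc (E 0 j r'), mul_assoc (E 0 j r'),
      ← mul_assoc (_ * _), c1 j0.symm jl h0, ← mul_assoc, ← conj_mul, cf j0.symm h0 h0 j0, c1 j0.symm jl h0,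
      p.add, mul_assoc])
  have hr : ∀ r s s', mul r (s + s') = mul r s + mul r s' := fun r s s' => p.inj 0 la (by
    refine mul_right_cancel (b := E j la (s + s')) ?_
    rw [← c1 j0.symm jl h0, p.add, p.add, ← conj_mul, c1 j0.symm jl h0, c1 j0.symm jl h0, mul_assoc,
      ← mul_assoc (E j la s), cm jl h0 jl h0.symm]
    simp only [mul_assoc])
  have l0 : ∀ s, mul 0 s = 0 := fun s => by simpa using hl 0 0 s
  have r0 : ∀ s, mul s 0 = 0 := fun s => by simpa using hr s 0 0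
  have wr : ∀ {i j k}, i ≠ j → j ≠ k → i ≠ k → ∀ {c : F}, c ≠ 0 → ∀ r,
      ρ (hd j k c) * E i k r * (ρ (hd j k c))⁻¹ = E i k (mul r (ι c)) := by
    intro i j k e1 e2 e3 c hc r
    obtain ⟨a, b⟩ := weyl_mon h e2 hc i j (mem e1 r)
    rw [p.pm _ _ _ e1, Equiv.swap_apply_left, Equiv.swap_apply_of_ne_of_ne e1 e3, ← p.sub _ _ e2,
      ← p.sub _ _ e2.symm, c2 e1 e2 e3, ← conj_mul (b := E k j _), cf e2.symm e1 e2.symm e1.symm, c2 e3 e2.symm e1,
      cm e3 e1 e1 e3.symm, ← mul_assoc (E i j r), ← p.add, ← conj_mul, c2 e1 e2 e3, cf e2 e3 e2 e3.symm,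
      mul_assoc, ← p.add] at a
    have m1 := (weyl_mon h e2 hc i k (mem e3 r)).2 _ (mem e3 r)
    rw [← a] at m1 ⊢
    have := disj h e1 e3 ((inf_le_inf (X_le_col _ _) (X_le_col _ _)).trans (col_inf_col e2).le) (mem e1 _)
      ((mul_mem_cancel_right (mem e3 _)).1 m1)
    rw [p.inj _ _ (this.trans (e0 i j).symm), e0, l0, one_mul, zero_add]
  have wl : ∀ {i j k}, i ≠ j → j ≠ k → i ≠ k → ∀ {c : F}, c ≠ 0 → ∀ r,
      ρ (hd i j c) * E i k r * (ρ (hd i j c))⁻¹ = E i k (mul (ι c) r) := by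
    intro i j k e1 e2 e3 c hc r
    obtain ⟨a, b⟩ := weyl_mon h e1 hc j k (mem e2 r)
    rw [p.pm _ _ _ e2, Equiv.swap_apply_right, Equiv.swap_apply_of_ne_of_ne e3.symm e2.symm, ← p.sub _ _ e1,
      ← p.sub _ _ e1.symm, c1 e1 e2 e3, ← conj_mul (b := E j i _), cf e1.symm e2 e2 e1, c1 e1.symm e3 e2,
      cm e2 e3 e2 e3.symm, mul_assoc (E i k _), ← p.add, ← conj_mul, c1 e1 e2 e3, cf e1 e3 e3 e1.symm,
      ← mul_assoc, ← p.add] at a
    have m1 := (weyl_mon h e1 hc i k (mem e3 r)).2 _ (mem e3 r)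
    rw [← a] at m1 ⊢
    have := disj h e2 e3 ((inf_le_inf (X_le_row _ _) (X_le_row _ _)).trans (row_inf_row e1.symm).le) (mem e2 _)
      ((mul_mem_cancel_left (mem e3 _)).1 m1)
    rw [p.inj _ _ (this.trans (e0 j k).symm), e0, r0, mul_one, add_zero]
  have one : ∀ i j : Fin m, i ≠ j → hd i j (1 : F) = 1 := fun i j e =>
    left_eq_mul.1 (by rw [← hd_mul e one_ne_zero one_ne_zero, mul_one])
  have D := h.d 0 la h0
  have ii : Function.Injective ι := fun a b e =>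
    x_inj h0 (h.fr.inj_inv (x_sq _ _ a) (x_sq _ _ b) (by rw [← p.sub _ _ h0, ← p.sub _ _ h0, e]))
  obtain ⟨c, e, k1, k2, k3⟩ := algebra mul ι lam
    (fun r => p.inj 0 la (by rw [p.add, e0, D.sq _ (mem h0 r)])) hl hr
    (fun a b => p.inj 0 la (by
      rw [← p.tri _ _ _ j0.symm jl h0, p.sub _ _ j0.symm, p.sub _ _ jl, p.sub _ _ h0, ← x_tri j0.symm jl h0]
      simp only [map_mul, map_inv])) ii
    (fun r => p.inj 0 la (by rw [← wr j0.symm jl h0 one_ne_zero, one _ _ jl]; simp))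
    (fun r => p.inj 0 la (by rw [← wl j0.symm jl h0 one_ne_zero, one _ _ j0.symm]; simp))
    (fun r c d => by
      by_cases hc : c = 0
      · simp [hc, l0, r0]
      by_cases hd' : d = 0
      · simp [hd', r0]
      refine p.inj 0 la ?_
      rw [← wr j0.symm jl h0 hd', ← wr j0.symm jl h0 hc, ← wr j0.symm jl h0 (mul_ne_zero hc hd'), mul_comm c,
        hd_mul jl hd' hc, map_mul]
      group)
    (fun r c d => by
      by_cases hc : c = 0
      · simp [hc, l0]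
      by_cases hd' : d = 0
      · simp [hd', l0, r0]
      refine p.inj 0 la ?_
      rw [← wl j0.symm jl h0 hc, ← wl j0.symm jl h0 hd', ← wl j0.symm jl h0 (mul_ne_zero hc hd'),
        hd_mul j0.symm hc hd', map_mul]
      group)
    (fun r c d => by
      by_cases hc : c = 0
      · simp [hc, l0]
      by_cases hd' : d = 0
      · simp [hd', r0]
      refine p.inj 0 la ?_
      rw [← wr j0.symm jl h0 hd', ← wl j0.symm jl h0 hc, ← wl j0.symm jl h0 hc, ← wr j0.symm jl h0 hd']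
      have := congrArg (fun n => ρ n * E 0 la r * (ρ n)⁻¹) (hd_comm jl j0.symm hd' hc)
      simp only [map_mul, _root_.mul_inv_rev, mul_assoc] at this ⊢
      exact this)
    (fun r => ⟨fun e => by
      obtain ⟨_, ha, e⟩ := D.ker _ (mem h0 r) (Commute.symm (mul_inv_eq_iff_eq_mul.1 (by
        rw [p.act, e, map_zero, add_zero])))
      obtain ⟨a, rfl⟩ := mem_X.1 ha
      exact ⟨a, p.inj 0 la (by rw [p.sub _ _ h0, e])⟩, by
      rintro ⟨a, rfl⟩
      have := p.act 0 la (ι a)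
      rw [p.sub _ _ h0, (h.tc _).eq, mul_inv_cancel_right, ← p.sub _ _ h0] at this
      exact ii (by simpa using p.inj _ _ this)⟩)
    (fun a => by
      obtain ⟨y, hy, e⟩ := D.sur _ (xX 0 la a)
      obtain ⟨r, rfl⟩ := (p.mem _ _ h0 y).1 hy
      rw [sq h0, mul_assoc, mul_assoc, ← mul_assoc t, p.act, ← p.add, ← p.sub _ _ h0, ← add_assoc, p.add, p.add,
        D.sq _ (mem h0 r), one_mul] at e
      exact ⟨r, ii (p.inj _ _ e)⟩)
    (fun r s => p.inj 0 la (by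
      rw [← p.act, ← p.tri _ _ _ j0.symm jl h0, ← p.tri _ _ _ j0.symm jl h0, ← p.act, ← p.act]
      group))
    (fun b r s => by
      by_cases hb : b = 0
      · simp [hb, l0]
      refine p.inj 0 la ?_
      rw [← p.tri _ _ _ j0.symm jl h0, ← wl h0 jl.symm j0.symm hb, ← wr j0 h0 jl hb, ← wl j0.symm jl h0 hb,
        ← wr j0.symm jl h0 hb, ← p.tri _ _ _ j0.symm jl h0, hd_tri j0.symm jl h0 hb, map_mul]
      group)
  refine ⟨c, fun i j r => E i j (e r), fun i j _ r s => by rw [map_add, p.add], fun i j hij y => ?_,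
    fun i j k e1 e2 e3 r s => by rw [p.tri _ _ _ e1 e2 e3, k3], fun i j hij a => by rw [k1, p.sub _ _ hij],
    fun i j _ a b => by rw [p.act, k2, ← k1, ← map_add]; simp⟩
  rw [p.mem i j hij]
  exact ⟨fun ⟨r, hr⟩ => ⟨e.symm r, by simpa using hr⟩, fun ⟨r, hr⟩ => ⟨_, hr⟩⟩

end D2

/-- `R = Additive (Xt 0 la)`.  `ξ i j r = ρ (pm s) r ρ (pm s)⁻¹` for any `s` with `s 0 = i`,
`s la = j`: a permutation fixing `i, j` is a product of transpositions of other indices, and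
`pm (swap k l) = x k l 1 * x l k 1 * x k l 1` centralises `Xt i j` (`comm`).  So
`ρ (pm s) ξ i j r ρ (pm s)⁻¹ = ξ (s i) (s j) r`, and `[ξ i j r, ξ j k s] = ξ i k (r * s)` defines a
product independent of the triple, biadditive as `Xt i k` commutes with `Xt i j`, `Xt j k`.
`ι a = ρ (zz a)`, `t r t⁻¹ = r + ι (λ r)`.  Conjugating `ξ i j r` by `n = x j k c * x k j c⁻¹ *
x j k c` gives `ξ i j u * ξ i k (u * c + r * c)`, `u = r + (r * c) * c⁻¹`; it lies in `Xt i k`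
(`x_weyl`, `mon`), so `u = 0` and the result is `ξ i k (r * c)`.  For `c = 1` this is
`ξ i k r`.  Hence `h j k c = dg (c at j, c⁻¹ at k)` acts on `Xt i k` as `r ↦ r * c`; similarly
(conjugate `ξ j k r` by `x i j c * x j i c⁻¹ * x i j c`) `h i j c` acts on `Xt i k` as `r ↦ c * r`.
`dg_mul` gives `hrr, hll, hlr`.  `hb`: conjugate the commutator relation by
`h i k b = h i j b * h j k b`, which acts on `Xt i j` as `b * ·` (third index `k`), on `Xt j k` as
`· * b` and on `Xt i k` as `b * (· * b)`.  Apply `algebra`. -/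
theorem Rel.co (hm : 3 ≤ m) (h : Rel ρ t) : ∃ c ξ, Co ρ t c ξ := by
  have Z := h.d 0 la (zero_ne_la (by omega))
  let _ : CommGroup (Xt ρ t 0 la) := { (inferInstance : Group (Xt ρ t 0 la)) with
    mul_comm := fun a b => Subtype.ext (Z.sq.comm a.2 b.2) }
  obtain ⟨E, mul, ι, lam, p⟩ := D2.exists_pre hm h (R := Additive (Xt ρ t 0 la))
    (fun r => (r.toMul : Xt ρ t 0 la)) (fun _ _ => rfl) (fun _ _ e => Subtype.ext e)
    fun y => ⟨fun hy => ⟨Additive.ofMul ⟨y, hy⟩, rfl⟩, by rintro ⟨r, rfl⟩; exact r.toMul.2⟩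
  exact p.co hm h

end CL.SC
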