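import Cfsg.Agent.INV.SC.Bas2

/-!
The coordinate algebra.
-/

set_option autoImplicit false
set_option linter.unusedSectionVars false
set_option linter.unusedVariables false

namespace CL.SC

open Matrix Subgroup
open scoped commutatorElement

variable {F : Type*} [Field F] [Finite F] [CharP F 2]

/-- The algebra.  `R` is an abelian group of exponent 2 with a biadditive product, `ι : F → R`,
`λ : R → F` additive with kernel `ι F`, onto; `r ↦ r + ι (λ r)` is multiplicative.  `D c = ι c * r
- r * ι c` lies in `ι F` and is a derivation of the perfect field `F` (`c = d d`), so zero.  Write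
`c • r = ι c * r`.  Polarising `hb` (`b ↦ b + 1`) gives `(b • r) * s = r * (b • s)`, so
`((b b) • r) * s = (b b) • (r * s)`: the product is bilinear.  Take `λ θ = 1`,
`θ * θ = ι c + a • θ`; applying the automorphism gives `a = 1`. -/
theorem algebra {R : Type*} [AddCommGroup R] (mul : R → R → R) (ι : F →+ R) (lam : R →+ F)
    (h2 : ∀ r : R, r + r = 0)
    (hl : ∀ r r' s, mul (r + r') s = mul r s + mul r' s)
    (hr : ∀ r s s', mul r (s + s') = mul r s + mul r s')
    (hι : ∀ a b, mul (ι a) (ι b) = ι (a * b)) (hinj : Function.Injective ι)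
    (h1 : ∀ r, mul r (ι 1) = r) (h1' : ∀ r, mul (ι 1) r = r)
    (hrr : ∀ r c d, mul (mul r (ι c)) (ι d) = mul r (ι (c * d)))
    (hll : ∀ r c d, mul (ι c) (mul (ι d) r) = mul (ι (c * d)) r)
    (hlr : ∀ r c d, mul (mul (ι c) r) (ι d) = mul (ι c) (mul r (ι d)))
    (hker : ∀ r, lam r = 0 ↔ ∃ a, r = ι a) (hsur : Function.Surjective lam)
    (haut : ∀ r s, mul (r + ι (lam r)) (s + ι (lam s)) = mul r s + ι (lam (mul r s)))
    (hb : ∀ b r s, mul (mul (ι b) r) (mul s (ι b)) = mul (ι b) (mul (mul r s) (ι b))) :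
    ∃ (c : F) (e : F × F ≃+ R), (∀ a, e (a, 0) = ι a) ∧ (∀ a b, lam (e (a, b)) = b) ∧
      ∀ r s, mul (e r) (e s) = e (qm c r s) := by
  have l0 : ∀ a, lam (ι a) = 0 := fun a => (hker _).2 ⟨a, rfl⟩
  have mv : ∀ {r s u : R}, r + s = u → r = s + u := fun {r s u} e => by
    rw [← e, add_comm r, ← add_assoc, h2, zero_add]
  have l1 : ∀ r c, lam (mul r (ι c)) = lam r * c := fun r c => by
    have := haut r (ι c)
    rw [l0, map_zero, add_zero, hl, hι] at this
    exact (hinj (add_left_cancel this)).symm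
  have l2 : ∀ r c, lam (mul (ι c) r) = c * lam r := fun r c => by
    have := haut (ι c) r
    rw [l0, map_zero, add_zero, hr, hι] at this
    exact (hinj (add_left_cancel this)).symm
  have cm : ∀ r c, mul r (ι c) = mul (ι c) r := fun r c => by
    obtain ⟨d, rfl⟩ := exists_sq c
    obtain ⟨a, ha⟩ := (hker (mul (ι d) r + mul r (ι d))).1 (by
      rw [map_add, l1, l2, mul_comm, CharTwo.add_self_eq_zero])
    have e := mv ha
    rw [← hll, e, hr, ← hlr, e, hl, hι, hι, mul_comm d a, add_assoc, h2, add_zero, hrr]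
  have p1 : ∀ b r s, mul (mul (ι b) r) (mul (ι b) s) = mul (ι (b * b)) (mul r s) := fun b r s => by
    rw [← cm s, hb, cm, hll]
  have p2 : ∀ b r s, mul (mul (ι b) r) s = mul r (mul (ι b) s) := fun b r s => by
    have := p1 (b + 1) r s
    rw [show (b + 1) * (b + 1) = b * b + 1 by
      linear_combination b * (CharTwo.two_eq_zero (R := F))] at this
    simp only [map_add, hl, hr, h1'] at this
    rw [p1, add_assoc, add_right_inj, ← add_assoc, add_eq_right] at this
    rw [mv this, add_zero]
  have p3 : ∀ c r s, mul (mul (ι c) r) s = mul (ι c) (mul r s) := fun c r s => by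
    obtain ⟨d, rfl⟩ := exists_sq c
    rw [← p1, ← hll, p2]
  obtain ⟨θ, hθ⟩ := hsur 1
  have sq : lam (mul θ θ) = 1 := by
    have := haut θ θ
    simp only [hθ, hl, hr, h1, h1'] at this
    rw [add_assoc, add_right_inj, ← add_assoc, h2, zero_add] at this
    exact (hinj this).symm
  obtain ⟨c, hc⟩ := (hker (mul θ θ + θ)).1 (by rw [map_add, sq, hθ, CharTwo.add_self_eq_zero])
  let f : F × F →+ R := AddMonoidHom.mk' (fun p => ι p.1 + mul (ι p.2) θ) fun p q => by
    simp only [Prod.fst_add, Prod.snd_add, map_add, hl]; abel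
  have hf : ∀ p, f p = ι p.1 + mul (ι p.2) θ := fun _ => rfl
  have lf : ∀ p, lam (f p) = p.2 := fun p => by rw [hf, map_add, l0, l2, hθ, mul_one, zero_add]
  have z : mul (ι 0) θ = 0 := by simpa using hl (ι 0) (ι 0) θ
  refine ⟨c, AddEquiv.ofBijective f ⟨(injective_iff_map_eq_zero f).2 fun p hp => ?_, fun r => ?_⟩,
    fun a => (hf _).trans (by rw [z, add_zero]), fun a b => lf _, fun r s => ?_⟩
  · have e : p.2 = 0 := by rw [← lf, hp, map_zero]
    rw [hf, e, z, add_zero] at hp
    exact Prod.ext (hinj (hp.trans (map_zero ι).symm)) e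
  · obtain ⟨a, ha⟩ := (hker (r + mul (ι (lam r)) θ)).1 (by
      rw [map_add, l2, hθ, mul_one, CharTwo.add_self_eq_zero])
    exact ⟨(a, lam r), by rw [hf, add_comm]; exact (mv ha).symm⟩
  · change mul (f r) (f s) = f (qm c r s)
    simp only [hf, qm, hl, hr, map_add]
    rw [hι, hll, cm _ s.1, hll, p3, ← p2, p3, hll, mv hc, hr, hι, mul_comm s.1, mul_comm c]
    abel

end CL.SC
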