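import Cfsg.Agent.INV.SC.K0

/-!
Tools for the classification of outer involutions.
-/

set_option autoImplicit false
set_option linter.unusedSectionVars false

namespace CL.SC.SA

open Matrix Subgroup

variable {m : ℕ} [NeZero m] {F : Type*} [Field F] [Finite F] [CharP F 2]

theorem mul_sq (s : SL m F) (β : MulAut (SL m F)) :
    MulAut.conj s * β * (MulAut.conj s * β) = MulAut.conj (s * β s) * (β * β) := by
  rw [mul_assoc, ← mul_assoc β, mul_conj, map_mul, mul_assoc, mul_assoc]

/-- a central element has a central square root fixed by the automorphisms fixing it -/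
theorem sqrt {z : SL m F} (hz : z ∈ center (SL m F)) : ∃ k : ℕ, z ^ k * z ^ k = z := by
  obtain ⟨k, hk⟩ := exists_pow_eq_self_of_coprime (x := z) (n := 2) (Nat.coprime_two_left.2 (odd_center hz))
  exact ⟨k, by rw [← pow_two, ← pow_mul, mul_comm, pow_mul, hk]⟩

theorem norm {s : SL m F} {β : MulAut (SL m F)} (hβ : β * β = 1)
    (h : MulAut.conj s * β * (MulAut.conj s * β) = 1) :
    ∃ s', MulAut.conj s * β = MulAut.conj s' * β ∧ s' * β s' = 1 := by
  rw [mul_sq, hβ, mul_one, conj_eq_one] at h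
  obtain ⟨k, hk⟩ := sqrt h
  have e : β (s * β s) = s * β s := by
    have := mem_center_iff.1 h s
    rw [map_mul, show β (β s) = s from congr($hβ s)]
    exact (mul_left_cancel (this.trans (mul_assoc _ _ _))).symm
  have w := Subgroup.inv_mem _ (Subgroup.pow_mem _ h k)
  refine ⟨s * ((s * β s) ^ k)⁻¹, by rw [map_mul, conj_eq_one.2 w, mul_one], ?_⟩
  rw [map_mul, map_inv, map_pow, e, mul_assoc, ← mul_assoc _ (β s), ← mem_center_iff.1 w, mul_assoc,
    ← _root_.mul_inv_rev, hk, ← mul_assoc, mul_inv_cancel]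

theorem cj_of {s s' y : SL m F} {β : MulAut (SL m F)} (h : s * β y = y * s') :
    Cj (MulAut.conj s' * β) (MulAut.conj s * β) :=
  ⟨y, by rw [eq_mul_inv_iff_mul_eq, mul_assoc, mul_conj, ← mul_assoc, ← map_mul, h, map_mul, mul_assoc]⟩

theorem cj_of' {s y : SL m F} {β : MulAut (SL m F)} (h : s * β y = y) : Cj β (MulAut.conj s * β) := by
  simpa using cj_of (s' := 1) (h.trans (mul_one y).symm)

variable (m F) in
/-- the antidiagonal matrix -/
noncomputable def J : Matrix (Fin m) (Fin m) F := (pm F Fin.revPerm : SL m F)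

theorem J_apply (i j : Fin m) : J m F i j = if i = j.rev then 1 else 0 := pm_apply _ i j

theorem J_det : (J m F).det = 1 := (pm F Fin.revPerm).det_coe

theorem mul_J (a : Matrix (Fin m) (Fin m) F) (i j : Fin m) : (a * J m F) i j = a i j.rev := by
  simp [Matrix.mul_apply, J_apply]

theorem J_mul (a : Matrix (Fin m) (Fin m) F) (i j : Fin m) : (J m F * a) i j = a i.rev j := by
  simp [Matrix.mul_apply, J_apply, ← Fin.rev_eq_iff]

theorem J_J : J m F * J m F = 1 := by
  ext i j
  simp [J_mul, J_apply, one_apply]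

theorem J_map (σ : F ≃+* F) : ((J m F).map σ)ᵀ = J m F := by
  ext i j
  simp only [transpose_apply, map_apply, J_apply, ← Fin.rev_eq_iff (i := i), eq_comm (a := j)]
  split_ifs <;> simp

theorem std_true_val (σ : F ≃+* F) (a : SL m F) : ((std σ true a : SL m F) : Matrix (Fin m) (Fin m) F) =
    J m F * (((a⁻¹ : SL m F) : Matrix (Fin m) (Fin m) F).map σ)ᵀ * J m F := by
  ext i j
  rw [mul_J, J_mul]
  rfl

theorem map_mul' (σ : F ≃+* F) (a b : Matrix (Fin m) (Fin m) F) : (a * b).map σ = a.map σ * b.map σ :=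
  Matrix.map_mul (f := (σ : F →+* F))

theorem key (σ : F ≃+* F) {s y t : SL m F} : s * std σ true y = t ↔
    (s : Matrix (Fin m) (Fin m) F) * J m F = t * J m F * ((y : Matrix (Fin m) (Fin m) F).map σ)ᵀ := by
  have k : ∀ y : SL m F, ((y : Matrix (Fin m) (Fin m) F).map σ)ᵀ *
      (((y⁻¹ : SL m F) : Matrix (Fin m) (Fin m) F).map σ)ᵀ = 1 := fun y => by
    rw [← transpose_mul, ← map_mul', ← Matrix.SpecialLinearGroup.coe_mul, inv_mul_cancel,
      Matrix.SpecialLinearGroup.coe_one, Matrix.map_one _ (map_zero σ) (map_one σ), transpose_one]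
  refine Subtype.ext_iff.trans ?_
  rw [Matrix.SpecialLinearGroup.coe_mul, std_true_val]
  constructor
  · intro h
    have := k y⁻¹
    rw [inv_inv] at this
    rw [← h, Matrix.mul_assoc, Matrix.mul_assoc, Matrix.mul_assoc, ← Matrix.mul_assoc (J m F) (J m F), J_J,
      Matrix.one_mul, Matrix.mul_assoc, this, Matrix.mul_one]
  · intro h
    rw [← Matrix.mul_assoc, ← Matrix.mul_assoc, h, Matrix.mul_assoc _ _ (_ᵀ), k, Matrix.mul_one, Matrix.mul_assoc, J_J,
      Matrix.mul_one]

theorem herm (σ : F ≃+* F) {s : SL m F} (h : s * std σ true s = 1) :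
    (((s : Matrix (Fin m) (Fin m) F) * J m F).map σ)ᵀ = s * J m F := by
  rw [map_mul', transpose_mul, J_map, (key σ).1 h, Matrix.SpecialLinearGroup.coe_one, Matrix.one_mul]

theorem det_sJ (s : SL m F) : ((s : Matrix (Fin m) (Fin m) F) * J m F).det = 1 := by
  rw [det_mul, s.det_coe, J_det, mul_one]

end CL.SC.SA
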