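import Cfsg.Agent.INV.SC.K0
import Cfsg.Agent.INV.SC.StdA
import Cfsg.Agent.CLAS.FieldAut

/-!
Singer elements.
-/

set_option autoImplicit false
set_option linter.unusedSectionVars false
set_option linter.unusedVariables false

namespace CL.SC

open Matrix Subgroup
open scoped commutatorElement

variable {m : ℕ} [NeZero m] {F : Type*} [Field F] [Finite F] [CharP F 2]

/-- a unit of order dividing `r` is trivial if `r` is prime to `q - 1` -/
theorem S0.eq_one {L : Type*} [Field L] [Finite L] {r : ℕ} (hr : r.Prime)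
    (h2 : ¬ r ∣ Nat.card L - 1) {c : L} (hc : c ^ r = 1) : c = 1 := by
  have := Fintype.ofFinite L
  have h0 : c ≠ 0 := by
    rintro rfl
    rw [zero_pow hr.ne_zero] at hc
    exact zero_ne_one hc
  have h3 := FiniteField.pow_card_sub_one_eq_one c h0
  rw [← Nat.card_eq_fintype_card] at h3
  have := Nat.dvd_gcd (orderOf_dvd_of_pow_eq_one hc) (orderOf_dvd_of_pow_eq_one h3)
  rwa [(Nat.coprime_or_dvd_of_prime hr _).resolve_right h2, Nat.dvd_one, orderOf_eq_one_iff] at this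

/-- the trace form -/
theorem S0.form {K : Type*} [Field K] [Finite K] [Algebra F K] {d r : ℕ}
    (b : Module.Basis (Fin d) F K) (τ : K ≃+* K) (ψ : F ≃+* F) (ht : ∀ y, τ (τ y) = y)
    (hc : ∀ a, τ (algebraMap F K a) = algebraMap F K (ψ a)) (hr : r.Prime)
    (h2 : ¬ r ∣ Nat.card F - 1) {z : K} (hz : orderOf z = r) (hz' : τ z * z = 1) :
    ∃ H g : Matrix (Fin d) (Fin d) F, H.det ≠ 0 ∧ (H.map ψ)ᵀ = H ∧ g.det = 1 ∧ g ≠ 1 ∧ g ^ r = 1 ∧
      (g.map ψ)ᵀ * H * g = H := by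
  have tr : ∀ y, ψ (Algebra.trace F K y) = Algebra.trace F K (τ y) := fun y => by
    rw [Algebra.trace_eq_of_equiv_equiv ψ τ (RingHom.ext fun a => (hc a).symm) y,
      ψ.apply_symm_apply]
  have sm : ∀ a y, τ (a • y) = ψ a • τ y := fun a y => by
    rw [Algebra.smul_def, Algebra.smul_def, map_mul, hc]
  have hzr : z ^ r = 1 := hz ▸ pow_orderOf_eq_one z
  have col : ∀ j, ∑ i, Algebra.leftMulMatrix b z i j • b i = z * b j := fun j => by
    simp only [Algebra.leftMulMatrix_eq_repr_mul]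
    exact b.sum_repr _
  refine ⟨Matrix.of fun i j => Algebra.trace F K (τ (b i) * b j), Algebra.leftMulMatrix b z,
    fun h => ?_, ?_, ?_, fun h => ?_, by rw [← map_pow, hzr, map_one], ?_⟩
  · obtain ⟨v, hv, h⟩ := Matrix.exists_mulVec_eq_zero_iff.2 h
    have e : ∀ i, Algebra.trace F K (τ (b i) * ∑ j, v j • b j) = 0 := fun i => by
      refine Eq.trans ?_ (congrFun h i)
      simp [mulVec, dotProduct, Finset.mul_sum, mul_comm]
    have e2 : ∑ j, v j • b j = 0 := by
      refine (traceForm_nondegenerate F K).2 _ fun w => ?_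
      rw [Algebra.traceForm_apply, ← ht w, ← b.sum_repr (τ w), map_sum, Finset.sum_mul, map_sum]
      exact Finset.sum_eq_zero fun i _ => by rw [sm, smul_mul_assoc, map_smul, e, smul_zero]
    exact hv (funext (Fintype.linearIndependent_iff.1 b.linearIndependent v e2))
  · ext i j
    simp only [transpose_apply, map_apply, of_apply, tr, map_mul, ht, mul_comm]
  · rw [← Algebra.norm_eq_matrix_det]
    exact S0.eq_one hr h2 (by rw [← map_pow, hzr, map_one])
  · have : z = 1 := Algebra.leftMulMatrix_injective b (h.trans (map_one _).symm)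
    rw [this, orderOf_one] at hz
    exact hr.one_lt.ne hz
  · ext i j
    have : τ (b i) * b j = τ (z * b i) * (z * b j) := by
      rw [map_mul, mul_mul_mul_comm, hz', one_mul]
    rw [of_apply, this, ← col, ← col]
    simp only [Matrix.mul_apply, transpose_apply, map_apply, of_apply, map_sum, Finset.sum_mul,
      Finset.mul_sum, sm, smul_mul_assoc, mul_smul_comm, map_smul, smul_eq_mul]
    exact Finset.sum_congr rfl fun k _ => Finset.sum_congr rfl fun l _ => by ring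

/-- Singer elements preserving a form.  Let `K / F` have degree `d` (`FiniteField.Extension` or
`GaloisField`), `τ y = y ^ Q0` with `Q0 ^ 2 = |K|`, an automorphism of order 2 of `K` which acts on
`F` as `ψ`; `b` an `F`-basis, `H i j = Tr (τ (b i) * b j)` (non-degenerate trace form,
`Tr (τ y) = ψ (Tr y)`), `ζ ∈ K` of order `r`, `ζ τ ζ = 1`, `g` the matrix of multiplication by
`ζ`; `det g = N ζ` has order dividing `r` and `q - 1`. -/
theorem exists_form {d Q0 r : ℕ} (hd : 0 < d) (hQ : Q0 ^ 2 = Nat.card F ^ d) {ψ : F ≃+* F}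
    (hψ : ∀ a, ψ a = a ^ Q0) (hr : r.Prime) (h1 : r ∣ Q0 + 1) (h2 : ¬ r ∣ Nat.card F - 1) :
    ∃ H g : Matrix (Fin d) (Fin d) F, H.det ≠ 0 ∧ (H.map ψ)ᵀ = H ∧ g.det = 1 ∧ g ≠ 1 ∧ g ^ r = 1 ∧
      (g.map ψ)ᵀ * H * g = H := by
  have : NeZero d := ⟨hd.ne'⟩
  have := Fintype.ofFinite F
  obtain ⟨n, -, hn⟩ := FiniteField.card F 2
  obtain ⟨e, -, rfl⟩ := (Nat.dvd_prime_pow Nat.prime_two).1 (show Q0 ∣ 2 ^ (n * d) by
    rw [pow_mul, ← hn, ← Nat.card_eq_fintype_card, ← hQ]; exact dvd_pow_self _ two_ne_zero)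
  let K := FiniteField.Extension F 2 d
  have hK : Nat.card K = (2 ^ e) ^ 2 := (FiniteField.natCard_extension F 2 d).trans hQ.symm
  have : CharP K 2 := charP_of_injective_algebraMap (algebraMap F K).injective 2
  have := Fintype.ofFinite K
  have : Fact r.Prime := ⟨hr⟩
  obtain ⟨z, hz⟩ := exists_prime_orderOf_dvd_card' (G := Kˣ) r (by
    rw [Nat.card_units, hK]
    exact h1.trans ⟨2 ^ e - 1, by simpa using Nat.sq_sub_sq (2 ^ e) 1⟩)
  refine S0.form (Module.finBasisOfFinrankEq F K (FiniteField.finrank_extension F 2 d))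
    (iterateFrobeniusEquiv K 2 e) ψ (fun y => ?_) (fun a => ?_) hr h2 (z := z)
    (by rw [orderOf_units, hz]) ?_
  · rw [iterateFrobeniusEquiv_def, iterateFrobeniusEquiv_def, ← pow_mul, ← pow_two, ← hK,
      Nat.card_eq_fintype_card, FiniteField.pow_card]
  · rw [iterateFrobeniusEquiv_def, hψ, map_pow]
  · rw [iterateFrobeniusEquiv_def, ← pow_succ, ← orderOf_dvd_iff_pow_eq_one, orderOf_units, hz]
    exact h1

/-- extension by an identity block -/
theorem S0.ext {d : ℕ} (hd : d ≤ m) :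
    ∃ E : Matrix (Fin d) (Fin d) F →* Matrix (Fin m) (Fin m) F, Function.Injective E ∧
      (∀ a, (E a).det = a.det) ∧ (∀ a, (E a)ᵀ = E aᵀ) ∧
      ∀ (σ : F ≃+* F) a, (E a).map σ = E (a.map σ) := by
  obtain ⟨k, rfl⟩ := Nat.exists_eq_add_of_le hd
  refine ⟨⟨⟨fun a => Matrix.reindex finSumFinEquiv finSumFinEquiv (fromBlocks a 0 0 1), by simp⟩,
    fun a b => ?_⟩, fun a b h => ?_, fun a => ?_, fun a => ?_, fun σ a => ?_⟩
  · simp [submatrix_mul_equiv, fromBlocks_multiply]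
  · exact (fromBlocks_inj.1 ((Matrix.reindex _ _).injective h)).1
  · simp
  · simp [fromBlocks_transpose]
  · simp only [MonoidHom.coe_mk, OneHom.coe_mk, reindex_apply, ← submatrix_map, fromBlocks_map,
      Matrix.map_zero _ (map_zero σ), Matrix.map_one _ (map_zero σ) (map_one σ)]

theorem S0.order {d r : ℕ} (hr : r.Prime)
    {E : Matrix (Fin d) (Fin d) F →* Matrix (Fin m) (Fin m) F} (hE : Function.Injective E)
    {g : Matrix (Fin d) (Fin d) F} (h4 : g ≠ 1) (h5 : g ^ r = 1) {a : SL m F}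
    (h : (a : Matrix (Fin m) (Fin m) F) = E g) : orderOf a = r := by
  have : Fact r.Prime := ⟨hr⟩
  refine orderOf_eq_prime (Subtype.ext ?_) fun e => h4 (hE ?_)
  · rw [Matrix.SpecialLinearGroup.coe_pow, h, ← map_pow, h5, map_one,
      Matrix.SpecialLinearGroup.coe_one]
  · rw [map_one, ← h, e, Matrix.SpecialLinearGroup.coe_one]

/-- Extend by an identity block to size `m`; `β = (a ↦ H⁻¹ (a^ψ)⁻ᵀ H) = inn (H⁻¹ J) * std ψ true`
is an involution fixing `g`. -/
theorem exists_fix {d r : ℕ} (hd : d ≤ m) {ψ : F ≃+* F} (hψ : ψ * ψ = 1) (hr : r.Prime)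
    {H g : Matrix (Fin d) (Fin d) F} (h1 : H.det ≠ 0) (h2 : (H.map ψ)ᵀ = H) (h3 : g.det = 1)
    (h4 : g ≠ 1) (h5 : g ^ r = 1) (h6 : (g.map ψ)ᵀ * H * g = H) :
    ∃ β : MulAut (SL m F), Ty β ψ true ∧ β * β = 1 ∧ ∃ a ∈ Fx β, orderOf a = r := by
  obtain ⟨E, e1, e2, e3, e4⟩ := S0.ext (F := F) hd
  have k1 : IsUnit (E H).det := by rw [e2]; exact h1.isUnit
  have k2 : ((E H).map ψ)ᵀ = E H := by rw [e4, e3, h2]
  have k6 : ((E g).map ψ)ᵀ * E H * E g = E H := by rw [e4, e3, ← map_mul, ← map_mul, h6]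
  have k3 : (E g).det = 1 := by rw [e2, h3]
  have ko := S0.order hr e1 h4 h5 (a := ⟨E g, k3⟩) rfl
  generalize E H = M at k1 k2 k6
  have mm : ∀ a : Matrix (Fin m) (Fin m) F, ((a.map ψ)ᵀ.map ψ)ᵀ = a := fun a => by
    ext i j
    exact congr($hψ (a i j))
  have m1 : ∀ {a b : Matrix (Fin m) (Fin m) F}, a * b = 1 → (b.map ψ)ᵀ * (a.map ψ)ᵀ = 1 :=
    fun h => by
      rw [← transpose_mul, ← SA.map_mul', h, Matrix.map_one _ (map_zero ψ) (map_one ψ),
        transpose_one]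
  let u : GL (Fin m) F := ⟨M⁻¹ * SA.J m F, SA.J m F * M,
    by rw [Matrix.mul_assoc, ← Matrix.mul_assoc (SA.J m F), SA.J_J, Matrix.one_mul,
      nonsing_inv_mul _ k1],
    by rw [Matrix.mul_assoc, ← Matrix.mul_assoc M, mul_nonsing_inv _ k1, Matrix.one_mul, SA.J_J]⟩
  have hv : ∀ a : SL m F, (((inn u * std ψ true : MulAut (SL m F)) a : SL m F) : Matrix (Fin m) (Fin m) F) =
      M⁻¹ * (((a⁻¹ : SL m F) : Matrix (Fin m) (Fin m) F).map ψ)ᵀ * M := fun a => by
    rw [MulAut.mul_apply, inn_val, SA.std_true_val]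
    change M⁻¹ * SA.J m F * _ * (SA.J m F * M) = _
    simp only [Matrix.mul_assoc]
    rw [← Matrix.mul_assoc (SA.J m F) (SA.J m F), ← Matrix.mul_assoc (SA.J m F) (SA.J m F), SA.J_J,
      Matrix.one_mul, Matrix.one_mul]
  refine ⟨inn u * std ψ true, ⟨u, rfl⟩, MulEquiv.ext fun a => Subtype.ext ?_, ⟨E g, k3⟩,
    Subtype.ext ?_, ko⟩
  · rw [MulAut.mul_apply, hv, ← map_inv, hv, inv_inv, SA.map_mul', SA.map_mul', transpose_mul,
      transpose_mul, k2, mm, ← Matrix.mul_assoc, nonsing_inv_mul _ k1, Matrix.one_mul,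
      Matrix.mul_assoc]
    have := m1 (mul_nonsing_inv _ k1)
    rw [k2] at this
    rw [this, Matrix.mul_one]
    rfl
  · refine (hv _).trans ?_
    change _ = E g
    conv_lhs => enter [2]; rw [← k6]
    have := m1 (mul_inv_val (⟨E g, k3⟩ : SL m F))
    rw [Matrix.mul_assoc, ← Matrix.mul_assoc _ _ (E g), ← Matrix.mul_assoc _ _ M, this,
      Matrix.one_mul, ← Matrix.mul_assoc, nonsing_inv_mul _ k1, Matrix.one_mul]

/-- An element of order `r` of `SL d F0`, `F0` the fixed field of `φ` (Cauchy: `r` divides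
`|GL d F0|` and not `|F0| - 1`), extended by an identity block. -/
theorem exists_fix_f {d n r : ℕ} (hd0 : 1 ≤ d) (hd : d ≤ m) {φ : F ≃+* F} (h1 : φ ≠ 1)
    (h2 : φ * φ = 1) (hn : Nat.card F = (2 ^ n) ^ 2) (hr : r.Prime) (h3 : r ∣ (2 ^ n) ^ d - 1)
    (h4 : ¬ r ∣ 2 ^ n - 1) : ∃ a ∈ Fx (std φ false : MulAut (SL m F)), orderOf a = r := by
  obtain ⟨E, e1, e2, -, e4⟩ := S0.ext (F := F) hd
  have : Fact (Nat.Prime 2) := ⟨Nat.prime_two⟩
  have ho : orderOf φ = 2 := orderOf_eq_prime (by rw [pow_two, h2]) h1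
  have hc : Nat.card (CL.FieldAut.fixF φ) = 2 ^ n :=
    Nat.pow_left_injective two_ne_zero (by
      have := CL.FieldAut.card_fixF_pow φ
      rwa [ho, hn] at this)
  have := Fintype.ofFinite (CL.FieldAut.fixF φ)
  have : Fact r.Prime := ⟨hr⟩
  obtain ⟨g, hg⟩ := exists_prime_orderOf_dvd_card' (G := GL (Fin d) (CL.FieldAut.fixF φ)) r (by
    rw [Matrix.card_GL_field, ← Nat.card_eq_fintype_card, hc]
    exact h3.trans (Finset.dvd_prod_of_mem _ (Finset.mem_univ (⟨0, hd0⟩ : Fin d))))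
  have g1 : (g : Matrix (Fin d) (Fin d) (CL.FieldAut.fixF φ)) ^ r = 1 := by
    rw [← Units.val_pow_eq_pow_val, ← hg, pow_orderOf_eq_one, Units.val_one]
  have g2 : (g : Matrix (Fin d) (Fin d) (CL.FieldAut.fixF φ)).det = 1 :=
    S0.eq_one hr (by rwa [hc]) (by rw [← det_pow, g1, det_one])
  let f := (CL.FieldAut.fixF φ).subtype.mapMatrix (m := Fin d)
  have k3 : (E (f g)).det = 1 := by rw [e2, ← RingHom.map_det, g2, map_one]
  refine ⟨⟨E (f g), k3⟩, Subtype.ext ?_, S0.order hr e1 (fun h => ?_)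
    (by rw [← map_pow, g1, map_one]) rfl⟩
  · change (E (f g)).map φ = E (f g)
    rw [e4]
    congr 1
    ext i j
    exact CL.FieldAut.mem_fixF.1 (g i j).2
  · have : g = 1 := Units.ext (Matrix.map_injective (CL.FieldAut.fixF φ).subtype.injective
      (h.trans (map_one f).symm))
    rw [this, orderOf_one] at hg
    exact hr.one_lt.ne hg

end CL.SC
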