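import Cfsg.Agent.INV.SC.K0
import Cfsg.Agent.INV.SC.StdA
import Cfsg.Agent.CLAS.AschFC3

/-!
Graph-field involutions.
-/

set_option autoImplicit false
set_option linter.unusedSectionVars false
set_option linter.unusedVariables false

namespace CL.SC

open Matrix Subgroup
open scoped commutatorElement

variable {m : ℕ} [NeZero m] {F : Type*} [Field F] [Finite F] [CharP F 2]

theorem herm_congr {n : ℕ} {φ : F ≃+* F} (h1 : φ ≠ 1) (h2 : φ * φ = 1)
    {H K : Matrix (Fin n) (Fin n) F} (hH : (H.map φ)ᵀ = H) (hd : H.det ≠ 0) (hK : (K.map φ)ᵀ = K)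
    (hd' : K.det ≠ 0) : ∃ y : Matrix (Fin n) (Fin n) F, H = y * K * (y.map φ)ᵀ := by
  obtain ⟨a, ha⟩ := CL.Asch.exists_congr_herm (σ := (φ : F →+* F)) (G := K) (G' := H)
    ⟨fun a => congr($h2 a), hd', by rw [one_smul]; exact hK, .inl rfl⟩
    ⟨fun a => congr($h2 a), hd, by rw [one_smul]; exact hH, .inl rfl⟩ fun k => h1 (RingEquiv.ext k)
  exact ⟨_, ha⟩

/-- nondegenerate hermitian matrices are congruent to the identity (orthogonal basis, the norm
is onto the fixed field); see also `CLAS` (S2704) -/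
theorem herm_one {n : ℕ} {φ : F ≃+* F} (h1 : φ ≠ 1) (h2 : φ * φ = 1)
    {H : Matrix (Fin n) (Fin n) F} (hH : (H.map φ)ᵀ = H) (hd : H.det ≠ 0) :
    ∃ y : Matrix (Fin n) (Fin n) F, (y.map φ)ᵀ * y = H := by
  obtain ⟨y, hy⟩ := herm_congr h1 h2 hH hd (K := 1)
    (by rw [Matrix.map_one _ (map_zero φ) (map_one φ), transpose_one]) (by simp)
  refine ⟨(y.map φ)ᵀ, ?_⟩
  rw [hy, Matrix.mul_one]
  congr 1
  ext i j
  exact congr($h2 (y i j))

/-- `α = conj s * std φ true` is `a ↦ B⁻¹ (a^φ)⁻ᵀ B` with `B = J s⁻¹`, `det B = 1`.  `α * α = 1`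
gives `B^{φ T} = λ B`, `λ φ(λ) = 1`, `λ ^ m = 1`.  Let `μ ^ 2 = λ` (then `μ φ(μ) = 1`,
`μ ^ m = 1`): `H = μ B` is hermitian of determinant 1, `H = y^{φ T} J y` by `herm_one` (twice),
`δ = det y` has norm 1; correct `y` by a diagonal isometry of `J` of determinant `δ⁻¹`:
`diag(ν, 1, …, 1, φ(ν)⁻¹)` with `ν / φ(ν) = δ⁻¹` (`ν ^ 2 = δ⁻¹`). -/
theorem std_gf (hm : 3 ≤ m) {φ : F ≃+* F} (h1 : φ ≠ 1) (h2 : φ * φ = 1) {α : MulAut (SL m F)}
    (h : Si α φ true) (hα : α * α = 1) : Cj (std φ true) α := by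
  obtain ⟨s, rfl⟩ := h
  obtain ⟨s, e, hs⟩ := SA.norm (by rw [std_mul, h2, Bool.xor_self, std_one]) hα
  rw [e]
  obtain ⟨y, hy⟩ := herm_congr h1 h2 (SA.herm φ hs) (by rw [SA.det_sJ]; exact one_ne_zero) (SA.J_map φ)
    (by rw [SA.J_det]; exact one_ne_zero)
  have d : y.det * φ y.det = 1 := by
    have := congrArg Matrix.det hy
    rw [SA.det_sJ, det_mul, det_mul, SA.J_det, mul_one, det_transpose,
      show (y.map φ).det = φ y.det from ((φ : F →+* F).map_det y).symm] at this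
    exact this.symm
  have y0 : y.det ≠ 0 := left_ne_zero_of_mul_eq_one d
  obtain ⟨ν, hν⟩ := exists_sq y.det⁻¹
  have n1 : ν * φ ν = 1 := eq_one_of_pow (n := 1) (by
    rw [pow_one, pow_two, mul_mul_mul_comm, ← map_mul, hν, map_inv₀, ← mul_inv, d, inv_one])
  have h0 := zero_ne_la (m := m) (by omega)
  let D : Fin m → F := fun i => if i = 0 ∨ i = la then ν else 1
  have D1 : diagonal D * SA.J m F * ((diagonal D).map φ)ᵀ = SA.J m F := by
    rw [diagonal_map (map_zero φ), diagonal_transpose]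
    ext i j
    rw [mul_diagonal, diagonal_mul, SA.J_apply]
    split_ifs with e
    · subst e
      have : (j.rev = 0 ∨ j.rev = la) ↔ (j = 0 ∨ j = la) := by
        rw [Fin.rev_inj, Fin.rev_eq_iff, or_comm]
      simp only [D, this]
      split_ifs <;> simp [n1]
    · simp
  have D2 : ∏ i, D i = y.det⁻¹ := by
    rw [← hν, Finset.prod_eq_mul 0 la h0] <;> simp +contextual [D]
  refine SA.cj_of' (y := ⟨y * diagonal D, ?_⟩) ((SA.key φ).2 ?_)
  · rw [det_mul, det_diagonal, D2, mul_inv_cancel₀ y0]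
  · show _ = y * diagonal D * SA.J m F * ((y * diagonal D).map φ)ᵀ
    rw [hy, SA.map_mul', transpose_mul]
    conv_lhs => rw [← D1]
    simp only [Matrix.mul_assoc]

end CL.SC
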