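import Cfsg.Agent.INV.SC.K0
import Cfsg.Agent.INV.SC.StdA
import Cfsg.Agent.KSG.SymmChar2

/-!
Graph involutions.
-/

set_option autoImplicit false
set_option linter.unusedSectionVars false
set_option linter.unusedVariables false

namespace CL.SC

open Matrix Subgroup
open scoped commutatorElement

variable {m : ℕ} [NeZero m] {F : Type*} [Field F] [Finite F] [CharP F 2]

theorem alt_iff {n : ℕ} {B : Matrix (Fin n) (Fin n) F} (hB : Bᵀ = B) : B.toBilin'.IsAlt ↔ ∀ i, B i i = 0 := by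
  refine ⟨fun h i => by simpa [toBilin'_single] using h.self_eq_zero (Pi.single i 1), fun h v => ?_⟩
  show B.toBilin' v v = 0
  rw [toBilin'_apply, ← Finset.sum_product']
  refine Finset.sum_involution (fun p _ => p.swap) (fun p _ => ?_) (fun p _ hp e => hp ?_) (by simp) (by simp)
  · rw [Prod.fst_swap, Prod.snd_swap, show B p.2 p.1 = B p.1 p.2 from congrFun (congrFun hB p.1) p.2,
      CharTwo.add_eq_zero]
    ring
  · rw [show p.2 = p.1 from congrArg Prod.fst e, h]; simp

theorem symm_congr {n : ℕ} {B C : Matrix (Fin n) (Fin n) F} (hB : Bᵀ = B) (hd : B.det ≠ 0)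
    (hC : Cᵀ = C) (hd' : C.det ≠ 0) (h : (∀ i, B i i = 0) ↔ ∀ i, C i i = 0) :
    ∃ y : Matrix (Fin n) (Fin n) F, yᵀ * C * y = B := by
  obtain ⟨e, he⟩ := CL.SymmTwo.exists_equiv_of_alt_iff (B := B.toBilin') (B' := C.toBilin')
    (isSymm_toBilin'_iff_isSymm.2 hB) (isSymm_toBilin'_iff_isSymm.2 hC)
    (LinearMap.BilinForm.nondegenerate_toBilin'_iff_det_ne_zero.2 hd)
    (LinearMap.BilinForm.nondegenerate_toBilin'_iff_det_ne_zero.2 hd') (by rw [alt_iff hB, alt_iff hC, h]) rfl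
  refine ⟨LinearMap.toMatrix' e.toLinearMap, toBilin'.injective ?_⟩
  rw [← toBilin'_comp, toLin'_toMatrix']
  exact LinearMap.ext₂ he

theorem even_of_alt {n : ℕ} {B : Matrix (Fin n) (Fin n) F} (hB : Bᵀ = B) (hd : B.det ≠ 0) (h : ∀ i, B i i = 0) :
    Even n := by
  simpa using CL.SymmTwo.even_finrank_of_alt (LinearMap.BilinForm.nondegenerate_toBilin'_iff_det_ne_zero.2 hd)
    ((alt_iff hB).2 h)

/-- Albert: a nondegenerate symmetric matrix with a non-zero diagonal entry over a perfect field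
of characteristic 2 is congruent to the identity (see `CLAS/Gr3`, S2699, S2701). -/
theorem symm_one {n : ℕ} {B : Matrix (Fin n) (Fin n) F} (hB : Bᵀ = B) (hd : B.det ≠ 0)
    (h : ∃ i, B i i ≠ 0) : ∃ y : Matrix (Fin n) (Fin n) F, yᵀ * y = B := by
  obtain ⟨i, hi⟩ := h
  simpa using symm_congr hB hd transpose_one (by simp)
    (iff_of_false (fun k => hi (k i)) fun k => one_ne_zero ((one_apply_eq i).symm.trans (k i)))

/-- nondegenerate alternating matrices are congruent -/
theorem alt_congr {n : ℕ} {B C : Matrix (Fin n) (Fin n) F} (hB : Bᵀ = B) (hd : B.det ≠ 0)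
    (h : ∀ i, B i i = 0) (hC : Cᵀ = C) (hd' : C.det ≠ 0) (h' : ∀ i, C i i = 0) :
    ∃ y : Matrix (Fin n) (Fin n) F, yᵀ * C * y = B := symm_congr hB hd hC hd' (iff_of_true h h')

theorem SA.symm {s : SL m F} (h : s * std 1 true s = 1) :
    ((s : Matrix (Fin m) (Fin m) F) * SA.J m F)ᵀ = s * SA.J m F := SA.herm 1 h

/-- graph involutions are classified by the type of their symmetric matrix -/
theorem SA.cj_g {s s' : SL m F} (h : s * std 1 true s = 1) (h' : s' * std 1 true s' = 1)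
    (e : (∀ i, s i i.rev = 0) ↔ ∀ i, s' i i.rev = 0) :
    Cj (MulAut.conj s' * std 1 true) (MulAut.conj s * std 1 true) := by
  obtain ⟨y, hy⟩ := symm_congr (SA.symm h) (by rw [SA.det_sJ]; exact one_ne_zero) (SA.symm h')
    (by rw [SA.det_sJ]; exact one_ne_zero) (by simpa only [SA.mul_J] using e)
  have d : yᵀ.det = 1 := by
    have := congrArg Matrix.det hy
    rw [SA.det_sJ, det_mul, det_mul, SA.det_sJ, mul_one, det_transpose] at this
    exact eq_one_of_pow (n := 1) (by rw [det_transpose, pow_one, pow_two, this])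
  refine SA.cj_of (y := ⟨yᵀ, d⟩) ((SA.key 1).2 ?_)
  show _ = yᵀ * (s' : Matrix (Fin m) (Fin m) F) * SA.J m F * y
  rw [← hy, Matrix.mul_assoc _ _ (SA.J m F)]

theorem SA.norm_g {α : MulAut (SL m F)} (h : Si α 1 true) (hα : α * α = 1) :
    ∃ s : SL m F, α = MulAut.conj s * std 1 true ∧ s * std 1 true s = 1 := by
  obtain ⟨s, rfl⟩ := h
  exact SA.norm (by rw [std_mul, mul_one, Bool.xor_self, std_one]) hα

theorem SA.even {s : SL m F} (h : s * std 1 true s = 1) (e : ∀ i, s i i.rev = 0) : Even m :=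
  even_of_alt (SA.symm h) (by rw [SA.det_sJ]; exact one_ne_zero) (by simpa only [SA.mul_J] using e)

/-- `α = conj s * gr` is `a ↦ B⁻¹ a⁻ᵀ B`, `B = J s⁻¹`; `α * α = 1` gives `Bᵀ = λ B`, `λ ^ 2 = 1`, so
`B` is symmetric of determinant 1.  `B = yᵀ B' y` forces `det y = 1`.  For odd `m` a
nondegenerate `B` is not alternating, and `J` has a diagonal entry 1. -/
theorem std_g_odd (hm : 3 ≤ m) (ho : Odd m) {α : MulAut (SL m F)} (h : Si α 1 true)
    (hα : α * α = 1) : Cj gr α := by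
  obtain ⟨s, rfl, hs⟩ := SA.norm_g h hα
  have h1 : (1 : SL m F) * std 1 true (1 : SL m F) = 1 := by simp
  simpa [std_one_true] using SA.cj_g hs h1 (iff_of_false (fun k => Nat.not_even_iff_odd.2 ho (SA.even hs k))
    fun k => Nat.not_even_iff_odd.2 ho (SA.even h1 k))

/-- `J` is alternating, `J (zz 1)` is not. -/
theorem std_g_even (hm : 3 ≤ m) (he : Even m) {α : MulAut (SL m F)} (h : Si α 1 true)
    (hα : α * α = 1) : Cj gr α ∨ Cj (MulAut.conj (zz 1) * gr) α := by
  obtain ⟨s, rfl, hs⟩ := SA.norm_g h hα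
  have h0 := zero_ne_la (m := m) (by omega)
  by_cases e : ∀ i, s i i.rev = 0
  · left
    have h1 : (1 : SL m F) * std 1 true (1 : SL m F) = 1 := by simp
    simpa [std_one_true] using SA.cj_g hs h1 (iff_of_true e fun i => one_apply_ne fun k => by
      have := congrArg Fin.val k
      rw [Fin.val_rev] at this
      obtain ⟨j, rfl⟩ := he
      omega)
  · right
    rw [← std_one_true]
    refine SA.cj_g hs (by rw [std_zz, map_one, zz, x_sq]) (iff_of_false e fun k => ?_)
    have := k 0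
    rw [zz, x_val h0] at this
    simp [h0] at this

theorem SA.nonalt (hm : 3 ≤ m) {s r : SL m F} (h : s * std 1 true s = 1) (e : ∀ i, s i i.rev = 0) (hr : IsRoot r)
    (hs : (MulAut.conj s * std 1 true : MulAut (SL m F)) r = r) :
    r * s * std 1 true (r * s) = 1 ∧ ¬ ∀ i, (r * s) i i.rev = 0 := by
  have h1 : r * s * std 1 true (r * s) = 1 := by
    rw [MulAut.mul_apply, MulAut.conj_apply, mul_inv_eq_iff_eq_mul] at hs
    rw [map_mul, mul_assoc, ← mul_assoc s, hs, mul_assoc, h, mul_one, hr.sq]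
  refine ⟨h1, fun k => ?_⟩
  obtain ⟨u, v, u0, v0, -, hv⟩ := (isRoot_iff hm).1 hr
  have e1 : ((r * s : SL m F) : Matrix (Fin m) (Fin m) F) * SA.J m F =
      (s : Matrix (Fin m) (Fin m) F) * SA.J m F + vecMulVec u (v ᵥ* ((s : Matrix (Fin m) (Fin m) F) * SA.J m F)) := by
    rw [Matrix.SpecialLinearGroup.coe_mul, hv, Matrix.mul_assoc, add_mul, one_mul, vecMulVec_mul]
  have w0 : v ᵥ* ((s : Matrix (Fin m) (Fin m) F) * SA.J m F) ≠ 0 := fun k =>
    v0 (eq_zero_of_vecMul_eq_zero (by rw [SA.det_sJ]; exact one_ne_zero) k)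
  have s1 := SA.symm h1
  rw [e1, transpose_add, SA.symm h, add_right_inj] at s1
  have s2 : ∀ i, u i * (v ᵥ* ((s : Matrix (Fin m) (Fin m) F) * SA.J m F)) i = 0 := fun i => by
    have := congrFun (congrFun e1 i) i
    rwa [Matrix.add_apply, SA.mul_J, SA.mul_J, k, e, zero_add, vecMulVec_apply, eq_comm] at this
  generalize v ᵥ* ((s : Matrix (Fin m) (Fin m) F) * SA.J m F) = w at *
  obtain ⟨i, hi⟩ := Function.ne_iff.1 u0
  obtain ⟨j, hj⟩ := Function.ne_iff.1 w0
  have := congrFun (congrFun s1 i) j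
  rw [transpose_apply, vecMulVec_apply, vecMulVec_apply, (mul_eq_zero.1 (s2 i)).resolve_left hi, mul_zero] at this
  exact mul_ne_zero hi hj this.symm

/-- If `α` has alternating matrix `B` and fixes `r = 1 + u vᵀ` then `B u vᵀ = v uᵀ B`, so
`v = c B u`, and the matrix `B r = B + c⁻¹ v vᵀ` of `conj r * α` is not alternating. -/
theorem gg (hm : 3 ≤ m) (he : Even m) {α β : MulAut (SL m F)} (h : Si α 1 true) (hα : α * α = 1)
    (h' : Si β 1 true) (hβ : β * β = 1) {r r' : SL m F} (hr : IsRoot r) (hαr : α r = r)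
    (hr' : IsRoot r') (hβr : β r' = r') :
    Cj α β ∨ Cj (MulAut.conj r * α) β ∨ Cj α (MulAut.conj r' * β) := by
  obtain ⟨s, rfl, hs⟩ := SA.norm_g h hα
  obtain ⟨s', rfl, hs'⟩ := SA.norm_g h' hβ
  by_cases e : ∀ i, s i i.rev = 0 <;> by_cases e' : ∀ i, s' i i.rev = 0
  · exact .inl (SA.cj_g hs' hs (iff_of_true e' e))
  · obtain ⟨a, b⟩ := SA.nonalt hm hs e hr hαr
    refine .inr (.inl ?_)
    rw [← mul_assoc, ← map_mul]
    exact SA.cj_g hs' a (iff_of_false e' b)
  · obtain ⟨a, b⟩ := SA.nonalt hm hs' e' hr' hβr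
    refine .inr (.inr ?_)
    rw [← mul_assoc, ← map_mul]
    exact SA.cj_g a hs (iff_of_false b e)
  · exact .inl (SA.cj_g hs' hs (iff_of_false e' e))

end CL.SC
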