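import Cfsg.Agent.INV.SC.Std1
import Cfsg.Agent.INV.SC.Std2
import Cfsg.Agent.INV.SC.Std3
import Cfsg.Agent.INV.SC.NF

/-!
Standard forms of outer involutions.
-/

set_option autoImplicit false
set_option linter.unusedSectionVars false
set_option linter.unusedVariables false

namespace CL.SC

open Matrix Subgroup
open scoped commutatorElement

variable {m : ℕ} [NeZero m] {F : Type*} [Field F] [Finite F] [CharP F 2]

theorem Sd.form {β : MulAut (SL m F)} (h : Sd β) : ∃ e : F, (∀ τ : F ≃+* F, τ e = e) ∧ ∃ σ ε,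
    β = MulAut.conj (zz e) * std σ ε ∧ σ * σ = 1 ∧ (σ ≠ 1 ∨ ε = true) := by
  have z : (MulAut.conj (zz (0 : F)) : MulAut (SL m F)) = 1 := by rw [zz, x_zero, map_one]
  rcases h with ⟨φ, ε, h1, h2, rfl⟩ | rfl | ⟨-, rfl⟩
  · exact ⟨0, fun τ => map_zero τ, φ, ε, by rw [z, one_mul], h2, .inl h1⟩
  · exact ⟨0, fun τ => map_zero τ, 1, true, by rw [z, one_mul, std_one_true], mul_one 1, .inr rfl⟩
  · exact ⟨1, fun τ => map_one τ, 1, true, by rw [std_one_true], mul_one 1, .inr rfl⟩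

theorem Sd.zz_fix {β : MulAut (SL m F)} (h : Sd β) {e : F} (he : ∀ τ : F ≃+* F, τ e = e) : β (zz e) = zz e := by
  obtain ⟨e', -, σ, ε, rfl, -⟩ := h.form
  rw [MulAut.mul_apply, std_zz, he, MulAut.conj_apply, (zz_comm (zz_mem_U e) e').eq, mul_inv_cancel_right]

theorem si_std (σ : F ≃+* F) (ε : Bool) : Si (std σ ε : MulAut (SL m F)) σ ε := ⟨1, by rw [map_one, one_mul]⟩

theorem si_conj (s : SL m F) : Si (MulAut.conj s) 1 false := ⟨s, by rw [std_one, mul_one]⟩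

theorem Sd.sq {β : MulAut (SL m F)} (h : Sd β) : β * β = 1 := by
  obtain ⟨e, he, σ, ε, rfl, h2, -⟩ := h.form
  rw [SA.mul_sq, std_zz, he, zz, x_sq, map_one, std_mul, h2, Bool.xor_self, std_one, mul_one]

theorem Sd.ou (hm : 3 ≤ m) {β : MulAut (SL m F)} (h : Sd β) : Ou β := by
  obtain ⟨e, -, σ, ε, rfl, -, h3⟩ := h.form
  exact ((Si.ty ⟨_, rfl⟩).ou hm).2 h3

theorem Sd.si {β : MulAut (SL m F)} (h : Sd β) : ∃ σ ε, Si β σ ε := by
  obtain ⟨e, -, σ, ε, rfl, -⟩ := h.form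
  exact ⟨σ, ε, _, rfl⟩

theorem Sd.comm_std {β : MulAut (SL m F)} (h : Sd β) (σ : F ≃+* F) (ε : Bool) :
    Commute β (std σ ε) := by
  obtain ⟨e, he, τ, δ, rfl, -⟩ := h.form
  exact Commute.mul_left (by rw [Commute, SemiconjBy, mul_conj, std_zz, he])
    (by rw [Commute, SemiconjBy, std_mul, std_mul, aut_comm, Bool.xor_comm])

theorem Sd.comm {β γ : MulAut (SL m F)} (h : Sd β) (h' : Sd γ) : Commute β γ := by
  obtain ⟨e, he, σ, ε, rfl, -⟩ := h'.form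
  exact Commute.mul_right (by rw [Commute, SemiconjBy, mul_conj, h.zz_fix he]) (h.comm_std σ ε)

theorem Sd.mem_U {β : MulAut (SL m F)} (h : Sd β) {a : SL m F} (ha : a ∈ U m F) : β a ∈ U m F :=
  by
  obtain ⟨e, -, σ, ε, rfl, -⟩ := h.form
  exact Subgroup.mul_mem _ (Subgroup.mul_mem _ (zz_mem_U e) (std_mem_U σ ε ha)) (Subgroup.inv_mem _ (zz_mem_U e))

theorem Sd.zz_one {β : MulAut (SL m F)} (h : Sd β) : β (zz 1) = zz 1 := h.zz_fix fun τ => map_one τ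

theorem Sd.sd {β : MulAut (SL m F)} (h : Sd β) :
    ∃ a ∈ U m F, ∃ σ ε, β = MulAut.conj a * std σ ε := by
  obtain ⟨e, -, σ, ε, rfl, -⟩ := h.form
  exact ⟨_, zz_mem_U e, σ, ε, rfl⟩

theorem std_ne (hm : 3 ≤ m) {α : MulAut (SL m F)} {σ : F ≃+* F} {ε : Bool} (h : Si α σ ε)
    (h2 : α * α = 1) (h1 : σ ≠ 1) : Cj (std σ ε) α := by
  cases ε
  exacts [std_f hm h1 (h.ty.sq hm h2) h h2, std_gf hm h1 (h.ty.sq hm h2) h h2]

theorem std_sl (hm : 3 ≤ m) {α : MulAut (SL m F)} {σ : F ≃+* F} {ε : Bool} (h : Si α σ ε)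
    (h2 : α * α = 1) (ho : Ou α) : ∃ β, Sd β ∧ Si β σ ε ∧ Cj β α := by
  by_cases h1 : σ = 1
  · subst h1
    obtain rfl : ε = true := ((h.ty.ou hm).1 ho).resolve_left (by simp)
    have g : Si (gr : MulAut (SL m F)) 1 true := std_one_true (m := m) (F := F) ▸ si_std 1 true
    rcases Nat.even_or_odd m with e | e
    · rcases std_g_even hm e h h2 with k | k
      · exact ⟨_, .inr (.inl rfl), g, k⟩
      · exact ⟨_, .inr (.inr ⟨e, rfl⟩), ⟨_, by rw [std_one_true]⟩, k⟩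
    · exact ⟨_, .inr (.inl rfl), g, std_g_odd hm e h h2⟩
  · exact ⟨_, .inl ⟨σ, ε, h1, h.ty.sq hm h2, rfl⟩, si_std σ ε, std_ne hm h h2 h1⟩

theorem si_of_ty (hm : 3 ≤ m) {α : MulAut (SL m F)} {σ : F ≃+* F} {ε : Bool} (h : Ty α σ ε) (h2 : α * α = 1) :
    ∃ g : GL (Fin m) F, Si ((inn g)⁻¹ * α * inn g) σ ε ∧
      (inn g)⁻¹ * α * inn g * ((inn g)⁻¹ * α * inn g) = 1 := by
  obtain ⟨g, hg⟩ := nf hm (P := zpowers α) (by
    rintro ⟨_, i, rfl⟩
    refine ⟨1, Subtype.ext ?_⟩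
    show (α ^ i) ^ 2 ^ 1 = 1
    rw [pow_one, ← zpow_natCast, ← _root_.zpow_mul, mul_comm, _root_.zpow_mul, zpow_natCast, pow_two, h2,
      _root_.one_zpow])
  obtain ⟨a, -, τ, δ, e⟩ := hg α (mem_zpowers α)
  have := h.conj hm (inn g)⁻¹
  rw [inv_inv] at this
  obtain ⟨rfl, rfl⟩ := this.unique hm (Si.ty ⟨a, e⟩)
  exact ⟨g, ⟨a, e⟩, by
    rw [show (inn g)⁻¹ * α * inn g * ((inn g)⁻¹ * α * inn g) = (inn g)⁻¹ * (α * α) * inn g by group, h2]; simp⟩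

/-- by `nf` for the group generated by `α` -/
theorem std_gl (hm : 3 ≤ m) {α : MulAut (SL m F)} (h2 : α * α = 1) (ho : Ou α) :
    ∃ (β : MulAut (SL m F)) (g : GL (Fin m) F), Sd β ∧ α = inn g * β * (inn g)⁻¹ := by
  obtain ⟨σ, ε, h⟩ := exists_ty hm α
  obtain ⟨g, h3, h4⟩ := si_of_ty hm h h2
  obtain ⟨β, h5, -, s, e⟩ := std_sl hm h3 h4 ((h3.ty.ou hm).2 ((h.ou hm).1 ho))
  exact ⟨β, g * Matrix.SpecialLinearGroup.toGL s, h5, by
    rw [map_mul, inn_toGL, show α = inn g * ((inn g)⁻¹ * α * inn g) * (inn g)⁻¹ by group, e]; group⟩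

theorem cj_of_si (hm : 3 ≤ m) {α β : MulAut (SL m F)} {σ : F ≃+* F} {ε : Bool} (h : Si α σ ε)
    (h' : Si β σ ε) (hα : α * α = 1) (hβ : β * β = 1) (hs : σ ≠ 1 ∨ (ε = true ∧ Odd m)) :
    Cj α β := by
  by_cases h1 : σ = 1
  · obtain ⟨rfl, ho⟩ := hs.resolve_left (not_not.2 h1)
    subst h1
    exact (std_g_odd hm ho h hα).symm.trans (std_g_odd hm ho h' hβ)
  · exact (std_ne hm h hα h1).symm.trans (std_ne hm h' hβ h1)

theorem gl_of_ty (hm : 3 ≤ m) {α β : MulAut (SL m F)} {σ : F ≃+* F} {ε : Bool} (h : Ty α σ ε)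
    (h' : Ty β σ ε) (hα : α * α = 1) (hβ : β * β = 1) (hs : σ ≠ 1 ∨ (ε = true ∧ Odd m)) :
    ∃ g : GL (Fin m) F, α = inn g * β * (inn g)⁻¹ := by
  obtain ⟨g, h3, h4⟩ := si_of_ty hm h hα
  obtain ⟨g', h3', h4'⟩ := si_of_ty hm h' hβ
  obtain ⟨s, e⟩ := cj_of_si hm h3' h3 h4' h4 hs
  exact ⟨g * Matrix.SpecialLinearGroup.toGL s * g'⁻¹, by
    rw [map_mul, map_mul, map_inv, inn_toGL, show α = inn g * ((inn g)⁻¹ * α * inn g) * (inn g)⁻¹ by group, e]; group⟩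

theorem cj_mul_si (hm : 3 ≤ m) {α : MulAut (SL m F)} {σ : F ≃+* F} {ε : Bool} (h : Si α σ ε)
    (hα : α * α = 1) (hs : σ ≠ 1 ∨ (ε = true ∧ Odd m)) {r : SL m F} (hr : r * r = 1)
    (hαr : α r = r) : ∃ y, α y = y * r := by
  obtain ⟨s, e⟩ := cj_of_si hm h (β := MulAut.conj r * α) (by simpa using (si_conj r).mul h) hα
    (by rw [SA.mul_sq, hαr, hr, hα, map_one, mul_one]) hs
  rw [← map_inv, mul_assoc, mul_conj, ← mul_assoc, mul_left_inj, ← map_mul, ← inv_mul_eq_one, ← map_inv, ← map_mul,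
    conj_eq_one] at e
  obtain ⟨k, hk⟩ := SA.sqrt e
  have e1 : α s⁻¹ = s⁻¹ * r * (r⁻¹ * (s * α s⁻¹)) := by group
  generalize r⁻¹ * (s * α s⁻¹) = c at *
  have e2 : α c = c⁻¹ := by
    have := congrArg α e1
    rw [show α (α s⁻¹) = s⁻¹ from congr($hα s⁻¹), map_mul, map_mul, e1, hαr, mul_assoc _ c r, ← mem_center_iff.1 e r,
      mul_assoc s⁻¹, ← mul_assoc r, hr, one_mul, mul_assoc, left_eq_mul] at this
    exact eq_inv_of_mul_eq_one_right this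
  refine ⟨s⁻¹ * c ^ k, ?_⟩
  rw [map_mul, map_pow, e1, e2, mul_assoc s⁻¹ (c ^ k), ← mem_center_iff.1 (Subgroup.pow_mem _ e k) r, inv_pow,
    mul_assoc, mul_assoc, mul_right_inj, mul_right_inj, mul_inv_eq_iff_eq_mul, hk]

/-- class stability: `conj r * α` is an involution in the same coset; one may assume `Si` after
conjugating by `inn g` (`std_gl`), and `inn g * conj s * (inn g)⁻¹ = conj (inn g s)`.  This gives
`α y = y r c⁻¹` with `c` central, `c α(c) = 1`; replace `y` by `y e⁻¹`, `e ^ 2 = c` central. -/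
theorem cj_mul (hm : 3 ≤ m) {α : MulAut (SL m F)} {σ : F ≃+* F} {ε : Bool} (h : Ty α σ ε)
    (hα : α * α = 1) (hs : σ ≠ 1 ∨ (ε = true ∧ Odd m)) {r : SL m F} (hr : r * r = 1)
    (hαr : α r = r) : ∃ y, α y = y * r := by
  obtain ⟨g, h3, h4⟩ := si_of_ty hm h hα
  obtain ⟨y, hy⟩ := cj_mul_si hm h3 h4 hs (r := (inn g)⁻¹ r) (by rw [← map_mul, hr, map_one]) (by simp [hαr])
  exact ⟨inn g y, by simpa using congrArg (inn g) hy⟩

theorem mem_Fx_conj {α β : MulAut (SL m F)} {a : SL m F} :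
    β a ∈ Fx (β * α * β⁻¹) ↔ a ∈ Fx α := by
  simp [mem_Fx]

theorem Fx_conj (α β : MulAut (SL m F)) : Fx (β * α * β⁻¹) = (Fx α).map β.toMonoidHom := by
  ext a
  obtain ⟨a, rfl⟩ := β.surjective a
  rw [mem_Fx_conj]
  exact (Subgroup.mem_map_iff_mem (f := β.toMonoidHom) β.injective).symm

end CL.SC
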