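import Cfsg.Agent.INV.SC.Ppd
import Cfsg.Agent.INV.SC.Sing0
import Cfsg.Agent.INV.SC.Std
import Cfsg.Agent.INV.SC.Out

/-!
Elements of odd order fixed by outer involutions.
-/

set_option autoImplicit false
set_option linter.unusedSectionVars false
set_option linter.unusedVariables false

namespace CL.SC

open Matrix Subgroup
open scoped commutatorElement

variable {m : ℕ} [NeZero m] {F : Type*} [Field F] [Finite F] [CharP F 2]

namespace Sg

theorem transfer (hm : 3 ≤ m) {α β : MulAut (SL m F)} {σ : F ≃+* F} {ε : Bool} (h : Ty α σ ε)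
    (h' : Ty β σ ε) (hα : α * α = 1) (hβ : β * β = 1) (hs : σ ≠ 1 ∨ (ε = true ∧ Odd m)) {r : ℕ}
    (ha : ∃ a ∈ Fx β, orderOf a = r) : ∃ a ∈ Fx α, orderOf a = r := by
  obtain ⟨g, rfl⟩ := gl_of_ty hm h h' hα hβ hs
  obtain ⟨a, h1, h2⟩ := ha
  exact ⟨inn g a, mem_Fx_conj.2 h1, (MulEquiv.orderOf_eq _ a).trans h2⟩

theorem good_one (hm : 3 ≤ m) {q r : ℕ} (h : Good m q r) : ¬ r ∣ q - 1 := by
  simpa using h.2.2 1 le_rfl (by omega)

theorem fix_gf (hm : 3 ≤ m) {α : MulAut (SL m F)} {φ : F ≃+* F} (h : Ty α φ true) (h2 : α * α = 1)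
    (h1 : φ ≠ 1) {n d r : ℕ} (hq : Nat.card F = (2 ^ n) ^ 2) (hφ : ∀ a, φ a = a ^ 2 ^ n)
    (hd : Odd d) (hdm : d ≤ m) (hr : r ∣ (2 ^ n) ^ d + 1) (hg : Good m (Nat.card F) r) :
    ∃ a ∈ Fx α, orderOf a = r := by
  have := Fintype.ofFinite F
  obtain ⟨H, g, p1, p2, p3, p4, p5, p6⟩ := exists_form (F := F) (d := d) (Q0 := (2 ^ n) ^ d) hd.pos
    (by rw [hq, ← pow_mul, ← pow_mul _ 2 d, mul_comm]) (ψ := φ) (fun a => by
      obtain ⟨j, rfl⟩ := hd
      rw [hφ, pow_succ, pow_mul (2 ^ n), ← hq, pow_mul a, Nat.card_eq_fintype_card,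
        FiniteField.pow_card_pow]) hg.1 hr (good_one hm hg)
  obtain ⟨β, q1, q2, q3⟩ := exists_fix hdm (h.sq hm h2) hg.1 p1 p2 p3 p4 p5 p6
  exact transfer hm h q1 h2 q2 (Or.inl h1) q3

theorem fix_g {k : ℕ} (hk : 1 ≤ k) (hm : m = 2 * k + 1) {α : MulAut (SL m F)} (h : Ty α 1 true)
    (h2 : α * α = 1) {r : ℕ} (hr : r ∣ Nat.card F ^ k + 1) (hg : Good m (Nat.card F) r) :
    ∃ a ∈ Fx α, orderOf a = r := by
  have := Fintype.ofFinite F
  obtain ⟨H, g, p1, p2, p3, p4, p5, p6⟩ := exists_form (F := F) (d := 2 * k) (Q0 := Nat.card F ^ k)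
    (by omega) (by rw [← pow_mul, mul_comm]) (ψ := 1) (fun a => by
      rw [Nat.card_eq_fintype_card, FiniteField.pow_card_pow]; rfl) hg.1 hr
    (good_one (by omega) hg)
  obtain ⟨β, q1, q2, q3⟩ := exists_fix (m := m) (by omega) (one_mul _) hg.1 p1 p2 p3 p4 p5 p6
  exact transfer (by omega) h q1 h2 q2 (Or.inr ⟨rfl, k, hm⟩) q3

theorem three {G : Type*} [Group G] {b v : Fin 3 → G} (h1 : ∀ i, orderOf (b i) = 3)
    (h2 : ∀ i j, i ≠ j → Commute (b i) (b j)) (h3 : ∀ i j, i ≠ j → Commute (v i) (b j))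
    (h4 : ∀ i, ¬ Commute (v i) (b i)) {H : Subgroup G} (h5 : ∀ i, b i ∈ H) :
    ∃ T ≤ H, Nat.card T = 27 ∧ ∀ a ∈ T, a ≠ 1 → ∃ i, ¬ Commute a (v i) := by
  classical
  have c2 : ∀ i j, i ≠ j → ∀ (u : zpowers (b i)) (w : zpowers (b j)), Commute (u : G) w := by
    rintro i j h ⟨_, k, rfl⟩ ⟨_, l, rfl⟩
    exact (h2 i j h).zpow_zpow k l
  have c3 : ∀ i j, i ≠ j → ∀ w : zpowers (b j), Commute (v i) w := by
    rintro i j h ⟨_, l, rfl⟩
    exact (h3 i j h).zpow_right l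
  have c4 : ∀ i, ∀ w : zpowers (b i), Commute (v i) w → w = 1 := by
    rintro i ⟨w, hw⟩ h
    have hf : IsOfFinOrder (b i) := orderOf_pos_iff.1 (by rw [h1]; norm_num)
    obtain ⟨k, hk, rfl⟩ := Finset.mem_image.1 (hf.mem_zpowers_iff_mem_range_orderOf.1 hw)
    rw [h1, Finset.mem_range] at hk
    interval_cases k
    · exact Subtype.ext (pow_zero _)
    · exact absurd (by simpa using h) (h4 i)
    · refine absurd ?_ (h4 i)
      have e : b i ^ 3 = 1 := h1 i ▸ pow_orderOf_eq_one (b i)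
      have := h.pow_right 2
      rwa [← pow_mul, pow_succ, e, one_mul] at this
  let f : zpowers (b 0) × zpowers (b 1) × zpowers (b 2) →* G := MonoidHom.mk'
    (fun p => (p.1 : G) * p.2.1 * p.2.2) fun p q => by
      have e1 := (c2 1 0 (by decide) p.2.1 q.1).eq
      have e2 := (c2 2 0 (by decide) p.2.2 q.1).eq
      have e3 := (c2 2 1 (by decide) p.2.2 q.2.1).eq
      simp only [Prod.fst_mul, Prod.snd_mul, Subgroup.coe_mul, mul_assoc]
      rw [← mul_assoc (p.2.2 : G), e2, mul_assoc, ← mul_assoc (p.2.1 : G) q.1, e1,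
        ← mul_assoc (p.2.2 : G), e3]
      simp only [mul_assoc]
  have key : ∀ p, (∀ i, Commute (f p) (v i)) → p = 1 := fun p h => by
    have a1 : Commute (v 0) (p.1 * p.2.1 * p.2.2) := (h 0).symm
    have a2 : Commute (v 1) (p.1 * p.2.1 * p.2.2) := (h 1).symm
    have a3 : Commute (v 2) (p.1 * p.2.1 * p.2.2) := (h 2).symm
    refine Prod.ext (c4 0 _ ?_) (Prod.ext (c4 1 _ ?_) (c4 2 _ ?_))
    · simpa using (a1.mul_right (c3 0 2 (by decide) p.2.2).inv_right).mul_right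
        (c3 0 1 (by decide) p.2.1).inv_right
    · simpa [mul_assoc] using (c3 1 0 (by decide) p.1).inv_right.mul_right
        (a2.mul_right (c3 1 2 (by decide) p.2.2).inv_right)
    · simpa [mul_assoc] using (c3 2 1 (by decide) p.2.1).inv_right.mul_right
        ((c3 2 0 (by decide) p.1).inv_right.mul_right a3)
  have hi : Function.Injective f := (injective_iff_map_eq_one f).2 fun p h =>
    key p fun i => h ▸ Commute.one_left _
  refine ⟨f.range, ?_, ?_, ?_⟩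
  · rintro _ ⟨p, rfl⟩
    exact mul_mem (mul_mem (zpowers_le.2 (h5 0) p.1.2) (zpowers_le.2 (h5 1) p.2.1.2))
      (zpowers_le.2 (h5 2) p.2.2.2)
  · rw [← Nat.card_congr (MonoidHom.ofInjective hi).toEquiv, Nat.card_prod, Nat.card_prod,
      Nat.card_zpowers, Nat.card_zpowers, Nat.card_zpowers, h1, h1, h1]
  · rintro _ ⟨p, rfl⟩ h
    by_contra hn
    push Not at hn
    exact h (by rw [key p hn, map_one])

theorem not_comm {i j : Fin m} (h : i ≠ j) : ¬ Commute (x i j (1 : F)) (x j i 1) := fun c => by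
  have e := (pm_swap (F := F) h).symm.trans ((congrArg _ (Equiv.swap_comm i j)).trans
    (pm_swap h.symm))
  rw [c.eq, mul_assoc, x_sq, mul_one, ← c.eq, mul_assoc, x_sq, mul_one] at e
  have := congrFun (congrFun (congrArg Subtype.val e) i) j
  rw [x_val h, x_val h.symm, Matrix.add_apply, Matrix.add_apply, Matrix.single_apply_same,
    Matrix.single_apply_of_row_ne h.symm, add_right_inj] at this
  exact zero_ne_one this

theorem ord_three {i j : Fin m} (h : i ≠ j) : orderOf (x i j (1 : F) * x j i 1) = 3 := by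
  have : Fact (Nat.Prime 3) := ⟨Nat.prime_three⟩
  refine orderOf_eq_prime ?_ fun e => not_comm (F := F) h ?_
  · have e : (x i j (1 : F) * x j i 1) ^ 3 =
        x i j 1 * x j i 1 * x i j 1 * (x j i 1 * x i j 1 * x j i 1) := by
      simp only [pow_succ, pow_zero, one_mul, mul_assoc]
    rw [e, ← pm_swap h, ← pm_swap h.symm, ← pm_mul, Equiv.swap_comm j i, Equiv.swap_mul_self, pm_one]
  · rw [eq_inv_of_mul_eq_one_left e]
    exact (Commute.refl _).inv_left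

theorem conj_comm {G : Type*} [Group G] {H : Subgroup G} {g v : G} (hg : g ∈ H) (hv : v ∈ ⁅H, H⁆) :
    g * v * g⁻¹ ∈ ⁅H, H⁆ := by
  have : ⁅H, H⁆.map (MulAut.conj g).toMonoidHom ≤ ⁅H, H⁆ := by
    have h : H.map (MulAut.conj g).toMonoidHom ≤ H := by
      rintro _ ⟨a, ha, rfl⟩
      exact mul_mem (mul_mem hg ha) (inv_mem hg)
    rw [Subgroup.map_commutator]
    exact commutator_mono h h
  exact this ⟨v, hv, rfl⟩

/-- the conclusion of `t27` -/
def T27 (α : MulAut (SL m F)) : Prop := ∃ T ≤ Fx α, Nat.card T = 27 ∧ ∀ a ∈ T, a ≠ 1 →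
  ∃ v ∈ ⁅Fx α, Fx α⁆, v * v = 1 ∧ ¬ Commute a v

theorem T27.conj {β : MulAut (SL m F)} (h : T27 β) (γ : MulAut (SL m F)) : T27 (γ * β * γ⁻¹) := by
  obtain ⟨T, h1, h2, h3⟩ := h
  refine ⟨T.map γ.toMonoidHom, Fx_conj β γ ▸ map_mono h1,
    (card_map_of_injective γ.injective).trans h2, ?_⟩
  rintro _ ⟨a, ha, rfl⟩ hne
  obtain ⟨v, p1, p2, p3⟩ := h3 a ha fun e => hne (by simp [e])
  exact ⟨γ v, OA.comm_conj β γ p1, by rw [← map_mul, p2, map_one],
    fun c => p3 (c.of_map γ.injective)⟩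

theorem t7 : T27 (gr : MulAut (SL 7 F)) := by
  let s : Fin 3 → Fin 7 := Fin.castLE (by norm_num)
  have hz : (zz 1 : SL 7 F) ∈ ⁅Fx (gr : MulAut (SL 7 F)), Fx (gr : MulAut (SL 7 F))⁆ := by
    have h1 := OA.g1 (F := F) (m := 7) (by norm_num) (i := 1) rfl 1 1
    have h2 := OA.g2 (F := F) (m := 7) (by norm_num) (i := 1) rfl
    simp only [mul_one] at h1
    have := commutator_mono inf_le_right inf_le_right (mul_mem (inv_mem h2) h1)
    rwa [inv_mul_cancel_left] at this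
  have hv : ∀ i, x (s i) (s i).rev (1 : F) ∈
      ⁅Fx (gr : MulAut (SL 7 F)), Fx (gr : MulAut (SL 7 F))⁆ := fun i => by
    have := conj_comm (g := pm F (Equiv.swap 0 (s i) * Equiv.swap la (s i).rev)) (mem_Fx.2 (by
      rw [gr_pm]; congr 1; revert i; decide)) hz
    rw [zz, pm_x] at this
    convert this using 2 <;> clear this <;> revert i <;> decide
  have hf : ∀ i : Fin 7, x i i.rev (1 : F) ∈ Fx (gr : MulAut (SL 7 F)) := fun i =>
    mem_Fx.2 (by rw [gr_x, Fin.rev_rev])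
  have hne : ∀ i, s i ≠ (s i).rev := by decide
  have c1 : ∀ i j, i ≠ j → s i ≠ s j ∧ s i ≠ (s j).rev ∧ (s i).rev ≠ s j ∧ (s i).rev ≠ (s j).rev := by
    decide
  have c2 : ∀ i j, i ≠ j → Commute (x (s i) (s i).rev (1 : F))
      (x (s j) (s j).rev 1 * x (s j).rev (s j) 1) := fun i j h =>
    (x_comm (c1 i j h).2.1 (c1 i j h).2.2.1 1 1).mul_right (x_comm (c1 i j h).1 (c1 i j h).2.2.2 1 1)
  obtain ⟨T, h1, h2, h3⟩ := three (b := fun i => x (s i) (s i).rev (1 : F) * x (s i).rev (s i) 1)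
    (v := fun i => x (s i) (s i).rev (1 : F)) (fun i => ord_three (hne i))
    (fun i j h => (c2 i j h).mul_left ((x_comm (c1 i j h).2.2.2 (c1 i j h).1 1 1).mul_right
      (x_comm (c1 i j h).2.2.1 (c1 i j h).2.1 1 1))) c2
    (fun i c => not_comm (F := F) (hne i) (by simpa using (Commute.refl _).inv_right.mul_right c))
    (H := Fx gr) fun i => mul_mem (hf _) (by simpa using hf (s i).rev)
  refine ⟨T, h1, h2, fun a ha a1 => ?_⟩
  obtain ⟨i, hi⟩ := h3 a ha a1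
  exact ⟨_, hv i, x_sq _ _ _, hi⟩

theorem t4 (hq : Nat.card F = 4) {φ : F ≃+* F} (h1 : φ ≠ 1) (h2 : φ * φ = 1) :
    T27 (MulAut.conj (pm F Fin.revPerm) * std φ true : MulAut (SL 4 F)) := by
  have := Fintype.ofFinite F
  obtain ⟨n, -, hn, hφ, -⟩ := aut_two h1 h2
  obtain rfl : n = 1 := by
    rw [hq, ← pow_mul, show 4 = 2 ^ 2 by rfl] at hn
    have := Nat.pow_right_injective le_rfl hn
    omega
  have hp : ∀ s, pm F s ∈ Fx (MulAut.conj (pm F Fin.revPerm) * std φ true : MulAut (SL 4 F)) :=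
    fun s => mem_Fx.2 (by
      rw [std, MulAut.mul_apply, MulAut.mul_apply, cond_true, gr_pm, fld_pm, MulAut.conj_apply,
        pm_inv, ← pm_mul, ← pm_mul]
      congr 1
      ext i
      simp)
  have hc : ∀ s t, pm F ⁅s, t⁆ ∈
      ⁅Fx (MulAut.conj (pm F Fin.revPerm) * std φ true : MulAut (SL 4 F)),
        Fx (MulAut.conj (pm F Fin.revPerm) * std φ true : MulAut (SL 4 F))⁆ := fun s t => by
    rw [commutatorElement_def, pm_mul, pm_mul, pm_mul, ← pm_inv, ← pm_inv]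
    exact commutator_mem_commutator (hp s) (hp t)
  let d : Fˣ × Fˣ × Fˣ → Fin 4 → F := fun p => ![p.1, p.2.1, p.2.2, (p.1 * p.2.1 * p.2.2)⁻¹]
  have hd : ∀ p, ∏ i, d p i = 1 := fun p => by
    simp only [d, Fin.prod_univ_four, Matrix.cons_val]
    exact mul_inv_cancel₀ (by simp)
  have hv : ∀ p i j, (dg (d p) : SL 4 F) i j = if i = j then d p i else 0 := fun p i j =>
    (congrFun (congrFun (dg_val (hd p)) i) j).trans (diagonal_apply _ _ _)
  let f : Fˣ × Fˣ × Fˣ →* SL 4 F := MonoidHom.mk' (fun p => dg (d p)) fun p q => by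
    rw [← dg_mul (hd p) (hd q)]
    congr 1
    funext i
    fin_cases i <;> simp [d]
    ring
  have hi : Function.Injective f := (injective_iff_map_eq_one f).2 fun p h => by
    have e : ∀ i, d p i = 1 := fun i => by
      have := hv p i i
      rw [show dg (d p) = 1 from h, if_pos rfl] at this
      exact this.symm.trans (Matrix.one_apply_eq i)
    exact Prod.ext (Units.ext (e 0)) (Prod.ext (Units.ext (e 1)) (Units.ext (e 2)))
  refine ⟨f.range, ?_, ?_, ?_⟩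
  · rintro _ ⟨p, rfl⟩
    refine mem_Fx.2 (Matrix.SpecialLinearGroup.ext _ _ fun i j => ?_)
    rw [std, MulAut.mul_apply, MulAut.mul_apply, cond_true, MulAut.conj_apply, pm_conj, fld_apply,
      gr_apply]
    change φ ((dg (d p))⁻¹ _ _) = dg (d p) i j
    rw [dg_inv (hd p), hv]
    have h3 : ∏ i, (d p i)⁻¹ = 1 := by rw [Finset.prod_inv_distrib, hd, inv_one]
    refine (congrArg φ ((congrFun (congrFun (dg_val h3) _) _).trans (diagonal_apply _ _ _))).trans ?_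
    simp only [Fin.revPerm_symm, Equiv.Perm.inv_def, Fin.revPerm_apply, Fin.rev_rev]
    by_cases e : i = j
    · subst e
      have h4 := FiniteField.pow_card_sub_one_eq_one _ (ne_zero_of_prod (hd p) i)
      rw [← Nat.card_eq_fintype_card, hq] at h4
      rw [if_pos rfl, if_pos rfl, hφ, inv_pow]
      exact inv_eq_of_mul_eq_one_right (by rw [← pow_succ]; exact h4)
    · rw [if_neg e, if_neg (Ne.symm e), map_zero]
  · rw [← Nat.card_congr (MonoidHom.ofInjective hi).toEquiv, Nat.card_prod, Nat.card_prod,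
      Nat.card_units, hq]
  · rintro _ ⟨p, rfl⟩ h
    by_contra hn
    push Not at hn
    have key : ∀ s t : Equiv.Perm (Fin 4), ⁅s, t⁆ * ⁅s, t⁆ = 1 → ∀ i, d p (⁅s, t⁆⁻¹ i) = d p i :=
      fun s t e i => by
        have c := hn _ (hc s t) (by rw [← pm_mul, e, pm_one])
        have := pm_conj ⁅s, t⁆ (dg (d p)) i i
        rw [show pm F ⁅s, t⁆ * dg (d p) * (pm F ⁅s, t⁆)⁻¹ = dg (d p) from
          mul_inv_eq_iff_eq_mul.2 c.symm.eq, hv, hv, if_pos rfl, if_pos rfl] at this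
        exact this.symm
    have k1 := key (Equiv.swap 0 1) (Equiv.swap 0 2 * Equiv.swap 1 3) (by decide)
    have k2 := key (Equiv.swap 0 2) (Equiv.swap 0 1 * Equiv.swap 2 3) (by decide)
    have e1 : d p 1 = d p 0 := k1 0
    have e2 : d p 2 = d p 0 := k2 0
    have e3 : d p 3 = d p 2 := k1 2
    have e4 := hd p
    rw [Fin.prod_univ_four, e3, e2, e1] at e4
    have e5 : d p 0 = 1 := eq_one_of_pow (n := 2) (by rw [← e4]; ring)
    refine h ((injective_iff_map_eq_one' f).1 hi p |>.2 ?_)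
    exact Prod.ext (Units.ext e5) (Prod.ext (Units.ext (e1.trans e5)) (Units.ext (e2.trans e5)))

end Sg

open Sg

/-- By the type of `α`: `zs_f`, `zs_gf`, `zs_g`, `Sing0` (`Q0 = q0 ^ d`, `d` odd, resp.
`Q0 = q ^ k`, degree `2 k`), `gl_of_ty`. -/
theorem sing_w (hm : 4 ≤ m) {α : MulAut (SL m F)} (h2 : α * α = 1) (ho : Ou α)
    (hg : ¬ (Even m ∧ Ty α 1 true)) :
    (∃ r, Good m (Nat.card F) r ∧ ¬ r ∣ Nat.card (F ≃+* F) ∧ ∃ a ∈ Fx α, orderOf a = r) ∨
      (m = 4 ∧ Nat.card F = 4 ∧ ∃ φ, φ ≠ 1 ∧ Ty α φ true) ∨ (m = 7 ∧ Nat.card F = 2) := by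
  have hm3 : 3 ≤ m := by omega
  obtain ⟨σ, ε, h⟩ := exists_ty hm3 α
  obtain ⟨N, hN, q1, q2⟩ := card_F F
  by_cases hσ : σ = 1
  · subst hσ
    obtain rfl : ε = true := ((h.ou hm3).1 ho).resolve_left fun h => h rfl
    obtain ⟨k, hk⟩ := Nat.not_even_iff_odd.1 fun e => hg ⟨e, h⟩
    by_cases c : k = 3 ∧ N = 1
    · exact Or.inr (Or.inr ⟨by omega, by rw [q1, c.2, pow_one]⟩)
    obtain ⟨r, r1, r2, r3⟩ := zs_g (k := k) (by omega) hN c
    rw [← hk, ← q1] at r2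
    exact Or.inl ⟨r, r2, q2 ▸ r3, fix_g (by omega) hk h h2 (q1 ▸ r1) r2⟩
  obtain ⟨n, hn, p1, p2, -⟩ := aut_two hσ (h.sq hm3 h2)
  obtain rfl : N = 2 * n := by
    rw [q1, ← pow_mul] at p1
    have := Nat.pow_right_injective le_rfl p1
    omega
  cases ε
  · obtain ⟨d, r, r1, r2, r3, r4, r5⟩ := zs_f hm hn
    refine Or.inl ⟨r, p1 ▸ r4, q2 ▸ r5, transfer hm3 h (ty_std σ false) h2 ?_ (Or.inl hσ)
      (exists_fix_f r1 r2 hσ (h.sq hm3 h2) p1 r4.1 r3 fun e => good_one hm3 r4 (e.trans ?_))⟩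
    · rw [std_mul, h.sq hm3 h2]; exact std_one
    · simpa using Nat.sub_dvd_pow_sub_pow (2 ^ n) 1 2
  · by_cases c : m = 4 ∧ n = 1
    · exact Or.inr (Or.inl ⟨c.1, by rw [p1, c.2]; rfl, σ, hσ, h⟩)
    obtain ⟨d, r, r1, r2, r3, r4, r5⟩ := zs_gf hm hn c
    exact Or.inl ⟨r, p1 ▸ r4, q2 ▸ r5, fix_gf hm3 h h2 hσ p1 p2 r1 r2 r3 (p1 ▸ r4)⟩

/-- `zs_gf'`, `zs_g'`, `card_aut`, `not_dvd_card_SL` -/
theorem sing_K (hp : Par m F) {K : Type*} [Field K] [Finite K] [CharP K 2]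
    (hK : Nat.card K = Nat.card F ^ 2) {α : MulAut (SL m K)} (h2 : α * α = 1) {σ : K ≃+* K}
    (h : Ty α σ true) (hs : σ ≠ 1 ∨ Odd m) : ∃ r, Good m (Nat.card K) r ∧
      ¬ r ∣ Nat.card (MulAut (SL m F)) ∧ ∃ a ∈ Fx α, orderOf a = r := by
  have hm := hp.1
  obtain ⟨n, hn, q1, q2⟩ := card_F F
  have key : ∀ r : ℕ, r.Prime → r ≠ 2 → ¬ r ∣ n → (∀ i, 1 ≤ i → i ≤ m → ¬ r ∣ (2 ^ n) ^ i - 1) →
      ¬ r ∣ Nat.card (MulAut (SL m F)) := fun r hr r2 h1 h3 h4 => by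
    rw [card_aut hm, q2] at h4
    rcases (Nat.Prime.dvd_mul hr).1 h4 with h4 | h4
    · exact ((Nat.Prime.dvd_mul hr).1 h4).elim
        (fun h => r2 ((Nat.prime_dvd_prime_iff_eq hr Nat.prime_two).1 h)) h1
    · exact not_dvd_card_SL hr r2 (q1 ▸ h3) h4
  rw [q1] at hK
  by_cases hσ : σ = 1
  · subst hσ
    obtain ⟨k, hk⟩ := hs.resolve_left fun h => h rfl
    obtain ⟨r, r1, r2, r3, r4⟩ := zs_g' (k := k) (by omega) hn
    rw [← hk] at r2 r4
    rw [← hK] at r1 r2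
    exact ⟨r, r2, key r r2.1 r2.2.1 r3 r4, fix_g (by omega) hk h h2 r1 r2⟩
  · obtain ⟨n', -, p1, p2, -⟩ := aut_two hσ (h.sq hm h2)
    obtain rfl : n = n' := by
      rw [hK, ← pow_mul, ← pow_mul] at p1
      have := Nat.pow_right_injective le_rfl p1
      omega
    obtain ⟨d, r, r1, r2, r3, r4, r5, r6⟩ := zs_gf' hm hn fun h4 => by
      have := hp.2 h4
      rw [q1] at this
      exact (Nat.pow_le_pow_iff_right one_lt_two).1 (show 2 ^ 2 ≤ 2 ^ n from this)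
    rw [← hK] at r4
    exact ⟨r, r4, key r r4.1 r4.2.1 r5 r6, fix_gf hm h h2 hσ hK p2 r1 r2 r3 r4⟩

/-- `m = 4`, `q = 4`: the model `β = (a ↦ (a^φ)⁻ᵀ) = conj (pm revPerm) * std φ true` (`gl_of_ty`)
fixes the diagonal matrices of determinant 1 and all permutation matrices; the double
transpositions are commutators in `A4`, and a diagonal matrix commuting with them is a scalar
`c`, `c ^ 4 = 1`.  `m = 7`, `q = 2`: `β = gr` fixes `b i = x i i' 1 * x i' i 1` (order 3,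
`i = 0, 1, 2`, commuting); `zz 1 = v · v'` with the two commutators `v, v'` of `out2` (cases
`m ≥ 5` odd and `m ≥ 6`), and `x i i' 1` is conjugate to it by `pm (swap 0 i * swap 0' i')`. -/
theorem t27 {α : MulAut (SL m F)} (h2 : α * α = 1)
    (h : (m = 4 ∧ Nat.card F = 4 ∧ ∃ φ, φ ≠ 1 ∧ Ty α φ true) ∨ (m = 7 ∧ Nat.card F = 2 ∧ Ou α)) :
    ∃ T ≤ Fx α, Nat.card T = 27 ∧ ∀ a ∈ T, a ≠ 1 →
      ∃ v ∈ ⁅Fx α, Fx α⁆, v * v = 1 ∧ ¬ Commute a v := by
  rcases h with ⟨rfl, hq, φ, h1, h⟩ | ⟨rfl, hq, ho⟩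
  · have h3 := h.sq (by norm_num) h2
    obtain ⟨g, rfl⟩ := gl_of_ty (by norm_num) h
      (β := MulAut.conj (pm F Fin.revPerm) * std φ true)
      (Si.ty ⟨_, rfl⟩) h2 (by
        rw [SA.mul_sq, std_mul, h3, std, MulAut.mul_apply, cond_true, gr_pm, fld_pm, ← pm_mul,
          show (Fin.revPerm * (Fin.revPerm * Fin.revPerm * Fin.revPerm) : Equiv.Perm (Fin 4)) = 1
            by decide, pm_one, map_one, one_mul]
        exact std_one) (Or.inl h1)
    exact (t4 hq h1 h3).conj _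
  · obtain ⟨σ, ε, h⟩ := exists_ty (by norm_num) α
    obtain ⟨n, -, q1, q2⟩ := card_F F
    obtain rfl : n = 1 := Nat.pow_right_injective le_rfl (q1.symm.trans hq)
    have := (Nat.card_eq_one_iff_unique.1 q2).1
    obtain rfl : σ = 1 := Subsingleton.elim _ _
    obtain rfl : ε = true := ((h.ou (by norm_num)).1 ho).resolve_left fun h => h rfl
    obtain ⟨g, rfl⟩ := gl_of_ty (by norm_num) h (β := gr) (std_one_true (m := 7) (F := F) ▸ ty_std 1 true) h2 gr_mul_gr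
      (Or.inr ⟨rfl, by decide⟩)
    exact t7.conj _

theorem not_dvd_729 (h : (m = 4 ∧ Nat.card F = 4) ∨ (m = 7 ∧ Nat.card F = 2)) :
    ¬ 729 ∣ Nat.card (MulAut (SL m F)) := by
  have := Fintype.ofFinite F
  obtain ⟨n, -, q1, q2⟩ := card_F F
  have h1 := card_GL_eq (m := m) (F := F)
  rw [Matrix.card_GL_field, ← Nat.card_eq_fintype_card] at h1
  rw [card_aut (by omega), q2]
  rcases h with ⟨rfl, hq⟩ | ⟨rfl, hq⟩
  · obtain rfl : n = 2 := Nat.pow_right_injective le_rfl (q1.symm.trans hq)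
    rw [hq, Fin.prod_univ_four] at h1
    norm_num at h1
    omega
  · obtain rfl : n = 1 := Nat.pow_right_injective le_rfl (q1.symm.trans hq)
    rw [hq, Fin.prod_univ_seven] at h1
    norm_num at h1
    omega

end CL.SC
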