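import Cfsg.Agent.INV.SC.Base
import Cfsg.Agent.INV.SC.K6
import Cfsg.Agent.INV.SC.Sing

/-!
The field case: the unique fixed point.
-/

set_option autoImplicit false
set_option maxHeartbeats 200000
set_option linter.unusedSectionVars false
set_option linter.unusedVariables false

namespace CL.SC

open Matrix Subgroup
open scoped commutatorElement

variable {m : ℕ} [NeZero m] {F : Type*} [Field F] [Finite F] [CharP F 2]
variable {G : Type*} [Group G] [Finite G]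
variable {ρ : SL m F →* G} {t : G}
variable {K : Type*} [Field K] [Finite K] [CharP K 2] {π : SL m K →* G} {φ : K ≃+* K}
  {ι : F →+* K}

/-- `n` acts on the frame as an automorphism of type `(σ, ε)` -/
def Tp (π : SL m K →* G) (n : G) (σ : K ≃+* K) (ε : Bool) : Prop := ∃ α, Ac π n α ∧ Ty α σ ε

section tp

variable {n n' : G} {σ τ : K ≃+* K} {ε δ : Bool}

theorem Tp.mul (h : Tp π n σ ε) (h' : Tp π n' τ δ) : Tp π (n * n') (σ * τ) (xor ε δ) :=
  let ⟨_, h1, h2⟩ := h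
  let ⟨_, h3, h4⟩ := h'
  ⟨_, h1.mul h3, h2.mul h4⟩

theorem Tp.inv (h : Tp π n σ ε) : Tp π n⁻¹ σ⁻¹ ε :=
  let ⟨_, h1, h2⟩ := h
  ⟨_, h1.inv, h2.inv⟩

theorem tp_range (h : n ∈ π.range) : Tp π n 1 false := by
  obtain ⟨a, rfl⟩ := h
  exact ⟨_, ac_self π a, ty_conj a⟩

theorem Tp.pow (h : Tp π n σ false) (k : ℕ) : Tp π (n ^ k) (σ ^ k) false := by
  induction k with
  | zero => simpa using tp_range (one_mem π.range)
  | succ k ih => rw [pow_succ, pow_succ]; simpa using ih.mul h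

theorem Tp.unique (hm : 3 ≤ m) (f : Fr π) (h : Tp π n σ ε) (h' : Tp π n τ δ) : σ = τ ∧ ε = δ :=
  let ⟨_, h1, h2⟩ := h
  let ⟨_, h3, h4⟩ := h'
  h2.unique hm (h1.unique hm f h3 ▸ h4)

theorem Tp.rf (hm : 3 ≤ m) (h : Tp π n σ ε) (β : MulAut (SL m K)) : Tp (rf π β) n σ ε :=
  let ⟨_, h1, h2⟩ := h
  ⟨_, h1.rf β, by simpa using h2.conj hm β⁻¹⟩

theorem Tp.of_rf (hm : 3 ≤ m) {β : MulAut (SL m K)} (h : Tp (CL.SC.rf π β) n σ ε) : Tp π n σ ε := by
  have e : CL.SC.rf (CL.SC.rf π β) β⁻¹ = π := MonoidHom.ext fun a => by simp [rf_apply]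
  exact e ▸ h.rf hm β⁻¹

theorem Tp.conj (hm : 3 ≤ m) (f : Fr π) (h : Tp π n σ ε) {k : G} (hk : k ∈ normalizer (π.range : Set G)) :
    Tp π (k * n * k⁻¹) σ ε :=
  let ⟨_, h1, h2⟩ := h
  let ⟨γ, h3⟩ := f.exists_ac hm hk
  ⟨_, (h3.mul h1).mul h3.inv, h2.conj hm γ⟩

theorem Ac.tp {a : SL m K} (h : Ac π n (MulAut.conj a * std σ ε)) : Tp π n σ ε :=
  ⟨_, h, Si.ty ⟨a, rfl⟩⟩

theorem Fld.tp (h : Fld ρ t π φ ι) : Tp π t φ false := ⟨_, h.act, std_false (m := m) φ ▸ ty_std φ false⟩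

end tp

theorem Fld.par (hm : 3 ≤ m) (h : Fld ρ t π φ ι) : Par m K := ⟨hm, fun _ => by
  have : 2 ≤ Nat.card F := Finite.one_lt_card
  rw [h.card]
  nlinarith⟩

theorem Fld.le (h : Fld ρ t π φ ι) : ρ.range ≤ π.range := by
  rintro _ ⟨a, rfl⟩
  exact ⟨_, h.emb a⟩

theorem Fld.fix (hm : 3 ≤ m) (h : Fld ρ t π φ ι) (a : F) : φ (ι a) = ι a := by
  have := (h.act.fix h.frπ (a := x 0 la (ι a)) (k := 1) (by simpa [pow_two] using x_sq _ _ _)).1
    (by rw [← map_x, h.emb]; exact h.tc _)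
  rw [fld_x] at this
  exact x_inj (zero_ne_la (by omega)) this

theorem Fld.zz_one (h : Fld ρ t π φ ι) : π (zz 1) = ρ (zz 1) := by
  rw [← h.emb, zz, zz, map_x, map_one]

/-- `St.odd_cent` -/
theorem Fld.odd_cent (hm : 3 ≤ m) (h : Fld ρ t π φ ι) :
    Odd (Nat.card (centralizer (π.range : Set G))) := 
  h.toSt.odd_cent h.le (h.nrm0 t (Commute.refl t)) fun hc =>
    h.φ1 (h.tp.unique hm h.frπ ⟨1, ac_one.2 fun a => (hc _ ⟨a, rfl⟩).symm, ty_one⟩).1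

theorem Fld.eq_one (hm : 3 ≤ m) (h : Fld ρ t π φ ι) {n : G} {k : ℕ} (hn : n ^ 2 ^ k = 1)
    (hac : Ac π n 1) : n = 1 := by
  have h1 : n ∈ centralizer (π.range : Set G) := by
    rintro _ ⟨a, rfl⟩
    exact (ac_one.1 hac a).symm
  exact orderOf_eq_one_iff.1 (Nat.eq_one_of_dvd_coprimes
    ((Nat.coprime_two_right.2 (h.odd_cent hm)).pow_right k) (orderOf_dvd_natCard _ h1)
    (orderOf_dvd_of_pow_eq_one hn))

/-- a 2-element acting as an inner-diagonal automorphism lies in the range: `Ty.two` gives `a`,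
`(π a)⁻¹ n` centralises the range and commutes with `π a` -/
theorem Fld.inn (hm : 3 ≤ m) (h : Fld ρ t π φ ι) {n : G} {k : ℕ} (hn : n ^ 2 ^ k = 1)
    {α : MulAut (SL m K)} (hac : Ac π n α) (hα : Ty α 1 false) : n ∈ π.range := by
  obtain ⟨a, ha, rfl⟩ := hα.two hm (hac.pow_eq_one hm h.frπ hn)
  have c : Commute n (π a) := hac.commute (by simp)
  have := h.eq_one hm (n := (π a)⁻¹ * n) (k := k)
    (by rw [c.symm.inv_left.mul_pow, hn, inv_pow, ← map_pow, ha]; simp)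
    (by simpa using (ac_self π a).inv.mul hac)
  exact ⟨a, inv_mul_eq_one.1 this⟩

/-- `aut_eq_A` -/
theorem Fld.el_le (hm : 3 ≤ m) (h : Fld ρ t π φ ι) {B : Subgroup G}
    (hB : B ≤ normalizer (π.range : Set G)) (hE : El B) (hc : Nat.card K ^ cc m ≤ Nat.card B) :
    B ≤ π.range := by
  obtain ⟨θ, hθ⟩ := h.frπ.exists_hom hm
  let f := θ.comp (inclusion hB)
  have hf : ∀ e : B, Ac π e (f e) := fun e => hθ (inclusion _ e)
  have sq : ∀ e : B, (e : G) ^ 2 ^ 1 = 1 := fun e => by simpa [pow_two] using hE e e.2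
  have inj : Function.Injective f := (injective_iff_map_eq_one f).2 fun e he =>
    Subtype.ext (h.eq_one hm (sq e) (he ▸ hf e))
  intro b hb
  refine h.inn hm (sq ⟨b, hb⟩) (hf ⟨b, hb⟩) (by_contra fun ho => ?_)
  have := card_lt_of_outer (h.par hm) (E := f.range)
    (by rintro _ ⟨e, rfl⟩; exact (hf e).sq hm h.frπ (hE e e.2)) ⟨_, rfl⟩ ho
  rw [← Nat.card_congr (f.ofInjective inj).toEquiv] at this
  omega

/-- involutions with `Cj`-conjugate actions are conjugate in the normaliser (`conj_of_odd`) -/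
theorem Fld.conj_of_cj (hm : 3 ≤ m) (h : Fld ρ t π φ ι) {π' : SL m K →* G} (hr : π'.range = π.range)
    {u w : G} (hu : u * u = 1) (hw : w * w = 1) {α β : MulAut (SL m K)} (h1 : Ac π' u α)
    (h2 : Ac π' w β) (hc : Cj α β) : ∃ n ∈ normalizer (π.range : Set G), n * u * n⁻¹ = w := by
  obtain ⟨s, rfl⟩ := hc
  have h3 := ac_one.1 (inv_mul_cancel (MulAut.conj s * α * (MulAut.conj s)⁻¹) ▸
    h2.inv.mul (((ac_self π' s).mul h1).mul (ac_self π' s).inv))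
  rw [inv_eq_of_mul_eq_one_right hw] at h3
  have h4 : w * (π' s * u * (π' s)⁻¹) ∈ centralizer (π.range : Set G) := by
    rw [← hr]
    rintro _ ⟨a, rfl⟩
    exact (h3 a).symm
  obtain ⟨d, hd, e⟩ := conj_of_odd hw (by rw [conj_mul, hu, mul_one, mul_inv_cancel])
    ((h.odd_cent hm).of_dvd_nat (orderOf_dvd_natCard _ h4))
  exact ⟨d * π' s, mul_mem (centralizer_le_normalizer _ (zpowers_le.2 h4 hd)) (le_normalizer (hr ▸ ⟨s, rfl⟩)),
    by rw [← e]; group⟩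

/-- Conjugate `u` into a Sylow subgroup `S ∋ t` of `M`, apply `Fr.nf`, `cj_of_si`,
`aut_inv_unique`. -/
theorem Fld.conj_of_field (hm : 3 ≤ m) (h : Fld ρ t π φ ι) {u : G} (hu : u * u = 1)
    {α : MulAut (SL m K)} (hac : Ac π u α) {σ : K ≃+* K} (hσ : σ ≠ 1) (hα : Ty α σ false) :
    ∃ n ∈ normalizer (π.range : Set G), n * t * n⁻¹ = u := by
  have tt := h.toSt.tt
  obtain ⟨S, h1, h2, h3, h4⟩ := exists_syl (el_zpowers tt).pgroup (zpowers_le.2 h.act.mem)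
  obtain ⟨k, hk, h5⟩ := conj_into h1 h3 h4 (el_zpowers hu).pgroup (zpowers_le.2 hac.mem)
  obtain ⟨g, hg⟩ := h.frπ.nf hm h1 h3
  obtain ⟨a, -, σ1, ε1, e1⟩ := hg t (h2 (mem_zpowers t))
  obtain ⟨b, -, σ2, ε2, e2⟩ := hg _ (h5 (cj_mem (mem_zpowers u)))
  have f := h.frπ.rf (CL.SC.inn g)
  obtain ⟨rfl, rfl⟩ := (h.tp.rf hm _).unique hm f e1.tp
  obtain ⟨rfl, rfl⟩ := ((Tp.conj hm h.frπ ⟨_, hac, hα⟩ hk).rf hm _).unique hm f e2.tp
  obtain rfl := aut_inv_unique hσ (hα.sq hm (hac.sq hm h.frπ hu)) h.φ1 h.φ2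
  have hu' : k * u * k⁻¹ * (k * u * k⁻¹) = 1 := by rw [conj_mul, hu, mul_one, mul_inv_cancel]
  obtain ⟨n, hn, e⟩ := h.conj_of_cj hm (range_rf π _) tt hu' e1 e2
    (cj_of_si hm ⟨a, rfl⟩ ⟨b, rfl⟩ (e1.sq hm f tt) (e2.sq hm f hu') (Or.inl hσ))
  exact ⟨k⁻¹ * n, mul_mem (inv_mem hk) hn, by
    rw [_root_.mul_inv_rev, mul_assoc k⁻¹, mul_assoc k⁻¹, ← mul_assoc (n * t), e]; group⟩

/-- `u = g t g⁻¹ ∈ M` acts as `α`.  Inner: `u ∈ range` lies in an elementary abelian group of order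
`q ^ (2 c) > 2 q ^ c` (`exists_el`, `rank_conj`).  Type `(1, true)`, `m` even: `fxr`, `⟨u⟩ π(B)`.
Other types `(σ, true)`: `sing_K` gives `a`; `π a` commutes with `u` and acts trivially on the
frame of `u` as `r` does not divide the order of the automorphism group; `St.kill`.  Type
`(σ, false)`: `u = n t n⁻¹`, `n⁻¹ g ∈ C(t) ≤ M`. -/
theorem Fld.uf (hp : Par m F) (h : Fld ρ t π φ ι) : UF (normalizer (π.range : Set G)) t := by
  have hm := hp.1
  refine ⟨h.act.mem, fun g hg => ?_⟩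
  have hu : g * t * g⁻¹ * (g * t * g⁻¹) = 1 := by rw [conj_mul, h.toSt.tt, mul_one, mul_inv_cancel]
  have hc : IsConj t (g * t * g⁻¹) := isConj_iff.2 ⟨g, rfl⟩
  obtain ⟨α, hac⟩ := h.frπ.exists_ac hm hg
  obtain ⟨σ, ε, hα⟩ := exists_ty hm α
  have h2 := hac.sq hm h.frπ hu
  have hq : 2 ≤ Nat.card F := Finite.one_lt_card
  have rk : ∀ B ≤ Fx α, El B → Nat.card B ≤ 2 * Nat.card F ^ cc m := fun B hB hE => by
    rw [← h.frπ.card_map hE.pgroup]
    refine h.toSt.rank_conj hp hc (hE.map π) ?_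
    rintro _ ⟨b, hb, rfl⟩
    exact (hac.commute (hB hb)).symm
  cases ε
  · by_cases hσ : σ = 1
    · exfalso
      obtain ⟨a, ha, rfl⟩ := (hσ ▸ hα).invol hm h2
      obtain ⟨B, hB, hE, e⟩ := exists_el ha
      have := rk B (fun b hb => mul_inv_eq_iff_eq_mul.2 (hE.comm hB hb)) hE
      have h3 := two_lt_pow_cc hp
      rw [e, h.card, ← pow_mul, mul_comm 2 (cc m), pow_mul] at this
      nlinarith
    · obtain ⟨n, hn, e⟩ := h.conj_of_field hm hu hac hσ hα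
      have := mul_mem hn (h.nrm0 (n⁻¹ * g) (show _ = _ by
        rw [mul_assoc, ← mul_inv_cancel_right (g * t) g, mul_assoc (g * t) g g⁻¹]
        calc n⁻¹ * (g * t * (g * g⁻¹)) = n⁻¹ * (g * t * g⁻¹) * g := by group
          _ = _ := by rw [← e]; group))
      rwa [mul_inv_cancel_left] at this
  exfalso
  have ho := (hα.ou hm).2 (Or.inr rfl)
  by_cases hs : σ ≠ 1 ∨ Odd m
  · obtain ⟨r, hr, h3, a, ha, ho'⟩ := sing_K hp h.card h2 hα hs
    have c := (hac.commute ha).symm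
    have h' := h.toSt.conj g
    obtain ⟨β, hβ⟩ := h'.ac hm c
    refine h'.kill (h.par hm) h.frπ hac ho hr ho' ⟨c, ac_one.1 ?_⟩
    have e := hβ.pow_eq_one hm h'.fr (k := r) (by rw [← map_pow, ← ho', pow_orderOf_eq_one, map_one])
    rwa [orderOf_eq_one_iff.1 (Nat.eq_one_of_dvd_coprimes ((Nat.Prime.coprime_iff_not_dvd hr.1).2 h3)
      (orderOf_dvd_of_pow_eq_one e) (orderOf_dvd_natCard β))] at hβ
  · rw [not_or, not_not, Nat.not_odd_iff_even] at hs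
    obtain ⟨B, hB, hE, -, h3⟩ := fxr hm hs.2 h2 ho
    have h4 := (h3 (hs.1 ▸ hα)).trans (Nat.pow_le_pow_left (rk B hB hE) 2)
    obtain ⟨k, hk⟩ := hs.2
    obtain ⟨j, hj⟩ : ∃ j, m / 2 = j + 2 := ⟨m / 2 - 2, by omega⟩
    rw [h.card, hj, pow_add, mul_pow, ← pow_mul, ← pow_mul (Nat.card F) (cc m), mul_comm (cc m), mul_comm (2 ^ 2)] at h4
    have h5 := Nat.le_of_mul_le_mul_left h4 (by positivity)
    have h6 : (2 ^ 2) ^ 2 ≤ (Nat.card F ^ 2) ^ (j + 2) :=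
      (Nat.pow_le_pow_left (Nat.pow_le_pow_left hq 2) 2).trans (Nat.pow_le_pow_right (by positivity) (by omega))
    omega

end CL.SC
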