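import Cfsg.Agent.INV.SC.F1
import Cfsg.Agent.INV.ThompsonTransfer

/-!
The field case: the Sylow subgroup.
-/

set_option autoImplicit false
set_option maxHeartbeats 200000
set_option linter.unusedSectionVars false
set_option linter.unusedVariables false

namespace CL.SC

open Matrix Subgroup
open scoped commutatorElement

variable {m : ℕ} [NeZero m] {F : Type*} [Field F] [Finite F] [CharP F 2]
variable {G : Type*} [Group G] [Finite G]
variable {ρ : SL m F →* G} {t : G}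
variable {K : Type*} [Field K] [Finite K] [CharP K 2] {π : SL m K →* G} {φ : K ≃+* K}
  {ι : F →+* K}
variable {N : Subgroup G}

/-- `UF.f5` with `el_le`, `exists_el` -/
theorem Fld.f5 (hm : 3 ≤ m) (h : Fld ρ t π φ ι) (huf : UF (normalizer (π.range : Set G)) t)
    {w u y : G} (hc : IsConj t u) (hM : u ∈ normalizer (π.range : Set G)) (hw : Commute w u)
    (hy : y ∈ π.range) (hy2 : y * y = 1) (hyw : IsConj y w) : w ∈ π.range := by
  obtain ⟨a, ha, rfl⟩ := h.frπ.lift_inv hy hy2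
  obtain ⟨B, hB, hE, e⟩ := exists_el ha
  exact huf.f5 h.toSt.tt (fun B h1 h2 h3 => h.el_le hm h1 h2 h3) hc hM hw hyw (hE.map π) ⟨a, hB, rfl⟩
    (by rw [h.frπ.card_map hE.pgroup, e])

/-- the field component of the type is a homomorphism from `M` to an abelian group
(`exists_hom`, `exists_tyHom`, `aut_comm`); `UF.not_mem_commutator` -/
theorem Fld.not_mem (hm : 3 ≤ m) (h : Fld ρ t π φ ι) (huf : UF (normalizer (π.range : Set G)) t)
    (hN : Al N) : t ∉ N := by
  obtain ⟨θ, hθ⟩ := h.frπ.exists_hom hm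
  obtain ⟨τ, hτ⟩ := exists_tyHom (F := K) hm
  let _ : CommGroup (K ≃+* K) := { (inferInstance : Group (K ≃+* K)) with mul_comm := aut_comm }
  refine fun ht => huf.not_mem_commutator h.toSt.tt ((MonoidHom.fst _ _).comp (τ.comp θ)) (fun e => h.φ1 ?_)
    (hN.le_commutator ht)
  have := (hτ _ _ _).1 (std_false (m := m) φ ▸ ty_std φ false)
  rw [← (hθ ⟨t, huf.1⟩).unique hm h.frπ h.act] at this
  exact (congrArg Prod.fst this).symm.trans e

/-- `Fr.normal`; otherwise `[N ⊓ M, range] ≤ N ⊓ range` is central in the range, so `N ⊓ M`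
centralises the range (`aut_eq_one`) and has odd order; but `M` has odd index and `|N|` is
even. -/
theorem Fld.le_N (hm : 3 ≤ m) (h : Fld ρ t π φ ι) (huf : UF (normalizer (π.range : Set G)) t)
    (hN : Al N) : π.range ≤ N := by
  have := hN.nrm
  refine (h.frπ.normal hm le_normalizer_of_normal).resolve_right fun hc => ?_
  have h1 : normalizer (π.range : Set G) ⊓ N ≤ centralizer (π.range : Set G) := by
    rintro n ⟨hn, hn'⟩ _ ⟨a, rfl⟩
    obtain ⟨α, hα⟩ := h.frπ.exists_ac hm hn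
    obtain rfl := aut_eq_one hm (α := α) fun b => h.frπ.center hm (hc _ (by
      rw [map_mul, ← hα, map_inv, mul_assoc, mul_assoc, ← mul_assoc (π b)]
      exact mul_mem hn' (by simpa using this.conj_mem _ (inv_mem hn') (π b))) ⟨_, rfl⟩)
    exact (ac_one.1 hα a).symm
  have h2 := odd_relIndex_inf (S := normalizer (π.range : Set G)) le_top
    (by rw [relIndex_top_right]; exact huf.odd_index h.toSt.tt) (le_top (a := N)) le_normalizer_of_normal
  refine Nat.not_odd_iff_even.2 hN.even ?_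
  rw [card_eq_rel (inf_le_right : normalizer (π.range : Set G) ⊓ N ≤ N)]
  exact ((h.odd_cent hm).of_dvd_nat (card_dvd_of_le h1)).mul h2

theorem F3.syl (hm : 3 ≤ m) (h : Fld ρ t π φ ι) (huf : UF (normalizer (π.range : Set G)) t) :
    ∃ S : Sylow 2 G, t ∈ (S : Subgroup G) ∧ (S : Subgroup G) ≤ normalizer (π.range : Set G) ∧
      ∃ g : GL (Fin m) K, ∀ s ∈ (S : Subgroup G), ∃ a ∈ U m K, ∃ σ ε,
        Ac (rf π (inn g)) s (MulAut.conj a * std σ ε) := by
  obtain ⟨S, hS⟩ := (el_zpowers h.toSt.tt).pgroup.exists_le_sylow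
  have ht := hS (mem_zpowers t)
  have h1 := huf.le S.isPGroup' ht (IsConj.refl t) huf.1
  exact ⟨S, ht, h1, h.frπ.nf hm S.isPGroup' h1⟩

theorem F3.two (S : Sylow 2 G) (s : G) (hs : s ∈ (S : Subgroup G)) : ∃ k, s ^ 2 ^ k = 1 :=
  (S.isPGroup' ⟨s, hs⟩).imp fun _ => congrArg Subtype.val

/-- `S ∋ t` Sylow in `G`, `S ≤ M`; `π' = rf π (inn g)` with `S` standard, `U' = π'(U) ≤ S`;
`t' = π'(a)⁻¹ t` acts as `std φ false` and is an involution conjugate to `t` in `M`
(`conj_of_field`).  An element of `S ⊓ N` of type `(σ, false)`, `σ ≠ 1`, has a power of type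
`(φ, false)`, which lies in `t U'`, against `t ∉ N`.  So `U'` has index at most 2 in the Sylow
subgroup `S ⊓ N` of `N`; if it is 2, `w = π'(b)⁻¹ s ∈ N` acts as `std σ true`, `σ * σ = 1`, is an
involution commuting with `t'` (`eq_one`); Thompson transfer in `N`
(`CL.ThompsonTransfer.exists_conj_mem`) and `f5` give `w ∈ range`, a contradiction. -/
theorem Fld.odd_U (hm : 3 ≤ m) (h : Fld ρ t π φ ι) (huf : UF (normalizer (π.range : Set G)) t)
    (hN : Al N) : Odd (((U m K).map π).relIndex N) := by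
  obtain ⟨S, ht, hS, g, hg⟩ := F3.syl hm h huf
  have := hN.nrm
  have hle := h.le_N hm huf hN
  have f := h.frπ.rf (CL.SC.inn g)
  have hr := range_rf π (CL.SC.inn g)
  have hU := f.U_le hm S.isPGroup' hS (odd_relIndex_sylow S hS) (hr ▸ le_normalizer) (by rw [hr]) hg
  have hU' : (U m K).map (rf π (CL.SC.inn g)) ≤ (S : Subgroup G) ⊓ N := by
    rintro _ ⟨a, ha, rfl⟩
    exact ⟨hU a ha, hle (hr ▸ ⟨a, rfl⟩)⟩
  have tw := F3.two S
  have hodd : Odd (((S : Subgroup G) ⊓ N).relIndex N) :=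
    odd_relIndex_inf le_top (odd_relIndex_sylow S le_top) le_top le_normalizer_of_normal
  have e1 : ∀ s ∈ (S : Subgroup G), Ac (rf π (CL.SC.inn g)) s 1 → s = 1 := fun s hs h1 => by
    obtain ⟨k, hk⟩ := tw s hs
    refine h.eq_one hm hk (ac_one.2 fun a => ?_)
    obtain ⟨b, e⟩ : π a ∈ (rf π (CL.SC.inn g)).range := hr ▸ ⟨a, rfl⟩
    exact e ▸ ac_one.1 h1 b
  have inn' : ∀ s ∈ (S : Subgroup G), Tp π s 1 false → s ∈ π.range := fun s hs ⟨α, h1, h2⟩ =>
    let ⟨_, hk⟩ := tw s hs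
    h.inn hm hk h1 h2
  have B : ∀ s ∈ (S : Subgroup G) ⊓ N, ∀ σ, Tp π s σ false → σ = 1 := fun s hs σ h1 => by
    by_contra hσ
    obtain ⟨k, hk⟩ := tw s hs.1
    obtain ⟨j, h2, h3⟩ := exists_inv_pow k (((h1.pow (2 ^ k)).unique hm h.frπ (tp_range (hk ▸ one_mem _))).1) hσ
    have h4 := (h1.pow j).inv.mul h.tp
    rw [aut_inv_unique h3 h2 h.φ1 h.φ2, inv_mul_cancel, Bool.xor_self] at h4
    exact h.not_mem hm huf hN ((mul_mem_cancel_left (inv_mem (pow_mem (mem_inf.1 hs).2 j))).1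
      (hle (inn' _ (mul_mem (inv_mem (pow_mem (mem_inf.1 hs).1 j)) ht) h4)))
  have C : ∀ s ∈ (S : Subgroup G) ⊓ N, ∀ σ, Tp π s σ false → s ∈ (U m K).map (rf π (CL.SC.inn g)) :=
    fun s hs σ h1 => by
      obtain ⟨a, ha, σ', ε, h2⟩ := hg s hs.1
      obtain ⟨k, hk⟩ := tw s hs.1
      exact ⟨a, ha, (f.mem_U hm (hr ▸ inn' s hs.1 (B s hs σ h1 ▸ h1)) hk ha h2).symm⟩
  have sd : ∀ s ∈ (S : Subgroup G), ∃ a ∈ U m K, ∃ σ ε, Tp π s σ ε ∧
      Ac (rf π (CL.SC.inn g)) ((rf π (CL.SC.inn g) a)⁻¹ * s) (std σ ε) := fun s hs => by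
    obtain ⟨a, ha, σ, ε, h1⟩ := hg s hs
    exact ⟨a, ha, σ, ε, h1.tp.of_rf hm, by simpa using (ac_self _ a).inv.mul h1⟩
  have tp : ∀ {s σ ε}, Ac (rf π (CL.SC.inn g)) s (std σ ε) → Tp π s σ ε := fun h1 =>
    Tp.of_rf hm ⟨_, h1, ty_std _ _⟩
  have key : (S : Subgroup G) ⊓ N ≤ (U m K).map (rf π (CL.SC.inn g)) := fun s hs => by
    obtain ⟨b, hb, σ, ε, h1, h2⟩ := sd s hs.1
    cases ε
    · exact C s hs σ h1
    exfalso
    have hw := mul_mem (inv_mem (hU' ⟨b, hb, rfl⟩)) hs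
    generalize (rf π (CL.SC.inn g) b)⁻¹ * s = w at h2 hw
    have w2 : w * w = 1 := by
      have h3 := h2.mul h2
      rw [std_mul, Bool.xor_self] at h3
      rw [B _ (mul_mem hw hw) _ (tp h3), std_one] at h3
      exact e1 _ (mul_mem hw.1 hw.1) h3
    obtain ⟨a, ha, σ', ε', h3, h4⟩ := sd t ht
    obtain ⟨rfl, rfl⟩ := h.tp.unique hm h.frπ h3
    have hu := mul_mem (inv_mem (hU a ha)) ht
    generalize (rf π (CL.SC.inn g) a)⁻¹ * t = u at h4 hu
    have u2 : u * u = 1 := e1 _ (mul_mem hu hu) (by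
      have := h4.mul h4
      rwa [std_mul, h.φ2, Bool.xor_self, std_one] at this)
    obtain ⟨α, h5, h6⟩ := tp h4
    obtain ⟨n, -, hn⟩ := h.conj_of_field hm u2 h5 h.φ1 h6
    have c : Commute w u := by
      have := e1 _ (mul_mem (mul_mem hw.1 hu) (inv_mem (mul_mem hu hw.1))) (by
        have := (h2.mul h4).mul (h4.mul h2).inv
        rwa [std_mul, std_mul, aut_comm, Bool.xor_comm, mul_inv_cancel] at this)
      exact mul_inv_eq_one.1 this
    let P : Sylow 2 N := (S.isPGroup'.to_le (inf_le_left : (S : Subgroup G) ⊓ N ≤ S)).comap_subtype.toSylow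
      (odd_iff_not.1 hodd)
    obtain ⟨k, hk⟩ := CL.ThompsonTransfer.exists_conj_mem (fun H hH => by
        have := hN.simple
        rcases (normal_of_index_eq_two hH).eq_bot_or_eq_top with rfl | rfl
        · rw [index_bot] at hH
          have := isCyclic_of_prime_card hH
          exact hN.nonab inferInstance
        · simp at hH) P (Q := ((U m K).map (rf π (CL.SC.inn g))).subgroupOf N) (fun y hy => hU' hy)
      (relIndex_dvd_two_iff.2 ⟨⟨w, hw.2⟩, hw, fun y hy => by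
        obtain ⟨-, -, τ, δ, h7, -⟩ := sd y hy.1
        cases δ
        · exact Or.inr (C y hy τ h7)
        · exact Or.inl (C _ (mul_mem hy hw) _ (by simpa using h7.mul (tp h2)))⟩)
      (u := ⟨w, hw.2⟩) (Subtype.ext w2)
    have := h.f5 hm huf (isConj_iff.2 ⟨n, hn⟩) (hS hu) c (y := k * w * (k : G)⁻¹)
      (hr ▸ map_le_range _ _ hk) (by rw [conj_mul, w2, mul_one, mul_inv_cancel])
      (isConj_iff.2 ⟨k, rfl⟩ : IsConj w _).symm
    simpa using ((tp h2).unique hm h.frπ (tp_range this)).2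
  rw [le_antisymm key hU'] at hodd
  exact (odd_relIndex_of_card (pgroup_U.map _) (hU'.trans inf_le_right) hodd (pgroup_U.map π)
    ((map_le_range _ _).trans hle) (by rw [f.card_map pgroup_U, h.frπ.card_map pgroup_U])).1

/-- `a ~ wr s`, `π (wr s)` commutes with `t` (`std_wr`); `π (zz 1)` is 2-central (a Sylow
subgroup of `M` through `⟨t⟩ π(U)` meets the range in `π(U)`, normalises `π(Z)` and fixes one of
its non-trivial elements); `UF.central`, `root_of_central`. -/
theorem Fld.pur (hm : 3 ≤ m) (h : Fld ρ t π φ ι) (huf : UF (normalizer (π.range : Set G)) t)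
    {a : SL m K} (ha : a * a = 1) (hc : IsConj (π (zz 1)) (π a)) : IsRoot a := by
  obtain ⟨S, -, -, g, hg⟩ := F3.syl hm h huf
  obtain ⟨s, hs, h1⟩ := exists_wr ha
  have r : IsRoot (zz (1 : K) : SL m K) := IsConj.refl _
  have hz := (π.map_isConj (r.inn hm g)).symm.trans (hc.trans (π.map_isConj h1).symm)
  obtain ⟨S', h2, h3⟩ := huf.central h.toSt.tt (IsConj.refl t) huf.1
    (h.act.commute (std_false (m := m) φ ▸ std_wr hs φ false)).symm hz S fun y hy => by
      obtain ⟨b, hb, σ, ε, h4⟩ := hg y hy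
      exact (h4.sd_U hb).2
  obtain ⟨_, ⟨c, rfl⟩, h4⟩ := conj_into (S'.isPGroup'.to_le (inf_le_left : (S' : Subgroup G) ⊓ π.range ≤ _))
    inf_le_right (odd_relIndex_inf h2 (odd_relIndex_sylow S' h2) le_normalizer le_rfl) (pgroup_U.map π)
    (map_le_range _ _)
  refine IsConj.trans (root_of_central hm (wr_sq hs) (fun e => ?_) (P := cj c (U m K)) (pgroup_U.map _)
    (card_cj _ _).ge ?_) h1
  · rw [e, map_one, isConj_one_left] at hz
    exact (r.inn hm g).ne_one (by omega) (h.frπ.inj_inv (r.inn hm g).sq (one_mul 1) (hz.trans π.map_one.symm))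
  · rintro _ ⟨p, hp, rfl⟩
    refine h.frπ.commute (n := 1) (by simpa [pow_two] using wr_sq hs) (h3 _ (h4 ?_).1).symm
    simpa using cj_mem (g := π c) (mem_map_of_mem π hp)

theorem Fld.fs (hp : Par m F) (h : Fld ρ t π φ ι) (hN : Al N) : Fs ρ t π φ ι N := by
  have huf := h.uf hp
  refine ⟨h, hN, huf, h.le_N hp.1 huf hN, fun P h1 h2 h3 => ?_, fun a => h.pur hp.1 huf⟩
  exact (eq_of_le_of_card_ge h2 (odd_relIndex_of_card (pgroup_U.map π) (h2.trans h3) (h.odd_U hp.1 huf hN) h1 h3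
    (card_le_of_le h2)).2.ge).symm

end CL.SC
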