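import Cfsg.Agent.INV.SC.K0

/-!
Involutions acting on the block group.
-/

set_option autoImplicit false
set_option linter.unusedSectionVars false
set_option linter.unusedVariables false

namespace CL.SC

open Matrix Subgroup
open scoped commutatorElement

variable {m : ℕ} [NeZero m] {F : Type*} [Field F] [Finite F] [CharP F 2]

/-- the image of `a ↦ α a * a⁻¹` on `A k` -/
def im (α : MulAut (SL m F)) : Set (SL m F) := {g | ∃ a ∈ A m F (m / 2), g = α a * a⁻¹}

namespace Smh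

theorem hsA (d : ℕ) : ∀ i j k : Fin m, ((i : ℕ) < d ∧ d ≤ (j : ℕ)) → ¬ ((j : ℕ) < d ∧ d ≤ (k : ℕ)) :=
  fun _ _ _ h h' => by omega

theorem inv_A {d : ℕ} {a : SL m F} (ha : a ∈ A m F d) : a⁻¹ = a :=
  inv_eq_of_mul_eq_one_right (el_A d a ha)

theorem im_val {α : MulAut (SL m F)} {a : SL m F} (ha : a ∈ A m F (m / 2))
    (ha' : α a ∈ A m F (m / 2)) : ((α a * a⁻¹ : SL m F) : Matrix (Fin m) (Fin m) F) =
      (α a : SL m F) + (a : Matrix (Fin m) (Fin m) F) - 1 := by
  rw [inv_A ha]; exact Pat_mul_val (hsA _) ha' ha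

theorem card_le {α : MulAut (SL m F)} {B : Subgroup (SL m F)} (hB : B ≤ A m F (m / 2))
    (h : ∀ b ∈ B, α b = b → b = 1) : Nat.card B ≤ (im α).ncard := by
  refine Set.ncard_le_ncard_of_injOn (s := (B : Set (SL m F))) (fun a => α a * a⁻¹)
    (fun a ha => ⟨a, hB ha, rfl⟩) (fun a ha b hb e => ?_) (Set.toFinite _)
  have := h _ (mul_mem (inv_mem hb) ha) (by
    rw [map_mul, map_inv, mul_inv_eq_iff_eq_mul.1 e]
    calc (α b)⁻¹ * (α b * b⁻¹ * a) = b⁻¹ * a := by group)
  exact (inv_mul_eq_one.1 this).symm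

theorem val_ty {α : MulAut (SL m F)} {σ : F ≃+* F} {ε : Bool} (h : Ty α σ ε) :
    ∃ L : Matrix (Fin m) (Fin m) F → Matrix (Fin m) (Fin m) F, (∀ c N, L (c • N) = σ c • L N) ∧
      ∀ a : SL m F, a⁻¹ = a → ((α a : SL m F) : Matrix (Fin m) (Fin m) F) =
        1 + L ((a : Matrix (Fin m) (Fin m) F) - 1) := by
  obtain ⟨g, rfl⟩ := h
  have key : ∀ N : Matrix (Fin m) (Fin m) F, (g : Matrix (Fin m) (Fin m) F) *
      (σ : F →+* F).mapMatrix N * ((g⁻¹ : GL (Fin m) F) : Matrix (Fin m) (Fin m) F) =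
      1 + (g : Matrix (Fin m) (Fin m) F) * (σ : F →+* F).mapMatrix (N - 1) *
        ((g⁻¹ : GL (Fin m) F) : Matrix (Fin m) (Fin m) F) := fun N => by
    rw [map_sub, map_one, mul_sub, sub_mul, mul_one, Units.mul_inv, add_sub_cancel]
  have sm : ∀ (c : F) (N : Matrix (Fin m) (Fin m) F),
      (σ : F →+* F).mapMatrix (c • N) = σ c • (σ : F →+* F).mapMatrix N := fun c N => by
    ext i j; simp
  cases ε
  · refine ⟨fun N => (g : Matrix (Fin m) (Fin m) F) * (σ : F →+* F).mapMatrix N *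
      ((g⁻¹ : GL (Fin m) F) : Matrix (Fin m) (Fin m) F), fun c N => ?_, fun a _ => ?_⟩
    · simp only [sm, Matrix.mul_smul, Matrix.smul_mul]
    · rw [std_false, MulAut.mul_apply, inn_val, fld_val, key]
  · refine ⟨fun N => (g : Matrix (Fin m) (Fin m) F) *
      (σ : F →+* F).mapMatrix (Nᵀ.submatrix Fin.revPerm Fin.revPerm) *
      ((g⁻¹ : GL (Fin m) F) : Matrix (Fin m) (Fin m) F), fun c N => ?_, fun a ha => ?_⟩
    · have : (c • N)ᵀ.submatrix Fin.revPerm Fin.revPerm =
          c • Nᵀ.submatrix (Fin.revPerm (n := m)) (Fin.revPerm (n := m)) := rfl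
      simp only [this, sm, Matrix.mul_smul, Matrix.smul_mul]
    · rw [std, MulAut.mul_apply, MulAut.mul_apply, inn_val, fld_val, key, cond_true, gr_val, ha]
      generalize (a : Matrix (Fin m) (Fin m) F) = b
      simp only [transpose_sub, submatrix_sub, transpose_one, Pi.sub_apply, submatrix_one_equiv]

theorem semi (hm : 3 ≤ m) {α : MulAut (SL m F)} {σ : F ≃+* F} {ε : Bool} (h : Ty α σ ε)
    (hσ : σ ≠ 1) (hn : ∀ a ∈ A m F (m / 2), α a ∈ A m F (m / 2)) :
    Nat.card F ^ (m / 2) ≤ (im α).ncard := by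
  obtain ⟨L, h1, h2⟩ := val_ty h
  obtain ⟨θ, hθ⟩ : ∃ θ, σ θ ≠ θ := by
    by_contra hc
    push Not at hc
    exact hσ (RingEquiv.ext hc)
  have hs : ∀ a ∈ A m F (m / 2), Sup (fun i j : Fin m => (i : ℕ) < m / 2 ∧ m / 2 ≤ (j : ℕ))
      (θ • ((a : Matrix (Fin m) (Fin m) F) - 1)) := fun a ha i j hij => by
    rw [Matrix.smul_apply, Matrix.sub_apply, sub_eq_zero.2 (mem_A.1 ha i j hij), smul_zero]
  have hm' : ∀ a ∈ A m F (m / 2), (un (1 + θ • ((a : Matrix (Fin m) (Fin m) F) - 1)) : SL m F) ∈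
      A m F (m / 2) := fun a ha => (mem_Pat' (hsA _)).2 ⟨_, hs a ha, rfl⟩
  have h3 := Nat.card_le_card_of_injective (fun a : A m F (m / 2) =>
    ((⟨_, a, a.2, rfl⟩, ⟨_, _, hm' a a.2, rfl⟩) : im α × im α)) fun a b e => by
    have e1 := congrArg (fun z : im α × im α => ((z.1.1 : SL m F) : Matrix (Fin m) (Fin m) F)) e
    have e2 := congrArg (fun z : im α × im α => ((z.2.1 : SL m F) : Matrix (Fin m) (Fin m) F)) e
    simp only at e1 e2
    rw [im_val a.2 (hn _ a.2), im_val b.2 (hn _ b.2), h2 _ (inv_A a.2), h2 _ (inv_A b.2)] at e1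
    rw [im_val (hm' _ a.2) (hn _ (hm' _ a.2)), im_val (hm' _ b.2) (hn _ (hm' _ b.2)),
      h2 _ (inv_A (hm' _ a.2)), h2 _ (inv_A (hm' _ b.2)), (hs _ a.2).val (hsA _),
      (hs _ b.2).val (hsA _), add_sub_cancel_left, add_sub_cancel_left, h1, h1] at e2
    refine Subtype.ext (Subtype.ext (smul_right_injective _ (sub_ne_zero.2 hθ) ?_))
    simp only
    linear_combination (norm := module) σ θ • e1 - e2
  rw [card_Ak, Nat.card_prod, Nat.card_coe_set_eq] at h3
  refine Nat.le_of_not_lt fun hlt => ?_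
  have h4 : Nat.card F ^ (m / 2) * Nat.card F ^ (m / 2) ≤ Nat.card F ^ cc m := by
    rw [← pow_add]
    refine Nat.pow_le_pow_right Nat.card_pos ?_
    have : 2 ≤ m - m / 2 := by omega
    exact (Nat.mul_two _).ge.trans (Nat.mul_le_mul_left _ this)
  have := Nat.mul_self_lt_mul_self hlt
  omega

theorem card_V (d : ℕ) (h : d ≤ m) :
    Nat.card {v : Fin m → F // ∀ i : Fin m, d ≤ (i : ℕ) → v i = 0} = Nat.card F ^ d := by
  classical
  conv_rhs => rw [← card_lt h, ← Nat.card_fun]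
  refine Nat.card_congr (Equiv.ofBijective (fun v i => v.1 i.1) ⟨fun v w e => ?_, fun f => ?_⟩)
  · refine Subtype.ext (funext fun i => ?_)
    by_cases hi : (i : ℕ) < d
    · exact congrFun e ⟨i, hi⟩
    · rw [v.2 i (by omega), w.2 i (by omega)]
  · exact ⟨⟨fun i => if hi : (i : ℕ) < d then f ⟨i, hi⟩ else 0, fun i hi => dif_neg (by omega)⟩,
      funext fun i => dif_pos i.2⟩

theorem even_of (hm : 3 ≤ m) {α : MulAut (SL m F)} (h : Ty α 1 true)
    (hn : ∀ a ∈ A m F (m / 2), α a ∈ A m F (m / 2)) : Even m := by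
  obtain ⟨g, rfl⟩ := h
  have h1 : ∀ i j : Fin m, m / 2 ≤ (i : ℕ) → (j : ℕ) < m - m / 2 →
      (g : Matrix (Fin m) (Fin m) F) i j = 0 := fun i j hi hj => by
    have hj' := j.2
    have hne : j ≠ la := fun e => by
      have := congrArg Fin.val e
      rw [la_val] at this
      omega
    have h2 := hn (x 0 j.rev 1) (x_mem ⟨by simp; omega, by simp; omega⟩ 1)
    rw [std_one_true, MulAut.mul_apply, gr_x, Fin.rev_rev] at h2
    have h3 : ((inn g (x j la 1) : SL m F) : Matrix (Fin m) (Fin m) F) *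
        (g : Matrix (Fin m) (Fin m) F) = (g : Matrix (Fin m) (Fin m) F) * (1 + single j la 1) := by
      rw [inn_val, Units.inv_mul_cancel_right, x_val hne]
    have h4 := congrFun (congrFun h3 i) la
    rw [Matrix.mul_apply, Finset.sum_congr rfl fun l _ => by
      rw [mem_A.1 h2 i l (by omega)], ← Matrix.mul_apply, one_mul, mul_add, mul_one,
      Matrix.add_apply, Matrix.mul_single_apply_same, mul_one] at h4
    exact left_eq_add.1 h4
  have h2 := Nat.card_le_card_of_injective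
    (fun v : {v : Fin m → F // ∀ i : Fin m, m - m / 2 ≤ (i : ℕ) → v i = 0} =>
      (⟨(g : Matrix (Fin m) (Fin m) F) *ᵥ v.1, fun i hi => Finset.sum_eq_zero (s := Finset.univ) (f := fun j =>
          (g : Matrix (Fin m) (Fin m) F) i j * v.1 j) fun j _ => by
        by_cases hj : (j : ℕ) < m - m / 2
        · rw [h1 i j hi hj, zero_mul]
        · rw [v.2 j (by omega), mul_zero]⟩ :
        {v : Fin m → F // ∀ i : Fin m, m / 2 ≤ (i : ℕ) → v i = 0})) fun v w e =>
    Subtype.ext (Matrix.mulVec_injective_iff_isUnit.2 g.isUnit (congrArg Subtype.val e))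
  rw [card_V _ (by omega), card_V _ (by omega)] at h2
  have := (Nat.pow_le_pow_iff_right Finite.one_lt_card).1 h2
  exact ⟨m / 2, by omega⟩

theorem card_cA (j : Fin m) (hj : m / 2 ≤ (j : ℕ)) :
    Nat.card (Pat F fun i l : Fin m => (i : ℕ) < m / 2 ∧ l = j) = Nat.card F ^ (m / 2) := by
  rw [card_Pat fun i l k h h' => by have := h'.1; rw [h.2] at this; omega]
  congr 1
  refine Eq.trans ?_ (card_lt (m := m) (d := m / 2) (by omega))
  exact Nat.card_congr ⟨fun p => ⟨p.1.1, p.2.1⟩, fun i => ⟨(i.1, j), i.2, rfl⟩,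
    fun p => Subtype.ext (Prod.ext rfl p.2.2.symm), fun _ => rfl⟩

theorem card_rA (i : Fin m) (hi : (i : ℕ) < m / 2) :
    Nat.card (Pat F fun k l : Fin m => k = i ∧ m / 2 ≤ (l : ℕ)) = Nat.card F ^ (m - m / 2) := by
  rw [card_Pat fun a l k h h' => by have := h.2; rw [h'.1] at this; omega]
  congr 1
  refine Eq.trans ?_ (card_ge (m := m) (d := m / 2) (by omega))
  exact Nat.card_congr ⟨fun p => ⟨p.1.2, p.2.2⟩, fun l => ⟨(i, l.1), rfl, l.2⟩,
    fun p => Subtype.ext (Prod.ext p.2.1.symm rfl), fun _ => rfl⟩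

theorem inn_fix {g : GL (Fin m) F} {a : SL m F} : inn g a = a ↔
    (g : Matrix (Fin m) (Fin m) F) * ((a : Matrix (Fin m) (Fin m) F) - 1) =
      ((a : Matrix (Fin m) (Fin m) F) - 1) * g := by
  refine Subtype.ext_iff.trans ?_
  rw [inn_val, Units.mul_inv_eq_iff_eq_mul, mul_sub, sub_mul, mul_one, one_mul,
    sub_left_inj]

theorem exists_ne {a : SL m F} (h : a ≠ 1) : ∃ i j, ((a : Matrix (Fin m) (Fin m) F) - 1) i j ≠ 0 := by
  by_contra hc
  push Not at hc
  exact h (Subtype.ext (sub_eq_zero.1 (Matrix.ext hc)))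

theorem inner {g : GL (Fin m) F} (h2 : (inn g : MulAut (SL m F)) * inn g = 1)
    (h1 : ∃ a ∈ A m F (m / 2), inn g a ≠ a) : Nat.card F ^ (m / 2) ≤ (im (inn g)).ncard := by
  by_contra hc
  have c1 : ∀ j : Fin m, m / 2 ≤ (j : ℕ) → ∀ l, l ≠ j → (g : Matrix (Fin m) (Fin m) F) j l = 0 := by
    intro j hj l hl
    by_contra h0
    refine hc ((card_cA j hj).ge.trans (card_le (Pat_mono fun a b _ h => ⟨h.1, h.2 ▸ hj⟩)
      fun b hb e => ?_))
    by_contra b1
    obtain ⟨i, j', h3⟩ := exists_ne b1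
    have h4 : ∀ i l, l ≠ j → ((b : Matrix (Fin m) (Fin m) F) - 1) i l = 0 := fun i l hl =>
      sub_eq_zero.2 ((mem_Pat fun i l k h h' => by
        have := h'.1; rw [h.2] at this; omega).1 hb i l fun h => hl h.2)
    obtain rfl : j' = j := by
      by_contra h5
      exact h3 (h4 i j' h5)
    have h5 := congrFun (congrFun (inn_fix.1 e) i) l
    rw [Matrix.mul_apply, Matrix.mul_apply, Finset.sum_eq_zero fun k _ => by
      rw [h4 k l hl, mul_zero], Finset.sum_eq_single j' (fun k _ hk => by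
      rw [h4 i k hk, zero_mul]) (by simp)] at h5
    exact mul_ne_zero h3 h0 h5.symm
  have c2 : ∀ i : Fin m, (i : ℕ) < m / 2 → ∀ l, l ≠ i → (g : Matrix (Fin m) (Fin m) F) l i = 0 := by
    intro i hi l hl
    by_contra h0
    refine hc ((Nat.pow_le_pow_right Nat.card_pos (by omega)).trans ((card_rA i hi).ge.trans
      (card_le (Pat_mono fun a b _ h => ⟨h.1 ▸ hi, h.2⟩) fun b hb e => ?_)))
    by_contra b1
    obtain ⟨i', j, h3⟩ := exists_ne b1
    have h4 : ∀ k l, k ≠ i → ((b : Matrix (Fin m) (Fin m) F) - 1) k l = 0 := fun k l hk =>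
      sub_eq_zero.2 ((mem_Pat fun a l k h h' => by
        have := h.2; rw [h'.1] at this; omega).1 hb k l fun h => hk h.1)
    obtain rfl : i' = i := by
      by_contra h5
      exact h3 (h4 i' j h5)
    have h5 := congrFun (congrFun (inn_fix.1 e) l) j
    rw [Matrix.mul_apply, Matrix.mul_apply, Finset.sum_eq_single i' (fun k _ hk => by
      rw [h4 k j hk, mul_zero]) (by simp), Finset.sum_eq_zero fun k _ => by
      rw [h4 l k hl, zero_mul]] at h5
    exact mul_ne_zero h0 h3 h5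
  obtain ⟨a, ha, h3⟩ := h1
  refine h3 (mem_Fx.1 (Pat_le (H := Fx (inn g)) (fun i j c hij h => mem_Fx.2 ?_) ha))
  have e1 : ∀ c, (g : Matrix (Fin m) (Fin m) F) * single i j c =
      single i j ((g : Matrix (Fin m) (Fin m) F) i i * c) := fun c => by
    ext k l
    by_cases hl : l = j
    · subst hl
      rw [Matrix.mul_single_apply_same]
      by_cases hk : k = i
      · rw [hk, Matrix.single_apply_same]
      · rw [c2 i h.1 k hk, zero_mul, Matrix.single_apply_of_row_ne (Ne.symm hk)]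
    · rw [Matrix.mul_single_apply_of_ne _ _ _ _ _ hl, Matrix.single_apply_of_col_ne _ _ (Ne.symm hl)]
  have e2 : ∀ c, single i j c * (g : Matrix (Fin m) (Fin m) F) =
      single i j (c * (g : Matrix (Fin m) (Fin m) F) j j) := fun c => by
    ext k l
    by_cases hk : k = i
    · subst hk
      rw [Matrix.single_mul_apply_same]
      by_cases hl : l = j
      · rw [hl, Matrix.single_apply_same]
      · rw [c1 j h.2 l hl, mul_zero, Matrix.single_apply_of_col_ne _ _ (Ne.symm hl)]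
    · rw [Matrix.single_mul_apply_of_ne _ _ _ _ _ hk, Matrix.single_apply_of_row_ne (Ne.symm hk)]
  have e3 : inn (g * g) (x i j 1) = x i j 1 := by rw [map_mul, h2]; rfl
  rw [inn_fix, x_val hij, add_sub_cancel_left, Units.val_mul, mul_assoc, ← mul_assoc (single _ _ _),
    e1, e1, e2, e2] at e3
  have e4 := congrFun (congrFun e3 i) j
  rw [Matrix.single_apply_same, Matrix.single_apply_same, mul_one, one_mul, ← pow_two,
    ← pow_two] at e4
  rw [inn_fix, x_val hij, add_sub_cancel_left, e1, e2, CharTwo.sq_inj.1 e4, mul_comm]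

end Smh

open Smh

/-- `α` normalises `A k = 1 + Hom(V / W, W)`.  Inner-diagonal: `α = inn g`, `g` block triangular
with blocks `g1, g2`, `N ↦ g1 N h`, `h = g2⁻¹`.  If `w h ∉ F w` for a row `w`, then
`u ↦ g1 u ⊗ w h - u ⊗ w` is injective (`q ^ k` values); similarly for `g1` (`q ^ (m - k)` values);
if both are scalars, `α` acts as a scalar of square 1.  Semilinear (`σ ≠ 1`): the fixed points
`Y` have `Y ⊓ θ Y = 0`, so `|im| ^ 2 ≥ q ^ cc m ≥ q ^ (2 k)`.  Type `(1, true)`: the column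
spaces of the `N` span `W` (dimension `k`), those of `g J Nᵀ J g⁻¹` a space of dimension
`m - k`. -/
theorem sm (hm : 3 ≤ m) {α : MulAut (SL m F)} (h2 : α * α = 1)
    (hn : ∀ a ∈ A m F (m / 2), α a ∈ A m F (m / 2)) (h1 : ∃ a ∈ A m F (m / 2), α a ≠ a) :
    Nat.card F ^ (m / 2) ≤ (im α).ncard ∨ (Even m ∧ Ty α 1 true) := by
  obtain ⟨σ, ε, h⟩ := exists_ty hm α
  by_cases hσ : σ = 1
  · subst hσ
    cases ε
    · obtain ⟨g, rfl⟩ := ty_inner.1 h
      exact Or.inl (inner h2 h1)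
    · exact Or.inr ⟨even_of hm h hn, h⟩
  · exact Or.inl (semi hm h hσ hn)

/-- the column groups of `A k` -/
def colA (m : ℕ) (F : Type*) [Field F] (j : Fin m) : Subgroup (SL m F) :=
  Pat F fun i l => (i : ℕ) < m / 2 ∧ l = j

/-- `y = x j' j 1` with `j' ≠ j`, `k ≤ j'` -/
theorem small_col (hm : 3 ≤ m) {j : Fin m} (hj : m / 2 ≤ (j : ℕ)) : ∃ y : SL m F, y * y = 1 ∧
    y ∈ normalizer (A m F (m / 2) : Set (SL m F)) ∧ im (MulAut.conj y) = colA m F j ∧
      (im (MulAut.conj y)).ncard = Nat.card F ^ (m / 2) := by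
  obtain ⟨j', h1, h2⟩ : ∃ j' : Fin m, j' ≠ j ∧ m / 2 ≤ (j' : ℕ) := by
    by_cases h : (j : ℕ) = m / 2
    · exact ⟨⟨m / 2 + 1, by omega⟩, fun e => by have := congrArg Fin.val e; simp at this; omega,
        by simp⟩
    · exact ⟨⟨m / 2, by omega⟩, fun e => h (congrArg Fin.val e).symm, le_rfl⟩
  have hs : ∀ i l k : Fin m, ((i : ℕ) < m / 2 ∧ l = j) → ¬ ((l : ℕ) < m / 2 ∧ k = j) :=
    fun i l k h h' => by have := h'.1; rw [h.2] at this; omega
  have key : ∀ N : Matrix (Fin m) (Fin m) F,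
      Sup (fun i j : Fin m => (i : ℕ) < m / 2 ∧ m / 2 ≤ (j : ℕ)) N →
      Sup (fun i l : Fin m => (i : ℕ) < m / 2 ∧ l = j) (N * single j' j 1) ∧
      MulAut.conj (x j' j 1) (un (1 + N)) * (un (1 + N))⁻¹ = un (1 + N * single j' j 1) := by
    intro N hN
    have s1 : Sup (fun i l : Fin m => (i : ℕ) < m / 2 ∧ l = j) (N * single j' j 1) := fun i l h => by
      by_cases hl : l = j
      · subst hl
        rw [Matrix.mul_single_apply_same, hN i j' fun h' => h ⟨h'.1, rfl⟩, zero_mul]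
      · exact Matrix.mul_single_apply_of_ne _ _ _ _ _ hl _
    refine ⟨s1, ?_⟩
    have e := comm_of (hN.val (hsA _)) (x_val h1 1) (s1.val hs)
      (Matrix.single_mul_single_of_ne _ _ _ _ (Ne.symm h1) _) (by
        ext k l
        by_cases hk : k = j'
        · subst hk
          rw [Matrix.single_mul_apply_same, hN j l fun h' => by omega, mul_zero, Matrix.zero_apply]
        · exact Matrix.single_mul_apply_of_ne _ _ _ _ _ hk _)
    rw [← inv_eq_of_mul_eq_one_right (el_Pat hs _ ((mem_Pat' hs).2 ⟨_, s1, rfl⟩)), ← e,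
      MulAut.conj_apply]
    group
  have e : im (MulAut.conj (x j' j (1 : F))) = colA m F j := by
    ext b
    constructor
    · rintro ⟨a, ha, rfl⟩
      obtain ⟨N, hN, rfl⟩ := (mem_Pat' (hsA _)).1 ha
      exact (mem_Pat' hs).2 ⟨_, key N hN⟩
    · intro hb
      obtain ⟨N, hN, rfl⟩ := (mem_Pat' hs).1 hb
      have s1 : Sup (fun i j : Fin m => (i : ℕ) < m / 2 ∧ m / 2 ≤ (j : ℕ)) (N * single j j' 1) :=
        fun i l h => by
          by_cases hl : l = j'
          · subst hl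
            rw [Matrix.mul_single_apply_same, hN i j fun h' => h ⟨h'.1, h2⟩, zero_mul]
          · exact Matrix.mul_single_apply_of_ne _ _ _ _ _ hl _
      refine ⟨_, (mem_Pat' (hsA _)).2 ⟨_, s1, rfl⟩, ?_⟩
      rw [(key _ s1).2, mul_assoc, Matrix.single_mul_single_same, mul_one]
      congr 2
      ext k l
      by_cases hl : l = j
      · subst hl
        rw [Matrix.mul_single_apply_same, mul_one]
      · rw [Matrix.mul_single_apply_of_ne _ _ _ _ _ hl, hN k l fun h => hl h.2]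
  refine ⟨x j' j 1, x_sq _ _ _, norm_A fun i l hl hi => ?_, e, ?_⟩
  · rw [x_val h1, Matrix.add_apply, Matrix.one_apply_ne (by rintro rfl; omega),
      Matrix.single_apply_of_col_ne _ _ (by rintro rfl; omega), add_zero]
  · rw [e]; exact card_cA j hj

/-- `y = pm (swap j j')`; the image contains `x 0 j 1 * x 0 j' 1` -/
theorem small_swap (hm : 3 ≤ m) {j j' : Fin m} (hj : m / 2 ≤ (j : ℕ)) (hj' : m / 2 ≤ (j' : ℕ))
    (h : j ≠ j') : ∃ y : SL m F, y * y = 1 ∧ y ∈ normalizer (A m F (m / 2) : Set (SL m F)) ∧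
      x 0 j 1 * x 0 j' 1 ∈ im (MulAut.conj y) ∧
      (im (MulAut.conj y)).ncard = Nat.card F ^ (m / 2) := by
  have hs : ∀ i : Fin m, (i : ℕ) < m / 2 → Equiv.swap j j' i = i := fun i hi =>
    Equiv.swap_apply_of_ne_of_ne (by rintro rfl; omega) (by rintro rfl; omega)
  have hn : pm F (Equiv.swap j j') ∈ normalizer (A m F (m / 2) : Set (SL m F)) :=
    norm_A fun i l hl hi => by rw [pm_apply, hs l hl, if_neg (by rintro rfl; omega)]
  have h0 : ((0 : Fin m) : ℕ) < m / 2 := by simp; omega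
  refine ⟨pm F (Equiv.swap j j'), by rw [← pm_mul, Equiv.swap_mul_self, pm_one], hn,
    ⟨x 0 j' 1, x_mem ⟨h0, hj'⟩ 1, ?_⟩, le_antisymm ?_ ?_⟩
  · rw [MulAut.conj_apply, pm_x, hs 0 h0, Equiv.swap_apply_right, x_inv]
  · have key : ∀ b ∈ im (MulAut.conj (pm F (Equiv.swap j j'))), b ∈ A m F (m / 2) ∧
        ∀ i l : Fin m, (i : ℕ) < m / 2 → m / 2 ≤ (l : ℕ) →
          b i l = if l = j ∨ l = j' then b i j else 0 := by
      rintro _ ⟨a, ha, rfl⟩
      have ha' := (hn a).1 ha
      refine ⟨mul_mem ha' (inv_mem ha), fun i l hi hl => ?_⟩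
      have e : ∀ l : Fin m, m / 2 ≤ (l : ℕ) →
          (MulAut.conj (pm F (Equiv.swap j j')) a * a⁻¹ : SL m F) i l =
            a i (Equiv.swap j j' l) + a i l := fun l hl => by
        have := congrFun (congrFun (im_val (α := MulAut.conj (pm F (Equiv.swap j j'))) ha ha') i) l
        rw [Matrix.sub_apply, Matrix.add_apply, Matrix.one_apply_ne (by rintro rfl; omega),
          sub_zero] at this
        refine this.trans (congrArg (· + a i l) ?_)
        exact (pm_conj _ a i l).trans (by rw [Equiv.swap_inv, hs i hi])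
      rw [e l hl, e j hj]
      split_ifs with h1
      · rcases h1 with rfl | rfl
        · rfl
        · rw [Equiv.swap_apply_right, Equiv.swap_apply_left, add_comm]
      · push Not at h1
        rw [Equiv.swap_apply_of_ne_of_ne h1.1 h1.2, CharTwo.add_self_eq_zero]
    conv_rhs => rw [← card_lt (m := m) (d := m / 2) (by omega), ← Nat.card_fun]
    rw [← Nat.card_coe_set_eq]
    refine Nat.card_le_card_of_injective (fun b i => (b : SL m F) i.1 j) fun b b' e => ?_
    refine Subtype.ext (Matrix.SpecialLinearGroup.ext _ _ fun i l => ?_)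
    by_cases h1 : (i : ℕ) < m / 2 ∧ m / 2 ≤ (l : ℕ)
    · rw [(key b b.2).2 i l h1.1 h1.2, (key b' b'.2).2 i l h1.1 h1.2,
        show (b : SL m F) i j = (b' : SL m F) i j from congrFun e ⟨i, h1.1⟩]
    · rw [mem_A.1 (key b b.2).1 i l h1, mem_A.1 (key b' b'.2).1 i l h1]
  · refine (card_cA j hj).ge.trans (card_le (Pat_mono fun a b _ h => ⟨h.1, h.2 ▸ hj⟩)
      fun b hb e => Matrix.SpecialLinearGroup.ext _ _ fun i l => ?_)
    have h4 := (mem_Pat fun i l k h h' => by have := h'.1; rw [h.2] at this; omega).1 hb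
    by_cases h1 : (i : ℕ) < m / 2 ∧ l = j
    · obtain ⟨hi, rfl⟩ := h1
      rw [← e, MulAut.conj_apply, pm_conj, Equiv.swap_inv, hs i hi, Equiv.swap_apply_left,
        h4 i j' fun h' => h h'.2.symm, Matrix.one_apply_ne (by rintro rfl; omega)]
      exact (Matrix.one_apply_ne (by rintro rfl; omega)).symm
    · exact h4 i l h1

theorem A_eq_colA : A m F (m / 2) = ⨆ (j : Fin m) (_ : m / 2 ≤ (j : ℕ)), colA m F j :=
  le_antisymm (Pat_le fun i j a _ h => (le_iSup₂ (f := fun (j : Fin m) (_ : m / 2 ≤ (j : ℕ)) =>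
    colA m F j) j h.2) (x_mem ⟨h.1, rfl⟩ a))
    (iSup₂_le fun _ hj => Pat_mono fun _ _ _ h => ⟨h.1, h.2 ▸ hj⟩)

theorem x_mem_colA (hm : 2 ≤ m) (j : Fin m) (a : F) : x 0 j a ∈ colA m F j :=
  x_mem ⟨by simp; omega, rfl⟩ a

theorem pow_lt_cc (hp : Par m F) : Nat.card F ^ (m / 2) < Nat.card F ^ cc m := by
  refine Nat.pow_lt_pow_right Finite.one_lt_card ?_
  have := hp.1
  have h1 : 2 ≤ m - m / 2 := by omega
  have h2 : 1 ≤ m / 2 := by omega
  unfold cc
  nlinarith

/-- for odd `m` the two maximal elementary abelian subgroups of `U` are different -/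
theorem A0_lt (hm : 3 ≤ m) (ho : Odd m) :
    A0 m F ≠ A m F (m / 2) ∧ A0 m F ≠ A m F (m - m / 2) := by
  obtain ⟨k, hk⟩ := ho
  have key : ∀ i j : Fin m, i ≠ j → ¬ ((i : ℕ) < m / 2 ∧ m - m / 2 ≤ (j : ℕ)) →
      x i j (1 : F) ∉ A0 m F := fun i j h h' hx => by
    have := mem_A0.1 hx i j h'
    change ((x i j 1 : SL m F) : Matrix (Fin m) (Fin m) F) i j = _ at this
    rw [x_val h, Matrix.add_apply, Matrix.single_apply_same, add_eq_left] at this
    exact one_ne_zero this
  have hl := la_val (m := m)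
  refine ⟨fun e => key 0 ⟨k, by omega⟩ (fun e => ?_) (by simp; omega)
    (e.ge (x_mem ⟨by simp; omega, by simp; omega⟩ 1)), fun e => key ⟨k, by omega⟩ la (fun e => ?_)
    (by simp; omega) (e.ge (x_mem ⟨by simp; omega, by omega⟩ 1))⟩
  · have := congrArg Fin.val e
    simp at this
    omega
  · have := congrArg Fin.val e
    rw [hl] at this
    simp at this
    omega

end CL.SC
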