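import Cfsg.Agent.INV.SC.W3
import Cfsg.Agent.INV.SC.SM

/-!
The wreathed case: the normaliser of the product of the block groups.
-/

set_option autoImplicit false
set_option linter.unusedSectionVars false
set_option linter.unusedVariables false

namespace CL.SC

open Matrix Subgroup
open scoped commutatorElement

variable {m : ℕ} [NeZero m] {F : Type*} [Field F] [Finite F] [CharP F 2]
variable {G : Type*} [Group G] [Finite G]
variable {ρ π : SL m F →* G} {t : G} {S : Sylow 2 G}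

/-- the product of the block groups of the two factors -/
def At (t : G) (π : SL m F →* G) : Subgroup G := pr t π (A m F (m / 2)) (A m F (m / 2))

/-- the commutators of `y` with `E` -/
def cm (E : Subgroup G) (y : G) : Set G := {g | ∃ e ∈ E, g = y * e * y⁻¹ * e⁻¹}

theorem cm_conj {E : Subgroup G} {n : G} (hn : n ∈ normalizer (E : Set G)) (y : G) :
    cm E (n * y * n⁻¹) = (fun g => n * g * n⁻¹) '' cm E y := by
  ext g
  constructor
  · rintro ⟨e, he, rfl⟩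
    exact ⟨_, ⟨_, (mem_normalizer_iff''.1 hn e).1 he, rfl⟩, by group⟩
  · rintro ⟨_, ⟨e, he, rfl⟩, rfl⟩
    exact ⟨_, (mem_normalizer_iff.1 hn e).1 he, by group⟩

/-- Let `y1 = y`, `y2 = t y t⁻¹`, `B` the group of the commutators of `(y t) ^ 2 = y1 y2`, which is
normalised by `d` and contains `cm E y` (the commutator of `y1 y2` with `e ∈ E1` is that of `y1`,
and `cm E y = cm E1 y ≤ E1`).  `y` centralises `B` and `E / B`, so does `d y d⁻¹` and
`d * d = d y d⁻¹ y⁻¹`.  So `d ^ 4` centralises `E`. -/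
theorem odd_cent_of_small {E1 E2 : Subgroup G} (h : El (E1 ⊔ E2)) {y d : G} (ht : t * t = 1)
    (hy : y * y = 1) (h1 : cj t E1 = E2) (hy1 : y ∈ normalizer (E1 : Set G))
    (hy2 : ∀ e ∈ E2, Commute y e) (hd : Odd (orderOf d))
    (hn : d ∈ normalizer ((E1 ⊔ E2 : Subgroup G) : Set G)) (hc : Commute d (y * t))
    (hi : y * d * y⁻¹ = d⁻¹) : ∀ e ∈ E1 ⊔ E2, Commute d e := by
  have ti : t⁻¹ = t := inv_eq_of_mul_eq_one_right ht
  have yi : y⁻¹ = y := inv_eq_of_mul_eq_one_right hy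
  have c12 : ∀ a ∈ E1, ∀ b ∈ E2, Commute a b := fun a ha b hb =>
    h.comm (mem_sup_left ha) (mem_sup_right hb)
  have t1 : ∀ a ∈ E1, t⁻¹ * a * t ∈ E2 := fun a ha => by
    have := h1 ▸ cj_mem (g := t) ha
    rwa [ti] at this ⊢
  have u : (y * t) ^ 2 = y * (t * y * t⁻¹) := by rw [ti, sq, mul_assoc, mul_assoc]
  have u1 : ∀ a ∈ E1, (y * t) ^ 2 * a * ((y * t) ^ 2)⁻¹ = y * a * y⁻¹ := fun a ha => by
    calc _ = y * t * (y * (t⁻¹ * a * t)) * y⁻¹ * t⁻¹ * y⁻¹ := by rw [u]; group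
      _ = _ := by rw [(hy2 _ (t1 a ha)).eq]; group
  have u2 : ∀ b ∈ E2, (y * t) ^ 2 * b * ((y * t) ^ 2)⁻¹ ∈ E2 := fun b hb => by
    have k : t * (y * (t⁻¹ * b * t) * y⁻¹) * t⁻¹ ∈ E2 :=
      h1 ▸ cj_mem ((mem_normalizer_iff.1 hy1 _).1 (mem_cj.1 (h1 ▸ hb)))
    rwa [show (y * t) ^ 2 * b * ((y * t) ^ 2)⁻¹ = y * (t * (y * (t⁻¹ * b * t) * y⁻¹) * t⁻¹) * y⁻¹ by
      rw [u]; group, (hy2 _ k).eq, mul_inv_cancel_right]
  have B : ∀ b ∈ cm (E1 ⊔ E2) ((y * t) ^ 2), b ∈ E1 ⊔ E2 ∧ Commute y b := by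
    rintro _ ⟨e, he, rfl⟩
    obtain ⟨a, ha, b, hb, rfl⟩ := (mem_sup_comm c12).1 he
    have k := mul_mem (u2 b hb) (inv_mem hb)
    have k1 := (mem_normalizer_iff.1 hy1 a).1 ha
    rw [← conj_mul, u1 a ha, show ∀ p q : G, p * q * (a * b)⁻¹ = p * (q * b⁻¹ * a⁻¹) from
      fun p q => by group, ← (c12 _ (inv_mem ha) _ k).eq, ← mul_assoc]
    refine ⟨mul_mem (mem_sup_left (mul_mem k1 (inv_mem ha))) (mem_sup_right k),
      Commute.mul_right (mul_inv_eq_iff_eq_mul.1 ?_) (hy2 _ k)⟩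
    refine Eq.trans ?_ (inv_eq_of_mul_eq_one_right (h _ (mem_sup_left (mul_mem k1 (inv_mem ha)))))
    simp only [_root_.mul_inv_rev, inv_inv, yi, ← mul_assoc, hy, one_mul]
  have Y : ∀ e ∈ E1 ⊔ E2, y * e * y⁻¹ * e⁻¹ ∈ cm (E1 ⊔ E2) ((y * t) ^ 2) := fun e he => by
    obtain ⟨a, ha, b, hb, rfl⟩ := (mem_sup_comm c12).1 he
    refine ⟨a, mem_sup_left ha, ?_⟩
    rw [u1 a ha, ← conj_mul, (hy2 b hb).eq]
    group
  have D : ∀ g, g ∈ normalizer ((E1 ⊔ E2 : Subgroup G) : Set G) → Commute g (y * t) →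
      ∀ b ∈ cm (E1 ⊔ E2) ((y * t) ^ 2), g * b * g⁻¹ ∈ cm (E1 ⊔ E2) ((y * t) ^ 2) := fun g g1 g2 b hb => by
    rw [← mul_inv_cancel_right ((y * t) ^ 2) g, ← (g2.pow_right 2).eq, cm_conj g1]
    exact ⟨b, hb, rfl⟩
  have B' : ∀ b ∈ cm (E1 ⊔ E2) ((y * t) ^ 2), Commute (d * y * d⁻¹) b := fun b hb => by
    have := (B _ (D _ (inv_mem hn) hc.inv_left b hb)).2.map (MulAut.conj d)
    simpa [mul_assoc] using this
  have dd : d * y * d⁻¹ * y = d ^ 2 := by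
    calc _ = d * (y * d * y⁻¹)⁻¹ := by simp only [_root_.mul_inv_rev, inv_inv, yi, mul_assoc]
      _ = _ := by rw [hi, inv_inv, sq]
  intro e he
  have b1 := Y e he
  have b2 := D d hn hc _ (Y _ ((mem_normalizer_iff''.1 hn e).1 he))
  have cm2 : ∀ b ∈ cm (E1 ⊔ E2) ((y * t) ^ 2), Commute (d ^ 2) b := fun b hb =>
    dd ▸ (B' b hb).mul_left (B b hb).2
  obtain ⟨c, c1, c2, c3⟩ : ∃ c, c * c = 1 ∧ Commute (d ^ 2) c ∧ d ^ 2 * e * (d ^ 2)⁻¹ = c * e := by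
    refine ⟨_, h _ (mul_mem (B _ b1).1 (B _ b2).1), (cm2 _ b1).mul_right (cm2 _ b2), ?_⟩
    calc _ = d * y * d⁻¹ * (y * e * y⁻¹ * e⁻¹) * (e * (d * y * d⁻¹)⁻¹) := by rw [← dd]; group
      _ = _ := by rw [(B' _ b1).eq]; group
  have k : Commute ((d ^ 2) ^ 2) e := mul_inv_eq_iff_eq_mul.1 (by
    calc _ = d ^ 2 * (d ^ 2 * e * (d ^ 2)⁻¹) * (d ^ 2)⁻¹ := by group
      _ = c * (d ^ 2 * e * (d ^ 2)⁻¹) := by rw [c3, ← mul_assoc, c2.eq, ← c3]; group
      _ = e := by rw [c3, ← mul_assoc, c1, one_mul])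
  obtain ⟨j, hj⟩ := mem_zpowers_iff.1 (mem_zpowers_pow_iff.2
    ((Nat.coprime_two_left.2 hd).pow_left 2) : d ∈ zpowers (d ^ 2 ^ 2))
  rw [← hj, show 2 ^ 2 = 2 * 2 from rfl, pow_mul]
  exact k.zpow_left j

namespace I1

theorem At_swap (h : t * t = 1) : At t (tw t π) = At t π := pr_swap h _ _

theorem tw2 (h : t * t = 1) (a : SL m F) : t * tw t π a * t⁻¹ = π a :=
  DFunLike.congr_fun (tw_tw (π := π) h) a

theorem one_At {a : SL m F} (ha : a ∈ A m F (m / 2)) : π a ∈ At t π := mem_sup_left ⟨a, ha, rfl⟩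

theorem two_At {a : SL m F} (ha : a ∈ A m F (m / 2)) : tw t π a ∈ At t π := mem_sup_right ⟨a, ha, rfl⟩

theorem com_eq (h : Wr ρ t π) {y : G} {α β : MulAut (SL m F)} (h1 : Ac π y α) (h2 : Ac (tw t π) y β)
    (a b : SL m F) : y * (π a * tw t π b) * y⁻¹ * (π a * tw t π b)⁻¹ =
      π (α a * a⁻¹) * tw t π (β b * b⁻¹) := by
  rw [← conj_mul, h1, h2, map_mul π, mul_assoc (π (α a)) (π a⁻¹), (h.comm a⁻¹ _).eq,
    map_mul, map_inv, map_inv]
  group

theorem norm_of (h : Wr ρ t π) {y : G} {α β : MulAut (SL m F)} (h1 : Ac π y α)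
    (h2 : Ac (tw t π) y β) (a1 : ∀ a ∈ A m F (m / 2), α a ∈ A m F (m / 2))
    (a2 : ∀ a ∈ A m F (m / 2), β a ∈ A m F (m / 2)) : y ∈ normalizer (At t π : Set G) :=
  mem_norm_of_le fun e he => by
    obtain ⟨a, ha, b, hb, rfl⟩ := h.mem_pr.1 he
    rw [← conj_mul, h1, h2]
    exact mul_mem (one_At (a1 a ha)) (two_At (a2 b hb))

theorem sd_A (he : Even m) {a : SL m F} (ha : a ∈ U m F) (σ : F ≃+* F) (ε : Bool) :
    ∀ b ∈ A m F (m / 2), (MulAut.conj a * std σ ε : MulAut (SL m F)) b ∈ A m F (m / 2) := fun b hb => by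
  have e : A0 m F = A m F (m / 2) := by
    rw [A0_eq, show m - m / 2 = m / 2 by obtain ⟨k, rfl⟩ := he; omega, inf_idem]
  exact (mem_normalizer_iff.1 (U_norm_A _ ha) _).1 (e ▸ std_mem_A0 σ ε (e ▸ hb))

theorem cj_sq {a : G} (h : a * a = 1) (g : G) : g * a * g⁻¹ * (g * a * g⁻¹) = 1 := by
  rw [conj_mul, h, mul_one, mul_inv_cancel]

theorem card_conj {E : Subgroup G} {n : G} (hn : n ∈ normalizer (E : Set G)) (y : G) :
    (cm E (n * y * n⁻¹)).ncard = (cm E y).ncard := by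
  rw [cm_conj hn]
  exact Set.ncard_image_of_injective _ (MulAut.conj n).injective

theorem two_le {α : MulAut (SL m F)} (h : ∃ a ∈ A m F (m / 2), α a ≠ a) : 2 ≤ (im α).ncard := by
  obtain ⟨a, ha, h⟩ := h
  exact (Set.one_lt_ncard (Set.toFinite _)).2
    ⟨_, ⟨a, ha, rfl⟩, _, ⟨1, one_mem _, rfl⟩, fun e => h (mul_inv_eq_one.1 (by simpa using e))⟩

theorem im_one : im (1 : MulAut (SL m F)) = {1} := by
  ext g
  exact ⟨by rintro ⟨a, -, rfl⟩; simp, fun e => ⟨1, one_mem _, by simpa using e⟩⟩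

theorem zA (hm : 3 ≤ m) : (zz 1 : SL m F) ∈ A m F (m / 2) := zz_mem_A (by omega) (by omega) 1

end I1

open I1


theorem Wr.t_At (h : Wr ρ t π) : t ∈ normalizer (At t π : Set G) := by
  refine mem_norm_of_le fun e he => ?_
  obtain ⟨a, ha, b, hb, rfl⟩ := h.mem_pr.1 he
  rw [← conj_mul, tw2 h.toSt.tt]
  exact mul_mem (two_At ha) (one_At hb)

/-- an element exchanging the factors has at least `q ^ c` commutators (`sw`, `pow_lt_cc`) -/
theorem Wr.small_M0 (hp : Par m F) (h : Wr ρ t π) {y : G} (hM : y ∈ Mw t π)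
    (hn : y ∈ normalizer (At t π : Set G)) (hc : (cm (At t π) y).ncard ≤ Nat.card F ^ (m / 2)) :
    y ∈ M0 t π := by
  by_contra h0
  obtain ⟨α, -, a1, -⟩ := h.sw hp.1 hM h0
  have sq : ∀ a ∈ A m F (m / 2), α a * α a = 1 := fun a ha => by rw [← map_mul, el_A _ a ha, map_one]
  refine ((pow_lt_cc hp).trans_le (card_Ak.ge.trans (Set.ncard_le_ncard_of_injOn
    (s := (A m F (m / 2) : Set (SL m F))) (t := cm (At t π) y) (fun a => y * π a * y⁻¹ * (π a)⁻¹)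
    (fun a ha => ⟨_, one_At ha, rfl⟩) (fun a ha b hb e => ?_) (Set.toFinite _)))).not_ge hc
  simp only [a1, ← map_inv, Smh.inv_A ha, Smh.inv_A hb, ← (h.comm _ _).eq] at e
  exact (h.inj_inv hp.1 (el_A _ a ha) (sq a ha) (el_A _ b hb) (sq b hb) e).1

theorem Wr.ac_A (hm : 3 ≤ m) (h : Wr ρ t π) {y : G} (hn : y ∈ normalizer (At t π : Set G))
    {α : MulAut (SL m F)} (h1 : Ac π y α) : ∀ a ∈ A m F (m / 2), α a ∈ A m F (m / 2) := by
  intro a ha
  obtain ⟨b, hb, e⟩ := h.pr_inf hm (el_A _).pgroup ((mem_normalizer_iff.1 hn _).1 (one_At ha))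
    ⟨_, (h1 a).symm⟩
  rwa [← h.frπ.inj_inv (el_A _ b hb) (by rw [← map_mul, el_A _ a ha, map_one]) (e.trans (h1 a))]

theorem Wr.card_cm (hm : 3 ≤ m) (h : Wr ρ t π) {y : G} (hn : y ∈ normalizer (At t π : Set G))
    {α β : MulAut (SL m F)} (h1 : Ac π y α) (h2 : Ac (tw t π) y β) :
    (cm (At t π) y).ncard = (im α).ncard * (im β).ncard := by
  have a1 := h.ac_A hm hn h1
  have a2 := h.swap.ac_A hm (by rwa [At_swap h.toSt.tt]) h2
  have s1 : ∀ {γ : MulAut (SL m F)}, (∀ a ∈ A m F (m / 2), γ a ∈ A m F (m / 2)) →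
      ∀ g ∈ im γ, g * g = 1 := by
    rintro γ k _ ⟨a, ha, rfl⟩
    exact el_A _ _ (mul_mem (k a ha) (inv_mem ha))
  rw [← Set.ncard_prod, ← (show Set.InjOn (fun p : SL m F × SL m F => π p.1 * tw t π p.2) (im α ×ˢ im β) from
    fun p hp q hq e => Prod.ext_iff.2 (h.inj_inv hm (s1 a1 _ hp.1) (s1 a2 _ hp.2) (s1 a1 _ hq.1)
      (s1 a2 _ hq.2) e)).ncard_image]
  congr 1
  ext g
  constructor
  · rintro ⟨e, he, rfl⟩
    obtain ⟨a, ha, b, hb, rfl⟩ := h.mem_pr.1 he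
    exact ⟨(_, _), ⟨⟨a, ha, rfl⟩, b, hb, rfl⟩, (com_eq h h1 h2 a b).symm⟩
  · rintro ⟨⟨_, _⟩, ⟨⟨a, ha, rfl⟩, b, hb, rfl⟩, rfl⟩
    exact ⟨_, mul_mem (one_At ha) (two_At hb), (com_eq h h1 h2 a b).symm⟩

/-- for even `m` the Sylow subgroup normalises `At` -/
theorem Ws.norm_At (hm : 3 ≤ m) (h : Ws ρ t π S) (he : Even m) :
    (S : Subgroup G) ≤ normalizer (At t π : Set G) := by
  have k : ∀ s ∈ S, s ∈ M0 t π → s ∈ normalizer (At t π : Set G) := fun s hs h0 => by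
    obtain ⟨⟨a, ha, σ, ε, a1⟩, b, hb, τ, δ, a2⟩ := h.sd2 hs h0
    exact norm_of h.toWr a1 a2 (sd_A he ha σ ε) (sd_A he hb τ δ)
  intro s hs
  rcases h.toWr.comp hm (h.le_M hs) with e | e
  · exact k s hs e
  · exact (Subgroup.mul_mem_cancel_left _ h.toWr.t_At).1 (k _ (mul_mem h.tS hs) e)

/-- Conjugate `y` into `S` by an element of `M0 ⊓ N(At)` (`norm_At`, `odd_M0`, `conj_into`); types
are kept (`Ty.conj`).  By `gg` (`Ws.si`) one of `y`, `z1 y`, `z2 y` has conjugate actions; it is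
an involution conjugate under `N(At)` to an element of `G0`; `eq_f5`, `ty_of_mem`. -/
theorem Ws.not_gg (hp : Par m F) (h : Ws ρ t π S) (he : Even m) {n y0 : G}
    (hn : n ∈ normalizer (At t π : Set G)) (h0 : y0 ∈ G0 t π) (h2 : y0 * y0 = 1)
    (hy0 : y0 ∈ normalizer (At t π : Set G)) {α β : MulAut (SL m F)} (h1 : Ac π (n * y0 * n⁻¹) α)
    (h1' : Ac (tw t π) (n * y0 * n⁻¹) β) (hα : Ty α 1 true) : ¬ Ty β 1 true := by
  intro hβ
  have hm := hp.1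
  have y2 := cj_sq h2 n
  obtain ⟨k, ⟨k0, kn⟩, hk⟩ := conj_into (H := M0 t π ⊓ normalizer (At t π : Set G))
    (S := (S : Subgroup G) ⊓ M0 t π) (S.isPGroup'.to_le inf_le_left)
    (le_inf inf_le_right (inf_le_left.trans (h.norm_At hm he)))
    ((h.odd_M0 hm).of_dvd_nat (Dvd.intro _ (relIndex_mul_relIndex _ _ _
      (le_inf inf_le_right (inf_le_left.trans (h.norm_At hm he))) inf_le_left)))
    (el_zpowers y2).pgroup
    (zpowers_le_of_mem (mem_inf.2 ⟨mem_inf.2 ⟨h1.mem, h1'.mem⟩, mul_mem (mul_mem hn hy0) (inv_mem hn)⟩))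
  obtain ⟨γ, δ, a1, a2⟩ := h.toWr.ac hm k0
  have b1 := (a1.mul h1).mul a1.inv
  have b2 := (a2.mul h1').mul a2.inv
  have hS := (hk (cj_mem (mem_zpowers _))).1
  replace hα := hα.conj hm γ
  replace hβ := hβ.conj hm δ
  replace hn := mul_mem kn hn
  rw [show k * (n * y0 * n⁻¹) * k⁻¹ = k * n * y0 * (k * n)⁻¹ by group] at b1 b2 hS
  generalize k * n = n, γ * α * γ⁻¹ = α, δ * β * δ⁻¹ = β at *
  replace y2 := cj_sq h2 n
  obtain ⟨s1, z1⟩ := h.si hm hS b1 hα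
  obtain ⟨s2, z2⟩ := h.swap.si hm hS b2 hβ
  have key : ∀ e ∈ At t π, e * e = 1 → Commute (n * y0 * n⁻¹) e → ∀ α' β', Ac π e α' →
      Ac (tw t π) e β' → ¬ Cj (α' * α) (β' * β) := fun e he e2 c α' β' c1 c2 cj => by
    have e0 := pr_le_G0 _ _ ((mem_normalizer_iff''.1 hn e).1 he)
    have q : n * (n⁻¹ * e * n * y0) * n⁻¹ = e * (n * y0 * n⁻¹) := by group
    have := h.eq_f5 hp (c1.mul b1) (c2.mul b2) cj (mul_mem e0 h0) (by
      rw [← conj_eq_one_iff (a := n), ← conj_mul, q, ← sq, c.symm.mul_pow, sq, sq, e2, y2, one_mul])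
      (isConj_iff.2 ⟨n, q⟩)
    exact absurd (hα.unique hm (h.toWr.ty_of_mem hm
      ((Subgroup.mul_mem_cancel_left _ (pr_le_G0 _ _ he)).1 this) b1)).2 (by simp)
  have zs : ∀ π' : SL m F →* G, π' (zz 1) * π' (zz 1) = 1 := fun π' => by
    rw [← map_mul, zz, x_sq, map_one]
  rcases gg hm he s1 (b1.sq hm h.frπ y2) s2 (b2.sq hm h.toWr.fr2 y2) (IsConj.refl _) z1 (IsConj.refl _) z2
    with c | c | c
  · exact key 1 (one_mem _) (one_mul _) (Commute.one_right _) 1 1 (ac_one.2 fun _ => Commute.one_left _)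
      (ac_one.2 fun _ => Commute.one_left _) (by simpa using c)
  · exact key _ (one_At (zA hm)) (zs _) (b1.commute z1) _ 1 (ac_self π _) (ac_one.2 (h.comm _))
      (by simpa using c)
  · exact key _ (two_At (zA hm)) (zs _) (b2.commute z2) 1 _ (ac_one.2 fun a => (h.comm a _).symm)
      (ac_self _ _) (by simpa using c)

theorem I1.aux (hm : 3 ≤ m) (h : Wr ρ t π) {y d : G} (hy : y * y = 1)
    (hn : y ∈ normalizer (At t π : Set G)) (hd : Odd (orderOf d))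
    (hdn : d ∈ normalizer (At t π : Set G)) (hc : Commute d (d * y * d⁻¹ * t))
    (hi : y * d * y⁻¹ = d⁻¹) {α β : MulAut (SL m F)} (h1 : Ac π (d * y * d⁻¹) α)
    (h2 : Ac (tw t π) (d * y * d⁻¹) β) (hβ : ∀ a ∈ A m F (m / 2), β a = a) :
    cm (At t π) y ⊆ (A m F (m / 2)).map π := by
  have a1 := h.ac_A hm (mul_mem (mul_mem hdn hn) (inv_mem hdn)) h1
  have k := odd_cent_of_small (E1 := (A m F (m / 2)).map π) (E2 := (A m F (m / 2)).map (tw t π))
    (h.el_pr (el_A _) (el_A _)) h.toSt.tt (cj_sq hy d) (map_map _ _ _)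
    (mem_norm_of_le (by rintro _ ⟨a, ha, rfl⟩; exact ⟨_, a1 a ha, (h1 a).symm⟩))
    (by rintro _ ⟨a, ha, rfl⟩; exact h2.commute (hβ a ha)) hd hdn hc (by
      calc _ = d * (y * d * y⁻¹) * d⁻¹ := by group
        _ = _ := by rw [hi, mul_inv_cancel, one_mul])
  rintro _ ⟨e, he, rfl⟩
  have e1 := (k _ (mul_mem ((mem_normalizer_iff.1 hn e).1 he) (inv_mem he))).eq
  have e2 := mul_inv_eq_iff_eq_mul.2 (k e he).eq
  have e3 : y * e * y⁻¹ * e⁻¹ = d * y * d⁻¹ * (d * e * d⁻¹) * (d * y * d⁻¹)⁻¹ * (d * e * d⁻¹)⁻¹ := by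
    rw [eq_mul_inv_of_mul_eq e1.symm]; group
  obtain ⟨a, ha, b, hb, rfl⟩ := h.mem_pr.1 he
  rw [e3, e2, com_eq h h1 h2, hβ b hb, mul_inv_cancel, map_one, mul_one]
  exact ⟨_, mul_mem (a1 a ha) (inv_mem ha), rfl⟩


/-- `y = n y0 n⁻¹`; `exists_two` for `y, t` gives `d` and `y' = d y d⁻¹ ∈ M` (`UF.le`);
`small_M0`, `card_cm`, `sm`, `not_gg`: `y'` centralises one of the two block groups;
`odd_cent_of_small` (for `π` or `tw t π`): `d` centralises `At`, so `cm At y = cm At y'`. -/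
theorem Ws.small (hp : Par m F) (h : Ws ρ t π S) {n y0 : G}
    (hn : n ∈ normalizer (At t π : Set G)) (h0 : y0 ∈ G0 t π) (h2 : y0 * y0 = 1)
    (hy0 : y0 ∈ normalizer (At t π : Set G))
    (hc : (cm (At t π) y0).ncard ≤ Nat.card F ^ (m / 2)) :
    cm (At t π) (n * y0 * n⁻¹) ⊆ (A m F (m / 2)).map π ∨
      cm (At t π) (n * y0 * n⁻¹) ⊆ (A m F (m / 2)).map (tw t π) := by
  have hm := hp.1
  have tt := h.toSt.tt
  have y2 := cj_sq h2 n
  have yn := mul_mem (mul_mem hn hy0) (inv_mem hn)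
  obtain ⟨d, d1, d2, d3, d4, -, d5⟩ := exists_two y2 tt
  have dn := zpowers_le_of_mem (mul_mem yn h.toWr.t_At) d1
  have yn' := mul_mem (mul_mem dn yn) (inv_mem dn)
  have hc' : (cm (At t π) (d * (n * y0 * n⁻¹) * d⁻¹)).ncard ≤ Nat.card F ^ (m / 2) := by
    rwa [card_conj dn, card_conj hn]
  obtain ⟨α, β, a1, a2⟩ := h.toWr.ac hm (h.toWr.small_M0 hp (h.uf.le d5 (subset_closure (by simp))
    (IsConj.refl t) h.toWr.t_mem (subset_closure (by simp))) yn' hc')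
  by_cases e2 : ∀ a ∈ A m F (m / 2), β a = a
  · exact Or.inl (aux hm h.toWr y2 yn d2 dn d3 d4 a1 a2 e2)
  by_cases e1 : ∀ a ∈ A m F (m / 2), α a = a
  · have := aux hm h.toWr.swap y2 (by rwa [At_swap tt]) d2 (by rwa [At_swap tt]) d3 d4 a2
      (by rwa [tw_tw tt]) e1
    rw [At_swap tt] at this
    exact Or.inr this
  push Not at e1 e2
  rw [h.toWr.card_cm hm yn' a1 a2] at hc'
  have p1 := two_le e1
  have p2 := two_le e2
  rcases sm hm (a1.sq hm h.frπ (cj_sq y2 d)) (h.toWr.ac_A hm yn' a1) e1 with k1 | k1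
  · nlinarith
  rcases sm hm (a2.sq hm h.toWr.fr2 (cj_sq y2 d)) (h.toWr.swap.ac_A hm (by rwa [At_swap tt]) a2) e2
    with k2 | k2
  · nlinarith
  rw [show d * (n * y0 * n⁻¹) * d⁻¹ = d * n * y0 * (d * n)⁻¹ by group] at a1 a2
  exact absurd k2.2 (h.not_gg hp k1.1 (mul_mem dn hn) h0 h2 hy0 a1 a2 k1.2)

theorem I1.img (hp : Par m F) (h : Ws ρ t π S) {n : G} (hn : n ∈ normalizer (At t π : Set G))
    {y : SL m F} (h2 : y * y = 1) (hy : y ∈ normalizer (A m F (m / 2) : Set (SL m F)))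
    (hc : (im (MulAut.conj y)).ncard = Nat.card F ^ (m / 2)) :
    (∀ g ∈ im (MulAut.conj y), n * π g * n⁻¹ ∈ (A m F (m / 2)).map π) ∨
      ∀ g ∈ im (MulAut.conj y), n * π g * n⁻¹ ∈ (A m F (m / 2)).map (tw t π) := by
  have a2 : Ac (tw t π) (π y) 1 := ac_one.2 (h.comm y)
  have hN := norm_of h.toWr (ac_self π y) a2 (fun a ha => (mem_normalizer_iff.1 hy a).1 ha) fun a ha => ha
  have k : ∀ g ∈ im (MulAut.conj y), n * π g * n⁻¹ ∈ cm (At t π) (n * π y * n⁻¹) := by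
    rintro _ ⟨a, ha, rfl⟩
    rw [cm_conj hn]
    exact ⟨_, ⟨π a, one_At ha, by simp⟩, rfl⟩
  exact (h.small hp hn (mem_sup_left ⟨y, rfl⟩) (by rw [← map_mul, h2, map_one]) hN
    (by rw [h.toWr.card_cm hp.1 hN (ac_self π y) a2, im_one, Set.ncard_singleton, mul_one, hc])).imp
    (fun e g hg => e (k g hg)) fun e g hg => e (k g hg)


/-- `small` for `π y`, `y` as in `small_col` and `small_swap`; `not_pu'`, `A_eq_colA` -/
theorem Ws.perm1 (hp : Par m F) (h : Ws ρ t π S) {n : G} (hn : n ∈ normalizer (At t π : Set G)) :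
    cj n ((A m F (m / 2)).map π) = (A m F (m / 2)).map π ∨
      cj n ((A m F (m / 2)).map π) = (A m F (m / 2)).map (tw t π) := by
  have hm := hp.1
  have col : ∀ j : Fin m, m / 2 ≤ (j : ℕ) → (∀ g ∈ colA m F j, n * π g * n⁻¹ ∈ (A m F (m / 2)).map π) ∨
      ∀ g ∈ colA m F j, n * π g * n⁻¹ ∈ (A m F (m / 2)).map (tw t π) := fun j hj => by
    obtain ⟨y, y2, yn, e, c⟩ := small_col (F := F) hm hj
    have := img hp h hn y2 yn c
    rwa [e] at this
  have xx : ∀ j : Fin m, m / 2 ≤ (j : ℕ) → n * π (x 0 j 1) * n⁻¹ * (n * π (x 0 j 1) * n⁻¹) = 1 ∧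
      n * π (x 0 j 1) * n⁻¹ ≠ 1 := fun j hj =>
    ⟨cj_sq (by rw [← map_mul, x_sq, map_one]) n, fun e => one_ne_zero ((x_eq_one (by
      rintro rfl; simp at hj; omega)).1 (h.frπ.eq_one (n := 1) ((pow_two _).trans (x_sq _ _ _))
        (conj_eq_one_iff.1 e)))⟩
  have mix : ∀ j j' : Fin m, m / 2 ≤ (j : ℕ) → m / 2 ≤ (j' : ℕ) →
      n * π (x 0 j 1) * n⁻¹ ∈ (A m F (m / 2)).map π →
        n * π (x 0 j' 1) * n⁻¹ ∉ (A m F (m / 2)).map (tw t π) := fun j j' hj hj' k k' => by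
    by_cases e : j = j'
    · subst e
      exact (xx j hj).2 (h.toWr.eq_one_of_both hm (map_le_range _ _ k) (map_le_range _ _ k') (xx j hj).1)
    obtain ⟨y, y2, yn, e, c⟩ := small_swap (F := F) hm hj hj' e
    refine h.toWr.not_pu' hm (map_le_range _ _ k) (xx j hj).1 (xx j hj).2 (map_le_range _ _ k')
      (xx j' hj').1 (xx j' hj').2 ?_
    rw [conj_mul, ← map_mul]
    exact (img hp h hn y2 yn c).imp (fun q => map_le_range _ _ (q _ e)) fun q => map_le_range _ _ (q _ e)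
  have fin : ∀ π' : SL m F →* G, Fr π' → (∀ j : Fin m, m / 2 ≤ (j : ℕ) →
      ∀ g ∈ colA m F j, n * π g * n⁻¹ ∈ (A m F (m / 2)).map π') →
      cj n ((A m F (m / 2)).map π) = (A m F (m / 2)).map π' := fun π' f k => by
    refine eq_of_le_of_card_ge ?_ (by rw [card_cj, f.card_map (el_A _).pgroup, h.frπ.card_map (el_A _).pgroup])
    rw [map_le_iff_le_comap, map_le_iff_le_comap]
    exact A_eq_colA.le.trans (iSup₂_le k)
  have hl : m / 2 ≤ ((la : Fin m) : ℕ) := by rw [la_val]; omega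
  have xm := fun j => x_mem_colA (F := F) (m := m) (by omega) j 1
  refine (col la hl).imp (fun k => fin π h.frπ fun j hj => (col j hj).resolve_right fun k' => ?_)
    fun k => fin _ h.toWr.fr2 fun j hj => (col j hj).resolve_left fun k' => ?_
  · exact mix _ _ hl hj (k _ (xm _)) (k' _ (xm _))
  · exact mix _ _ hj hl (k' _ (xm _)) (k _ (xm _))

theorem Ws.perm (hp : Par m F) (h : Ws ρ t π S) {n : G} (hn : n ∈ normalizer (At t π : Set G)) :
    (cj n ((A m F (m / 2)).map π) = (A m F (m / 2)).map π ∧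
      cj n ((A m F (m / 2)).map (tw t π)) = (A m F (m / 2)).map (tw t π)) ∨
    (cj n ((A m F (m / 2)).map π) = (A m F (m / 2)).map (tw t π) ∧
      cj n ((A m F (m / 2)).map (tw t π)) = (A m F (m / 2)).map π) := by
  have tt := h.toSt.tt
  have k := h.swap.perm1 hp (n := n) (by rwa [At_swap tt])
  rw [tw_tw tt] at k
  have ne : cj n ((A m F (m / 2)).map π) ≠ cj n ((A m F (m / 2)).map (tw t π)) := fun e =>
    one_ne_zero ((x_eq_one (zero_ne_la (by have := hp.1; omega))).1 (h.frπ.eq_one (n := 1)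
      ((pow_two _).trans (x_sq _ _ _)) (h.toWr.eq_one_of_both hp.1 ⟨_, rfl⟩ (map_le_range _ _
        ((map_injective (MulAut.conj n).injective e).le ⟨_, zA hp.1, rfl⟩))
          (by rw [← map_mul, x_sq, map_one]))))
  rcases h.perm1 hp hn with e | e <;> rcases k with e' | e'
  · exact Or.inl ⟨e, e'⟩
  · exact absurd (e.trans e'.symm) ne
  · exact absurd (e.trans e'.symm) ne
  · exact Or.inr ⟨e, e'⟩

end CL.SC
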