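import Cfsg.Agent.INV.SC.IC1

/-!
The wreathed case: fusion of the involutions of the product.
-/

set_option autoImplicit false
set_option linter.unusedSectionVars false
set_option linter.unusedVariables false

namespace CL.SC

open Matrix Subgroup
open scoped commutatorElement

variable {m : ℕ} [NeZero m] {F : Type*} [Field F] [Finite F] [CharP F 2]
variable {G : Type*} [Group G] [Finite G]
variable {ρ π : SL m F →* G} {t : G} {S : Sylow 2 G}

/-- Fusion in the centraliser of a weakly closed subgroup `J`: `J` and `g J g⁻¹` lie in `C(w')`;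
conjugate the second by `c ∈ C(w')` into a Sylow subgroup of `C(w')` containing `J`, which lies
in a conjugate of `S`. -/
theorem fusion_of_weak (S : Sylow 2 G) {J : Subgroup G} (hJ : J ≤ S)
    (hw : ∀ g, cj g J ≤ S → cj g J = J) {w g : G} (h1 : ∀ j ∈ J, Commute j w)
    (h2 : ∀ j ∈ J, Commute j (g * w * g⁻¹)) :
    ∃ n ∈ normalizer (J : Set G), n * w * n⁻¹ = g * w * g⁻¹ := by
  have pJ := S.isPGroup'.to_le hJ
  obtain ⟨T, pT, JT, TC, odd⟩ := exists_syl (H := centralizer {g * w * g⁻¹}) pJ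
    fun j hj => mem_centralizer_singleton_iff.2 (h2 j hj)
  obtain ⟨c, hc, e⟩ := conj_into pT TC odd (P := cj g J) (pJ.map _) (by
    rintro _ ⟨j, hj, rfl⟩
    exact mem_centralizer_singleton_iff.2 (commute_cj.2 (h1 j hj)))
  obtain ⟨k, -, e'⟩ := conj_into (H := ⊤) S.isPGroup' le_top (odd_relIndex_sylow S le_top) pT le_top
  have e1 := hw k ((map_mono JT).trans e')
  have e2 := hw (k * (c * g)) (by rw [cj_mul', cj_mul']; exact (map_mono e).trans e')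
  rw [cj_mul'] at e2
  refine ⟨c * g, cj_eq_iff.1 (cj_inj k (e2.trans e1.symm)), ?_⟩
  calc _ = c * (g * w * g⁻¹) * c⁻¹ := by group
    _ = _ := by rw [mem_centralizer_singleton_iff.1 hc, mul_inv_cancel_right]

/-- a subgroup containing a Sylow 2-subgroup and all elements of odd order -/
theorem le_of_odd {H K : Subgroup G} (S : Sylow 2 G) (h1 : (S : Subgroup G) ≤ H)
    (h2 : (S : Subgroup G) ≤ K) (h3 : ∀ n ∈ H, Odd (orderOf n) → n ∈ K) : H ≤ K := by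
  have hp : IsPGroup 2 (H ⧸ (K.subgroupOf H).normalCore) := fun g => by
    obtain ⟨g, rfl⟩ := QuotientGroup.mk_surjective g
    obtain ⟨a, b, hb, e⟩ := Nat.exists_eq_two_pow_mul_odd (orderOf_pos g).ne'
    refine ⟨a, ?_⟩
    rw [← QuotientGroup.mk_pow, QuotientGroup.eq_one_iff]
    intro c
    refine h3 _ (c * g ^ 2 ^ a * c⁻¹).2 (hb.of_dvd_nat (orderOf_dvd_of_pow_eq_one ?_))
    rw [← map_pow, conj_pow, ← pow_mul, ← e, pow_orderOf_eq_one, mul_one, mul_inv_cancel, map_one]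
  obtain ⟨k, hk⟩ := IsPGroup.iff_card.1 hp
  refine subgroupOf_eq_top.1 (index_eq_one.1 (Nat.eq_one_of_dvd_coprimes
    ((Nat.coprime_two_right.2 (odd_relIndex_sylow S h1)).pow_right k) (relIndex_dvd_of_le_left H h2) ?_))
  rw [← hk]
  exact index_dvd_of_le (normalCore_le _)

/-- the two maximal block groups -/
def Jb (m : ℕ) (F : Type*) [Field F] : Subgroup (SL m F) := A m F (m / 2) ⊔ A m F (m - m / 2)

/-- the index of a maximal block group -/
def Dk (m d : ℕ) : Prop := d = m / 2 ∨ d = m - m / 2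

namespace I2

theorem pr_mono {H K H' K' : Subgroup (SL m F)} (h1 : H ≤ H') (h2 : K ≤ K') :
    pr t π H K ≤ pr t π H' K' := sup_le_sup (map_mono h1) (map_mono h2)

theorem mem_U (hm : 3 ≤ m) (h : Ws ρ t π S) {a : SL m F} (a2 : a * a = 1) (ha : π a ∈ S) :
    a ∈ U m F := by
  obtain ⟨u, hu, e⟩ := h.toWr.pr_inf hm pgroup_U (h.inf_G0 hm ha (mem_sup_left ⟨a, rfl⟩)) ⟨a, rfl⟩
  obtain ⟨k, hk⟩ := pgroup_U ⟨u, hu⟩
  replace hk : u ^ 2 ^ k = 1 := congrArg Subtype.val hk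
  rwa [← h.frπ.inj2 (n := k + 1) (by rw [pow_succ, pow_mul, hk, one_pow])
    (by rw [pow_succ', pow_mul, sq, a2, one_pow]) e]

theorem J_eq : pr t π (Jb m F) (Jb m F) = pr t π (A m F (m / 2)) (A m F (m / 2)) ⊔
    pr t π (A m F (m - m / 2)) (A m F (m - m / 2)) := by
  rw [pr, pr, pr, Jb, Subgroup.map_sup, Subgroup.map_sup, sup_sup_sup_comm]

theorem le_Jb {d : ℕ} (hd : Dk m d) : A m F d ≤ Jb m F := by
  rcases hd with rfl | rfl
  exacts [le_sup_left, le_sup_right]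

theorem A0_le {d : ℕ} (hd : Dk m d) : A0 m F ≤ A m F d := by
  rw [A0_eq]
  rcases hd with rfl | rfl
  exacts [inf_le_left, inf_le_right]

theorem card_A {d : ℕ} (hd : Dk m d) : Nat.card (A m F d) = Nat.card F ^ cc m := by
  rcases hd with rfl | rfl
  exacts [card_Ak, card_Ak']

theorem el_A0 : El (A0 m F) := (el_A _).mono (A0_le (Or.inl rfl))

theorem pr_inf2 (hm : 3 ≤ m) (h : Wr ρ t π) {H K H' K' : Subgroup (SL m F)} (h1 : El H) (h2 : El K)
    (h3 : El H') (h4 : El K') : pr t π H K ⊓ pr t π H' K' = pr t π (H ⊓ H') (K ⊓ K') := by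
  refine le_antisymm (fun y hy => ?_)
    (le_inf (pr_mono inf_le_left inf_le_left) (pr_mono inf_le_right inf_le_right))
  obtain ⟨a, ha, b, hb, rfl⟩ := h.mem_pr.1 hy.1
  obtain ⟨a', ha', b', hb', e⟩ := h.mem_pr.1 hy.2
  obtain ⟨rfl, rfl⟩ := h.inj_inv hm (h1 a ha) (h2 b hb) (h3 a' ha') (h4 b' hb') e
  exact h.mem_pr.2 ⟨a, ⟨ha, ha'⟩, b, ⟨hb, hb'⟩, rfl⟩

theorem pr_le1 (hm : 3 ≤ m) (h : Wr ρ t π) {H K : Subgroup (SL m F)} (h1 : El H)
    (e : pr t π H K = pr t π (A0 m F) (A0 m F)) : H ≤ A0 m F := fun a ha => by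
  obtain ⟨b, hb, e⟩ := h.pr_inf hm el_A0.pgroup (e.le (mem_sup_left ⟨a, ha, rfl⟩)) ⟨a, rfl⟩
  rwa [← h.frπ.inj_inv (el_A0 b hb) (h1 a ha) e]

/-- the four maximal groups -/
def Bf (t : G) (π : SL m F →* G) (p : Bool × Bool) : Subgroup G :=
  pr t π (A m F (cond p.1 (m - m / 2) (m / 2))) (A m F (cond p.2 (m - m / 2) (m / 2)))

theorem opp (hm : 3 ≤ m) (ho : Odd m) (h : Wr ρ t π) (p q : Bool × Bool) :
    Bf t π p ⊓ Bf t π q = pr t π (A0 m F) (A0 m F) ↔ q = (!p.1, !p.2) := by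
  rw [Bf, Bf, pr_inf2 hm h (el_A _) (el_A _) (el_A _) (el_A _)]
  have k : ∀ a b : Bool, A m F (cond a (m - m / 2) (m / 2)) ⊓ A m F (cond b (m - m / 2) (m / 2)) ≤ A0 m F →
      b = !a := fun a b e => by
    cases a <;> cases b
    · exact absurd (le_antisymm (A0_le (Or.inl rfl)) (inf_idem (A m F _) ▸ e)) (A0_lt hm ho).1
    · rfl
    · rfl
    · exact absurd (le_antisymm (A0_le (Or.inr rfl)) (inf_idem (A m F _) ▸ e)) (A0_lt hm ho).2
  have k' : ∀ a : Bool, A m F (cond a (m - m / 2) (m / 2)) ⊓ A m F (cond (!a) (m - m / 2) (m / 2)) =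
      A0 m F := fun a => by
    cases a
    · exact A0_eq.symm
    · exact (inf_comm _ _).trans A0_eq.symm
  constructor
  · intro e
    exact Prod.ext (k _ _ (pr_le1 hm h ((el_A _).mono inf_le_left) e))
      (k _ _ (pr_le1 hm h.swap ((el_A _).mono inf_le_left)
        ((pr_swap h.tt _ _).trans (e.trans (pr_swap h.tt _ _).symm))))
  · rintro rfl
    rw [k', k']

theorem four : ∀ f : Bool × Bool → Bool × Bool, Function.Injective f →
    (∀ p, f (!p.1, !p.2) = (!(f p).1, !(f p).2)) → f (f (f (f (false, false)))) = (false, false) := by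
  decide +kernel

theorem cj_inv {n : G} {A B : Subgroup G} (h : cj n A = B) : cj n⁻¹ B = A := by
  rw [← h, ← cj_mul', inv_mul_cancel, cj_one]

end I2

open I2


/-- `k1`, `inf_G0`, `cj_A_le_U` -/
theorem Ws.member (hp : Par m F) (h : Ws ρ t π S) {B : Subgroup G} (hB : B ≤ S) (hE : El B)
    (hc : Nat.card F ^ (2 * cc m) ≤ Nat.card B) :
    ∃ d d', Dk m d ∧ Dk m d' ∧ B = pr t π (A m F d) (A m F d') := by
  have hm := hp.1
  obtain ⟨s, s', d, d', hd, hd', rfl⟩ := h.toWr.k1 hp (hB.trans h.le_M) hE hc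
  refine ⟨d, d', hd, hd', ?_⟩
  rw [cj_A_le_U (by omega) (by omega) fun a ha =>
      I2.mem_U hm h ((el_A d).map _ a ha) (hB (mem_sup_left ⟨a, ha, rfl⟩)),
    cj_A_le_U (by omega) (by omega) fun a ha =>
      I2.mem_U hm h.swap ((el_A d').map _ a ha) (hB (mem_sup_right ⟨a, ha, rfl⟩))]

theorem Ws.J_le (h : Ws ρ t π S) : pr t π (Jb m F) (Jb m F) ≤ S := by
  have : Jb m F ≤ U m F := sup_le (A_le_U _) (A_le_U _)
  exact (pr_mono this this).trans h.pr_le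

theorem I2.perm4 (hp : Par m F) (h : Ws ρ t π S) {g : G} (hg : cj g (pr t π (Jb m F) (Jb m F)) ≤ S)
    {d d' : ℕ} (hd : Dk m d) (hd' : Dk m d') : ∃ e e', Dk m e ∧ Dk m e' ∧
      cj g (pr t π (A m F d) (A m F d')) = pr t π (A m F e) (A m F e') :=
  h.member hp ((map_mono (pr_mono (le_Jb hd) (le_Jb hd'))).trans hg)
    ((h.toWr.el_pr (el_A d) (el_A d')).map _) (by
      rw [card_cj, h.toWr.card_pr hp.1 (el_A d).pgroup (el_A d').pgroup, card_A hd, card_A hd', two_mul,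
        pow_add])


theorem Ws.weak (hp : Par m F) (h : Ws ρ t π S) {g : G}
    (hg : cj g (pr t π (Jb m F) (Jb m F)) ≤ S) :
    cj g (pr t π (Jb m F) (Jb m F)) = pr t π (Jb m F) (Jb m F) := by
  refine eq_of_le_of_card_ge ?_ (card_cj _ _).ge
  have k : ∀ d, Dk m d → cj g (pr t π (A m F d) (A m F d)) ≤ pr t π (Jb m F) (Jb m F) := fun d hd => by
    obtain ⟨e, e', h1, h2, q⟩ := perm4 hp h hg hd hd
    exact q.le.trans (pr_mono (le_Jb h1) (le_Jb h2))
  exact (map_mono J_eq.le).trans ((Subgroup.map_sup _ _ _).le.trans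
    (sup_le (k _ (Or.inl rfl)) (k _ (Or.inr rfl))))

/-- `n` permutes the groups `pr (A d) (A d')`, and `pr A0 A0` is their intersection -/
theorem Ws.norm_A0 (hp : Par m F) (h : Ws ρ t π S) {n : G}
    (hn : n ∈ normalizer (pr t π (Jb m F) (Jb m F) : Set G)) :
    n ∈ normalizer (pr t π (A0 m F) (A0 m F) : Set G) := by
  refine mem_norm_of_le fun y hy => ?_
  have k : ∀ d, Dk m d → n * y * n⁻¹ ∈ pr t π (A m F d) (A m F d) := fun d hd => by
    obtain ⟨e, e', h1, h2, q⟩ := perm4 hp h ((cj_eq_iff.2 (inv_mem hn)).le.trans h.J_le) hd hd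
    have := mem_cj.1 (q.ge (pr_mono (A0_le h1) (A0_le h2) hy))
    rwa [inv_inv] at this
  rw [A0_eq, ← pr_inf2 hp.1 h.toWr (el_A _) (el_A _) (el_A _) (el_A _)]
  exact ⟨k _ (Or.inl rfl), k _ (Or.inr rfl)⟩

/-- For odd `m`, `n` permutes the four groups `pr (A d) (A d')` and the two pairs of groups with
intersection `pr A0 A0` (`A0_lt`), so `n ^ 4` fixes each group. -/
theorem Ws.pow_four (hp : Par m F) (h : Ws ρ t π S) {n : G}
    (hn : n ∈ normalizer (pr t π (Jb m F) (Jb m F) : Set G)) :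
    n ^ 4 ∈ normalizer (At t π : Set G) := by
  rcases Nat.even_or_odd m with he | ho
  · rw [Jb, show m - m / 2 = m / 2 by obtain ⟨k, rfl⟩ := he; omega, sup_idem] at hn
    exact pow_mem hn 4
  have D : ∀ a : Bool, Dk m (cond a (m - m / 2) (m / 2)) := fun a => by
    cases a
    exacts [Or.inl rfl, Or.inr rfl]
  have D' : ∀ d, Dk m d → ∃ a : Bool, d = cond a (m - m / 2) (m / 2) := fun d hd =>
    hd.elim (fun e => ⟨false, e⟩) fun e => ⟨true, e⟩
  have k : ∀ p, ∃ q, cj n (Bf t π p) = Bf t π q := fun p => by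
    obtain ⟨e, e', h1, h2, q⟩ := perm4 hp h ((cj_eq_iff.2 hn).le.trans h.J_le) (D p.1) (D p.2)
    obtain ⟨a, rfl⟩ := D' e h1
    obtain ⟨b, rfl⟩ := D' e' h2
    exact ⟨(a, b), q⟩
  choose f hf using k
  have o := opp hp.1 ho h.toWr
  have := four f (fun p q e => ?_) fun p => (o _ _).1 ?_
  · rw [← cj_eq_iff, show n ^ 4 = n * (n * (n * n)) by simp [pow_succ, mul_assoc], cj_mul', cj_mul', cj_mul']
    show cj n (cj n (cj n (cj n (Bf t π (false, false))))) = Bf t π (false, false)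
    rw [hf, hf, hf, hf, this]
  · have e1 : Bf t π p = Bf t π q := cj_inj n (by rw [hf, hf, e])
    have := (o (!p.1, !p.2) q).1 (by rw [← e1, o]; simp)
    simpa using this.symm
  · rw [← hf, ← hf, cj, cj, ← map_inf _ _ _ (MulAut.conj n).injective, (o _ _).2 rfl]
    exact cj_eq_iff.2 (h.norm_A0 hp hn)

/-- the elements permuting the two groups `A0` -/
def Pm (t : G) (π : SL m F →* G) (n : G) : Prop :=
  (cj n ((A0 m F).map π) = (A0 m F).map π ∧ cj n ((A0 m F).map (tw t π)) = (A0 m F).map (tw t π)) ∨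
  (cj n ((A0 m F).map π) = (A0 m F).map (tw t π) ∧ cj n ((A0 m F).map (tw t π)) = (A0 m F).map π)

/-- the elements with `Pm` -/
def I2.PmS (t : G) (π : SL m F →* G) : Subgroup G where
  carrier := {n | Pm t π n}
  mul_mem' := by
    rintro a b (⟨a1, a2⟩ | ⟨a1, a2⟩) (⟨b1, b2⟩ | ⟨b1, b2⟩) <;>
      simp only [Set.mem_setOf_eq, Pm, cj_mul', a1, a2, b1, b2, and_self, true_or, or_true]
  one_mem' := Or.inl ⟨cj_one _, cj_one _⟩
  inv_mem' := by
    rintro a (⟨a1, a2⟩ | ⟨a1, a2⟩)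
    exacts [Or.inl ⟨cj_inv a1, cj_inv a2⟩, Or.inr ⟨cj_inv a2, cj_inv a1⟩]

theorem I2.cj_sd {s : G} {a : SL m F} (ha : a ∈ U m F) {σ : F ≃+* F} {ε : Bool}
    (h : Ac π s (MulAut.conj a * std σ ε)) : cj s ((A0 m F).map π) = (A0 m F).map π :=
  cj_eq_iff.2 (mem_norm_of_le (by
    rintro _ ⟨b, hb, rfl⟩
    have := std_mem_A0 σ ε hb
    rw [A0_eq] at this ⊢
    exact ⟨_, ⟨(mem_normalizer_iff.1 (U_norm_A _ ha) _).1 this.1,
      (mem_normalizer_iff.1 (U_norm_A _ ha) _).1 this.2⟩, (h b).symm⟩))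

theorem I2.pu_A0 (hm : 3 ≤ m) (h : Wr ρ t π) {y : G} (hy : y ∈ pr t π (A0 m F) (A0 m F)) :
    (y ∈ π.range → y ∈ (A0 m F).map π) ∧ (y ∈ (tw t π).range → y ∈ (A0 m F).map (tw t π)) :=
  ⟨h.pr_inf hm el_A0.pgroup hy, h.swap.pr_inf hm el_A0.pgroup (by rwa [pr_swap h.tt])⟩


theorem Ws.pm_S (hm : 3 ≤ m) (h : Ws ρ t π S) {s : G} (hs : s ∈ S) : Pm t π s := by
  have k : ∀ s ∈ S, s ∈ M0 t π → s ∈ PmS t π := fun s hs h0 => by
    obtain ⟨⟨a, ha, σ, ε, a1⟩, b, hb, τ, δ, a2⟩ := h.sd2 hs h0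
    exact Or.inl ⟨cj_sd ha a1, cj_sd hb a2⟩
  have ht : t ∈ PmS t π := Or.inr ⟨map_map _ _ _, (map_map _ _ _).trans (congrArg (fun f => (A0 m F).map f) (tw_tw h.toWr.tt))⟩
  rcases h.toWr.comp hm (h.le_M hs) with e | e
  · exact k s hs e
  · exact (Subgroup.mul_mem_cancel_left _ ht).1 (k _ (mul_mem h.tS hs) e)

/-- `le_of_odd` (the elements with `Pm` form a subgroup): `pm_S`; an element of odd order
normalises `At` (`pow_four`) and `pr A0 A0`; `perm`, `pr_inf`. -/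
theorem Ws.pm (hp : Par m F) (h : Ws ρ t π S) {n : G}
    (hn : n ∈ normalizer (pr t π (Jb m F) (Jb m F) : Set G)) : Pm t π n := by
  have hm := hp.1
  refine le_of_odd (K := PmS t π) S (fun s hs => cj_eq_iff.1 (h.weak hp ?_)) (fun s => h.pm_S hm)
    (fun n hn ho => ?_) hn
  · rintro _ ⟨j, hj, rfl⟩
    exact mul_mem (mul_mem hs (h.J_le hj)) (inv_mem hs)
  have n0 := h.norm_A0 hp hn
  have fin : ∀ π1 π2 : SL m F →* G, Fr π1 → Fr π2 → (A0 m F).map π1 ≤ pr t π (A0 m F) (A0 m F) →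
      (∀ y ∈ pr t π (A0 m F) (A0 m F), y ∈ π2.range → y ∈ (A0 m F).map π2) →
      cj n ((A m F (m / 2)).map π1) = (A m F (m / 2)).map π2 →
      cj n ((A0 m F).map π1) = (A0 m F).map π2 := fun π1 π2 f1 f2 k1 k2 e => by
    refine eq_of_le_of_card_ge ?_ (by rw [card_cj, f1.card_map el_A0.pgroup, f2.card_map el_A0.pgroup])
    rintro _ ⟨y, hy, rfl⟩
    exact k2 _ ((mem_normalizer_iff.1 n0 y).1 (k1 hy))
      (map_le_range _ _ (e.le (cj_mem (map_mono (A0_le (Or.inl rfl)) hy))))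
  have p1 := fun y hy => (pu_A0 hm h.toWr (y := y) hy).1
  have p2 := fun y hy => (pu_A0 hm h.toWr (y := y) hy).2
  exact (h.perm hp (zpowers_le_of_mem (h.pow_four hp hn) (mem_zpowers_pow_iff.2
    ((Nat.coprime_two_left.2 ho).pow_left 2)))).imp
    (fun e => ⟨fin _ _ h.frπ h.frπ le_sup_left p1 e.1, fin _ _ h.toWr.fr2 h.toWr.fr2 le_sup_right p2 e.2⟩)
    fun e => ⟨fin _ _ h.frπ h.toWr.fr2 le_sup_left p2 e.1, fin _ _ h.toWr.fr2 h.frπ le_sup_right p1 e.2⟩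

theorem Ws.fus (hp : Par m F) (h : Ws ρ t π S) {w w' : G} (hw : w ∈ pr t π (A0 m F) (A0 m F))
    (hw' : w' ∈ pr t π (A0 m F) (A0 m F)) (hc : IsConj w w') : ∃ n, Pm t π n ∧ n * w * n⁻¹ = w' := by
  have k : ∀ w ∈ pr t π (A0 m F) (A0 m F), ∀ j ∈ pr t π (Jb m F) (Jb m F), Commute j w := fun w hw j hj => by
    have : ∀ d, Dk m d → pr t π (A m F d) (A m F d) ≤ centralizer {w} := fun d hd y hy =>
      mem_centralizer_singleton_iff.2 ((h.toWr.el_pr (el_A d) (el_A d)).comm hy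
        (pr_mono (A0_le hd) (A0_le hd) hw))
    exact mem_centralizer_singleton_iff.1 (sup_le (this _ (Or.inl rfl)) (this _ (Or.inr rfl)) (J_eq.le hj))
  obtain ⟨g, rfl⟩ := isConj_iff.1 hc
  obtain ⟨n, hn, e⟩ := fusion_of_weak S h.J_le (fun g => h.weak hp) (k w hw) (k _ hw')
  exact ⟨n, h.pm hp hn, e⟩

theorem Wr.conj_A0 (hm : 3 ≤ m) (h : Wr ρ t π) {w : G} (hw : w ∈ G0 t π) (h2 : w * w = 1) :
    ∃ g ∈ G0 t π, g * w * g⁻¹ ∈ pr t π (A0 m F) (A0 m F) := by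
  obtain ⟨a, b, ha, hb, rfl⟩ := h.lift_inv hm hw h2
  obtain ⟨s, hs⟩ := exists_conj_A0 ha
  obtain ⟨s', hs'⟩ := exists_conj_A0 hb
  refine ⟨_, h.mem_G0.2 ⟨s, s', rfl⟩, h.mem_pr.2 ⟨_, hs, _, hs', ?_⟩⟩
  rw [← conj_mul, (h.ac_pr s s').1, (h.ac_pr s s').2]
  rfl

/-- pure involutions are not fused to other elements of `G0` -/
theorem Ws.ic2 (hp : Par m F) (h : Ws ρ t π S) {w w' : G} (hw : Pu t π w) (h2 : w * w = 1)
    (hw' : w' ∈ G0 t π) (hc : IsConj w w') : Pu t π w' := by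
  have hm := hp.1
  obtain ⟨g, g0, e⟩ := h.toWr.conj_A0 hm hw.mem h2
  obtain ⟨g', g0', e'⟩ := h.toWr.conj_A0 hm hw' (sq_of_conj hc h2)
  obtain ⟨n, hn, q⟩ := h.fus hp e e' (((isConj_iff.2 ⟨g, rfl⟩).symm.trans hc).trans (isConj_iff.2 ⟨g', rfl⟩))
  have k : Pu t π (g' * w' * g'⁻¹) := by
    rw [← q]
    rcases h.toWr.pu_conj hm (M0_le (h.toWr.G0_le g0)) hw with p | p <;> rcases hn with hn | hn
    · exact Or.inl (map_le_range _ _ (hn.1.le (cj_mem ((pu_A0 hm h.toWr e).1 p))))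
    · exact Or.inr (map_le_range _ _ (hn.1.le (cj_mem ((pu_A0 hm h.toWr e).1 p))))
    · exact Or.inr (map_le_range _ _ (hn.2.le (cj_mem ((pu_A0 hm h.toWr e).2 p))))
    · exact Or.inl (map_le_range _ _ (hn.2.le (cj_mem ((pu_A0 hm h.toWr e).2 p))))
  simpa [mul_assoc] using h.toWr.pu_conj hm (inv_mem (M0_le (h.toWr.G0_le g0'))) k

/-- conjugate `u` to `t`; `f5`, `ic2`, `pu_comm` -/
theorem Ws.z1' (hp : Par m F) (h : Ws ρ t π S) {y w u : G} (hy : Pu t π y) (h2 : y * y = 1)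
    (h1 : y ≠ 1) (hc : IsConj y w) (hu : IsConj t u) : ¬ Commute w u := by
  intro c
  obtain ⟨g, rfl⟩ := isConj_iff.1 hu
  have c1 : Commute (g⁻¹ * w * g⁻¹⁻¹) t := by simpa [mul_assoc] using c.map (MulAut.conj g⁻¹)
  have c2 := hc.trans (isConj_iff.2 ⟨g⁻¹, rfl⟩)
  exact ne_one_of_conj c2 h1 (h.toWr.pu_comm hp.1 (h.ic2 hp hy h2
    (h.f5 hp (IsConj.refl t) h.toWr.t_mem c1 hy.mem h2 c2) c2) (sq_of_conj c2 h2) c1)

theorem Ws.z1 (hp : Par m F) (h : Ws ρ t π S) {w u : G} (hc : IsConj (π (zz 1)) w)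
    (hu : IsConj t u) : ¬ Commute w u := by
  exact h.z1' hp (Or.inl ⟨_, rfl⟩) (map_sq _ (zz_sq 1)) (h.frπ.zz_ne hp.1) hc hu

theorem Ws.not_z (hp : Par m F) (h : Ws ρ t π S) {y : G} (hy : Pu t π y) :
    ¬ IsConj (ρ (zz 1)) y := by
  exact fun c => h.z1' hp hy (sq_of_conj c (map_sq _ (zz_sq 1))) (ne_one_of_conj c (h.fr.zz_ne hp.1))
    c.symm (IsConj.refl t) (h.tc _).symm

theorem Ws.not_z1 (hp : Par m F) (h : Ws ρ t π S) {w : G} (hc : IsConj (π (zz 1)) w) :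
    ¬ IsConj (ρ (zz 1)) w := by
  exact fun c => h.not_z hp (Or.inl ⟨_, rfl⟩) (c.trans hc.symm)

end CL.SC
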