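import Cfsg.Agent.INV.SC.IC2

/-!
The wreathed case: the class of the root elements of a factor.
-/

set_option autoImplicit false
set_option maxHeartbeats 200000
set_option linter.unusedSectionVars false
set_option linter.unusedVariables false

namespace CL.SC

open Matrix Subgroup
open scoped commutatorElement

variable {m : ℕ} [NeZero m] {F : Type*} [Field F] [Finite F] [CharP F 2]
variable {G : Type*} [Group G] [Finite G]
variable {ρ π : SL m F →* G} {t : G} {S : Sylow 2 G}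

/-- the elements normalising the first and centralising the second group `A0` -/
def Kc (t : G) (π : SL m F →* G) : Subgroup G :=
  normalizer (((A0 m F).map π : Subgroup G) : Set G) ⊓
    centralizer (((A0 m F).map (tw t π) : Subgroup G) : Set G)

namespace I3

theorem cj (g y : G) : IsConj y (g * y * g⁻¹) := isConj_iff.2 ⟨g, rfl⟩

theorem r1 : IsRoot (zz (1 : F) : SL m F) := IsConj.refl _

theorem nrm {B : Subgroup G} {n : G} (h : n ∈ normalizer (B : Set G)) (s : G) :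
    s * n * s⁻¹ ∈ normalizer ((CL.SC.cj s B : Subgroup G) : Set G) := le_normalizer_map _ (cj_mem h)

theorem cen {B : Subgroup G} {n : G} (h : n ∈ centralizer (B : Set G)) (s : G) :
    s * n * s⁻¹ ∈ centralizer ((CL.SC.cj s B : Subgroup G) : Set G) := by
  rintro _ ⟨y, hy, rfl⟩
  exact commute_cj.2 (h y hy)

theorem orb (K : Subgroup G) (x : G) :
    {y | ∃ κ ∈ K, y = κ * x * κ⁻¹}.ncard = (centralizer {x}).relIndex K := by
  let _ : MulAction K G := MulAction.compHom G (MulAut.conj.comp K.subtype)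
  have e : MulAction.stabilizer K x = (centralizer {x}).subgroupOf K := ext fun k => by
    rw [mem_subgroupOf, mem_centralizer_singleton_iff, ← mul_inv_eq_iff_eq_mul]
    rfl
  rw [relIndex, ← e, MulAction.index_stabilizer]
  congr 1
  ext y
  exact ⟨fun ⟨k, hk, e⟩ => ⟨⟨k, hk⟩, e.symm⟩, fun ⟨k, e⟩ => ⟨k, k.2, e.symm⟩⟩

theorem norm_Kc {n : G} (h1 : CL.SC.cj n ((A0 m F).map π) = (A0 m F).map π)
    (h2 : CL.SC.cj n ((A0 m F).map (tw t π)) = (A0 m F).map (tw t π)) : n ∈ normalizer (Kc t π : Set G) :=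
  mem_norm_of_le fun _ hy => ⟨h1 ▸ nrm hy.1 n, h2 ▸ cen hy.2 n⟩

theorem mem_Kc (h : Wr ρ t π) {s : SL m F} (hs : s ∈ normalizer (A0 m F : Set (SL m F))) : π s ∈ Kc t π :=
  ⟨le_normalizer_map π ⟨s, hs, rfl⟩, by rintro _ ⟨b, -, rfl⟩; exact (h.comm s b).symm⟩

end I3

/-- `κ · t κ t⁻¹` conjugates `ρ (zz 1)` to `ρ b`, which commutes with `t`; `f2`, `inj_inv` -/
theorem Ws.root_Kc (hp : Par m F) (h : Ws ρ t π S) {κ : G} (hκ : κ ∈ Kc t π) {b : SL m F}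
    (hb : b ∈ A0 m F) (hc : κ * π (zz 1) * κ⁻¹ = π b) : IsRoot b := by
  have hm := hp.1
  have zA : zz 1 ∈ A0 m F := zz_mem_A0 (by omega) 1
  have b2 : b * b = 1 := el_A _ b (A0_eq.le hb).1
  have c1 : κ * tw t π b * κ⁻¹ = tw t π b := mul_inv_eq_iff_eq_mul.2 (hκ.2 _ ⟨b, hb, rfl⟩).symm
  have c2 : κ * tw t π (zz 1) * κ⁻¹ = tw t π (zz 1) := mul_inv_eq_iff_eq_mul.2 (hκ.2 _ ⟨_, zA, rfl⟩).symm
  have e1 : t * (π (zz 1) * tw t π b) * t⁻¹ = π b * tw t π (zz 1) := by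
    rw [← conj_mul, ← tw_apply, ← tw_apply t (tw t π), tw_tw h.toSt.tt, (h.comm _ _).eq]
  have e2 : t * (π (zz 1) * tw t π b) * t⁻¹ = κ * ρ (zz 1) * κ⁻¹ := by rw [e1, ← h.diag, ← conj_mul, hc, c2]
  have e3 : κ * (π (zz 1) * tw t π b) * κ⁻¹ = ρ b := by rw [← conj_mul, hc, c1, h.diag]
  obtain ⟨r, r', hr, hr', e⟩ := h.f2 hp (IsConj.refl t) h.toWr.t_mem (h.tc b).symm
    (((I3.cj κ _).trans (isConj_iff.2 ⟨t, e2⟩).symm).trans (isConj_iff.2 ⟨κ, e3⟩))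
  rw [← h.diag] at e
  exact (h.toWr.inj_inv hm b2 b2 hr.sq hr'.sq e).1 ▸ hr

/-- `N0` the normaliser of both groups `A0`; `S` normalises `N0` (`pm_S`) and `N0` normalises
`Kc`; `odd_relIndex_sylow`, `odd_relIndex_inf` twice -/
theorem Ws.odd_Kc (hm : 3 ≤ m) (h : Ws ρ t π S) :
    Odd (((S : Subgroup G) ⊓ Kc t π).relIndex (Kc t π)) := by
  set N0 := normalizer (((A0 m F).map π : Subgroup G) : Set G) ⊓
    normalizer (((A0 m F).map (CL.SC.tw t π) : Subgroup G) : Set G)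
  have h1 : (S : Subgroup G) ≤ normalizer (N0 : Set G) := fun s hs => mem_norm_of_le fun y hy => by
    rcases h.pm_S hm hs with ⟨e1, e2⟩ | ⟨e1, e2⟩
    exacts [⟨e1 ▸ I3.nrm hy.1 s, e2 ▸ I3.nrm hy.2 s⟩, ⟨e2 ▸ I3.nrm hy.2 s, e1 ▸ I3.nrm hy.1 s⟩]
  have h2 : Kc t π ≤ N0 := inf_le_inf le_rfl (centralizer_le_normalizer _)
  have := odd_relIndex_inf inf_le_right (odd_relIndex_inf h1 (odd_relIndex_sylow S h1) le_normalizer le_rfl) h2
    fun n hn => I3.norm_Kc (cj_eq_iff.2 hn.1) (cj_eq_iff.2 hn.2)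
  rwa [inf_assoc, inf_eq_right.2 h2] at this

/-- `S ⊓ Kc` centralises `z` and `z2`, so `z1` -/
theorem Ws.odd_orbit (hm : 3 ≤ m) (h : Ws ρ t π S) :
    Odd {y | ∃ κ ∈ Kc t π, y = κ * π (zz 1) * κ⁻¹}.ncard := by
  rw [I3.orb]
  refine (h.odd_Kc hm).of_dvd_nat (relIndex_dvd_of_le_left _ fun s hs => mem_centralizer_singleton_iff.2 ?_)
  have h1 := h.z_comm hm hs.1
  have h2 : Commute s (CL.SC.tw t π (zz 1)) := (hs.2.2 _ ⟨_, zz_mem_A0 (by omega) 1, rfl⟩).symm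
  rw [← h.diag] at h1
  simpa using (h1.mul_right h2.inv_right).eq

/-- `n` normalises both groups `A0` and `Kc`, so the `Kc`-orbit of `π a` has odd length; `π(U) ≤ Kc`
fixes one of its points (`exists_fixed`), which is `π (zz c)` (`cent_U`), conjugate to
`π (zz 1)` under `π (dg d) ∈ Kc` (`exists_dg_zz`, `dg_norm_Pat`); `root_Kc`. -/
theorem Ws.root_A0 (hp : Par m F) (h : Ws ρ t π S) {a : SL m F} (ha : a ∈ A0 m F)
    (hc : IsConj (π (zz 1)) (π a)) : IsRoot a := by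
  have hm := hp.1
  have zA : zz 1 ∈ A0 m F := zz_mem_A0 (by omega) 1
  have el : El (A0 m F) := (el_A _).mono (A0_eq.le.trans inf_le_left)
  have a1 := ne_one_of_conj hc (h.frπ.zz_ne hm)
  obtain ⟨n, hn, e⟩ := h.fus hp (mem_sup_left ⟨_, zA, rfl⟩) (mem_sup_left ⟨a, ha, rfl⟩) hc
  obtain ⟨e1, e2⟩ := hn.resolve_right fun k => a1 (h.toWr.eq_one_of_both hm ⟨a, rfl⟩
    (map_le_range _ _ (k.1.le (e ▸ cj_mem ⟨_, zA, rfl⟩))) (map_sq π (el a ha)))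
  have hK := I3.norm_Kc e1 e2
  have hU : ∀ u ∈ U m F, π u ∈ Kc t π := fun u hu => I3.mem_Kc h.toWr
    (A0_eq (m := m) (F := F) ▸ inf_normalizer_le_normalizer_inf ⟨U_norm_A _ hu, U_norm_A _ hu⟩)
  obtain ⟨_, ⟨κ, hκ, rfl⟩, hy⟩ := exists_fixed (pgroup_U.map π) (O := {y | ∃ κ ∈ Kc t π, y = κ * π a * κ⁻¹}) (by
    have := h.odd_orbit hm
    rw [← Set.ncard_image_of_injective _ (MulAut.conj n).injective] at this
    convert this using 2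
    ext y
    refine ⟨fun ⟨κ, hκ, e3⟩ => ⟨_, ⟨_, (mem_normalizer_iff''.1 hK κ).1 hκ, rfl⟩, ?_⟩, ?_⟩
    · rw [e3, ← e, MulAut.conj_apply]; group
    · rintro ⟨_, ⟨κ, hκ, rfl⟩, rfl⟩
      exact ⟨_, (mem_normalizer_iff.1 hK κ).1 hκ, by rw [← e, MulAut.conj_apply]; group⟩) (by
    rintro _ ⟨u, hu, rfl⟩ _ ⟨κ, hκ, rfl⟩
    exact ⟨_, mul_mem (hU u hu) hκ, by group⟩)
  obtain ⟨b, hb, e3⟩ := (mem_normalizer_iff.1 hκ.1 _).1 ⟨a, ha, rfl⟩
  have b2 := sq_pow.2 (el b hb)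
  obtain ⟨c, rfl⟩ := cent_U (by omega) b2 fun u hu => h.frπ.commute b2 (e3 ▸ (hy _ ⟨u, hu, rfl⟩).symm)
  obtain ⟨d, hd, e4⟩ := exists_dg_zz hm (c := c) fun k => a1 (by
    rw [k, zz, x_zero, map_one] at e3
    exact conj_eq_one_iff.1 e3.symm)
  refine h.root_Kc hp (mul_mem (inv_mem hκ) (I3.mem_Kc h.toWr (dg_norm_Pat hd _))) ha ?_
  have e5 := congrArg π (e4 1)
  rw [mul_one, e3, map_mul, map_mul, map_inv] at e5
  calc _ = κ⁻¹ * (π (dg d) * π (zz 1) * (π (dg d))⁻¹) * κ := by group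
    _ = _ := by rw [e5]; group

theorem Ws.ic1 (hp : Par m F) (h : Ws ρ t π S) {w : G} (hw : w ∈ G0 t π)
    (hc : IsConj (π (zz 1)) w) : PuR t π w := by
  have k : ∀ a : SL m F, a * a = 1 → IsConj (π (zz 1)) (π a) → IsRoot a := fun a ha hc => by
    obtain ⟨g, hg⟩ := exists_conj_A0 ha
    have := isConj_iff.2 ⟨g, (rfl : g * a * g⁻¹ = _)⟩
    exact IsConj.trans (h.root_A0 hp hg (hc.trans (π.map_isConj this))) this.symm
  have w2 := sq_of_conj hc (map_sq π (zz_sq 1))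
  rcases h.ic2 hp (Or.inl ⟨_, rfl⟩) (map_sq π (zz_sq 1)) hw hc with h1 | h1
  · obtain ⟨a, ha, rfl⟩ := h.frπ.lift_inv h1 w2
    exact ⟨a, k a ha hc, Or.inl rfl⟩
  · obtain ⟨a, ha, rfl⟩ := h.toWr.fr2.lift_inv h1 w2
    exact ⟨a, k a ha (hc.trans (I3.cj t _).symm), Or.inr rfl⟩

theorem I3.le_z1 (h : Ws ρ t π S) : (S : Subgroup G) ⊓ M0 t π ≤ centralizer {π (zz 1)} := fun _ hs =>
  mem_centralizer_singleton_iff.2 (h.z1_comm hs.1 hs.2).1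

/-- otherwise `C(z1)` contains a Sylow subgroup of `G` (`card_S`), so a conjugate of `t` -/
theorem Ws.odd_z1 (hp : Par m F) (h : Ws ρ t π S) :
    Odd (((S : Subgroup G) ⊓ M0 t π).relIndex (centralizer {π (zz 1)})) := by
  obtain ⟨T, h1, h2, h3, h4⟩ := exists_syl (S.isPGroup'.to_le inf_le_left) (I3.le_z1 h)
  rw [← relIndex_mul_relIndex _ _ _ h2 h3]
  refine Odd.mul (Nat.not_even_iff_odd.1 fun h5 => ?_) h4
  obtain ⟨k, -, h6⟩ := conj_into S.isPGroup' le_top (odd_relIndex_sylow S le_top) h1 le_top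
  have h7 : cj k T = S := eq_of_le_of_card_ge h6 (by
    rw [card_cj, card_eq_rel h2, mul_comm]
    refine (h.card_S hp.1).le.trans (Nat.mul_le_mul_right _ (Nat.le_of_dvd (Nat.pos_of_ne_zero ?_) h5.two_dvd))
    exact index_ne_zero_of_finite)
  exact h.z1 hp (IsConj.refl _) (isConj_iff.2 ⟨k⁻¹, rfl⟩)
    (mem_centralizer_singleton_iff.1 (h3 (by simpa using mem_cj.1 (h7.ge h.tS)))).symm

theorem Ws.om (hp : Par m F) (h : Ws ρ t π S) {w : G} (hc : IsConj (π (zz 1)) w) {P : Subgroup G}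
    (hP : IsPGroup 2 P) (hw : ∀ p ∈ P, Commute p w) :
    ∃ g, g * w * g⁻¹ = π (zz 1) ∧ (∀ p ∈ P, g * p * g⁻¹ ∈ S ∧ g * p * g⁻¹ ∈ M0 t π) ∧
      ∀ p ∈ ⁅P, P⁆, g * p * g⁻¹ ∈ G0 t π := by
  obtain ⟨g, e⟩ := isConj_iff.1 hc.symm
  obtain ⟨k, hk, h1⟩ := conj_into (S.isPGroup'.to_le inf_le_left) (I3.le_z1 h) (h.odd_z1 hp)
    (P := cj g P) (hP.map _) (by
      rintro _ ⟨p, hp, rfl⟩
      exact mem_centralizer_singleton_iff.2 (e ▸ commute_cj.2 (hw p hp)))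
  rw [← cj_mul'] at h1
  refine ⟨k * g, ?_, fun p hp => h1 (cj_mem hp), fun p hp' =>
    h.comm_le hp.1 (commutator_mono h1 h1 ((map_commutator P P _).le (cj_mem hp')))⟩
  calc _ = k * (g * w * g⁻¹) * k⁻¹ := by group
    _ = _ := by rw [e, mem_centralizer_singleton_iff.1 hk, mul_inv_cancel_right]

/-- `om` for the fixed points in the two groups `U` -/
theorem Ws.om' (hp : Par m F) (h : Ws ρ t π S) {w : G} (hc : IsConj (π (zz 1)) w)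
    {α β : MulAut (SL m F)} (h1 : Ac π w α) (h2 : Ac (tw t π) w β) :
    ∃ g, g * w * g⁻¹ = π (zz 1) ∧
      (∀ a ∈ U m F ⊓ Fx α, g * π a * g⁻¹ ∈ S ∧ g * π a * g⁻¹ ∈ M0 t π) ∧
      (∀ a ∈ U m F ⊓ Fx β, g * tw t π a * g⁻¹ ∈ S ∧ g * tw t π a * g⁻¹ ∈ M0 t π) ∧
      (∀ a ∈ ⁅U m F ⊓ Fx α, U m F ⊓ Fx α⁆, g * π a * g⁻¹ ∈ G0 t π) ∧
      ∀ a ∈ ⁅U m F ⊓ Fx β, U m F ⊓ Fx β⁆, g * tw t π a * g⁻¹ ∈ G0 t π := by
  obtain ⟨g, k1, k2, k3⟩ := h.om hp hc (h.toWr.pgroup_pr (H := U m F ⊓ Fx α) (K := U m F ⊓ Fx β)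
    (pgroup_U.to_le inf_le_left) (pgroup_U.to_le inf_le_left)) fun p hp => by
      obtain ⟨a, ha, b, hb, rfl⟩ := h.toWr.mem_pr.1 hp
      exact ((h1.commute ha.2).mul_right (h2.commute hb.2)).symm
  exact ⟨g, k1, fun a ha => k2 _ (mem_sup_left ⟨a, ha, rfl⟩), fun a ha => k2 _ (mem_sup_right ⟨a, ha, rfl⟩),
    fun a ha => k3 _ (commutator_mono le_sup_left le_sup_left (map_commutator _ _ π ▸ ⟨a, ha, rfl⟩)),
    fun a ha => k3 _ (commutator_mono le_sup_right le_sup_right (map_commutator _ _ (tw t π) ▸ ⟨a, ha, rfl⟩))⟩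

/-- `ic2` for `v` and for `z1 ~ z1 · g v g⁻¹`; `not_pu'` -/
theorem Ws.clA (hp : Par m F) (h : Ws ρ t π S) {w g v : G} (hw : g * w * g⁻¹ = π (zz 1))
    (hv : Pu t π v) (h2 : v * v = 1) (h1 : v ≠ 1) (h0 : g * v * g⁻¹ ∈ G0 t π)
    (hc : IsConj w (w * v)) : g * v * g⁻¹ ∈ π.range := by
  refine (h.ic2 hp hv h2 h0 (I3.cj g v)).resolve_right fun k => h.toWr.not_pu' hp.1 ⟨_, rfl⟩ (map_sq π (zz_sq 1))
    (h.frπ.zz_ne hp.1) k (sq_of_conj (I3.cj g v) h2) (ne_one_of_conj (I3.cj g v) h1)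
    (h.ic2 hp (Or.inl ⟨_, rfl⟩) (map_sq π (zz_sq 1)) (mul_mem (mem_sup_left ⟨_, rfl⟩) h0) ?_)
  rw [← hw, conj_mul]
  exact ((I3.cj g w).symm.trans hc).trans (I3.cj g _)

theorem Ws.clB (hp : Par m F) (h : Ws ρ t π S) {g v w : G} (hv : v ∈ π.range) (hv2 : v * v = 1)
    (hv1 : v ≠ 1) (hw : w ∈ (tw t π).range) (hw2 : w * w = 1) (hw1 : w ≠ 1) :
    ¬ Pu t π (g * v * g⁻¹ * (g * w * g⁻¹)) := fun k => by
  rw [conj_mul] at k
  refine h.toWr.not_pu' hp.1 hv hv2 hv1 hw hw2 hw1 (h.ic2 hp k (sq_of_conj (I3.cj g _) ?_)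
    (mul_mem (mem_sup_left hv) (mem_sup_right hw)) (I3.cj g _).symm)
  rw [mul_assoc, ← mul_assoc w, ← (h.toWr.comm' hv hw).eq, mul_assoc, hw2, mul_one, hv2]

/-- a conjugate of `z1` in the second factor -/
theorem Ws.clC (hp : Par m F) (h : Ws ρ t π S) {e : G} (hc : IsConj (π (zz 1)) e)
    (he : e ∈ (tw t π).range) : IsConj (ρ (zz 1)) (π (zz 1) * e) := by
  obtain ⟨r, hr, rfl | rfl⟩ := h.ic1 hp (mem_sup_right he) hc
  · exact (ne_one_of_conj hc (h.frπ.zz_ne hp.1) (h.toWr.eq_one_of_both hp.1 ⟨r, rfl⟩ he (map_sq π hr.sq))).elim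
  · obtain ⟨g, -, e⟩ := h.toWr.conj_z I3.r1 hr
    exact (isConj_iff.2 ⟨g, e⟩).symm

/-- standard forms of involutions -/
def Sf (α : MulAut (SL m F)) : Prop := (∃ s ≤ m / 2, α = MulAut.conj (wr m F s)) ∨ Sd α

theorem Sf.sd (hm : 3 ≤ m) {α : MulAut (SL m F)} (h : Sf α) (ho : Ou α) : Sd α := 
  h.resolve_left fun ⟨_, _, e⟩ => ho (e ▸ ty_conj _)

theorem Sf.wr (hm : 3 ≤ m) {α : MulAut (SL m F)} (h : Sf α) (ho : Ty α 1 false) :
    ∃ s ≤ m / 2, α = MulAut.conj (CL.SC.wr m F s) := h.resolve_right fun k => k.ou hm ho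

/-- `conj_inv`, `Ws.si`, `std_sl`, `Ty.invol`, `exists_wr`; conjugate by `π s * π2 s'` -/
theorem Ws.stand (hm : 3 ≤ m) (h : Ws ρ t π S) {w : G} (hw : w * w = 1) {α β : MulAut (SL m F)}
    (h1 : Ac π w α) (h2 : Ac (tw t π) w β) : ∃ n γ δ, Ac π n γ ∧ Ac (tw t π) n δ ∧
      Sf (γ * α * γ⁻¹) ∧ Sf (δ * β * δ⁻¹) ∧ Ac π (n * w * n⁻¹) (γ * α * γ⁻¹) ∧
      Ac (tw t π) (n * w * n⁻¹) (δ * β * δ⁻¹) := by
  have k : ∀ α : MulAut (SL m F), α * α = 1 → (∀ σ ε, Ty α σ ε → Si α σ ε) →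
      ∃ s, Sf (MulAut.conj s * α * (MulAut.conj s)⁻¹) := fun α h2 h3 => by
    by_cases ho : Ou α
    · obtain ⟨σ, ε, h4⟩ := exists_ty hm α
      obtain ⟨β, h5, -, h6⟩ := std_sl hm (h3 σ ε h4) h2 ho
      obtain ⟨s, rfl⟩ := h6.symm
      exact ⟨s, Or.inr h5⟩
    · obtain ⟨a, ha, rfl⟩ := (not_not.1 ho).invol hm h2
      obtain ⟨s, hs, h4⟩ := exists_wr ha
      obtain ⟨c, e⟩ := isConj_iff.1 h4.symm
      exact ⟨c, Or.inl ⟨s, hs, by rw [← e, map_mul, map_mul, map_inv]⟩⟩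
  obtain ⟨n, hn, hS⟩ := h.conj_inv hm hw (M0_le ⟨h1.mem, h2.mem⟩)
  obtain ⟨γ, δ, h3, h4⟩ := h.toWr.ac hm hn
  have w2 := sq_of_conj (I3.cj n w) hw
  have h5 := (h3.mul h1).mul h3.inv
  have h6 := (h4.mul h2).mul h4.inv
  obtain ⟨s, hs⟩ := k _ (h5.sq hm h.frπ w2) fun _ _ e => (h.si hm hS h5 e).1
  obtain ⟨s', hs'⟩ := k _ (h6.sq hm h.toWr.fr2 w2) fun _ _ e => (h.swap.si hm hS h6 e).1
  have h7 := (h.toWr.ac_pr s s').1.mul h3
  have h8 := (h.toWr.ac_pr s s').2.mul h4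
  exact ⟨_, _, _, h7, h8, by simpa only [_root_.mul_inv_rev, mul_assoc] using hs,
    by simpa only [_root_.mul_inv_rev, mul_assoc] using hs', (h7.mul h1).mul h7.inv, (h8.mul h2).mul h8.inv⟩

/-- class stability for `m = 3` (`cj_mul`, `Ac.isConj`) -/
theorem Fr.stab (hm : m = 3) (h : Fr π) {e v : G} (he : e * e = 1) {α : MulAut (SL m F)}
    (h1 : Ac π e α) (ho : Ou α) (hv : v ∈ π.range) (h2 : v * v = 1) (hc : Commute e v) :
    IsConj e (e * v) := by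
  have h3 : 3 ≤ m := hm.ge
  obtain ⟨r, hr, rfl⟩ := h.lift_inv hv h2
  obtain ⟨σ, ε, k⟩ := exists_ty h3 α
  obtain ⟨y, hy⟩ := cj_mul h3 k (h1.sq h3 h he) (((k.ou h3).1 ho).imp_right fun e => ⟨e, hm ▸ by decide⟩) hr
    ((h1.fix h (sq_pow.2 hr)).1 hc)
  exact h1.isConj hy

end CL.SC
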