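import Cfsg.Agent.INV.SC.Bas2
import Cfsg.Agent.S2690

/-!
Automorphisms of `SL m F` and of frames.
-/

set_option autoImplicit false
set_option linter.unusedSectionVars false
set_option linter.unusedVariables false

namespace CL.SC

open Matrix Subgroup
open scoped commutatorElement

variable {m : ℕ} [NeZero m] {F : Type*} [Field F] [Finite F] [CharP F 2]
variable {G : Type*} [Group G]

theorem aut_center (α : MulAut (SL m F)) {a : SL m F} : α a ∈ center (SL m F) ↔ a ∈ center (SL m F) :=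
  SetLike.ext_iff.1 (Subgroup.characteristic_iff_comap_eq.1
    (inferInstance : (center (SL m F)).Characteristic) α) a

theorem aut_ext (hm : 3 ≤ m) {α β : MulAut (SL m F)} (h : ∀ a, (α a)⁻¹ * β a ∈ center (SL m F)) : α = β := by
  refine inv_mul_eq_one.1 (aut_eq_one hm fun b => ?_)
  have := (aut_center α⁻¹).2 (h b)
  rw [map_mul, map_inv, MulAut.inv_apply_self] at this
  exact Subgroup.Normal.mem_comm inferInstance this

theorem pm_conj_apply (s : Equiv.Perm (Fin m)) (a : SL m F) (i j : Fin m) :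
    (pm F s * a * (pm F s)⁻¹ : SL m F) (s i) (s j) = a i j := by
  have e : (pm F s * a * (pm F s)⁻¹ * pm F s : SL m F) (s i) j = (pm F s * a : SL m F) (s i) j := by
    rw [inv_mul_cancel_right]
  generalize pm F s * a * (pm F s)⁻¹ = b at e
  change ((b : Matrix (Fin m) (Fin m) F) * (pm F s : SL m F)) (s i) j =
    (((pm F s : SL m F) : Matrix (Fin m) (Fin m) F) * a) (s i) j at e
  simpa [Matrix.mul_apply, pm_apply] using e

theorem std_inv (σ : F ≃+* F) (ε : Bool) : (std σ ε : MulAut (SL m F))⁻¹ = std σ⁻¹ ε :=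
  inv_eq_of_mul_eq_one_right (by rw [std_mul, mul_inv_cancel, Bool.xor_self, std_one])

theorem mul_conj (β : MulAut (SL m F)) (s : SL m F) : β * MulAut.conj s = MulAut.conj (β s) * β :=
  MulEquiv.ext fun a => by simp

theorem Ty.mul {α β : MulAut (SL m F)} {σ τ : F ≃+* F} {ε δ : Bool} (h : Ty α σ ε)
    (h' : Ty β τ δ) : Ty (α * β) (σ * τ) (xor ε δ) := by
  obtain ⟨g, rfl⟩ := h
  obtain ⟨g', rfl⟩ := h'
  obtain ⟨g'', e⟩ := std_inn σ ε g'
  exact ⟨g * g'', by rw [map_mul, ← std_mul, mul_assoc, ← mul_assoc (std σ ε), e, mul_assoc, mul_assoc]⟩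

theorem ty_inn (g : GL (Fin m) F) : Ty (inn g : MulAut (SL m F)) 1 false := ⟨g, by rw [std_one, mul_one]⟩

theorem ty_conj (s : SL m F) : Ty (MulAut.conj s) 1 false := inn_toGL s ▸ ty_inn _

theorem ty_one : Ty (1 : MulAut (SL m F)) 1 false := by
  simpa using ty_inn (1 : GL (Fin m) F)

theorem ty_std (σ : F ≃+* F) (ε : Bool) : Ty (std σ ε : MulAut (SL m F)) σ ε := ⟨1, by rw [map_one, one_mul]⟩

/-- Every automorphism `β` of `PSL` is induced by some `inn g * std σ ε`: S2690 gives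
`β = δ φ γ`; inverse transpose is `inn J * gr` (`J` the antidiagonal matrix). -/
theorem exists_lift (hm : 3 ≤ m) (β : MulAut (ProjectiveSpecialLinearGroup (Fin m) F)) :
    ∃ (α : MulAut (SL m F)) (σ : F ≃+* F) (ε : Bool), Ty α σ ε ∧
      ∀ a : SL m F, β (QuotientGroup.mk a) = QuotientGroup.mk (α a) := by
  have := Fintype.ofFinite F
  obtain ⟨n, n0, hn, -⟩ := card_F F
  obtain ⟨δ, φ, γ, σ, ⟨g, h1⟩, h2, h3, rfl⟩ := Cfsg.Agent.S2690.result (F := F) (p := 2) (f := n)
    (by rw [← Nat.card_eq_fintype_card, hn]) n0 (n := m) (by omega) (by omega) β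
  have k : ∀ a : SL m F, δ (φ (QuotientGroup.mk a)) = QuotientGroup.mk (inn g (std σ false a)) := fun a => by
    rw [h2 a (fld σ a) rfl, h1 _ (inn g (fld σ a)) rfl, std_false]
  rcases h3 with rfl | h3
  · exact ⟨_, σ, false, ⟨g, rfl⟩, k⟩
  · refine ⟨inn g * std σ false * (MulAut.conj (pm F Fin.revPerm) * std 1 true), _, _,
      Ty.mul ⟨g, rfl⟩ ((ty_conj _).mul (ty_std _ _)), fun a => ?_⟩
    rw [MulAut.mul_apply, MulAut.mul_apply, h3 a (MulAut.conj (pm F Fin.revPerm) (std 1 true a)) ?_, k]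
    · rfl
    ext i j
    have := pm_conj_apply Fin.revPerm (gr a) i.rev j.rev
    simp only [Fin.revPerm_apply, Fin.rev_rev, gr_apply] at this
    rw [std_one_true, transpose_apply, ← this]
    rfl

/-- `α` induces an automorphism of `PSL`; use `exists_lift` and `aut_eq_one`. -/
theorem exists_ty (hm : 3 ≤ m) (α : MulAut (SL m F)) : ∃ σ ε, Ty α σ ε := by
  obtain ⟨β, σ, ε, h1, h2⟩ := exists_lift hm
    (QuotientGroup.congr _ _ α (Subgroup.characteristic_iff_map_eq.1 inferInstance α))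
  exact ⟨σ, ε, aut_ext hm (fun a => QuotientGroup.eq.1 (h2 a)) ▸ h1⟩

theorem inn_eq_std (hm : 3 ≤ m) {g : GL (Fin m) F} {σ : F ≃+* F} {ε : Bool}
    (h : (inn g : MulAut (SL m F)) = std σ ε) : σ = 1 ∧ ε = false := by
  have k : ∀ i j i' j' : Fin m, i ≠ j → i' ≠ j' → inn g (x i j (1 : F)) = x i' j' 1 →
      (g : Matrix (Fin m) (Fin m) F) * single i j 1 = single i' j' 1 * (g : Matrix (Fin m) (Fin m) F) :=
    fun i j i' j' h1 h2 e => by
      have := congrArg Subtype.val e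
      rw [inn_val, Units.mul_inv_eq_iff_eq_mul, x_val h1, x_val h2, mul_add, add_mul, mul_one, one_mul] at this
      exact add_left_cancel this
  cases ε
  · rw [std_false] at h
    obtain ⟨c, hc⟩ := Matrix.mem_range_scalar_of_commute_single (M := (g : Matrix (Fin m) (Fin m) F))
      fun i j hij => (k i j i j hij hij (by rw [h, fld_x, map_one])).symm
    rw [(inn_eq_one (by omega)).2 ⟨c, by rw [← hc, scalar_apply, smul_one_eq_diagonal]⟩] at h
    refine ⟨RingEquiv.ext fun a => x_inj (zero_ne_la (m := m) (by omega)) ?_, rfl⟩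
    rw [← fld_x, ← h]; rfl
  · exfalso
    have k' : ∀ j l : Fin m, j ≠ 0 → l ≠ j.rev → (g : Matrix (Fin m) (Fin m) F) l 0 = 0 := fun j l h1 h2 => by
      have := congrFun (congrFun (k 0 j j.rev (Fin.rev 0) h1.symm (by simpa using h1)
        (by rw [h, std, cond_true, MulAut.mul_apply, gr_x, fld_x, map_one])) l) j
      rwa [mul_single_apply_same, single_mul_apply_of_ne _ _ _ _ _ h2, mul_one] at this
    obtain ⟨j, h1, -⟩ := exists_third hm 0 0
    obtain ⟨j', h2, h3⟩ := exists_third hm 0 j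
    refine g.det_ne_zero (det_eq_zero_of_column_eq_zero 0 fun l => ?_)
    by_cases e : l = j.rev
    · exact k' j' l h2 (by simpa [e] using h3.symm)
    · exact k' j l h1 e

/-- If `inn g = std σ ε`: both fix `row 0` up to conjugacy; `gr` maps the row group (fixed space a
hyperplane-free: `[V, row 0]` is a line) to a column group (`[V, col]` is a hyperplane, `m ≥ 3`), so
`ε = false`; then `g` fixes all `x i j 1`, so is scalar, and `σ = 1`. -/
theorem Ty.unique (hm : 3 ≤ m) {α : MulAut (SL m F)} {σ τ : F ≃+* F} {ε δ : Bool}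
    (h : Ty α σ ε) (h' : Ty α τ δ) : σ = τ ∧ ε = δ := by
  obtain ⟨g, e⟩ := h
  obtain ⟨g', e'⟩ := h'
  have : (inn (g'⁻¹ * g) : MulAut (SL m F)) = std (τ * σ⁻¹) (xor δ ε) := by
    rw [← std_mul, ← std_inv, map_mul, map_inv, eq_mul_inv_iff_mul_eq, mul_assoc, ← e, e', inv_mul_cancel_left]
  obtain ⟨h1, h2⟩ := inn_eq_std hm this
  exact ⟨(mul_inv_eq_one.1 h1).symm, by revert h2; cases ε <;> cases δ <;> simp⟩

theorem Ty.inv {α : MulAut (SL m F)} {σ : F ≃+* F} {ε : Bool} (h : Ty α σ ε) : Ty α⁻¹ σ⁻¹ ε := by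
  obtain ⟨g, rfl⟩ := h
  obtain ⟨g', e⟩ := std_inn σ⁻¹ ε g⁻¹
  exact ⟨g', by rw [_root_.mul_inv_rev, std_inv, ← map_inv, e]⟩

theorem Ty.conj (hm : 3 ≤ m) {α : MulAut (SL m F)} {σ : F ≃+* F} {ε : Bool} (h : Ty α σ ε)
    (β : MulAut (SL m F)) : Ty (β * α * β⁻¹) σ ε := by
  obtain ⟨τ, δ, h'⟩ := exists_ty hm β
  have := (h'.mul h).mul h'.inv
  rwa [aut_comm τ σ, mul_inv_cancel_right, Bool.xor_comm δ ε, Bool.xor_assoc, Bool.xor_self, Bool.xor_false] at this

theorem Si.ty {α : MulAut (SL m F)} {σ : F ≃+* F} {ε : Bool} (h : Si α σ ε) : Ty α σ ε := by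
  obtain ⟨s, rfl⟩ := h
  exact ⟨_, by rw [inn_toGL]⟩

theorem Si.mul {α β : MulAut (SL m F)} {σ τ : F ≃+* F} {ε δ : Bool} (h : Si α σ ε)
    (h' : Si β τ δ) : Si (α * β) (σ * τ) (xor ε δ) := by
  obtain ⟨s, rfl⟩ := h
  obtain ⟨s', rfl⟩ := h'
  exact ⟨s * std σ ε s', by
    rw [map_mul, ← std_mul, mul_assoc, ← mul_assoc (std σ ε), mul_conj, mul_assoc, mul_assoc]⟩

theorem Si.cj {α β : MulAut (SL m F)} {σ : F ≃+* F} {ε : Bool} (h : Si α σ ε) (h' : Cj α β) :
    Si β σ ε := by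
  obtain ⟨s, rfl⟩ := h
  obtain ⟨s', rfl⟩ := h'
  exact ⟨s' * s * std σ ε s'⁻¹, by
    rw [← map_inv, mul_assoc, mul_assoc, mul_conj, map_mul, map_mul, mul_assoc, mul_assoc]⟩

theorem ty_inner {α : MulAut (SL m F)} : Ty α 1 false ↔ ∃ g, α = inn g := ⟨fun ⟨g, e⟩ => ⟨g, by rw [e, std_one, mul_one]⟩, fun ⟨g, e⟩ => e ▸ ty_inn g⟩

theorem Ty.ou (hm : 3 ≤ m) {α : MulAut (SL m F)} {σ : F ≃+* F} {ε : Bool} (h : Ty α σ ε) :
    Ou α ↔ (σ ≠ 1 ∨ ε = true) := by
  constructor
  · intro ho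
    by_contra! k
    rw [k.1, Bool.eq_false_iff.2 k.2] at h
    exact ho h
  · intro k h'
    obtain ⟨h1, h2⟩ := h.unique hm h'
    simp [h1, h2] at k

theorem Ty.sq (hm : 3 ≤ m) {α : MulAut (SL m F)} {σ : F ≃+* F} {ε : Bool} (h : Ty α σ ε)
    (h2 : α * α = 1) : σ * σ = 1 := ((h.mul h).unique hm (h2 ▸ ty_one)).1

theorem Ty.pow (hm : 3 ≤ m) {α : MulAut (SL m F)} {σ : F ≃+* F} {ε : Bool} (h : Ty α σ ε) {r : ℕ}
    (hr : Odd r) (h2 : α ^ r = 1) : σ ^ r = 1 ∧ ε = false := by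
  obtain ⟨k, rfl⟩ := hr
  have : ∀ k, Ty (α ^ (2 * k + 1)) (σ ^ (2 * k + 1)) ε := fun k => by
    induction k with
    | zero => simpa using h
    | succ k ih =>
      have := (ih.mul h).mul h
      rwa [← pow_succ, ← pow_succ, ← pow_succ, ← pow_succ, Bool.xor_self, Bool.false_xor] at this
  exact (this k).unique hm (h2 ▸ ty_one)

theorem Cj.refl (α : MulAut (SL m F)) : Cj α α := ⟨1, by simp⟩

theorem Cj.symm {α β : MulAut (SL m F)} (h : Cj α β) : Cj β α := by
  obtain ⟨s, rfl⟩ := h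
  exact ⟨s⁻¹, by rw [map_inv]; group⟩

theorem Cj.trans {α β γ : MulAut (SL m F)} (h : Cj α β) (h' : Cj β γ) : Cj α γ := by
  obtain ⟨s, rfl⟩ := h
  obtain ⟨s', rfl⟩ := h'
  exact ⟨s' * s, by rw [map_mul]; group⟩

/-- the type as a homomorphism -/
theorem exists_tyHom (hm : 3 ≤ m) :
    ∃ τ : MulAut (SL m F) →* (F ≃+* F) × Multiplicative (ZMod 2), ∀ α σ ε,
      Ty α σ ε ↔ τ α = (σ, Multiplicative.ofAdd (cond ε 1 0)) := by
  choose σ ε h using exists_ty (F := F) hm
  have k : ∀ a b : Bool, (Multiplicative.ofAdd (cond (xor a b) 1 0) : Multiplicative (ZMod 2)) =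
      Multiplicative.ofAdd (cond a 1 0) * Multiplicative.ofAdd (cond b 1 0) := by decide
  have k' : ∀ a b : Bool, (Multiplicative.ofAdd (cond a 1 0) : Multiplicative (ZMod 2)) =
      Multiplicative.ofAdd (cond b 1 0) → a = b := by decide
  refine ⟨MonoidHom.mk' (fun α => (σ α, Multiplicative.ofAdd (cond (ε α) 1 0))) fun α β => ?_, fun α τ δ => ?_⟩
  · obtain ⟨h1, h2⟩ := (h (α * β)).unique hm ((h α).mul (h β))
    rw [h1, h2, k]; rfl
  · refine ⟨fun e => ?_, fun e => ?_⟩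
    · obtain ⟨h1, h2⟩ := (h α).unique hm e
      rw [← h1, ← h2]; rfl
    · have := h α
      rwa [show σ α = τ from congrArg Prod.fst e, k' _ _ (congrArg Prod.snd e)] at this

theorem ty_of_mem_commutator (hm : 3 ≤ m) {α : MulAut (SL m F)}
    (h : α ∈ commutator (MulAut (SL m F))) : Ty α 1 false := by
  obtain ⟨τ, hτ⟩ := exists_tyHom (F := F) hm
  have : commutator (MulAut (SL m F)) ≤ τ.ker := Subgroup.commutator_le.2 fun a _ b _ => by
    rw [MonoidHom.mem_ker, map_commutatorElement, commutatorElement_eq_one_iff_mul_comm]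
    exact Prod.ext (aut_comm _ _) (mul_comm _ _)
  exact (hτ α 1 false).2 (this h)

/-- inner-diagonal 2-elements are inner -/
theorem Ty.two (hm : 3 ≤ m) {α : MulAut (SL m F)} (h : Ty α 1 false) {n : ℕ} (h2 : α ^ 2 ^ n = 1) :
    ∃ a : SL m F, a ^ 2 ^ n = 1 ∧ α = MulAut.conj a := by
  obtain ⟨g, rfl⟩ := ty_inner.1 h
  exact inn_two h2 (by omega)

theorem Ty.invol (hm : 3 ≤ m) {α : MulAut (SL m F)} (h : Ty α 1 false) (h2 : α * α = 1) :
    ∃ a : SL m F, a * a = 1 ∧ α = MulAut.conj a := by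
  simpa only [pow_one, pow_two] using h.two hm (n := 1) (by rw [pow_one, pow_two, h2])

theorem IsRoot.aut (hm : 3 ≤ m) {a : SL m F} (h : IsRoot a) (α : MulAut (SL m F)) :
    IsRoot (α a) := by
  obtain ⟨σ, ε, g, rfl⟩ := exists_ty hm α
  exact (h.std hm σ ε).inn hm g

/-- `Aut = inn(GL) ⋊ Std`, `|inn(GL)| = |PGL| = |SL|` -/
theorem card_aut (hm : 3 ≤ m) :
    Nat.card (MulAut (SL m F)) = 2 * Nat.card (F ≃+* F) * Nat.card (SL m F) := by
  obtain ⟨τ, hτ⟩ := exists_tyHom (F := F) hm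
  have h1 := τ.ker.card_mul_index
  have s1 : τ.range = ⊤ := MonoidHom.range_eq_top.2 fun ⟨σ, e⟩ => by
    obtain ⟨ε, rfl⟩ : ∃ ε : Bool, e = Multiplicative.ofAdd (cond ε 1 0) := by revert e; decide
    exact ⟨_, (hτ _ σ ε).1 (ty_std σ ε)⟩
  have s2 : τ.ker = (inn : GL (Fin m) F →* MulAut (SL m F)).range := Subgroup.ext fun α =>
    (hτ α 1 false).symm.trans (ty_inner.trans (exists_congr fun g => eq_comm))
  have s3 : (inn : GL (Fin m) F →* MulAut (SL m F)).ker = (Matrix.GeneralLinearGroup.scalar (Fin m)).range :=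
    Subgroup.ext fun g => (inn_eq_one (by omega)).trans ⟨fun ⟨c, hc⟩ => ⟨Units.mk0 c fun k => by
      have := g.det_ne_zero
      rw [hc, k, zero_smul, det_zero] at this
      exact this rfl, Units.ext (hc.trans (smul_one_eq_diagonal c)).symm⟩,
      fun ⟨c, hc⟩ => ⟨c, by rw [← hc, smul_one_eq_diagonal]; rfl⟩⟩
  have h2 := (inn : GL (Fin m) F →* MulAut (SL m F)).ker.card_mul_index
  rw [Subgroup.index_ker, s3, card_GL_eq, ← Nat.card_congr (MonoidHom.ofInjective
    (f := Matrix.GeneralLinearGroup.scalar (R := F) (Fin m)) fun a b e =>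
      Units.ext (Matrix.scalar_inj.1 (congrArg Units.val e))).toEquiv, Nat.card_units] at h2
  have h3 := Nat.eq_of_mul_eq_mul_left (Nat.sub_pos_of_lt Finite.one_lt_card) h2
  rw [Subgroup.index_ker, s1, s2, h3, Subgroup.card_top, Nat.card_prod, Nat.card_congr Multiplicative.toAdd,
    Nat.card_zmod] at h1
  rw [← h1]; ring

theorem cj_mul0 {G : Type*} [Group G] (a b : G) (H : Subgroup G) : cj (a * b) H = cj a (cj b H) := by
  rw [cj, cj, cj, map_mul, Subgroup.map_map]; rfl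

theorem aut_pat (hm : 3 ≤ m) (α : MulAut (SL m F)) : ∃ s : SL m F,
    (∀ p, (Pat F p).map α.toMonoidHom = cj s (Pat F p)) ∨
      ∀ p, (Pat F p).map α.toMonoidHom = cj s (Pat F fun i j => p j.rev i.rev) := by
  obtain ⟨σ, ε, g, rfl⟩ := exists_ty hm α
  obtain ⟨s, h, d, hd, e⟩ := inn_eq g
  have k : ∀ (β γ : MulAut (SL m F)) (H : Subgroup (SL m F)),
      H.map (β * γ).toMonoidHom = (H.map γ.toMonoidHom).map β.toMonoidHom := fun β γ H => by
    rw [Subgroup.map_map]; rfl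
  refine ⟨s, ?_⟩
  cases ε
  · exact .inl fun p => by rw [e, std_false, k, k, map_Pat_fld, map_Pat_diag hd]
  · exact .inr fun p => by rw [e, std, cond_true, k, k, k, map_Pat_gr, map_Pat_fld, map_Pat_diag hd]

theorem row_cj (i : Fin m) : row F i = cj (pm F (Equiv.swap 0 i)) (row F 0) := by
  rw [cj_pm_row, Equiv.swap_apply_left]

theorem col_cj (i : Fin m) : col F i = cj (pm F (Equiv.swap la i)) (col F la) := by
  rw [cj_pm_col, Equiv.swap_apply_left]

/-- automorphisms permute the conjugates of the row and column groups -/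
theorem aut_row (hm : 3 ≤ m) (α : MulAut (SL m F)) (i : Fin m) : ∃ s : SL m F,
    (row F i).map α.toMonoidHom = cj s (row F 0) ∨ (row F i).map α.toMonoidHom = cj s (col F la) :=
  by
  obtain ⟨s, h | h⟩ := aut_pat hm α
  · exact ⟨_, .inl (by rw [cj_mul0 s, ← row_cj i]; exact h _)⟩
  · refine ⟨_, .inr (by
      rw [cj_mul0 s, ← col_cj i.rev, row, h, col]
      simp only [Fin.rev_eq_iff, ne_eq])⟩

theorem aut_col (hm : 3 ≤ m) (α : MulAut (SL m F)) (i : Fin m) : ∃ s : SL m F,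
    (col F i).map α.toMonoidHom = cj s (row F 0) ∨ (col F i).map α.toMonoidHom = cj s (col F la) :=
  by
  obtain ⟨s, h | h⟩ := aut_pat hm α
  · exact ⟨_, .inr (by rw [cj_mul0 s, ← col_cj i]; exact h _)⟩
  · refine ⟨_, .inl (by
      rw [cj_mul0 s, ← row_cj i.rev, col, h, row]
      simp only [Fin.rev_eq_iff, ne_eq])⟩

/-! frames -/

variable {π : SL m F →* G}

theorem Fr.tw (h : Fr π) (g : G) : Fr (tw g π) := fun a ha => h (by simpa [tw_apply] using ha)

theorem Fr.rf (h : Fr π) (α : MulAut (SL m F)) : Fr (rf π α) := fun a ha => (aut_center α).1 (h ha)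

theorem range_rf (π : SL m F →* G) (α : MulAut (SL m F)) : (rf π α).range = π.range := by
  rw [rf, MonoidHom.range_comp, MonoidHom.range_eq_top.2 α.surjective, MonoidHom.range_eq_map]

theorem range_tw (g : G) (π : SL m F →* G) : (tw g π).range = cj g π.range := MonoidHom.range_comp _ _

theorem Fr.eq_one (h : Fr π) {a : SL m F} {n : ℕ} (ha : a ^ 2 ^ n = 1) (h1 : π a = 1) : a = 1 :=
  eq_one_of_center (h h1) ha

theorem Fr.cen (h : Fr π) {a b : SL m F} (hab : π a = π b) : a⁻¹ * b ∈ center (SL m F) :=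
  h (by rw [MonoidHom.mem_ker, map_mul, map_inv, hab, inv_mul_cancel])

/-- frames are injective on 2-elements -/
theorem Fr.inj2 (h : Fr π) {a b : SL m F} {n : ℕ} (ha : a ^ 2 ^ n = 1) (hb : b ^ 2 ^ n = 1)
    (hab : π a = π b) : a = b := by
  have z := h.cen hab
  refine inv_mul_eq_one.1 (eq_one_of_center z (n := n) ?_)
  have : (a * (a⁻¹ * b)) ^ 2 ^ n = a ^ 2 ^ n * (a⁻¹ * b) ^ 2 ^ n := Commute.mul_pow (mem_center_iff.1 z a) _
  rwa [mul_inv_cancel_left, ha, hb, one_mul, eq_comm] at this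

theorem Fr.inj_inv (h : Fr π) {a b : SL m F} (ha : a * a = 1) (hb : b * b = 1)
    (hab : π a = π b) : a = b := h.inj2 (n := 1) (by rwa [pow_one, pow_two]) (by rwa [pow_one, pow_two]) hab

theorem Fr.inj_p (h : Fr π) {P : Subgroup (SL m F)} (hP : IsPGroup 2 P) {a b : SL m F} (ha : a ∈ P) (hb : b ∈ P)
    (hab : π a = π b) : a = b := by
  obtain ⟨n, hn⟩ := hP ⟨a⁻¹ * b, P.mul_mem (P.inv_mem ha) hb⟩
  exact inv_mul_eq_one.1 (eq_one_of_center (h.cen hab) (congrArg Subtype.val hn))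

theorem Fr.inj_U (h : Fr π) {a b : SL m F} (ha : a ∈ U m F) (hb : b ∈ U m F)
    (hab : π a = π b) : a = b := h.inj_p pgroup_U ha hb hab

theorem Fr.card_map (h : Fr π) {P : Subgroup (SL m F)} (hP : IsPGroup 2 P) :
    Nat.card (P.map π) = Nat.card P := (Nat.card_eq_of_bijective (π.subgroupMap P)
    ⟨fun a b e => Subtype.ext (h.inj_p hP a.2 b.2 (congrArg Subtype.val e)), π.subgroupMap_surjective P⟩).symm

/-- 2-elements of the image lift to 2-elements -/
theorem Fr.lift (h : Fr π) {y : G} (hy : y ∈ π.range) {n : ℕ} (h2 : y ^ 2 ^ n = 1) :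
    ∃ a : SL m F, a ^ 2 ^ n = 1 ∧ π a = y := by
  obtain ⟨a, rfl⟩ := hy
  have z : π (a ^ 2 ^ n) = 1 := by rw [map_pow, h2]
  obtain ⟨k, hk⟩ := exists_pow_eq_self_of_coprime (x := a ^ 2 ^ n) (n := 2 ^ n)
    ((Nat.coprime_two_left.2 (odd_center (h z))).pow_left n)
  refine ⟨a * ((a ^ 2 ^ n) ^ k)⁻¹, ?_, by rw [map_mul, map_inv, map_pow, z]; simp⟩
  rw [Commute.mul_pow (((Commute.refl a).pow_right _).pow_right _).inv_right, inv_pow, ← pow_mul _ k, mul_comm k,
    pow_mul _ _ k, hk, mul_inv_cancel]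

theorem Fr.lift_inv (h : Fr π) {y : G} (hy : y ∈ π.range) (h2 : y * y = 1) :
    ∃ a : SL m F, a * a = 1 ∧ π a = y := by
  simpa only [pow_one, pow_two] using h.lift hy (n := 1) (by rw [pow_one, pow_two, h2])

theorem Fr.commute (h : Fr π) {a b : SL m F} {n : ℕ} (ha : a ^ 2 ^ n = 1)
    (hab : Commute (π a) (π b)) : Commute a b := by
  have := h.inj2 (a := b * a * b⁻¹) (b := a) (by rw [conj_pow, ha]; simp) ha
    (by rw [map_mul, map_mul, map_inv, ← hab.eq, mul_inv_cancel_right])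
  exact (mul_inv_eq_iff_eq_mul.1 this).symm

theorem Fr.center (hm : 3 ≤ m) (h : Fr π) {a : SL m F} (ha : ∀ b, Commute (π a) (π b)) :
    a ∈ center (SL m F) := center_of_comm hm fun b => h (by
    rw [MonoidHom.mem_ker, map_mul, map_mul, map_mul, map_inv, map_inv, (ha b).eq]; simp)

theorem Fr.odd (hm : 3 ≤ m) (h : Fr π) {y : G} (hy : y ∈ π.range) (hc : ∀ b, Commute y (π b)) :
    Odd (orderOf y) := by
  obtain ⟨a, rfl⟩ := hy
  exact (odd_center (h.center hm hc)).of_dvd_nat (orderOf_map_dvd π a)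

theorem Fr.isConj (h : Fr π) {a b : SL m F} (ha : a * a = 1) (hb : b * b = 1) {s : SL m F}
    (hs : π s * π a * (π s)⁻¹ = π b) : s * a * s⁻¹ = b := h.inj_inv (by rw [conj_mul, ha]; simp) hb (by rw [map_mul, map_mul, map_inv, hs])

theorem Fr.odd_relIndex (h : Fr π) : Odd (((U m F).map π).relIndex π.range) := by
  rw [MonoidHom.range_eq_map, Subgroup.relIndex_map_map, top_sup_eq, Subgroup.relIndex_top_right]
  exact odd_index_U.of_dvd_nat (Subgroup.index_dvd_of_le le_sup_left)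

theorem perfect_range (hm : 3 ≤ m) (π : SL m F →* G) : ⁅π.range, π.range⁆ = π.range := by
  rw [← map_commutator_eq, commutator_SL hm, MonoidHom.range_eq_map]

/-- a normal subgroup of the image is central or everything -/
theorem Fr.normal (hm : 3 ≤ m) (h : Fr π) {N : Subgroup G}
    (hN : π.range ≤ normalizer (N : Set G)) :
    π.range ≤ N ∨ ∀ y ∈ N, y ∈ π.range → ∀ b, Commute y (π b) := by
  have : (N.comap π).Normal := ⟨fun a ha s => by
    rw [mem_comap, map_mul, map_mul, map_inv]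
    exact (mem_normalizer_iff.1 (hN ⟨s, rfl⟩) _).1 ha⟩
  rcases normal_SL hm (N.comap π) with e | e
  · refine .inr ?_
    rintro _ hy ⟨a, rfl⟩ b
    exact (show Commute a b from (mem_center_iff.1 (e hy) b).symm).map π
  · refine .inl ?_
    rintro _ ⟨a, rfl⟩
    exact (e.ge (mem_top a) : a ∈ N.comap π)

theorem comm_center {H : Type*} [Group H] {a b a' b' : H} (ha : a⁻¹ * a' ∈ center H) (hb : b⁻¹ * b' ∈ center H) :
    ⁅a', b'⁆ = ⁅a, b⁆ := by
  have e1 := mem_center_iff.1 ha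
  have e2 := mem_center_iff.1 hb
  rw [← mul_inv_cancel_left a a', ← mul_inv_cancel_left b b']
  generalize a⁻¹ * a' = y at *
  generalize b⁻¹ * b' = z at *
  calc _ = a * (y * (b * (z * (y⁻¹ * a⁻¹) * z⁻¹) * b⁻¹)) := by rw [commutatorElement_def]; group
    _ = a * (y * b * y⁻¹ * a⁻¹ * b⁻¹) := by rw [← e2]; group
    _ = _ := by rw [← e1, commutatorElement_def]; group

/-- `n` induces an automorphism of `range π / centre ≃ PSL`; lift it by `exists_lift`; the
discrepancy is a homomorphism from the perfect group `SL` to the centre of the range. -/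
theorem Fr.exists_ac (hm : 3 ≤ m) (h : Fr π) {n : G} (hn : n ∈ normalizer (π.range : Set G)) :
    ∃ α, Ac π n α := by
  choose c hc using fun a => (mem_normalizer_iff.1 hn (π a)).1 ⟨a, rfl⟩
  have q : ∀ {a b : SL m F}, π a = π b →
      (QuotientGroup.mk a : ProjectiveSpecialLinearGroup (Fin m) F) = QuotientGroup.mk b :=
    fun e => QuotientGroup.eq.2 (h.cen e)
  let f : SL m F →* ProjectiveSpecialLinearGroup (Fin m) F := MonoidHom.mk' (fun a => QuotientGroup.mk (c a))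
    fun a b => (q (b := c a * c b) (by rw [map_mul, hc, hc, hc, map_mul, conj_mul]))
  have sj : ∀ b, ∃ a, π (c a) = π b := fun b => by
    obtain ⟨a, ha⟩ := (mem_normalizer_iff.1 (Subgroup.inv_mem _ hn) (π b)).1 ⟨b, rfl⟩
    exact ⟨a, by rw [hc, ha]; group⟩
  have f1 : Function.Surjective f := fun y => by
    obtain ⟨b, rfl⟩ := QuotientGroup.mk_surjective y
    exact (sj b).imp fun a ha => q ha
  have f2 : Subgroup.center (SL m F) = f.ker := Subgroup.ext fun a => by
    refine Iff.trans ⟨fun e => h.center hm fun b => ?_, fun e => h.center hm fun b => ?_⟩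
      (QuotientGroup.eq_one_iff (c a)).symm
    · obtain ⟨b', hb⟩ := sj b
      rw [← hb, hc, hc]
      exact ((show Commute a b' from (mem_center_iff.1 e b').symm).map π).conj n
    · have := (show Commute (c a) (c b) from (mem_center_iff.1 e _).symm).map π
      rw [hc, hc] at this
      exact (Commute.conj_iff n).1 this
  obtain ⟨α, -, -, -, hα⟩ := exists_lift hm (QuotientGroup.liftEquiv _ f1 f2)
  have z : ∀ a, (c a)⁻¹ * α a ∈ Subgroup.center (SL m F) := fun a => QuotientGroup.eq.1 (hα a)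
  have : ⊤ ≤ (CL.SC.tw n π).eqLocus (CL.SC.rf π α) := by
    rw [← commutator_SL hm, commutator_def, Subgroup.commutator_le]
    intro a _ b _
    show CL.SC.tw n π _ = π (α _)
    rw [map_commutatorElement α, comm_center (z a) (z b), map_commutatorElement, map_commutatorElement, hc, hc]
    rfl
  exact ⟨α, fun a => this (mem_top a)⟩

theorem Ac.unique (hm : 3 ≤ m) (h : Fr π) {n : G} {α β : MulAut (SL m F)} (h1 : Ac π n α)
    (h2 : Ac π n β) : α = β := aut_ext hm fun a => h.cen ((h1 a).symm.trans (h2 a))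

theorem Ac.mul {n n' : G} {α β : MulAut (SL m F)} (h1 : Ac π n α) (h2 : Ac π n' β) :
    Ac π (n * n') (α * β) := fun a => by
  rw [MulAut.mul_apply, ← h1, ← h2]; group

theorem Ac.inv {n : G} {α : MulAut (SL m F)} (h1 : Ac π n α) : Ac π n⁻¹ α⁻¹ := fun a => by
  have := h1 (α⁻¹ a)
  rw [MulAut.apply_inv_self] at this
  rw [← this]; group

theorem ac_one {n : G} : Ac π n 1 ↔ ∀ a, Commute n (π a) := forall_congr' fun a => mul_inv_eq_iff_eq_mul

theorem Ac.pow {n : G} {α : MulAut (SL m F)} (h1 : Ac π n α) (k : ℕ) : Ac π (n ^ k) (α ^ k) := by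
  induction k with
  | zero => exact fun a => by simp
  | succ k ih => rw [pow_succ, pow_succ]; exact ih.mul h1

theorem ac_self (π : SL m F →* G) (a : SL m F) : Ac π (π a) (MulAut.conj a) := fun b => by simp

theorem Ac.mem {n : G} {α : MulAut (SL m F)} (h : Ac π n α) :
    n ∈ normalizer (π.range : Set G) := mem_normalizer_iff.2 fun y =>
    ⟨fun ⟨a, e⟩ => ⟨α a, by rw [← h, e]⟩, fun ⟨a, e⟩ => ⟨α⁻¹ a, by rw [← h.inv, e]; group⟩⟩

theorem Ac.tw {n : G} {α : MulAut (SL m F)} (h : Ac π n α) (g : G) :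
    Ac (tw g π) (g * n * g⁻¹) α := fun a => by
  rw [tw_apply, tw_apply, ← h]; group

theorem Ac.rf {n : G} {α : MulAut (SL m F)} (h : Ac π n α) (β : MulAut (SL m F)) :
    Ac (rf π β) n (β⁻¹ * α * β) := fun a => by
  rw [rf_apply, rf_apply, h, MulAut.mul_apply, MulAut.mul_apply, MulAut.apply_inv_self]

theorem Ac.eq_one (hm : 3 ≤ m) (h : Fr π) {n : G} {α : MulAut (SL m F)} (h1 : Ac π n α)
    (hn : ∀ a, Commute n (π a)) : α = 1 := h1.unique hm h (ac_one.2 hn)

theorem Ac.pow_eq_one (hm : 3 ≤ m) (h : Fr π) {n : G} {α : MulAut (SL m F)} (h1 : Ac π n α) {k : ℕ}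
    (hn : n ^ k = 1) : α ^ k = 1 := (h1.pow k).eq_one hm h fun a => hn ▸ Commute.one_left _

theorem Ac.sq (hm : 3 ≤ m) (h : Fr π) {n : G} {α : MulAut (SL m F)} (h1 : Ac π n α)
    (hn : n * n = 1) : α * α = 1 := (h1.mul h1).eq_one hm h fun a => hn ▸ Commute.one_left _

theorem Ac.commute {n : G} {α : MulAut (SL m F)} (h1 : Ac π n α) {a : SL m F} (ha : α a = a) :
    Commute n (π a) := mul_inv_eq_iff_eq_mul.1 ((h1 a).trans (by rw [ha]))

theorem Ac.fix (h : Fr π) {n : G} {α : MulAut (SL m F)} (h1 : Ac π n α) {a : SL m F} {k : ℕ}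
    (ha : a ^ 2 ^ k = 1) : Commute n (π a) ↔ α a = a := ⟨fun e => h.inj2 (by rw [← map_pow, ha, map_one]) ha
    (by rw [← h1, e.eq, mul_inv_cancel_right]), h1.commute⟩

/-- the action of the normaliser as a homomorphism -/
theorem Fr.exists_hom (hm : 3 ≤ m) (h : Fr π) :
    ∃ θ : normalizer (π.range : Set G) →* MulAut (SL m F),
      ∀ n : normalizer (π.range : Set G), Ac π (n : G) (θ n) := by
  choose θ hθ using fun n : normalizer (π.range : Set G) => h.exists_ac hm n.2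
  exact ⟨MonoidHom.mk' θ fun a b => (hθ (a * b)).unique hm h ((hθ a).mul (hθ b)), hθ⟩

/-- elements of the derived group of a subgroup of the normaliser act as inner-diagonal ones -/
theorem Fr.ty_comm (hm : 3 ≤ m) (h : Fr π) {H : Subgroup G} (hH : H ≤ normalizer (π.range : Set G))
    {n : G} (hn : n ∈ ⁅H, H⁆) {α : MulAut (SL m F)} (h1 : Ac π n α) : Ty α 1 false := by
  obtain ⟨θ, hθ⟩ := h.exists_hom hm
  have := Subgroup.commutator_mono hH hH hn
  rw [← Subgroup.map_subtype_commutator] at this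
  obtain ⟨n, hn', rfl⟩ := this
  rw [h1.unique hm h (hθ n)]
  refine ty_of_mem_commutator hm (Subgroup.commutator_mono (H₁ := θ.range) (H₂ := θ.range) le_top le_top ?_)
  rw [← map_commutator_eq]
  exact ⟨n, hn', rfl⟩

end CL.SC
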