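import Cfsg.Agent.INV.SC.K1a
import Cfsg.Agent.INV.SC.CA
import Cfsg.Agent.INV.SC.StdA

/-!
Elementary abelian subgroups of the automorphism group.
-/

set_option autoImplicit false
set_option linter.unusedSectionVars false
set_option linter.unusedVariables false

namespace CL.SC

open Matrix Subgroup
open scoped commutatorElement

variable {m : ℕ} [NeZero m] {F : Type*} [Field F] [Finite F] [CharP F 2]

theorem K1.exists_T {α : MulAut (SL m F)} {σ : F ≃+* F} {ε : Bool} (h : Ty α σ ε) :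
    ∃ T : Matrix (Fin m) (Fin m) F →+ Matrix (Fin m) (Fin m) F, (∀ c N, T (c • N) = σ c • T N) ∧
      ∀ a : SL m F, a * a = 1 → T ((a : Matrix (Fin m) (Fin m) F) - 1) =
        ((α a : SL m F) : Matrix (Fin m) (Fin m) F) - 1 := by
  obtain ⟨g, rfl⟩ := h
  have hs : ∀ (c : F) (N : Matrix (Fin m) (Fin m) F), (c • N).map σ = σ c • N.map σ := fun c N => by
    ext i j
    simp
  have ha : ∀ N M : Matrix (Fin m) (Fin m) F, (N + M).map σ = N.map σ + M.map σ := fun N M => by
    ext i j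
    simp
  have h1 : ∀ N : Matrix (Fin m) (Fin m) F, (N - 1).map σ = N.map σ - 1 := fun N => by
    ext i j
    simp [one_apply, apply_ite σ]
  cases ε
  · refine ⟨AddMonoidHom.mk' (fun N => (g : Matrix (Fin m) (Fin m) F) * N.map σ *
      ((g⁻¹ : GL (Fin m) F) : Matrix (Fin m) (Fin m) F)) fun N M => by rw [ha, mul_add, add_mul],
      fun c N => ?_, fun a _ => ?_⟩
    · simp only [AddMonoidHom.mk'_apply, hs, mul_smul_comm, smul_mul_assoc]
    · rw [AddMonoidHom.mk'_apply, h1, mul_sub, sub_mul, mul_one, Units.mul_inv, MulAut.mul_apply,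
        inn_val, std_false]
      rfl
  · refine ⟨AddMonoidHom.mk' (fun N => (g : Matrix (Fin m) (Fin m) F) *
      (SA.J m F * (N.map σ)ᵀ * SA.J m F) * ((g⁻¹ : GL (Fin m) F) : Matrix (Fin m) (Fin m) F))
      fun N M => by rw [ha, transpose_add, mul_add, add_mul, mul_add, add_mul],
      fun c N => ?_, fun a h2 => ?_⟩
    · simp only [AddMonoidHom.mk'_apply, hs, transpose_smul, mul_smul_comm, smul_mul_assoc]
    · rw [AddMonoidHom.mk'_apply, h1, transpose_sub, transpose_one, mul_sub, sub_mul, mul_one,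
        SA.J_J, mul_sub, sub_mul, mul_one, Units.mul_inv, MulAut.mul_apply, inn_val,
        SA.std_true_val, inv_eq_of_mul_eq_one_right h2]

/-- a graph involution comes from a symmetric matrix -/
theorem K1.exists_B {α : MulAut (SL m F)} (h : Ty α 1 true) (h2 : α * α = 1) :
    ∃ B : Matrix (Fin m) (Fin m) F, B.det ≠ 0 ∧ Bᵀ = B ∧ ∀ a : SL m F, a * a = 1 → α a = a →
      B * a = (a : Matrix (Fin m) (Fin m) F)ᵀ * B := by
  obtain ⟨g, hg⟩ := h
  obtain ⟨P, hP⟩ : ∃ P, P = (g : Matrix (Fin m) (Fin m) F) * SA.J m F := ⟨_, rfl⟩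
  obtain ⟨B, hB⟩ : ∃ B, B = SA.J m F * ((g⁻¹ : GL (Fin m) F) : Matrix (Fin m) (Fin m) F) := ⟨_, rfl⟩
  have hBP : B * P = 1 := by
    rw [hB, hP, mul_assoc, Units.inv_mul_cancel_left, SA.J_J]
  have hPB : P * B = 1 := mul_eq_one_comm.1 hBP
  have h3 : ∀ a : SL m F, ((α a : SL m F) : Matrix (Fin m) (Fin m) F) =
      P * ((a⁻¹ : SL m F) : Matrix (Fin m) (Fin m) F)ᵀ * B := fun a => by
    rw [hg, MulAut.mul_apply, inn_val, SA.std_true_val, hP, hB]
    simp only [mul_assoc]
    rfl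
  have h4 : ∀ b : SL m F, Commute (b : Matrix (Fin m) (Fin m) F) (Pᵀ * B) := fun b => by
    have e1 := h3 (α b)
    rw [← MulAut.mul_apply, h2, MulAut.one_apply, ← map_inv, h3, inv_inv, transpose_mul,
      transpose_mul, transpose_transpose] at e1
    have e2 : Pᵀ * Bᵀ = 1 := by rw [← transpose_mul, hBP, transpose_one]
    have e3 : Pᵀ * B * (b : Matrix (Fin m) (Fin m) F) =
        Pᵀ * (B * P) * Bᵀ * (b * (Pᵀ * B)) := by
      conv_lhs => rw [e1]
      simp only [mul_assoc]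
    rw [hBP, mul_one, e2, one_mul] at e3
    exact e3.symm
  obtain ⟨c, hc⟩ := Matrix.mem_range_scalar_of_commute_single (M := Pᵀ * B) fun i j hij => by
    have := (h4 (x i j 1)).eq
    rw [x_val hij, mul_add, add_mul, mul_one, one_mul] at this
    exact add_left_cancel this
  have h5 : Pᵀ = c • P := by
    rw [← mul_one Pᵀ, ← hBP, ← mul_assoc, ← hc, scalar_apply, ← smul_one_eq_diagonal,
      smul_mul_assoc, one_mul]
  have h6 : c = 1 := by
    have e1 := congrArg transpose h5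
    rw [transpose_transpose, transpose_smul, h5, smul_smul] at e1
    have e2 := congrArg (fun N => (N * B) 0 0) e1
    simp only [smul_mul_assoc, hPB, Matrix.smul_apply, one_apply_eq, smul_eq_mul, mul_one] at e2
    exact eq_one_of_pow (n := 1) (by rw [pow_one, pow_two, ← e2])
  rw [h6, one_smul] at h5
  refine ⟨B, (isUnit_det_of_right_inverse hBP).ne_zero, ?_, fun a ha e => ?_⟩
  · rw [← mul_one Bᵀ, ← hPB, ← mul_assoc, ← h5, ← transpose_mul, hPB, transpose_one, one_mul]
  · have := h3 a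
    rw [e, inv_eq_of_mul_eq_one_right ha] at this
    conv_lhs => rw [this]
    rw [← mul_assoc, ← mul_assoc, hBP, one_mul]

theorem K1.card_le_mul {H ι : Type*} [Group H] [Finite H] [Finite ι] (E K : Subgroup H) (f : H → ι)
    (hf : ∀ β ∈ E, ∀ γ ∈ E, f β = f γ → β⁻¹ * γ ∈ K) : Nat.card E ≤ Nat.card ι * Nat.card K := by
  rw [← Nat.card_prod]
  let r : ι → E := Function.invFun fun β : E => f β
  have hr : ∀ β : E, f (r (f β)) = f β := fun β =>
    Function.invFun_eq (f := fun β : E => f β) ⟨β, rfl⟩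
  refine Nat.card_le_card_of_injective
    (fun β : E => (f β, (⟨_, hf _ (r (f β)).2 _ β.2 (hr β)⟩ : K))) fun β γ h => ?_
  have h1 : f β = f γ := congrArg Prod.fst h
  have h2 : (r (f β) : H)⁻¹ * β = (r (f γ) : H)⁻¹ * γ := congrArg (fun p => (p.2 : H)) h
  rw [h1] at h2
  exact Subtype.ext (mul_left_cancel h2)

theorem K1.comm {H : Type*} [Group H] {E : Subgroup H} (hE : El E) {a b : H} (ha : a ∈ E)
    (hb : b ∈ E) : a * b * a⁻¹ = b := by
  have hinv : ∀ a ∈ E, a⁻¹ = a := fun a ha => inv_eq_of_mul_eq_one_right (hE a ha)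
  rw [← hinv _ (mul_mem ha hb), _root_.mul_inv_rev, hinv b hb, mul_assoc, ← _root_.mul_inv_rev,
    hE a ha, inv_one, mul_one]

theorem K1.fix {E : Subgroup (MulAut (SL m F))} (hE : El E) {β : MulAut (SL m F)} (hβ : β ∈ E)
    {a : SL m F} (h2 : a * a = 1) (ha : MulAut.conj a ∈ E) : β a = a :=
  conj_inj_sq (by rw [← map_mul, h2, map_one]) h2 (by
    rw [← K1.comm hE hβ ha, mul_conj, mul_inv_cancel_right])

/-- the involutions inducing elements of `E` -/
def K1.E0 {E : Subgroup (MulAut (SL m F))} (hE : El E) : Subgroup (SL m F) where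
  carrier := {a | a * a = 1 ∧ MulAut.conj a ∈ E}
  one_mem' := ⟨mul_one _, by rw [map_one]; exact one_mem _⟩
  mul_mem' := fun {a b} ha hb => ⟨by
    have h : a * b * a⁻¹ = b := K1.fix hE ha.2 hb.1 hb.2
    rw [inv_eq_of_mul_eq_one_right ha.1] at h
    rw [← mul_assoc, h, hb.1], by rw [map_mul]; exact mul_mem ha.2 hb.2⟩
  inv_mem' := fun {a} ha => by rwa [inv_eq_of_mul_eq_one_right ha.1]

theorem K1.el_E0 {E : Subgroup (MulAut (SL m F))} (hE : El E) : El (K1.E0 hE) := fun _ ha => ha.1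

theorem K1.E0_le {E : Subgroup (MulAut (SL m F))} (hE : El E) {β : MulAut (SL m F)} (hβ : β ∈ E) :
    K1.E0 hE ≤ Fx β := fun _ ha => K1.fix hE hβ ha.1 ha.2

theorem K1.mem_map (hm : 3 ≤ m) {E : Subgroup (MulAut (SL m F))} (hE : El E) {β : MulAut (SL m F)}
    (hβ : β ∈ E) (h : Ty β 1 false) :
    β ∈ (K1.E0 hE).map (MulAut.conj : SL m F →* MulAut (SL m F)) := by
  obtain ⟨a, ha, rfl⟩ := h.invol hm (hE β hβ)
  exact ⟨a, ⟨ha, hβ⟩, rfl⟩

theorem K1.card_map {E : Subgroup (MulAut (SL m F))} (hE : El E) :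
    Nat.card ((K1.E0 hE).map (MulAut.conj : SL m F →* MulAut (SL m F))) ≤ Nat.card (K1.E0 hE) :=
  Nat.le_of_dvd Nat.card_pos (Subgroup.card_map_dvd _ _)

theorem K1.eq_map (hm : 3 ≤ m) {E : Subgroup (MulAut (SL m F))} (hE : El E)
    (h : ∀ β ∈ E, ¬ Ou β) : E = (K1.E0 hE).map (MulAut.conj : SL m F →* MulAut (SL m F)) :=
  le_antisymm (fun β hβ => K1.mem_map hm hE hβ (not_not.1 (h β hβ))) (by
    rintro _ ⟨a, ha, rfl⟩
    exact ha.2)

/-- `α = inn g * std σ ε` acts on `a = 1 + N`, `N ^ 2 = 0`, by `N ↦ g N^σ g⁻¹` or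
`N ↦ g J N^{σ T} J g⁻¹`; this is a `σ`-semilinear map of `sp E`, its fixed points `Y ∋ a - 1`
satisfy `Y ⊓ θ Y = 0` for `σ θ ≠ θ`. -/
theorem card_sq_le (hm : 3 ≤ m) {E : Subgroup (SL m F)} (hE : El E) {α : MulAut (SL m F)}
    {σ : F ≃+* F} {ε : Bool} (h : Ty α σ ε) (hσ : σ ≠ 1) (hf : E ≤ Fx α) :
    Nat.card E ^ 2 ≤ Nat.card F ^ Module.finrank F (sp E) := by
  obtain ⟨T, h1, h2⟩ := K1.exists_T h
  obtain ⟨θ, hθ⟩ : ∃ θ, σ θ ≠ θ := by
    by_contra h0
    push Not at h0
    exact hσ (RingEquiv.ext h0)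
  have h3 : ∀ a : E, T (((a : SL m F) : Matrix (Fin m) (Fin m) F) - 1) =
      ((a : SL m F) : Matrix (Fin m) (Fin m) F) - 1 := fun a => by
    rw [h2 a (hE a a.2), mem_Fx.1 (hf a.2)]
  rw [← Module.natCard_eq_pow_finrank, pow_two, ← Nat.card_prod]
  refine Nat.card_le_card_of_injective (fun p : E × E =>
    (⟨_, add_mem (mem_sp p.1.2) (Submodule.smul_mem _ θ (mem_sp p.2.2))⟩ : sp E)) ?_
  rintro ⟨a, b⟩ ⟨a', b'⟩ e
  have e1 := congrArg Subtype.val e
  dsimp only at e1
  have e2 := congrArg T e1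
  rw [map_add, map_add, h1, h1, h3, h3, h3, h3] at e2
  have e3 : (σ θ - θ) • ((((b : SL m F) : Matrix (Fin m) (Fin m) F) - 1) -
      (((b' : SL m F) : Matrix (Fin m) (Fin m) F) - 1)) = 0 := by
    linear_combination (norm := module) e2 - e1
  have e4 := sub_eq_zero.1 ((smul_eq_zero.1 e3).resolve_left (sub_ne_zero.2 hθ))
  rw [e4, add_left_inj] at e1
  exact Prod.ext (Subtype.ext (Subtype.ext (sub_left_injective e1)))
    (Subtype.ext (Subtype.ext (sub_left_injective e4)))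

/-- If the dimension is `cc m`, `α` (linear on `sp E`) centralises a conjugate of `A d`
(`sp_eq`), contradicting `cent_A`.  For `m ≥ 5`: `α = inn g * gr`, `B = (g J)⁻¹` is symmetric as
`α * α = 1` (`Bᵀ = λ B`, `λ ^ 2 = 1`); use `finrank_sp_adj`. -/
theorem finrank_graph (hm : 3 ≤ m) {E : Subgroup (SL m F)} (hE : El E) {α : MulAut (SL m F)}
    (h : Ty α 1 true) (h2 : α * α = 1) (hf : E ≤ Fx α) :
    Module.finrank F (sp E) + 1 ≤ cc m ∧ (5 ≤ m → Module.finrank F (sp E) + 2 ≤ cc m) := by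
  refine ⟨?_, fun h5 => ?_⟩
  · by_contra h0
    obtain ⟨s, d, hd, hs⟩ := sp_eq hm hE (by omega)
    obtain ⟨T, h1, h3⟩ := K1.exists_T h
    have h4 : ∀ N ∈ sp E, T N = N := by
      intro N hN
      induction hN using Submodule.span_induction with
      | mem _ ha =>
        obtain ⟨a, ha, rfl⟩ := ha
        rw [h3 a (hE a ha), mem_Fx.1 (hf ha)]
      | zero => exact map_zero T
      | add N M _ _ e e' => rw [map_add, e, e']
      | smul r N _ e => rw [h1, e]; rfl
    obtain ⟨a, -, ha⟩ := cent_A hm (d := d) (by omega) (by omega)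
      (α := (MulAut.conj s)⁻¹ * α * (MulAut.conj s)⁻¹⁻¹) fun a ha => by
        have e1 := h4 _ ((hs (MulAut.conj s a)).1 ⟨a, ha, rfl⟩)
        rw [h3 _ (by rw [← map_mul, el_A d a ha, map_one])] at e1
        rw [inv_inv, MulAut.mul_apply, MulAut.mul_apply,
          show α (MulAut.conj s a) = MulAut.conj s a from Subtype.ext (sub_left_injective e1)]
        exact (MulAut.conj s).symm_apply_apply a
    exact absurd (Ty.unique hm (h.conj hm _) (ha ▸ ty_conj a)).2 (by simp)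
  · obtain ⟨B, h1, h3, h4⟩ := K1.exists_B h h2
    refine finrank_sp_adj h5 hE h1 h3 fun N hN => ?_
    induction hN using Submodule.span_induction with
    | mem _ ha =>
      obtain ⟨a, ha, rfl⟩ := ha
      rw [transpose_sub, mul_sub, sub_mul, h4 a (hE a ha) (hf ha), transpose_one, mul_one, one_mul]
    | zero => simp
    | add N M _ _ e e' => rw [mul_add, transpose_add, add_mul, e, e']
    | smul r N _ e => rw [mul_smul_comm, transpose_smul, smul_mul_assoc, e]

/-- Let `E0 = {a : SL | a * a = 1, conj a ∈ E}`, a subgroup (`Ty.invol`; lifts commute as the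
centre has odd order) mapped bijectively onto the kernel of the type map on `E`; the image has
order `1, 2, 4` (`aut_inv_unique`).  Order 2: semilinear `|E|² ≤ 4 q^c < q^(2c)`; graph
`|E| ≤ 2 q^(c-1) < q^c` for `q ≥ 4`, `2 · 2^(c-2)` for `q = 2` (`m ≥ 5`).  Order 4: both kinds
occur, `|E|² ≤ 16 q^(c-1) < q^(2c)` as `q ≥ 4`, `c ≥ 2`. -/
theorem card_lt_of_outer (hp : Par m F) {E : Subgroup (MulAut (SL m F))} (hE : El E)
    {α : MulAut (SL m F)} (hα : α ∈ E) (ho : Ou α) : Nat.card E < Nat.card F ^ cc m := by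
  classical
  have hm := hp.1
  choose σ ε hty using exists_ty (F := F) hm
  have hq : 2 ≤ Nat.card F := Finite.one_lt_card
  have hc : 2 ≤ cc m := by
    have := Gu.mul_le_cc (m := m) (d := 1) (e := m - 1) (by omega)
    omega
  have hK : ∀ β ∈ E, ∀ γ ∈ E, σ β = σ γ → ε β = ε γ →
      β⁻¹ * γ ∈ (K1.E0 hE).map (MulAut.conj : SL m F →* MulAut (SL m F)) := by
    intro β hβ γ hγ e1 e2
    have := (hty β).inv.mul (hty γ)
    rw [e1, e2, inv_mul_cancel, Bool.xor_self] at this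
    exact K1.mem_map hm hE (mul_mem (inv_mem hβ) hγ) this
  have hsq : ∀ β ∈ E, σ β * σ β = 1 := fun β hβ => (hty β).sq hm (hE β hβ)
  have hσ : ∀ β ∈ E, ∀ γ ∈ E, decide (σ β = 1) = decide (σ γ = 1) → σ β = σ γ := by
    intro β hβ γ hγ e
    by_cases h1 : σ β = 1
    · rw [h1, eq_comm]
      simpa [h1] using e
    · exact aut_inv_unique h1 (hsq β hβ) (by simpa [h1] using e) (hsq γ hγ)
  have h0 := K1.card_map hE
  have hD := finrank_sp_le (K1.el_E0 hE)
  generalize hn : Nat.card ((K1.E0 hE).map (MulAut.conj : SL m F →* MulAut (SL m F))) = n at h0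
  by_cases ha : ∃ β ∈ E, σ β ≠ 1
  · obtain ⟨β, hβ, h1⟩ := ha
    have h2 := card_sq_le hm (K1.el_E0 hE) (hty β) h1 (K1.E0_le hE hβ)
    have h4 : 4 ≤ Nat.card F := by
      obtain ⟨k, hk, e, -⟩ := aut_two h1 (hsq β hβ)
      have : 2 ^ 1 ≤ 2 ^ k := Nat.pow_le_pow_right two_pos hk
      rw [e]
      nlinarith
    have h5 : n ^ 2 ≤ Nat.card F ^ Module.finrank F (sp (K1.E0 hE)) :=
      (Nat.pow_le_pow_left h0 2).trans h2
    refine lt_of_pow_lt_pow_left₀ 2 (Nat.zero_le _) ?_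
    have h16 : 16 ≤ Nat.card F ^ cc m :=
      (by norm_num : 16 ≤ 4 ^ 2).trans ((Nat.pow_le_pow_left h4 2).trans
        (Nat.pow_le_pow_right Nat.card_pos hc))
    by_cases hb : ∃ γ ∈ E, Ty γ 1 true
    · obtain ⟨γ, hγ, h6⟩ := hb
      have h7 := (finrank_graph hm (K1.el_E0 hE) h6 (hE γ hγ) (K1.E0_le hE hγ)).1
      have h8 := K1.card_le_mul E _ (fun β => (decide (σ β = 1), ε β)) fun β hβ γ hγ e =>
        hK β hβ γ hγ (hσ β hβ γ hγ (congrArg Prod.fst e)) (congrArg Prod.snd e)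
      rw [hn, Nat.card_prod, Nat.card_eq_fintype_card (α := Bool), Fintype.card_bool] at h8
      have h9 := Nat.pow_le_pow_right (n := Nat.card F) Nat.card_pos h7
      rw [pow_succ] at h9
      have h10 := Nat.pow_le_pow_left h8 2
      have h11 := Nat.mul_le_mul_left (Nat.card F ^ Module.finrank F (sp (K1.E0 hE))) h4
      nlinarith
    · have h8 := K1.card_le_mul E _ (fun β => decide (σ β = 1)) fun β hβ γ hγ e => by
        have e1 := hσ β hβ γ hγ e
        refine hK β hβ γ hγ e1 ?_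
        by_contra e2
        have := (hty β).inv.mul (hty γ)
        rw [e1, inv_mul_cancel, Bool.xor_iff_ne.2 e2] at this
        exact hb ⟨_, mul_mem (inv_mem hβ) hγ, this⟩
      rw [hn, Nat.card_eq_fintype_card (α := Bool), Fintype.card_bool] at h8
      have h9 := Nat.pow_le_pow_right (n := Nat.card F) Nat.card_pos hD
      have h10 := Nat.pow_le_pow_left h8 2
      nlinarith
  · push Not at ha
    have h6 : Ty α 1 true := by
      have := hty α
      rw [ha α hα] at this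
      rwa [(((hty α).ou hm).1 ho).resolve_left (not_not.2 (ha α hα))] at this
    obtain ⟨h7, h7'⟩ := finrank_graph hm (K1.el_E0 hE) h6 (hE α hα) (K1.E0_le hE hα)
    have h8 := K1.card_le_mul E _ ε fun β hβ γ hγ e =>
      hK β hβ γ hγ (by rw [ha β hβ, ha γ hγ]) e
    rw [hn, Nat.card_eq_fintype_card (α := Bool), Fintype.card_bool] at h8
    have h2 := card_le_sp (K1.E0 hE)
    have hpos : 0 < Nat.card F ^ Module.finrank F (sp (K1.E0 hE)) := pow_pos Nat.card_pos _
    by_cases h4 : m ≤ 4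
    · have h9 := Nat.pow_le_pow_right (n := Nat.card F) Nat.card_pos h7
      rw [pow_succ] at h9
      have h11 := Nat.mul_le_mul_left (Nat.card F ^ Module.finrank F (sp (K1.E0 hE))) (hp.2 h4)
      omega
    · have h9 := Nat.pow_le_pow_right (n := Nat.card F) Nat.card_pos (h7' (by omega))
      rw [pow_add] at h9
      have h11 := Nat.mul_le_mul_left (Nat.card F ^ Module.finrank F (sp (K1.E0 hE)))
        (Nat.pow_le_pow_left hq 2)
      omega

theorem aut_card_le (hp : Par m F) {E : Subgroup (MulAut (SL m F))} (hE : El E) :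
    Nat.card E ≤ Nat.card F ^ cc m := by
  by_cases h : ∃ α ∈ E, Ou α
  · obtain ⟨α, hα, ho⟩ := h
    exact (card_lt_of_outer hp hE hα ho).le
  · push Not at h
    rw [K1.eq_map hp.1 hE h]
    exact (K1.card_map hE).trans (el_card_le (K1.el_E0 hE))

theorem aut_eq_A (hp : Par m F) {E : Subgroup (MulAut (SL m F))} (hE : El E)
    (h : Nat.card F ^ cc m ≤ Nat.card E) : ∃ (s : SL m F) (d : ℕ), (d = m / 2 ∨ d = m - m / 2) ∧
      E = (cj s (A m F d)).map (MulAut.conj : SL m F →* MulAut (SL m F)) := by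
  have h1 := K1.eq_map hp.1 hE fun α hα ho => (card_lt_of_outer hp hE hα ho).not_ge h
  have h2 := K1.card_map hE
  rw [← h1] at h2
  obtain ⟨s, d, hd, e⟩ := el_eq_A hp.1 (K1.el_E0 hE) (h.trans h2)
  exact ⟨s, d, hd, by rw [← e]; exact h1⟩

end CL.SC
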