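import Cfsg.Agent.INV.SC.K1a1

/-!
Elementary abelian subgroups of the special linear group.
-/

set_option autoImplicit false
set_option linter.unusedSectionVars false
set_option linter.unusedVariables false

namespace CL.SC

open Matrix Subgroup
open scoped commutatorElement

variable {m : ℕ} [NeZero m] {F : Type*} [Field F] [Finite F] [CharP F 2]

/-- the span of `a - 1`, `a ∈ E` -/
def sp (E : Subgroup (SL m F)) : Submodule F (Matrix (Fin m) (Fin m) F) :=
  Submodule.span F {N | ∃ a ∈ E, N = (a : Matrix (Fin m) (Fin m) F) - 1}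

theorem mem_sp {E : Subgroup (SL m F)} {a : SL m F} (h : a ∈ E) :
    (a : Matrix (Fin m) (Fin m) F) - 1 ∈ sp E := Submodule.subset_span ⟨a, h, rfl⟩

/-- `sp E` is a commutative algebra of square zero elements
(`(a - 1)(b - 1) = (a b - 1) - (a - 1) - (b - 1)`). -/
theorem sp_alg {E : Subgroup (SL m F)} (hE : El E) : (∀ N ∈ sp E, N * N = 0) ∧
    (∀ N ∈ sp E, ∀ M ∈ sp E, N * M = M * N) ∧ ∀ N ∈ sp E, ∀ M ∈ sp E, N * M ∈ sp E := by
  have hinv : ∀ a ∈ E, a⁻¹ = a := fun a ha => inv_eq_of_mul_eq_one_right (hE a ha)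
  have hc : ∀ a ∈ E, ∀ b ∈ E, a * b = b * a := fun a ha b hb => by
    rw [← hinv _ (mul_mem ha hb), _root_.mul_inv_rev, hinv a ha, hinv b hb]
  have h2 : ∀ N : Matrix (Fin m) (Fin m) F, N + N = 0 := fun N => by
    ext i j
    exact CharTwo.add_self_eq_zero _
  have h3 : ∀ N ∈ sp E, ∀ M ∈ sp E, N * M = M * N ∧ N * M ∈ sp E := by
    intro N hN M hM
    induction hN, hM using Submodule.span_induction₂ with
    | mem_mem _ _ ha hb =>
      obtain ⟨a, ha, rfl⟩ := ha
      obtain ⟨b, hb, rfl⟩ := hb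
      have h4 : (a : Matrix (Fin m) (Fin m) F) * b = b * a := congrArg Subtype.val (hc a ha b hb)
      refine ⟨by simp only [mul_sub, sub_mul, mul_one, one_mul, h4]; abel, ?_⟩
      have h5 : ((a : Matrix (Fin m) (Fin m) F) - 1) * (b - 1) =
          (((a * b : SL m F) : Matrix (Fin m) (Fin m) F) - 1) - (a - 1) - (b - 1) := by
        simp only [mul_sub, sub_mul, mul_one, one_mul, Matrix.SpecialLinearGroup.coe_mul]
        abel
      rw [h5]
      exact sub_mem (sub_mem (mem_sp (mul_mem ha hb)) (mem_sp ha)) (mem_sp hb)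
    | zero_left => simp
    | zero_right => simp
    | add_left _ _ _ _ _ _ h h' =>
      exact ⟨by rw [add_mul, mul_add, h.1, h'.1], by rw [add_mul]; exact add_mem h.2 h'.2⟩
    | add_right _ _ _ _ _ _ h h' =>
      exact ⟨by rw [add_mul, mul_add, h.1, h'.1], by rw [mul_add]; exact add_mem h.2 h'.2⟩
    | smul_left r _ _ _ _ h =>
      exact ⟨by rw [smul_mul_assoc, mul_smul_comm, h.1],
        by rw [smul_mul_assoc]; exact Submodule.smul_mem _ _ h.2⟩
    | smul_right r _ _ _ _ h =>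
      exact ⟨by rw [smul_mul_assoc, mul_smul_comm, h.1],
        by rw [mul_smul_comm]; exact Submodule.smul_mem _ _ h.2⟩
  refine ⟨fun N hN => ?_, fun N hN M hM => (h3 N hN M hM).1, fun N hN M hM => (h3 N hN M hM).2⟩
  induction hN using Submodule.span_induction with
  | mem _ ha =>
    obtain ⟨a, ha, rfl⟩ := ha
    have h4 : (a : Matrix (Fin m) (Fin m) F) * a = 1 := congrArg Subtype.val (hE a ha)
    rw [mul_sub, sub_mul, sub_mul, h4, mul_one, one_mul, mul_one, ← h2 (1 - a)]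
    abel
  | zero => simp
  | add N M hN hM h h' => rw [add_mul, mul_add, mul_add, h, h', (h3 N hN M hM).1, zero_add,
      add_zero, h2]
  | smul r N hN h => rw [smul_mul_assoc, mul_smul_comm, h, smul_zero, smul_zero]

theorem sp_Alg {E : Subgroup (SL m F)} (hE : El E) : Gu.Alg (sp E) :=
  ⟨(sp_alg hE).1, (sp_alg hE).2.1, (sp_alg hE).2.2⟩

theorem card_le_sp (E : Subgroup (SL m F)) :
    Nat.card E ≤ Nat.card F ^ Module.finrank F (sp E) := by
  rw [← Module.natCard_eq_pow_finrank]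
  refine Nat.card_le_card_of_injective (fun a : E => (⟨_, mem_sp a.2⟩ : sp E)) fun a b h => ?_
  exact Subtype.ext (Subtype.ext (sub_left_injective (congrArg Subtype.val h)))

/-- Gustafson's argument.  `𝒩 = sp E`, `W = 𝒩 V`, `v 1, …, v d` a basis of a complement of `W`;
they generate `V` as a module over `F + 𝒩` (`𝒩` is nilpotent: it is spanned by finitely many
commuting square zero elements), so `N ↦ (N (v i))_i ∈ W ^ d` is injective and
`dim 𝒩 ≤ d (m - d) ≤ cc m`. -/
theorem finrank_sp_le {E : Subgroup (SL m F)} (hE : El E) : Module.finrank F (sp E) ≤ cc m :=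
  (sp_Alg hE).le_cc

/-- conjugates of `A d` in terms of a subspace -/
theorem exists_cj_A (W : Submodule F (Fin m → F)) : ∃ s : SL m F, ∀ a : SL m F,
    a ∈ cj s (A m F (Module.finrank F W)) ↔ (∀ v, ((a : Matrix (Fin m) (Fin m) F) - 1) *ᵥ v ∈ W) ∧
      ∀ w ∈ W, ((a : Matrix (Fin m) (Fin m) F) - 1) *ᵥ w = 0 := by
  obtain ⟨d, hd⟩ : ∃ d, d = Module.finrank F W := ⟨_, rfl⟩
  rw [← hd]
  have hdm : d ≤ m := by
    have := W.finrank_le
    rwa [Module.finrank_fin_fun, ← hd] at this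
  let p := LinearMap.funLeft F F (Subtype.val : {i : Fin m // d ≤ (i : ℕ)} → Fin m)
  have hp : ∀ v, v ∈ LinearMap.ker p ↔ ∀ i : Fin m, d ≤ (i : ℕ) → v i = 0 := fun v =>
    ⟨fun h i hi => congrFun h ⟨i, hi⟩, fun h => funext fun i => h i.1 i.2⟩
  have hk : Module.finrank F (LinearMap.ker p) = Module.finrank F W := by
    have h1 := p.finrank_range_add_finrank_ker
    rw [LinearMap.range_eq_top.2 (LinearMap.funLeft_surjective_of_injective F F _
      Subtype.val_injective), finrank_top, Module.finrank_fin_fun, Module.finrank_fintype_fun_eq_card,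
      ← Nat.card_eq_fintype_card, card_ge hdm] at h1
    omega
  obtain ⟨φ, hφ⟩ := Submodule.exists_linearEquiv_restrict_eq (LinearEquiv.ofFinrankEq _ _ hk)
  have hW : ∀ v, φ v ∈ W ↔ ∀ i : Fin m, d ≤ (i : ℕ) → v i = 0 := by
    intro v
    rw [← hp]
    constructor
    · intro hv
      obtain ⟨u, hu⟩ := (LinearEquiv.ofFinrankEq _ _ hk).surjective ⟨_, hv⟩
      have := hφ u
      rw [hu] at this
      rw [φ.injective this]
      exact u.2
    · intro hv
      rw [← hφ ⟨v, hv⟩]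
      exact Subtype.prop _
  let g : GL (Fin m) F := ⟨LinearMap.toMatrix' φ.toLinearMap, LinearMap.toMatrix' φ.symm.toLinearMap,
    by rw [← LinearMap.toMatrix'_comp]; simp, by rw [← LinearMap.toMatrix'_comp]; simp⟩
  have hg : ∀ v, (g : Matrix (Fin m) (Fin m) F) *ᵥ v = φ v := fun v => by
    simp [g, LinearMap.toMatrix'_mulVec]
  obtain ⟨s, k, e, he, hs⟩ := inn_eq g
  refine ⟨s, fun a => ?_⟩
  have h1 : cj s (A m F d) = (A m F d).map (inn g : MulAut (SL m F)).toMonoidHom := by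
    conv_lhs => rw [A, ← map_Pat_diag he, cj, Subgroup.map_map]
    rw [hs]
    rfl
  obtain ⟨b, rfl⟩ := (inn g : MulAut (SL m F)).surjective a
  have h2 : ∀ v, (((inn g b : SL m F) : Matrix (Fin m) (Fin m) F) - 1) *ᵥ φ v =
      φ (((b : Matrix (Fin m) (Fin m) F) - 1) *ᵥ v) := fun v => by
    rw [← hg, ← hg, mulVec_mulVec, mulVec_mulVec, inn_val, sub_mul, mul_sub,
      Units.inv_mul_cancel_right, one_mul, mul_one]
  rw [h1, show inn g b = (inn g : MulAut (SL m F)).toMonoidHom b from rfl,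
    Subgroup.mem_map_iff_mem (inn g : MulAut (SL m F)).injective, mem_A]
  change _ ↔ (∀ v, (((inn g b : SL m F) : Matrix (Fin m) (Fin m) F) - 1) *ᵥ v ∈ W) ∧
    ∀ w ∈ W, (((inn g b : SL m F) : Matrix (Fin m) (Fin m) F) - 1) *ᵥ w = 0
  refine Iff.trans ?_ (and_congr φ.surjective.forall φ.surjective.forall).symm
  simp only [h2, hW, EmbeddingLike.map_eq_zero_iff]
  constructor
  · intro h
    have h3 : ∀ i j : Fin m, ¬ ((i : ℕ) < d ∧ d ≤ (j : ℕ)) →
        ((b : Matrix (Fin m) (Fin m) F) - 1) i j = 0 := fun i j hij => by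
      rw [Matrix.sub_apply, h i j hij, sub_self]
    refine ⟨fun v i hi => ?_, fun v hv => funext fun i => ?_⟩
    · rw [mulVec, dotProduct]
      exact Finset.sum_eq_zero fun j _ => by rw [h3 i j (by omega), zero_mul]
    · rw [mulVec, dotProduct]
      refine Finset.sum_eq_zero fun j _ => ?_
      by_cases hj : d ≤ (j : ℕ)
      · rw [hv j hj, mul_zero]
      · rw [h3 i j (by omega), zero_mul]
  · rintro ⟨h3, h4⟩ i j hij
    rw [← sub_eq_zero, ← Matrix.sub_apply]
    by_cases hi : d ≤ (i : ℕ)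
    · simpa using h3 (Pi.single j 1) i hi
    · simpa using congrFun (h4 (Pi.single j 1) fun l hl =>
        Pi.single_eq_of_ne (fun e => by rw [e] at hl; omega) _) i

/-- Equality: the map above is bijective and `d ∈ {k, m - k}`.  If `d ≥ 2`, for `M ∈ 𝒩`, `w ∈ W`
take `N` with `N v1 = w`, `N v2 = 0` and `M'` with `M' v2 = M v1`; then
`M w = N M v1 = N M' v2 = M' N v2 = 0`.  If `d = 1` then `m = 3`, `dim 𝒩 = 2`, and `N M ≠ 0` is
impossible (`N, M` is then a basis, `N M = a N + b M`; multiply by `N` and `M`).  So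
`𝒩 = Hom(V / W, W)`; choose `s ∈ SL` mapping the first `m - d` basis vectors onto a basis of
`W`. -/
theorem sp_eq (hm : 3 ≤ m) {E : Subgroup (SL m F)} (hE : El E)
    (h : cc m ≤ Module.finrank F (sp E)) : ∃ (s : SL m F) (d : ℕ), (d = m / 2 ∨ d = m - m / 2) ∧
      ∀ a : SL m F, a ∈ cj s (A m F d) ↔ (a : Matrix (Fin m) (Fin m) F) - 1 ∈ sp E := by
  obtain ⟨W, hW, h1⟩ := (sp_Alg hE).ext hm h
  obtain ⟨s, hs⟩ := exists_cj_A W
  exact ⟨s, _, hW, fun a => by rw [hs, h1]⟩

theorem el_card_le {E : Subgroup (SL m F)} (hE : El E) : Nat.card E ≤ Nat.card F ^ cc m :=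
  (card_le_sp E).trans (Nat.pow_le_pow_right Nat.card_pos (finrank_sp_le hE))

theorem el_eq_A (hm : 3 ≤ m) {E : Subgroup (SL m F)} (hE : El E)
    (h : Nat.card F ^ cc m ≤ Nat.card E) :
    ∃ (s : SL m F) (d : ℕ), (d = m / 2 ∨ d = m - m / 2) ∧ E = cj s (A m F d) := by
  obtain ⟨s, d, hd, hs⟩ := sp_eq hm hE
    ((Nat.pow_le_pow_iff_right Finite.one_lt_card).1 (h.trans (card_le_sp E)))
  refine ⟨s, d, hd, Subgroup.eq_of_le_of_card_ge (fun a ha => (hs a).2 (mem_sp ha)) ?_⟩
  rw [Subgroup.card_map_of_injective (MulAut.conj s).injective]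
  rcases hd with rfl | rfl
  · rwa [card_Ak]
  · rwa [card_Ak']

/-- Self-adjoint case, `m ≥ 5`: `B` is an invertible symmetric matrix, `B N = Nᵀ B` on `𝒩`, so
`K = ker 𝒩 = W ^ ⊥` has dimension `d`.  If `K ⊄ W` take `v1 ∈ K`: `dim 𝒩 ≤ (d - 1)(m - d) ≤
cc (m - 1) ≤ cc m - 2`.  Otherwise the functionals `B(·, v j)` on `W` are independent and the
tuples satisfy `B(w i, v j) = B(w j, v i)`: `d ≥ 3` gives two (three) independent conditions;
`d = 1`: `m - 1 ≤ cc m - 2`; `d = 2`: `2 (m - 2) - 1 ≤ cc m - 2` unless `m = 5`; if `m = 5`,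
`dim 𝒩 = 5`, all symmetric pairs occur, the argument of `sp_eq` gives `𝒩 w = 0` whenever
`B(w, v2) = 0` or `B(w, v1) = 0`, so `W ≤ K`, `3 ≤ 2`. -/
theorem finrank_sp_adj (hm : 5 ≤ m) {E : Subgroup (SL m F)} (hE : El E)
    {B : Matrix (Fin m) (Fin m) F} (hB : B.det ≠ 0) (hs : Bᵀ = B)
    (h : ∀ N ∈ sp E, B * N = Nᵀ * B) : Module.finrank F (sp E) + 2 ≤ cc m :=
  (sp_Alg hE).adj hm hB hs h

end CL.SC
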