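import Cfsg.Agent.INV.SC.Bas2

/-!
Commutative matrix algebras of square zero elements.
-/

set_option autoImplicit false
set_option linter.unusedSectionVars false
set_option linter.unusedVariables false

namespace CL.SC.Gu

open Matrix Module

section lin

variable {F : Type*} [Field F] {C : Type*} [AddCommGroup C] [Module F C] [FiniteDimensional F C]

theorem exists_ker (h : 2 ≤ finrank F C) (φ : C →ₗ[F] F) : ∃ c, c ≠ 0 ∧ φ c = 0 := by
  by_contra hc
  push Not at hc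
  have h1 : Function.Injective φ := (injective_iff_map_eq_zero φ).2 fun c e => by
    by_contra h0
    exact hc c h0 e
  have := LinearMap.finrank_le_finrank_of_injective h1
  rw [finrank_self] at this
  omega

theorem dual_pair (h : 2 ≤ finrank F C) {c2 : C} (hc : c2 ≠ 0) : ∃ (c1 : C) (φ1 φ2 : C →ₗ[F] F),
    φ1 c1 = 1 ∧ φ1 c2 = 0 ∧ φ2 c1 = 0 ∧ φ2 c2 = 1 := by
  obtain ⟨φ2, h2⟩ := Module.Projective.exists_dual_eq_one F hc
  obtain ⟨c1, h1, h3⟩ := exists_ker h φ2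
  obtain ⟨ψ, h4⟩ := Module.Projective.exists_dual_eq_one F h1
  exact ⟨c1, ψ - ψ c2 • φ2, φ2, by simp [h3, h4], by simp [h2], h3, h2⟩

theorem codim_one {H : Submodule F C} (h : finrank F C ≤ finrank F H + 1) (f f' : C) :
    ∃ a b : F, (a ≠ 0 ∨ b ≠ 0) ∧ a • f + b • f' ∈ H := by
  have h1 : finrank F (C ⧸ H) ≤ 1 := by
    have := H.finrank_quotient_add_finrank
    omega
  obtain ⟨v, hv⟩ := finrank_le_one_iff.1 h1
  obtain ⟨s, hs⟩ := hv (H.mkQ f)
  obtain ⟨t, ht⟩ := hv (H.mkQ f')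
  by_cases h0 : s = 0
  · refine ⟨1, 0, .inl one_ne_zero, (Submodule.Quotient.mk_eq_zero H).1 ?_⟩
    rw [← Submodule.mkQ_apply, map_add, map_smul, map_smul, ← hs, h0]
    simp
  · refine ⟨t, -s, .inr (neg_ne_zero.2 h0), (Submodule.Quotient.mk_eq_zero H).1 ?_⟩
    rw [← Submodule.mkQ_apply, map_add, map_smul, map_smul, ← hs, ← ht, smul_smul, smul_smul,
      ← add_smul]
    simp [mul_comm]

end lin

variable {m : ℕ} {F : Type*} [Field F] [Finite F]

/-- a commutative algebra of square zero matrices -/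
structure Alg (𝒩 : Submodule F (Matrix (Fin m) (Fin m) F)) : Prop where
  sq : ∀ N ∈ 𝒩, N * N = 0
  comm : ∀ N ∈ 𝒩, ∀ M ∈ 𝒩, N * M = M * N
  mul : ∀ N ∈ 𝒩, ∀ M ∈ 𝒩, N * M ∈ 𝒩

/-- the sum of the images -/
def W (S : Set (Matrix (Fin m) (Fin m) F)) : Submodule F (Fin m → F) :=
  ⨆ N ∈ S, LinearMap.range (mulVecLin N)

theorem mem_W {S : Set (Matrix (Fin m) (Fin m) F)} {N : Matrix (Fin m) (Fin m) F} (h : N ∈ S)
    (v : Fin m → F) : N *ᵥ v ∈ W S :=
  Submodule.mem_iSup_of_mem N (Submodule.mem_iSup_of_mem h ⟨v, rfl⟩)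

theorem W_le {S : Set (Matrix (Fin m) (Fin m) F)} {K : Submodule F (Fin m → F)}
    (h : ∀ N ∈ S, ∀ v, N *ᵥ v ∈ K) : W S ≤ K :=
  iSup₂_le fun N hN => by
    rintro _ ⟨v, rfl⟩
    exact h N hN v

variable {𝒩 : Submodule F (Matrix (Fin m) (Fin m) F)}

theorem Alg.nak (h : Alg 𝒩) {S : Set (Matrix (Fin m) (Fin m) F)} (hS : S.Finite) :
    S ⊆ 𝒩 → ∀ K : Submodule F (Fin m → F), (∀ N ∈ 𝒩, ∀ v ∈ K, N *ᵥ v ∈ K) → K ⊔ W S = ⊤ →
      K = ⊤ := by
  induction S, hS using Set.Finite.induction_on with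
  | empty => intro _ K _ h1; simpa [W] using h1
  | @insert N S _ _ ih =>
    intro hS K hK h1
    have hN : N ∈ 𝒩 := hS (Set.mem_insert _ _)
    have h2 : K ⊔ LinearMap.range (mulVecLin N) = ⊤ := by
      refine ih (fun M hM => hS (Set.mem_insert_of_mem _ hM)) _ (fun M hM v hv => ?_) ?_
      · obtain ⟨k, hk, _, ⟨u, rfl⟩, rfl⟩ := Submodule.mem_sup.1 hv
        rw [mulVec_add, mulVecLin_apply, mulVec_mulVec, h.comm M hM N hN, ← mulVec_mulVec]
        exact Submodule.add_mem_sup (hK M hM k hk) ⟨_, rfl⟩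
      · rw [← h1, W, W, iSup_insert, sup_assoc]
    have h3 : LinearMap.range (mulVecLin N) ≤ K := by
      rintro _ ⟨v, rfl⟩
      obtain ⟨k, hk, _, ⟨u, rfl⟩, rfl⟩ := Submodule.mem_sup.1 (h2 ▸ Submodule.mem_top (x := v))
      rw [mulVecLin_apply, mulVecLin_apply, mulVec_add, mulVec_mulVec, h.sq N hN, zero_mulVec,
        add_zero]
      exact hK N hN k hk
    rwa [sup_eq_left.2 h3] at h2

/-- restriction to `C` -/
def rho (𝒩 : Submodule F (Matrix (Fin m) (Fin m) F)) (C : Submodule F (Fin m → F)) :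
    𝒩 →ₗ[F] (C →ₗ[F] W (𝒩 : Set (Matrix (Fin m) (Fin m) F))) where
  toFun N := ((mulVecLin N.1).domRestrict C).codRestrict _ fun c => mem_W N.2 c
  map_add' N M := LinearMap.ext fun c => Subtype.ext (add_mulVec N.1 M.1 c.1)
  map_smul' a N := LinearMap.ext fun c => Subtype.ext (smul_mulVec a N.1 c.1)

theorem rho_val {C : Submodule F (Fin m → F)} (N : 𝒩) (c : C) :
    ((rho 𝒩 C N c : W (𝒩 : Set (Matrix (Fin m) (Fin m) F))) : Fin m → F) = N.1 *ᵥ c.1 := rfl

theorem eq_zero_of_mulVec {N : Matrix (Fin m) (Fin m) F} (h : ∀ v, N *ᵥ v = 0) : N = 0 := by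
  ext i j
  have := congrFun (h (Pi.single j 1)) i
  simpa using this

variable {C : Submodule F (Fin m → F)}

theorem Alg.eq_zero (h : Alg 𝒩) (hC : IsCompl (W (𝒩 : Set (Matrix (Fin m) (Fin m) F))) C)
    {N : Matrix (Fin m) (Fin m) F} (hN : N ∈ 𝒩) (h0 : ∀ c ∈ C, N *ᵥ c = 0) : N = 0 := by
  have h1 := h.nak (Set.toFinite _) subset_rfl (LinearMap.ker (mulVecLin N))
    (fun M hM v hv => by
      rw [LinearMap.mem_ker, mulVecLin_apply] at hv ⊢
      rw [mulVec_mulVec, h.comm N hN M hM, ← mulVec_mulVec, hv, mulVec_zero])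
    (by
      rw [eq_top_iff, ← hC.sup_eq_top, sup_comm]
      exact sup_le_sup_right (fun c hc => h0 c hc) _)
  exact eq_zero_of_mulVec fun v => (h1 ▸ Submodule.mem_top : v ∈ LinearMap.ker (mulVecLin N))

theorem Alg.inj (h : Alg 𝒩) (hC : IsCompl (W (𝒩 : Set (Matrix (Fin m) (Fin m) F))) C) :
    Function.Injective (rho 𝒩 C) :=
  (injective_iff_map_eq_zero _).2 fun N hN => Subtype.ext (h.eq_zero hC N.2 fun c hc => by
    rw [← rho_val N ⟨c, hc⟩, hN]
    rfl)

theorem dim_add (hC : IsCompl (W (𝒩 : Set (Matrix (Fin m) (Fin m) F))) C) :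
    finrank F (W (𝒩 : Set (Matrix (Fin m) (Fin m) F))) + finrank F C = m := by
  rw [Submodule.finrank_add_eq_of_isCompl hC, finrank_fin_fun]

theorem dim_hom : finrank F (C →ₗ[F] W (𝒩 : Set (Matrix (Fin m) (Fin m) F))) =
    finrank F C * finrank F (W (𝒩 : Set (Matrix (Fin m) (Fin m) F))) :=
  Module.finrank_linearMap F F _ _

theorem mul_le_cc {d e : ℕ} (h : e + d = m) : d * e ≤ cc m := by
  subst h
  unfold cc
  obtain ⟨k, hk | hk⟩ := Nat.even_or_odd' (e + d)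
  · rw [show (e + d) / 2 = k by omega, show e + d - k = k by omega]
    nlinarith [sq_nonneg ((d : ℤ) - e)]
  · rw [show (e + d) / 2 = k by omega, show e + d - k = k + 1 by omega]
    rcases le_or_gt d k with h | h
    · obtain ⟨t, rfl⟩ := Nat.exists_eq_add_of_le h
      obtain rfl : e = d + 2 * t + 1 := by omega
      nlinarith
    · obtain ⟨t, rfl⟩ : ∃ t, k = e + t := ⟨k - e, by omega⟩
      obtain rfl : d = e + 2 * t + 1 := by omega
      nlinarith

theorem eq_of_cc_le {d e : ℕ} (h : e + d = m) (h' : cc m ≤ d * e) : e = m / 2 ∨ e = m - m / 2 := by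
  subst h
  unfold cc at h'
  obtain ⟨k, hk | hk⟩ := Nat.even_or_odd' (e + d)
  · rw [show (e + d) / 2 = k by omega, show e + d - k = k by omega] at *
    left
    rcases le_or_gt d k with h | h
    · obtain ⟨t, rfl⟩ := Nat.exists_eq_add_of_le h
      obtain rfl : e = d + 2 * t := by omega
      have : t = 0 := by nlinarith
      omega
    · obtain ⟨t, rfl⟩ : ∃ t, k = e + t := ⟨k - e, by omega⟩
      obtain rfl : d = e + 2 * t := by omega
      have : t = 0 := by nlinarith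
      omega
  · rw [show (e + d) / 2 = k by omega, show e + d - k = k + 1 by omega] at *
    rcases le_or_gt d k with h | h
    · obtain ⟨t, rfl⟩ := Nat.exists_eq_add_of_le h
      obtain rfl : e = d + 2 * t + 1 := by omega
      have : t = 0 := by nlinarith
      omega
    · obtain ⟨t, rfl⟩ : ∃ t, k = e + t := ⟨k - e, by omega⟩
      obtain rfl : d = e + 2 * t + 1 := by omega
      have : t = 0 := by nlinarith
      omega

theorem Alg.le_mul (h : Alg 𝒩) (hC : IsCompl (W (𝒩 : Set (Matrix (Fin m) (Fin m) F))) C) :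
    finrank F 𝒩 ≤ finrank F C * finrank F (W (𝒩 : Set (Matrix (Fin m) (Fin m) F))) :=
  dim_hom (𝒩 := 𝒩) (C := C) ▸ LinearMap.finrank_le_finrank_of_injective (h.inj hC)

theorem Alg.le_cc (h : Alg 𝒩) : finrank F 𝒩 ≤ cc m := by
  obtain ⟨C, hC⟩ := Submodule.exists_isCompl (W (𝒩 : Set (Matrix (Fin m) (Fin m) F)))
  exact (h.le_mul hC).trans (mul_le_cc (dim_add hC))

theorem Alg.three_le (h : Alg 𝒩) {N M : Matrix (Fin m) (Fin m) F} (hN : N ∈ 𝒩) (hM : M ∈ 𝒩)
    (h0 : N * M ≠ 0) : 3 ≤ finrank F 𝒩 := by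
  have : LinearIndependent F ![(⟨N, hN⟩ : 𝒩), ⟨M, hM⟩, ⟨N * M, h.mul N hN M hM⟩] := by
    rw [Fintype.linearIndependent_iff]
    intro g hg
    have h1 : g 0 • N + g 1 • M + g 2 • (N * M) = 0 := by
      have := congrArg Subtype.val hg
      simpa [Fin.sum_univ_three] using this
    have h2 : g 1 = 0 := by
      have := congrArg (N * ·) h1
      simp only [mul_add, mul_smul_comm, ← mul_assoc, h.sq N hN, zero_mul, smul_zero, zero_add,
        add_zero, mul_zero] at this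
      exact (smul_eq_zero.1 this).resolve_right h0
    have h3 : g 0 = 0 := by
      have := congrArg (· * M) h1
      simp only [add_mul, smul_mul_assoc, mul_assoc, h.sq M hM, zero_mul, smul_zero, add_zero,
        mul_zero] at this
      exact (smul_eq_zero.1 this).resolve_right h0
    rw [h2, h3, zero_smul, zero_smul, zero_add, zero_add] at h1
    have h4 := (smul_eq_zero.1 h1).resolve_right h0
    intro i
    fin_cases i <;> assumption
  simpa using this.fintype_card_le_finrank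

/-- the commutation trick -/
theorem Alg.trick (h : Alg 𝒩) {M N' M' : Matrix (Fin m) (Fin m) F} (hM : M ∈ 𝒩) (hN' : N' ∈ 𝒩)
    (hM' : M' ∈ 𝒩) {c1 c2 : Fin m → F} (h1 : N' *ᵥ c2 = 0) (h2 : M' *ᵥ c2 = M *ᵥ c1) :
    M *ᵥ (N' *ᵥ c1) = 0 := by
  rw [mulVec_mulVec, h.comm M hM N' hN', ← mulVec_mulVec, ← h2, mulVec_mulVec, h.comm N' hN' M' hM',
    ← mulVec_mulVec, h1, mulVec_zero]

theorem Alg.mul_eq_zero (hm : 3 ≤ m) (h : Alg 𝒩)
    (hC : IsCompl (W (𝒩 : Set (Matrix (Fin m) (Fin m) F))) C) (hd : cc m ≤ finrank F 𝒩)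
    (hs : Function.Surjective (rho 𝒩 C)) {M N : Matrix (Fin m) (Fin m) F} (hM : M ∈ 𝒩)
    (hN : N ∈ 𝒩) : M * N = 0 := by
  by_cases h2 : 2 ≤ finrank F C
  · refine h.eq_zero hC (h.mul M hM N hN) fun c hc => ?_
    by_cases h0 : (⟨c, hc⟩ : C) = 0
    · rw [show c = 0 from congrArg Subtype.val h0, mulVec_zero]
    obtain ⟨c1, φ1, φ2, e1, e2, e3, e4⟩ := dual_pair h2 h0
    obtain ⟨N', hN'⟩ := hs (φ2.smulRight ⟨_, mem_W hN c⟩)
    obtain ⟨M', hM'⟩ := hs (φ1.smulRight ⟨_, mem_W hM c⟩)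
    have h3 : N'.1 *ᵥ c = N *ᵥ c := by
      rw [← rho_val N' ⟨c, hc⟩, hN', LinearMap.smulRight_apply, e4, one_smul]
    rw [← mulVec_mulVec, ← h3]
    refine h.trick hM N'.2 M'.2 (c2 := c1.1) ?_ ?_
    · rw [← rho_val N' c1, hN', LinearMap.smulRight_apply, e3, zero_smul]
      rfl
    · rw [← rho_val M' c1, hM', LinearMap.smulRight_apply, e1, one_smul]
  · by_contra h0
    have h3 := h.three_le hM hN h0
    have h4 := h.le_mul hC
    have h5 := dim_add hC
    have h6 := eq_of_cc_le h5 (hd.trans h4)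
    have h7 : finrank F C = 1 := by omega
    rw [h7] at h4 h5
    omega

/-- the extremal case -/
theorem Alg.ext (hm : 3 ≤ m) (h : Alg 𝒩) (hd : cc m ≤ finrank F 𝒩) :
    ∃ W : Submodule F (Fin m → F), (finrank F W = m / 2 ∨ finrank F W = m - m / 2) ∧
      ∀ N, N ∈ 𝒩 ↔ (∀ v, N *ᵥ v ∈ W) ∧ ∀ w ∈ W, N *ᵥ w = 0 := by
  obtain ⟨C, hC⟩ := Submodule.exists_isCompl (W (𝒩 : Set (Matrix (Fin m) (Fin m) F)))
  have h4 := h.le_mul hC
  have h5 := dim_add hC
  have hs : Function.Surjective (rho 𝒩 C) :=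
    (LinearMap.injective_iff_surjective_of_finrank_eq_finrank (K := F) (V := 𝒩)
      (V₂ := C →ₗ[F] W (𝒩 : Set (Matrix (Fin m) (Fin m) F))) (le_antisymm (dim_hom (𝒩 := 𝒩) (C := C) ▸ h4)
        (dim_hom (𝒩 := 𝒩) (C := C) ▸ (mul_le_cc h5).trans hd))).1 (h.inj hC)
  have h6 : ∀ N ∈ 𝒩, ∀ w ∈ W (𝒩 : Set (Matrix (Fin m) (Fin m) F)), N *ᵥ w = 0 := fun N hN =>
    W_le (K := LinearMap.ker (mulVecLin N)) fun M hM v => by
      rw [LinearMap.mem_ker, mulVecLin_apply, mulVec_mulVec, h.mul_eq_zero hm hC hd hs hN hM,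
        zero_mulVec]
  refine ⟨_, eq_of_cc_le h5 (hd.trans h4), fun N => ⟨fun hN => ⟨mem_W hN, h6 N hN⟩, ?_⟩⟩
  rintro ⟨h7, h8⟩
  obtain ⟨N', hN'⟩ := hs (((mulVecLin N).domRestrict C).codRestrict _ fun c => h7 c)
  have : N - N'.1 = 0 := eq_zero_of_mulVec fun v => by
    obtain ⟨w, hw, c, hc, rfl⟩ := Submodule.mem_sup.1 (hC.sup_eq_top ▸ Submodule.mem_top (x := v))
    rw [sub_mulVec, mulVec_add, mulVec_add, h8 w hw, h6 _ N'.2 w hw, ← rho_val N' ⟨c, hc⟩, hN']
    exact sub_self _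
  rw [sub_eq_zero.1 this]
  exact N'.2

/-- the self-adjoint case -/
theorem Alg.adj (hm : 5 ≤ m) (h : Alg 𝒩) {B : Matrix (Fin m) (Fin m) F} (hB : B.det ≠ 0)
    (hs : Bᵀ = B) (ha : ∀ N ∈ 𝒩, B * N = Nᵀ * B) : finrank F 𝒩 + 2 ≤ cc m := by
  by_contra hlt
  obtain ⟨C, hC⟩ := Submodule.exists_isCompl (W (𝒩 : Set (Matrix (Fin m) (Fin m) F)))
  have h4 := h.le_mul hC
  have h5 := dim_add hC
  have h6 := mul_le_cc h5
  have hcc : m + 1 ≤ cc m := by
    have := mul_le_cc (m := m) (d := 2) (e := m - 2) (by omega)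
    omega
  have hC2 : 2 ≤ finrank F C := by
    by_contra h2
    have : finrank F C = 0 ∨ finrank F C = 1 := by omega
    rcases this with e | e <;> rw [e] at h4 h5 <;> omega
  have hW2 : 2 ≤ finrank F (W (𝒩 : Set (Matrix (Fin m) (Fin m) F))) := by
    by_contra h2
    have : finrank F (W (𝒩 : Set (Matrix (Fin m) (Fin m) F))) = 0 ∨
      finrank F (W (𝒩 : Set (Matrix (Fin m) (Fin m) F))) = 1 := by omega
    rcases this with e | e <;> rw [e] at h4 h5 <;> omega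
  have hco := codim_one (F := F) (C := C →ₗ[F] W (𝒩 : Set (Matrix (Fin m) (Fin m) F)))
      (H := LinearMap.range (rho 𝒩 C)) (by
    rw [LinearMap.finrank_range_of_inj (h.inj hC), dim_hom]
    omega)
  let β : (Fin m → F) →ₗ[F] (Fin m → F) →ₗ[F] F := Matrix.toLinearMap₂' F B
  have hβ : ∀ N ∈ 𝒩, ∀ u v, β (N *ᵥ u) v = β u (N *ᵥ v) := fun N hN u v => by
    simp only [β, Matrix.toLinearMap₂'_apply']
    rw [mulVec_mulVec, ha N hN, ← mulVec_mulVec, dotProduct_mulVec u, vecMul_transpose]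
  have hsym : ∀ u v, β u v = β v u := fun u v => by
    simp only [β, Matrix.toLinearMap₂'_apply']
    rw [dotProduct_mulVec, dotProduct_comm, ← vecMul_transpose, hs]
  have hnd : ∀ v, (∀ u, β u v = 0) → v = 0 := fun v hv => by
    refine eq_zero_of_mulVec_eq_zero hB (funext fun i => ?_)
    have := hv (Pi.single i 1)
    simpa [β, Matrix.toLinearMap₂'_apply'] using this
  have hr : ∀ f ∈ LinearMap.range (rho 𝒩 C), ∀ c c' : C, β (f c) c' = β c (f c') := by
    rintro _ ⟨N, rfl⟩ c c'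
    exact hβ N.1 N.2 _ _
  have s1 : ∀ c : C, c ≠ 0 → ∃ w : W (𝒩 : Set (Matrix (Fin m) (Fin m) F)), β w c ≠ 0 := by
    intro c hc
    by_contra h0
    push Not at h0
    obtain ⟨φ, hφ⟩ := Module.Projective.exists_dual_eq_one F hc
    let b := Module.finBasis F (W (𝒩 : Set (Matrix (Fin m) (Fin m) F)))
    obtain ⟨s, t, hst, N, hN⟩ := hco (φ.smulRight (b ⟨0, by omega⟩)) (φ.smulRight (b ⟨1, by omega⟩))
    have h1 : rho 𝒩 C N c = 0 := Subtype.ext (hnd _ fun u => by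
      rw [rho_val, ← hβ N.1 N.2]
      exact h0 ⟨_, mem_W N.2 u⟩)
    rw [hN] at h1
    simp only [LinearMap.add_apply, LinearMap.smul_apply, LinearMap.smulRight_apply, hφ,
      one_smul] at h1
    have h2 := congrArg (b.coord ⟨0, by omega⟩) h1
    have h3 := congrArg (b.coord ⟨1, by omega⟩) h1
    simp at h2 h3
    exact hst.elim (fun e => e h2) fun e => e h3
  have s2 : ∀ (c1 c2 : C) (φ : C →ₗ[F] F), c2 ≠ 0 → φ c1 = 1 → φ c2 = 0 → ∀ f : C →ₗ[F] _,
      β (f c1 : W (𝒩 : Set (Matrix (Fin m) (Fin m) F))) c2 = β c1 (f c2) →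
        f ∈ LinearMap.range (rho 𝒩 C) := by
    intro c1 c2 φ hc e1 e2 f hf
    obtain ⟨w, hw⟩ := s1 c2 hc
    obtain ⟨s, t, hst, hN⟩ := hco f (φ.smulRight w)
    have h1 := hr _ hN c1 c2
    simp only [LinearMap.add_apply, LinearMap.smul_apply, LinearMap.smulRight_apply, e1, e2,
      one_smul, zero_smul, smul_zero, add_zero, Submodule.coe_add, Submodule.coe_smul, map_add,
      map_smul, hf, add_eq_left, smul_eq_mul] at h1
    have ht : t = 0 := (_root_.mul_eq_zero.1 h1).resolve_right hw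
    rw [ht, zero_smul, add_zero] at hN
    exact (Submodule.smul_mem_iff _ (hst.resolve_right (not_not.2 ht))).1 hN
  have s3 : ∀ w : W (𝒩 : Set (Matrix (Fin m) (Fin m) F)), ∀ M ∈ 𝒩, M *ᵥ w.1 = 0 := by
    intro w M hM
    obtain ⟨c2, hc, h0⟩ := exists_ker hC2 ((β w.1).domRestrict C)
    obtain ⟨c1, φ1, φ2, e1, e2, e3, e4⟩ := dual_pair hC2 hc
    obtain ⟨w0, hw0⟩ := s1 c2 hc
    obtain ⟨N', hN'⟩ := s2 c1 c2 φ1 hc e1 e2 (φ1.smulRight w) (by
      simpa [e1, e2] using h0)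
    obtain ⟨M', hM'⟩ := s2 c1 c2 φ1 hc e1 e2 (φ2.smulRight ⟨_, mem_W hM c1.1⟩ +
      φ1.smulRight ((β c1 (M *ᵥ c1.1) * (β w0 c2)⁻¹) • w0)) (by
      simp [e1, e2, e3, e4, hw0])
    have h3 : N'.1 *ᵥ c1.1 = w := by
      rw [← rho_val N' c1, hN', LinearMap.smulRight_apply, e1, one_smul]
    rw [← h3]
    refine h.trick hM N'.2 M'.2 (c2 := c2.1) ?_ ?_
    · rw [← rho_val N' c2, hN', LinearMap.smulRight_apply, e2, zero_smul]
      rfl
    · rw [← rho_val M' c2, hM']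
      simp [e2, e4]
  have s4 : finrank F (W (𝒩 : Set (Matrix (Fin m) (Fin m) F))) ≤ finrank F C := by
    rw [← Module.finrank_linearMap_self F F C]
    refine LinearMap.finrank_le_finrank_of_injective (f := β.domRestrict₁₂ _ C)
      ((injective_iff_map_eq_zero _).2 fun w hw => Subtype.ext (hnd _ fun u => ?_))
    obtain ⟨w', hw', c, hc, rfl⟩ := Submodule.mem_sup.1 (hC.sup_eq_top ▸ Submodule.mem_top (x := u))
    have h1 : β w' w = 0 := W_le (K := LinearMap.ker (β.flip w.1)) (fun N hN v => by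
      rw [LinearMap.mem_ker, LinearMap.flip_apply, hβ N hN, s3 w N hN, map_zero]) hw'
    have h2 : β w c = 0 := LinearMap.congr_fun hw ⟨c, hc⟩
    rw [map_add, LinearMap.add_apply, h1, hsym, h2, add_zero]
  let b := Module.finBasis F C
  have hC3 : 3 ≤ finrank F C := by omega
  obtain ⟨w, hw⟩ := s1 (b ⟨1, by omega⟩) (b.ne_zero _)
  have h7 := s2 (b ⟨0, by omega⟩) (b ⟨1, by omega⟩) (b.coord ⟨0, by omega⟩) (b.ne_zero _)
    (by simp) (by simp) ((b.coord ⟨2, by omega⟩).smulRight w)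
    (by simp)
  have h8 := hr _ h7 (b ⟨2, by omega⟩) (b ⟨1, by omega⟩)
  simp at h8
  exact hw h8

end CL.SC.Gu
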