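import Cfsg.Agent.INV.SC.TilA

/-!
The abelian subgroup over the row group.
-/

set_option autoImplicit false
set_option linter.unusedSectionVars false
set_option linter.unusedVariables false

namespace CL.SC

open Matrix Subgroup
open scoped commutatorElement

variable {m : ℕ} [NeZero m] {F : Type*} [Field F] [Finite F] [CharP F 2]
variable {G : Type*} [Group G] [Finite G]
variable {ρ : SL m F →* G} {t : G}

/-- the Sylow subgroup `Y` of the group inducing translations on `t V` -/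
structure Y0 (ρ : SL m F →* G) (t : G) (Y : Subgroup G) : Prop extends St2 ρ t where
  pg : IsPGroup 2 Y
  mem : ∀ y, y ∈ Y ↔ (∃ n, y ^ 2 ^ n = 1) ∧ (∀ a ∈ row F 0, Commute y (ρ a)) ∧
    ∃ v, y * t * y⁻¹ = t * ρ (rv 0 v)
  sur : ∀ v, ∃ y ∈ Y, y * t * y⁻¹ = t * ρ (rv 0 v)
  ker : ∀ y ∈ Y, Commute y t → y ∈ (row F 0).map ρ ∨ t * y ∈ (row F 0).map ρ
  odd : ∀ k, Kt ρ t k → Odd (orderOf k) → ∀ y ∈ Y, Commute k y

/-- `Y' = {y ∈ C(V) | [y, t] ∈ V}`, `λ : Y' → V` is onto with kernel `C(E) = V × ⟨t⟩ × O`, `O` the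
set of elements of odd order with `Kt` (`cent_row`, `kt_dec`), which is exactly the set of
elements of odd order of `C(E)`; so `Y'` permutes `O`.  For `y ∈ Y'` and `l` normalising the row,
`[ρ l, y] ∈ Y1 = Y' ⊓ C(O)`, and these elements have all values of `λ` (`l λ l⁻¹ λ`,
`row_trans`; `λ(Y1)` is a non-trivial invariant subgroup).  In `Y1` the kernel of `λ` is
`E × (O ⊓ C(O))` with the second factor central, so a Sylow 2-subgroup `Y` of `Y1` is normal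
and maps onto `V`.  A 2-element of `Y'` is `y o`, `y ∈ Y`, `o ∈ O` commuting, so `o = 1`. -/
theorem St2.exists_Y (hp : Par m F) (h : St2 ρ t) : ∃ Y, Y0 ρ t Y := by
  refine ⟨Tl.YY hp h, h, fun ⟨y, ⟨n, hn⟩, _⟩ => ⟨n, Subtype.ext hn⟩,
    fun y => ⟨fun ⟨a, v, b, c⟩ => ⟨a, b, v, c⟩, fun ⟨a, b, v, c⟩ => ⟨a, v, b, c⟩⟩, fun v => ?_,
    fun y ⟨a, v, b⟩ c => (Tl.ker_E hp.1 h (Tl.L.of b.1 c) a).mem h.toSt,
    fun k k1 k2 y ⟨a, v, b⟩ => ((Tl.mem_Y1 hp h b a).2 k k1 k2).symm⟩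
  obtain ⟨y, -, a, b⟩ := Tl.Y1_sur hp h v
  exact ⟨y, ⟨b, v, a⟩, a.2⟩

variable {Y : Subgroup G}

section aux

open Tl

variable {y y' n e : G} {v w s s' : Fin m → F}

theorem Y0.toL (h : Y0 ρ t Y) (hy : y ∈ Y) (e : y * t * y⁻¹ = t * ρ (rv 0 v)) : L ρ t y v :=
  ⟨((h.mem y).1 hy).2.1, e⟩

theorem Y0.exL (h : Y0 ρ t Y) (hy : y ∈ Y) : ∃ v, v 0 = 0 ∧ L ρ t y v := by
  obtain ⟨v, hv⟩ := ((h.mem y).1 hy).2.2
  obtain ⟨w, w0, e⟩ := exists_v0 v
  exact ⟨w, w0, h.toL hy (e ▸ hv)⟩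

theorem Y0.ofL (h : Y0 ρ t Y) (h2 : ∃ n, y ^ 2 ^ n = 1) (hy : L ρ t y v) : y ∈ Y :=
  (h.mem y).2 ⟨h2, hy.1, v, hy.2⟩

theorem Y0.toE (h : Y0 ρ t Y) (hy : y ∈ Y) (hc : L ρ t y 0) : E ρ t y := by
  rcases h.ker y hy hc.comm with e | e <;> obtain ⟨v, -, e⟩ := mem_V.1 e
  · exact ⟨v, Or.inl e⟩
  · exact ⟨v, Or.inr (by rw [← e, ← mul_assoc, h.toSt.tt, one_mul])⟩

theorem Y0.ofE (h : Y0 ρ t Y) (he : E ρ t e) : e ∈ Y :=
  h.ofL ⟨1, (pow_two e).trans (he.sq h.toSt)⟩ (he.L h.toSt)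

theorem Y0.r_mem (h : Y0 ρ t Y) (v : Fin m → F) : ρ (rv 0 v) ∈ Y := h.ofE ⟨v, Or.inl rfl⟩

theorem Y0.t_mem (h : Y0 ρ t Y) : t ∈ Y := h.ofE ⟨0, Or.inr (by rw [r_zero, mul_one])⟩

theorem Y0.conj (h : Y0 ρ t Y) (hy : y ∈ Y) (hn : Commute n t)
    (hV : n ∈ normalizer (((row F 0).map ρ : Subgroup G) : Set G)) : n * y * n⁻¹ ∈ Y := by
  obtain ⟨v, -, hv⟩ := h.exL hy
  obtain ⟨w, -, e⟩ := mem_V.1 ((mem_normalizer_iff.1 hV _).1 (Tl.r_mem v))
  obtain ⟨k, hk⟩ := ((h.mem y).1 hy).1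
  exact h.ofL ⟨k, by rw [conj_pow, hk, mul_one, mul_inv_cancel]⟩ (hv.conj hn hV e)

theorem Y0.sqV (hm : 3 ≤ m) (h : Y0 ρ t Y) (hy : y ∈ Y) : ∃ s, s 0 = 0 ∧ y * y = ρ (rv 0 s) := by
  obtain ⟨v, -, hv⟩ := h.exL hy
  rcases h.ker _ (mul_mem hy hy) hv.sq.comm with e | e
  · exact mem_V.1 e
  · obtain ⟨s, -, e⟩ := mem_V.1 e
    have c : Commute y t := by
      have : Commute y (t * (y * y) * (y * y)⁻¹) :=
        (e ▸ hv.c s).mul_right ((Commute.refl y).mul_right (Commute.refl y)).inv_right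
      rwa [mul_inv_cancel_right] at this
    rw [(h.toE hy (L.of hv.1 c)).sq h.toSt, mul_one] at e
    exact absurd ⟨_, e.symm⟩ (h.toSt.not_mem hm)

theorem Tl.L.r_sq (hy : L ρ t y v) (w : Fin m → F) :
    ρ (rv 0 w) * y * (ρ (rv 0 w) * y) = y * y := by
  rw [mul_assoc, ← mul_assoc y, (hy.c w).eq, ← mul_assoc, ← mul_assoc, Tl.r_sq, one_mul]

theorem Tl.L.tt (h : St ρ t) (hy : L ρ t y v) (y' : G) :
    t * y * (t * y') = ρ (rv 0 v) * (y * y') := by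
  calc t * y * (t * y') = t * (y * t * y⁻¹) * (y * y') := by group
    _ = _ := by rw [hy.2, ← mul_assoc t, h.tt, one_mul]

theorem Y0.alt (h : Y0 ρ t Y) (hy : y ∈ Y) (hy' : y' ∈ Y) (h1 : L ρ t y v) (h2 : L ρ t y' v)
    (e : y * y = ρ (rv 0 s)) : y' * y' = ρ (rv 0 s) ∨ y' * y' = ρ (rv 0 (v + s)) := by
  have k := h2.mul h1.inv
  rw [vv] at k
  obtain ⟨w, e1 | e1⟩ := h.toE (mul_mem hy' (inv_mem hy)) k <;> rw [mul_inv_eq_iff_eq_mul] at e1
  · exact Or.inl (by rw [e1, h1.r_sq, e])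
  · have k1 := (L_r h.toSt w).mul h1
    rw [zero_add] at k1
    exact Or.inr (by rw [e1, mul_assoc t, k1.tt h.toSt, h1.r_sq, e, r_add])

theorem Y0.move (h : Y0 ρ t Y) (hy : y ∈ Y) (h1 : L ρ t y v) (e : y * y = ρ (rv 0 s)) {g : SL m F}
    (hg : g ∈ normalizer (row F (0 : Fin m) : Set (SL m F))) (e1 : g * rv 0 v * g⁻¹ = rv 0 w)
    (e2 : g * rv 0 s * g⁻¹ = rv 0 s') : ∃ z ∈ Y, L ρ t z w ∧ z * z = ρ (rv 0 s') :=
  ⟨_, h.conj hy (h.tc g).symm (norm_V hg),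
    h1.conj (h.tc g).symm (norm_V hg) (by rw [← e1, map_mul, map_mul, map_inv]),
    by rw [conj_mul, e, ← e2, map_mul, map_mul, map_inv]⟩

theorem Tl.conj_x (hv : v 0 = 0) {j l : Fin m} (hl : l ≠ 0) (h : j ≠ l) (c : F) :
    x j l c * rv 0 v * (x j l c)⁻¹ = rv 0 (Pi.single l (v j * c) + v) := by
  have := rv_cv hl.symm hv (w := Pi.single j c) (by rw [Pi.single_eq_of_ne h.symm])
  rw [cv_single, dotProduct_single] at this
  rw [rv_add, rv_single, ← x_inv 0 l, ← this]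
  group

theorem Tl.norm_x {j l : Fin m} (hl : l ≠ 0) (h : j ≠ l) (c : F) :
    x j l c ∈ normalizer (row F (0 : Fin m) : Set (SL m F)) := mem_norm_of_le fun a ha => by
  obtain ⟨v, v0, rfl⟩ := mem_row.1 ha
  rw [conj_x v0 hl h]
  exact rv_mem 0 _

theorem Tl.exists_lc (hp : Par m F) {j : Fin m} (jl : j ≠ la) {a : F} (ha : a ≠ 0) :
    ∃ (l : Fin m) (c : F), l ≠ 0 ∧ j ≠ l ∧ (Pi.single l (a * c) : Fin m → F) ≠ 0 ∧
      (Pi.single l (a * c) : Fin m → F) ≠ Pi.single la 1 := by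
  by_cases hm : m ≤ 4
  · obtain ⟨b, b0, b1⟩ := exists_ne_01 (F := F) (lt_of_lt_of_le (by norm_num) (hp.2 hm))
    refine ⟨la, a⁻¹ * b, (zero_ne_la (by have := hp.1; omega)).symm, jl, fun e => b0 ?_, fun e => b1 ?_⟩ <;>
      simpa [ha] using congrFun e la
  · obtain ⟨l, -, hl⟩ := Finset.exists_mem_notMem_of_card_lt_card (s := ({0, la, j} : Finset (Fin m)))
      (t := Finset.univ) (Finset.card_le_three.trans_lt (by simp; omega))
    simp only [Finset.mem_insert, Finset.mem_singleton, not_or] at hl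
    refine ⟨l, 1, hl.1, Ne.symm hl.2.2, fun e => ha ?_, fun e => ha ?_⟩ <;>
      simpa [hl.2.1] using congrFun e l

end aux


/-- `y * y` commutes with `t`; if `y * y = t v` then `y` commutes with `t`, `y * y = 1`.  For
`λ y = zz 1` the set `{s, s + e la}` (`y * y = rv s`, `(t y) ^ 2 = λ y · y * y`) is invariant under
the stabiliser of `zz 1`: `x j la c` (`q ≥ 4`) or `x j j' 1` (`m ≥ 4`) give `s ∈ F e la`.  Move
`λ y` by `row_trans`. -/
theorem Y0.exists_kappa (hp : Par m F) (h : Y0 ρ t Y) : ∃ κ : F, ∀ y ∈ Y, ∀ v, v 0 = 0 →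
    y * t * y⁻¹ = t * ρ (rv 0 v) →
      y * y = ρ (rv 0 (κ • v)) ∨ y * y = ρ (rv 0 ((κ + 1) • v)) := by
  have h0 := zero_ne_la (m := m) (by have := hp.1; omega)
  have e0 : (Pi.single la 1 : Fin m → F) 0 = 0 := Pi.single_eq_of_ne h0 _
  obtain ⟨y0, m0, l0⟩ := h.sur (Pi.single la 1)
  replace l0 := h.toL m0 l0
  obtain ⟨s, s0, hs⟩ := h.sqV hp.1 m0
  have k : s = s la • (Pi.single la 1 : Fin m → F) := funext fun j => by
    by_cases jl : j = la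
    · simp [jl]
    rw [Pi.smul_apply, Pi.single_eq_of_ne jl, smul_zero]
    by_contra a
    obtain ⟨l, c, l1, l2, l3, l4⟩ := Tl.exists_lc hp jl a
    obtain ⟨z, z1, z2, z3⟩ := h.move m0 l0 hs (Tl.norm_x l1 l2 c) (w := Pi.single la 1)
      (by rw [Tl.conj_x e0 l1 l2, Pi.single_eq_of_ne jl, zero_mul, Pi.single_zero, zero_add])
      (Tl.conj_x s0 l1 l2 c)
    have z0 : (Pi.single l (s j * c) + s : Fin m → F) 0 = 0 := by
      rw [Pi.add_apply, Pi.single_eq_of_ne l1.symm, s0, add_zero]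
    rcases h.alt m0 z1 l0 z2 hs with e | e <;> rw [z3] at e
    · exact l3 (add_eq_right.1 (Tl.r_inj h.fr z0 s0 e))
    · exact l4 (add_right_cancel (Tl.r_inj h.fr z0 (by rw [Pi.add_apply, e0, s0, add_zero]) e))
  refine ⟨s la, fun y hy v v0 e => ?_⟩
  replace e := h.toL hy e
  by_cases hv : v = 0
  · subst hv
    exact Or.inl (by rw [(h.toE hy e).sq h.toSt, smul_zero, Tl.r_zero])
  obtain ⟨g, g1, g2, g3⟩ := row_trans hp.1 e0 v0 (fun e => by simpa using congrFun e la) hv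
  obtain ⟨z, z1, z2, z3⟩ := h.move m0 l0 hs (norm_row g1) (w := v) (s' := s la • v)
    (by rw [conj_rv g1 e0, g2, one_smul, g3])
    (by rw [conj_rv g1 s0, g2, one_smul, ← g3, ← smul_vecMul, ← k])
  rw [add_smul, one_smul, add_comm]
  exact h.alt z1 hy z2 e z3

namespace Tl

/-- coordinates on `Y` -/
structure Fn (ρ : SL m F →* G) (t : G) (Y : Subgroup G) (κ : F) (lam q : G → Fin m → F) : Prop
    extends Y0 ρ t Y where
  l0 : ∀ y ∈ Y, lam y 0 = 0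
  q0 : ∀ y ∈ Y, q y 0 = 0
  l : ∀ y ∈ Y, L ρ t y (lam y)
  s : ∀ y ∈ Y, y * y = ρ (rv 0 (q y + κ • lam y))
  al : ∀ y ∈ Y, q y = 0 ∨ q y = lam y

variable {κ : F} {lam q : G → Fin m → F} {y y' n : G} {v w : Fin m → F}

theorem Fn.alt (h : Fn ρ t Y κ lam q) : ∀ y ∈ Y, q y = 0 ∨ q y = lam y := h.al

theorem Fn.lam_eq (h : Fn ρ t Y κ lam q) (hy : y ∈ Y) (v0 : v 0 = 0) (e : L ρ t y v) : lam y = v :=
  r_inj h.fr (h.l0 y hy) v0 (mul_left_cancel ((h.l y hy).2.symm.trans e.2))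

theorem Fn.q_eq (h : Fn ρ t Y κ lam q) (hy : y ∈ Y) (v0 : v 0 = 0)
    (e : y * y = ρ (rv 0 (v + κ • lam y))) : q y = v :=
  add_right_cancel (r_inj h.fr (by simp [h.q0 y hy, h.l0 y hy]) (by simp [v0, h.l0 y hy])
    ((h.s y hy).symm.trans e))

theorem Fn.lm (h : Fn ρ t Y κ lam q) : ∀ y ∈ Y, ∀ y' ∈ Y, lam (y * y') = lam y + lam y' :=
  fun y hy y' hy' => h.lam_eq (mul_mem hy hy') (by simp [h.l0 y hy, h.l0 y' hy'])
    ((h.l y hy).mul (h.l y' hy'))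

theorem Fn.lam_r (h : Fn ρ t Y κ lam q) (hy : y ∈ Y) (w : Fin m → F) :
    lam (ρ (rv 0 w) * y) = lam y := by
  rw [h.lm _ (h.toY0.r_mem w) y hy, h.lam_eq (h.toY0.r_mem w) rfl (L_r h.toSt w), zero_add]

theorem Fn.lam_t (h : Fn ρ t Y κ lam q) (hy : y ∈ Y) : lam (t * y) = lam y := by
  rw [h.lm _ h.toY0.t_mem y hy, h.lam_eq h.toY0.t_mem rfl (L_t h.toSt), zero_add]

theorem Fn.q_r (h : Fn ρ t Y κ lam q) (hy : y ∈ Y) (w : Fin m → F) : q (ρ (rv 0 w) * y) = q y :=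
  h.q_eq (mul_mem (h.toY0.r_mem w) hy) (h.q0 y hy) (by rw [(h.l y hy).r_sq, h.lam_r hy, h.s y hy])

theorem Fn.q_t (h : Fn ρ t Y κ lam q) (hy : y ∈ Y) : q (t * y) = lam y + q y :=
  h.q_eq (mul_mem h.toY0.t_mem hy) (by simp [h.q0 y hy, h.l0 y hy])
    (by rw [(h.l y hy).tt h.toSt, h.lam_t hy, h.s y hy, ← r_add, add_assoc])

theorem Fn.swap (h : Fn ρ t Y κ lam q) (hy : y ∈ Y) (hy' : y' ∈ Y) :
    y' * y = ρ (rv 0 (q (y * y') + q y + q y')) * (y * y') := by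
  have e := h.s _ (mul_mem hy hy')
  rw [h.lm y hy y' hy', show q (y * y') + κ • (lam y + lam y') = q (y * y') + q y + q y' +
    (q y + κ • lam y) + (q y' + κ • lam y') by
      rw [smul_add]; linear_combination -(q y + q y') * two_v (m := m) (F := F),
    r_add, r_add, ← h.s y hy, ← h.s y' hy'] at e
  calc y' * y = y⁻¹ * (y * y' * (y * y')) * y'⁻¹ := by group
    _ = y⁻¹ * (ρ (rv 0 (q (y * y') + q y + q y')) * y) * (y * y') := by rw [e]; group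
    _ = _ := by rw [← ((h.l y hy).c _).eq, inv_mul_cancel_left]

theorem Fn.sy (h : Fn ρ t Y κ lam q) : ∀ y ∈ Y, ∀ y' ∈ Y, q (y * y') = q (y' * y) :=
  fun y hy y' hy' => by rw [h.swap hy hy', h.q_r (mul_mem hy hy')]

theorem Fn.coc (h : Fn ρ t Y κ lam q) : ∀ y ∈ Y, ∀ y' ∈ Y, ∀ y'' ∈ Y, q (y * y' * y'') +
    q (y' * y'') + q (y * y') + q (y * y'') + q y + q y' + q y'' = 0 := fun a ha b hb c hc => by
  have e : a * b * c * (a * b * c) = ρ (rv 0 (q (a * c) + q a + q c)) * (ρ (rv 0 (q (a * b) + q a + q b)) *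
      (a * a) * (ρ (rv 0 (q (b * c) + q b + q c)) * (b * b) * (c * c))) := by
    calc _ = a * b * (c * a) * (b * c) := by group
      _ = a * b * ρ (rv 0 (q (a * c) + q a + q c)) * (a * (c * b) * c) := by rw [h.swap ha hc]; group
      _ = ρ (rv 0 (q (a * c) + q a + q c)) * (a * (b * a) * ((c * b) * c)) := by
          rw [((h.l _ (mul_mem ha hb)).c _).eq]; group
      _ = ρ (rv 0 (q (a * c) + q a + q c)) * (a * ρ (rv 0 (q (a * b) + q a + q b)) * a *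
          (b * ρ (rv 0 (q (b * c) + q b + q c)) * b * (c * c))) := by
          rw [h.swap ha hb, h.swap hb hc]; group
      _ = _ := by rw [((h.l a ha).c _).eq, ((h.l b hb).c _).eq]; group
  rw [h.s a ha, h.s b hb, h.s c hc, ← r_add, ← r_add, ← r_add, ← r_add, ← r_add] at e
  have := h.q_eq (mul_mem (mul_mem ha hb) hc) (v := q (b * c) + q (a * b) + q (a * c) + q a + q b + q c)
    (by simp [h.q0 _ (mul_mem ha hb), h.q0 _ (mul_mem ha hc), h.q0 _ (mul_mem hb hc), h.q0 a ha,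
      h.q0 b hb, h.q0 c hc]) (by
      rw [e, h.lm _ (mul_mem ha hb) c hc, h.lm a ha b hb, smul_add, smul_add]
      congr 2
      linear_combination (q a + q b + q c) * two_v (m := m) (F := F))
  rw [this]
  linear_combination (q (b * c) + q (a * b) + q (a * c) + q a + q b + q c) * two_v (m := m) (F := F)

theorem Fn.good (h : Fn ρ t Y κ lam q) (v0 : v 0 = 0) : ∃ z ∈ Y, q z = 0 ∧ lam z = v := by
  obtain ⟨y, hy, e⟩ := h.sur v
  have := h.lam_eq hy v0 (h.toY0.toL hy e)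
  rcases h.al y hy with k | k
  · exact ⟨y, hy, k, this⟩
  · exact ⟨_, mul_mem h.toY0.t_mem hy, by rw [h.q_t hy, k, vv], by rw [h.lam_t hy, this]⟩

theorem Fn.big (hp : Par m F) (h : Fn ρ t Y κ lam q) (a b c : Fin m → F) :
    ∃ z ∈ Y, q z = 0 ∧ lam z ≠ 0 ∧ lam z ≠ a ∧ lam z ≠ b ∧ lam z ≠ c := by
  obtain ⟨v, v0, h0, h1, h2, h3⟩ := exists_vec hp a b c
  obtain ⟨z, z1, z2, rfl⟩ := h.good v0
  exact ⟨z, z1, z2, fun e => h0 (by rw [e, rv_zero]), fun e => h1 (by rw [e]), fun e => h2 (by rw [e]),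
    fun e => h3 (by rw [e])⟩

theorem Fn.shift (h : Fn ρ t Y κ lam q) : Fn ρ t Y (κ + 1) lam fun y => lam y + q y :=
  ⟨h.toY0, h.l0, fun y hy => by simp [h.q0 y hy, h.l0 y hy], h.l, fun y hy => by
    rw [h.s y hy, add_smul, one_smul]
    congr 2
    linear_combination -lam y * two_v (m := m) (F := F),
    fun y hy => (h.al y hy).symm.imp (fun e => by rw [e, vv]) fun e => by rw [e, add_zero]⟩

theorem Fn.shiftA (h : Fn ρ t Y κ lam q) (A : ∀ y ∈ Y, ∀ y' ∈ Y, q y = 0 → q y' = 0 → lam y ≠ 0 →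
    lam y' ≠ 0 → lam y ≠ lam y' → q (y * y') ≠ 0) : ∀ y ∈ Y, ∀ y' ∈ Y, lam y + q y = 0 →
      lam y' + q y' = 0 → lam y ≠ 0 → lam y' ≠ 0 → lam y ≠ lam y' →
        lam (y * y') + q (y * y') = 0 := fun y hy y' hy' e e' n1 n2 n3 => by
  have := A _ (mul_mem h.toY0.t_mem hy) _ (mul_mem h.toY0.t_mem hy') (by rw [h.q_t hy, e])
    (by rw [h.q_t hy', e']) (by rwa [h.lam_t hy]) (by rwa [h.lam_t hy']) (by rwa [h.lam_t hy, h.lam_t hy'])
  rw [(h.l y hy).tt h.toSt, h.q_r (mul_mem hy hy')] at this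
  rw [(h.al _ (mul_mem hy hy')).resolve_left this, vv]

/-- membership in `W` -/
def Wp (ρ : SL m F →* G) (t : G) (Y : Subgroup G) (q : G → Fin m → F) (y : G) : Prop :=
  y ∈ Y ∧ q y = 0 ∧ t * y ∉ (row F 0).map ρ

theorem Fn.rW (h : Fn ρ t Y κ lam q) (hy : Wp ρ t Y q y) (w : Fin m → F) :
    Wp ρ t Y q (ρ (rv 0 w) * y) :=
  ⟨mul_mem (h.toY0.r_mem w) hy.1, by rw [h.q_r hy.1, hy.2.1], fun e => hy.2.2 (by
    rwa [← mul_assoc, (h.tc _).eq, mul_assoc, Subgroup.mul_mem_cancel_left _ (r_mem w)] at e)⟩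

theorem Fn.W1 (hm : 3 ≤ m) (h : Fn ρ t Y κ lam q) : Wp ρ t Y q 1 :=
  ⟨one_mem _, (h.al 1 (one_mem _)).elim id fun e => e.trans (h.lam_eq (one_mem _) rfl L.one),
    fun e => h.toSt.not_mem hm (map_le_range _ _ (mul_one t ▸ e))⟩

theorem Fn.VW (hm : 3 ≤ m) (h : Fn ρ t Y κ lam q) (hy : y ∈ (row F 0).map ρ) : Wp ρ t Y q y := by
  obtain ⟨w, -, rfl⟩ := mem_V.1 hy
  simpa using h.rW (h.W1 hm) w

theorem Fn.nV (h : Fn ρ t Y κ lam q) (hy : y ∈ Y) (n0 : lam y ≠ 0) : t * y ∉ (row F 0).map ρ :=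
  fun e => by
  obtain ⟨w, -, e⟩ := mem_V.1 e
  exact n0 (by rw [← h.lam_t hy, e, h.lam_eq (h.toY0.r_mem w) rfl (L_r h.toSt w)])

theorem Fn.WV (h : Fn ρ t Y κ lam q) (hy : Wp ρ t Y q y) (c : Commute y t) : y ∈ (row F 0).map ρ :=
  (h.ker y hy.1 c).resolve_right hy.2.2

theorem Fn.lam0 (h : Fn ρ t Y κ lam q) (hy : y ∈ Y) : lam y = 0 ↔ Commute y t :=
  ⟨fun e => (e ▸ h.l y hy : L ρ t y 0).comm, fun c => h.lam_eq hy rfl (L.of (h.l y hy).1 c)⟩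

theorem Fn.cases (hm : 3 ≤ m) (h : Fn ρ t Y κ lam q) (hy : y ∈ Y) :
    Wp ρ t Y q y ∨ Wp ρ t Y q (t * y) := by
  by_cases e : lam y = 0
  · exact (h.ker y hy ((h.lam0 hy).1 e)).imp (h.VW hm) (h.VW hm)
  · refine (h.al y hy).imp (fun k => ⟨hy, k, h.nV hy e⟩) fun k => ?_
    have := mul_mem h.toY0.t_mem hy
    exact ⟨this, by rw [h.q_t hy, k, vv], h.nV this (by rwa [h.lam_t hy])⟩

theorem Fn.mulW (hm : 3 ≤ m) (h : Fn ρ t Y κ lam q) (A : ∀ y ∈ Y, ∀ y' ∈ Y, q y = 0 → q y' = 0 →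
    lam y ≠ 0 → lam y' ≠ 0 → lam y ≠ lam y' → q (y * y') = 0) (hy : Wp ρ t Y q y)
    (hy' : Wp ρ t Y q y') : Wp ρ t Y q (y * y') := by
  by_cases e : lam y = 0
  · obtain ⟨w, -, rfl⟩ := mem_V.1 (h.WV hy ((h.lam0 hy.1).1 e))
    exact h.rW hy' w
  by_cases e' : lam y' = 0
  · obtain ⟨w, -, rfl⟩ := mem_V.1 (h.WV hy' ((h.lam0 hy'.1).1 e'))
    exact ((h.l y hy.1).c w).eq ▸ h.rW hy w
  by_cases e1 : lam y = lam y'
  · have k := (h.l y' hy'.1).mul (h.l y hy.1).inv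
    rw [e1, vv] at k
    obtain ⟨w, e2 | e2⟩ := h.toY0.toE (mul_mem hy'.1 (inv_mem hy.1)) k <;>
      rw [mul_inv_eq_iff_eq_mul] at e2
    · rw [e2, ← mul_assoc, ((h.l y hy.1).c w).eq, mul_assoc, h.s y hy.1]
      exact h.VW hm (mul_mem (r_mem _) (r_mem _))
    · have := hy'.2.1
      rw [e2, mul_assoc, h.q_t (h.rW hy w).1, h.lam_r hy.1, (h.rW hy w).2.1, add_zero] at this
      exact absurd this e
  · refine ⟨mul_mem hy.1 hy'.1, A y hy.1 y' hy'.1 hy.2.1 hy'.2.1 e e' e1, h.nV (mul_mem hy.1 hy'.1) ?_⟩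
    rw [h.lm y hy.1 y' hy'.1]
    exact fun k => e1 (by linear_combination k - lam y' * two_v (m := m) (F := F))

theorem Fn.ab (hp : Par m F) (h : Fn ρ t Y κ lam q) (A : ∀ y ∈ Y, ∀ y' ∈ Y, q y = 0 → q y' = 0 →
    lam y ≠ 0 → lam y' ≠ 0 → lam y ≠ lam y' → q (y * y') = 0) : ∃ W, Ab ρ t W κ := by
  have hm := hp.1
  have cm : ∀ y y', Wp ρ t Y q y → Wp ρ t Y q y' → Commute y y' := fun y y' a b => by
    have := h.swap a.1 b.1
    rw [(h.mulW hm A a b).2.1, a.2.1, b.2.1, add_zero, add_zero, r_zero, one_mul] at this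
    exact this.symm
  let W : Subgroup G :=
    { carrier := {y | Wp ρ t Y q y}
      mul_mem' := h.mulW hm A
      one_mem' := h.W1 hm
      inv_mem' := fun {y} hy => by
        have := h.rW hy (q y + κ • lam y)
        rwa [← r_inv, ← h.s y hy.1, _root_.mul_inv_rev, inv_mul_cancel_right] at this }
  refine ⟨W, fun y => h.VW hm, fun y a y' b => cm y y' a b, fun y a => ⟨_, (h.l y a.1).2⟩,
    fun y => h.WV, fun v => ?_, fun y a v e => ?_, fun n c hV => mem_norm_of_le fun y a => ?_,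
    fun k k1 k2 y a => h.odd k k1 k2 y a.1, fun y y2 c e => ?_⟩
  · obtain ⟨w, w0, e⟩ := exists_v0 v
    by_cases k : w = 0
    · exact ⟨1, one_mem _, by rw [e, k]; exact L.one.2⟩
    · obtain ⟨z, z1, z2, rfl⟩ := h.good w0
      exact ⟨z, ⟨z1, z2, h.nV z1 k⟩, e ▸ (h.l z z1).2⟩
  · rw [h.s y a.1, a.2.1, zero_add]
    have := rv_inj.1 (r_eq h.fr (mul_left_cancel ((h.l y a.1).2.symm.trans e)))
    exact congrArg ρ (rv_inj.2 fun l hl => by simp [this l hl])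
  · have hz := h.toY0.conj a.1 c hV
    refine (h.cases hm hz).elim id fun tz => ?_
    by_cases z0 : lam (n * y * n⁻¹) = 0
    · refine h.VW hm ((mem_normalizer_iff.1 hV y).1 (h.WV a ?_))
      have := ((h.lam0 hz).1 z0).map (MulAut.conj n⁻¹)
      simpa [mul_assoc, ← c.eq] using this
    exfalso
    obtain ⟨z1, m1, -, n1, n2, -⟩ := h.big hp (lam (n * y * n⁻¹)) 0 0
    have m2 := h.toY0.conj m1 c.inv_left (inv_mem hV)
    obtain ⟨z', m3, l3, c3⟩ : ∃ z' ∈ Y, lam z' = lam z1 ∧ Commute (n * y * n⁻¹) z' := by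
      rcases h.cases hm m2 with b | b
      · exact ⟨z1, m1, rfl, by simpa [mul_assoc] using (cm _ _ a b).map (MulAut.conj n)⟩
      · refine ⟨t * z1, mul_mem h.toY0.t_mem m1, h.lam_t m1, ?_⟩
        have := (cm _ _ a b).map (MulAut.conj n)
        simp only [MulAut.conj_apply, inv_inv] at this
        rwa [show n * (t * (n⁻¹ * z1 * n)) * n⁻¹ = n * t * n⁻¹ * z1 by group, c.eq,
          mul_inv_cancel_right] at this
    rcases h.cases hm m3 with b | b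
    · have := (cm _ _ tz b).mul_left c3.inv_left
      rw [mul_inv_cancel_right] at this
      exact n1 (l3 ▸ (h.lam0 m3).2 this.symm)
    · have := (cm _ _ tz b).eq
      rw [(h.l _ hz).tt h.toSt, (h.l _ m3).tt h.toSt, c3.eq] at this
      exact n2 (l3 ▸ (r_inj h.fr (h.l0 _ hz) (h.l0 _ m3) (mul_right_cancel this)).symm)
  · obtain ⟨v, -, e⟩ := mem_V.1 e
    exact h.cases hm (h.toY0.ofL (v := v) ⟨1, (pow_two y).trans y2⟩
      ⟨fun b hb => (c _ ⟨b, hb, rfl⟩).symm, by rw [(h.tc _).eq, ← e, inv_mul_cancel_right]⟩)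

end Tl

/-- Write `y * y = (κ + ε y) λ y` for `λ y ≠ 0`; `ε (t y) = ε y + 1`, `ε` only depends on `y V`;
all squares and commutators lie in the central subgroup `V`, `(y y') ^ 2 = y ^ 2 y' ^ 2 [y, y']`.
For `v ≠ v'` non-zero let `η(v, v') = ε (y y')` where `ε y = ε y' = 0`, `λ y = v`, `λ y' = v'`.
If `v' ∉ F v` then `[y, y'] = η (v + v')`.  Bilinearity of the commutator and `[y, t] = v`: if
`v', v'', v' + v'' ∉ F v` then `η(v', v'') = η(v, v') = η(v, v'') = η(v, v' + v'')`.  Such a `v`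
exists for all `v' ≠ v''` non-zero (`q ≥ 4` or dimension `≥ 4`); `η(a, v)` is independent of
`v ∉ F a` (compare through a third coset of `F a`), `η` is symmetric, so constant; replacing
`κ` by `κ + 1` make it 0.  `W = V ∪ {ε = 0}`; it is abelian (for `v' ∈ F v` write `y' = y1 y2`).
An element `n` normalising `V` and centralising `t` normalises `Y`; if `n W n⁻¹ ∋ t y`,
`y ∈ W`, pick `y' ∈ W ⊓ n W n⁻¹ ∖ V` (index at most 2 in `W`): `[t y, y'] = λ y' ≠ 1`. -/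
theorem Y0.ab (hp : Par m F) (h : Y0 ρ t Y) : ∃ W κ, Ab ρ t W κ := by
  obtain ⟨κ, hκ⟩ := h.exists_kappa hp
  choose! lam l0 l using fun y (hy : y ∈ Y) => h.exL hy
  choose! s s0 hs using fun y (hy : y ∈ Y) => h.sqV hp.1 hy
  have f : Tl.Fn ρ t Y κ lam fun y => s y + κ • lam y := by
    refine ⟨h, l0, fun y hy => by simp [s0 y hy, l0 y hy], l,
      fun y hy => by rw [add_assoc, Tl.vv, add_zero, hs y hy], fun y hy => ?_⟩
    refine (hκ y hy _ (l0 y hy) (l y hy).2).imp (fun e => ?_) fun e => ?_ <;>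
      rw [Tl.r_inj h.fr (s0 y hy) (by simp [l0 y hy]) ((hs y hy).symm.trans e)]
    · exact Tl.vv _
    · rw [add_smul, one_smul, add_right_comm, Tl.vv, zero_add]
  rcases Tl.const Tl.two_v f.lm f.sy f.coc f.alt (f.big hp) with A | A
  · obtain ⟨W, hW⟩ := f.ab hp A
    exact ⟨W, κ, hW⟩
  · obtain ⟨W, hW⟩ := f.shift.ab hp (f.shiftA A)
    exact ⟨W, _, hW⟩

theorem St2.ab (hp : Par m F) (h : St2 ρ t) : ∃ W κ, Ab ρ t W κ := by
  obtain ⟨Y, hY⟩ := h.exists_Y hp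
  exact hY.ab hp

end CL.SC
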