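import Cfsg.Agent.INV.SC.Pair
import Cfsg.Agent.INV.SC.Til
import Cfsg.Agent.FGS.ClassSize

/-!
Translations.
-/

set_option autoImplicit false
set_option linter.unusedSectionVars false
set_option linter.unusedVariables false

namespace CL.SC

open Matrix Subgroup
open scoped commutatorElement

variable {m : ℕ} [NeZero m] {F : Type*} [Field F] [Finite F] [CharP F 2]
variable {G : Type*} [Group G] [Finite G]
variable {ρ : SL m F →* G} {t : G}

namespace Trn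

theorem one_val (hm : 3 ≤ m) : ((1 : Fin m) : ℕ) = 1 := by
  rw [Fin.val_one', Nat.mod_eq_of_lt (by omega)]

theorem zero_lt (hm : 3 ≤ m) : (0 : Fin m) < 1 := by rw [Fin.lt_def, one_val hm]; exact Nat.zero_lt_one

theorem lt_la (hm : 3 ≤ m) : (1 : Fin m) < la := by rw [Fin.lt_def, one_val hm, la_val]; omega

theorem avg_pow (φ : F →+ F) {d : Fin m → F} (hd : ∏ i, d i = 1) (h0 : d 0 = d la)
    (h1 : (d 0)⁻¹ * d 1 ≠ 1) : ∃ (l : List (Fin m → F)) (c : F),
    (∀ d ∈ l, ∏ i, d i = 1) ∧ (l.map fun d => d 0 * (d la)⁻¹).sum ≠ 0 ∧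
      ∀ a, (l.map fun d => d 0 * (d la)⁻¹ * φ ((d 0)⁻¹ * d 1 * a)).sum = a * c := by
  have := Fintype.ofFinite F
  have e : ∀ (r : ℕ) (f : ℕ → F), ((List.range r).map f).sum = ∑ i ∈ Finset.range r, f i :=
    fun r f => rfl
  have k : ∀ i : ℕ, (d ^ i) 0 * ((d ^ i) la)⁻¹ = 1 := fun i => by
    rw [Pi.pow_apply, Pi.pow_apply, h0, mul_inv_cancel₀ (pow_ne_zero _ (ne_zero_of_prod hd _))]
  refine ⟨(List.range (Nat.card F - 1)).map (d ^ ·), 0, fun d' hd' => ?_, ?_, fun a => ?_⟩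
  · obtain ⟨i, -, rfl⟩ := List.mem_map.1 hd'
    simp only [Pi.pow_apply, Finset.prod_pow, hd, one_pow]
  · rw [List.map_map, e]
    simp only [Function.comp, k, Finset.sum_const, Finset.card_range, nsmul_eq_mul, mul_one]
    obtain ⟨j, hj⟩ := odd_card_sub (F := F)
    rw [hj]
    simp [CharTwo.two_eq_zero]
  · rw [List.map_map, e]
    simp only [Function.comp, k, one_mul]
    simp only [Pi.pow_apply, ← inv_pow, ← mul_pow]
    rw [← map_sum, ← Finset.sum_mul, geom_sum_eq h1, Nat.card_eq_fintype_card,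
      FiniteField.pow_card_sub_one_eq_one _
        (mul_ne_zero (inv_ne_zero (ne_zero_of_prod hd _)) (ne_zero_of_prod hd _))]
    simp

theorem tV (h : St ρ t) : ∀ v ∈ (row F (0 : Fin m)).map ρ, Commute t v := by
  rintro _ ⟨a, -, rfl⟩
  exact h.tc a

theorem mem_Et (h : St ρ t) {y : G} :
    y ∈ Et ρ t (row F 0) ↔ ∃ a ∈ row F (0 : Fin m), y = ρ a ∨ y = t * ρ a := by
  rw [Et, mem_zsup h.tt (tV h)]
  constructor
  · rintro (⟨a, ha, e⟩ | ⟨a, ha, e⟩)
    · exact ⟨a, ha, Or.inl e.symm⟩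
    · exact ⟨a, ha, Or.inr (by rw [e, ← mul_assoc, h.tt, one_mul])⟩
  · rintro ⟨a, ha, rfl | rfl⟩
    · exact Or.inl ⟨a, ha, rfl⟩
    · exact Or.inr ⟨a, ha, by rw [← mul_assoc, h.tt, one_mul]⟩

theorem t_Et : t ∈ Et ρ t (row F (0 : Fin m)) := mem_sup_left (mem_zpowers t)

theorem r_Et {a : SL m F} (ha : a ∈ row F (0 : Fin m)) : ρ a ∈ Et ρ t (row F 0) :=
  mem_sup_right ⟨a, ha, rfl⟩

theorem cen_Et (h : St ρ t) {y : G} (h1 : Commute y t) (h2 : ∀ a ∈ row F (0 : Fin m), Commute y (ρ a)) :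
    y ∈ centralizer (Et ρ t (row F 0) : Set G) := fun e he => by
  obtain ⟨a, ha, rfl | rfl⟩ := (mem_Et h).1 he
  exacts [(h2 a ha).symm, (h1.mul_right (h2 a ha)).symm]

theorem norm_Et (h : St ρ t) {g : SL m F} (hg : g ∈ normalizer (row F (0 : Fin m) : Set (SL m F))) :
    ρ g ∈ normalizer (Et ρ t (row F 0) : Set G) := mem_norm_of_le fun y hy => by
  obtain ⟨a, ha, rfl | rfl⟩ := (mem_Et h).1 hy <;>
    refine (mem_Et h).2 ⟨_, (mem_normalizer_iff.1 hg a).1 ha, ?_⟩ <;> rw [map_mul, map_mul, map_inv]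
  · exact Or.inl rfl
  · exact Or.inr (by rw [← mul_assoc, ← (h.tc g).eq]; group)

theorem not_conj (hm : 3 ≤ m) (h : St1 ρ t) {a : SL m F} (ha : a ∈ row F (0 : Fin m)) :
    ¬ IsConj t (ρ a) := fun c => by
  by_cases e : a = 1
  · rw [e, map_one] at c
    exact h.toSt.ne_one (isConj_one_left.1 c)
  · exact h.nr a (isRoot_row hm ha e) c

theorem conj_t (hm : 3 ≤ m) (h : St1 ρ t) {n : G} (hn : n ∈ normalizer (Et ρ t (row F 0) : Set G)) :
    ∃ a ∈ row F (0 : Fin m), n * t * n⁻¹ = t * ρ a := by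
  obtain ⟨a, ha, e | e⟩ := (mem_Et h.toSt).1 ((mem_normalizer_iff.1 hn t).1 t_Et)
  · exact absurd (isConj_iff.2 ⟨n, e⟩) (not_conj hm h ha)
  · exact ⟨a, ha, e⟩

theorem cen_conj {E : Subgroup G} {n c : G} (hn : n ∈ normalizer (E : Set G))
    (hc : c ∈ centralizer (E : Set G)) : n * c * n⁻¹ ∈ centralizer (E : Set G) := fun e he => by
  have := hc _ ((mem_normalizer_iff''.1 hn e).1 he)
  calc e * (n * c * n⁻¹) = n * (n⁻¹ * e * n * c) * n⁻¹ := by group
    _ = _ := by rw [this]; group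

theorem exists_inv {E P : Subgroup G} (hP : IsPGroup 2 P) (hn : P ≤ normalizer (E : Set G))
    (h : ¬ P ≤ centralizer (E : Set G)) : ∃ s ∈ P, s ∉ centralizer (E : Set G) ∧
      (∀ y ∈ P, ⁅y, s⁆ ∈ centralizer (E : Set G)) ∧ s * s ∈ centralizer (E : Set G) := by
  obtain ⟨k, k1, k2, k3⟩ := CL.LTI.exists_fix hP hP le_normalizer h
  obtain ⟨n, e⟩ := hP ⟨k, k1⟩
  replace e : k ^ 2 ^ n = 1 := congrArg Subtype.val e
  induction n generalizing k with
  | zero => exact absurd ((by simpa using e : k = 1) ▸ one_mem _) k2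
  | succ n ih =>
    by_cases c : k * k ∈ centralizer (E : Set G)
    · exact ⟨k, k1, k2, k3, c⟩
    · refine ih _ (mul_mem k1 k1) c (fun y hy => ?_) (by rwa [← sq, ← pow_mul, ← pow_succ'])
      rw [show ⁅y, k * k⁆ = ⁅y, k⁆ * (k * ⁅y, k⁆ * k⁻¹) by simp only [commutatorElement_def]; group]
      exact mul_mem (k3 y hy) (cen_conj (hn k1) (k3 y hy))

theorem swap {E : Subgroup G} {s y e : G} (h : ⁅y, s⁆ ∈ centralizer (E : Set G))
    (he : s * (y * e * y⁻¹) * s⁻¹ ∈ E) : y * (s * e * s⁻¹) * y⁻¹ = s * (y * e * y⁻¹) * s⁻¹ := by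
  calc _ = ⁅y, s⁆ * (s * (y * e * y⁻¹) * s⁻¹) * ⁅y, s⁆⁻¹ := by
        simp only [commutatorElement_def]; group
    _ = _ := by rw [← h _ he, mul_inv_cancel_right]

/-- action on `t` and on `V` -/
structure T (ρ : SL m F →* G) (t w : G) (b : F) (ψ : F → F) : Prop where
  z : ψ 0 = 0
  a : w * t * w⁻¹ = t * ρ (rv 0 (Pi.single la b))
  v : ∀ v, v 0 = 0 → w * ρ (rv 0 v) * w⁻¹ = ρ (rv 0 (v + Pi.single la (ψ (v 1))))

theorem T.mul (hm : 3 ≤ m) {w w' : G} {b b' : F} {ψ ψ' : F → F} (h : T ρ t w b ψ)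
    (h' : T ρ t w' b' ψ') : T ρ t (w * w') (b + b') fun a => ψ a + ψ' a := by
  have h0 := zero_ne_la (m := m) (by omega)
  have h1 := (lt_la hm).ne
  refine ⟨by rw [h.z, h'.z, add_zero], ?_, fun v v0 => ?_⟩
  · calc _ = w * (w' * t * w'⁻¹) * w⁻¹ := by group
      _ = w * t * w⁻¹ * (w * ρ (rv 0 (Pi.single la b')) * w⁻¹) := by rw [h'.a]; group
      _ = _ := by
        rw [h.a, h.v _ (Pi.single_eq_of_ne h0 _), Pi.single_eq_of_ne h1, h.z, Pi.single_zero, add_zero,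
          Pi.single_add, Tl.r_add, mul_assoc]
  · calc _ = w * (w' * ρ (rv 0 v) * w'⁻¹) * w⁻¹ := by group
      _ = _ := by
        rw [h'.v v v0, h.v _ (by rw [Pi.add_apply, v0, Pi.single_eq_of_ne h0, add_zero]), Pi.add_apply,
          Pi.single_eq_of_ne h1, add_zero, add_comm (ψ _), Pi.single_add, add_assoc]

theorem T.dg (hm : 3 ≤ m) (h0 : St ρ t) {w : G} {b : F} {ψ : F → F} (h : T ρ t w b ψ)
    {d : Fin m → F} (hd : ∏ i, d i = 1) : T ρ t (ρ (dg d) * w * (ρ (dg d))⁻¹) (d 0 * (d la)⁻¹ * b)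
      fun a => d 0 * (d la)⁻¹ * ψ ((d 0)⁻¹ * d 1 * a) := by
  have n := ne_zero_of_prod hd
  have k : ∀ v, ρ (SC.dg d) * ρ (rv 0 v) * (ρ (SC.dg d))⁻¹ = ρ (rv 0 fun l => d 0 * v l * (d l)⁻¹) :=
    fun v => by rw [← dg_rv hd, map_mul, map_mul, map_inv]
  refine ⟨by rw [mul_zero, h.z, mul_zero], ?_, fun v v0 => ?_⟩
  · calc _ = ρ (SC.dg d) * (w * ((ρ (SC.dg d))⁻¹ * (t * ρ (SC.dg d))) * w⁻¹) * (ρ (SC.dg d))⁻¹ := by group
      _ = t * (ρ (SC.dg d) * ρ (rv 0 (Pi.single la b)) * (ρ (SC.dg d))⁻¹) := by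
        rw [(h0.tc _).eq, inv_mul_cancel_left, h.a, ← mul_assoc, ← (h0.tc _).eq]; group
      _ = _ := by
        rw [k]
        congr 3
        funext l
        by_cases e : l = la
        · rw [e, Pi.single_eq_same, Pi.single_eq_same]; ring
        · rw [Pi.single_eq_of_ne e, Pi.single_eq_of_ne e, mul_zero, zero_mul]
  · have e := k fun l => (d 0)⁻¹ * v l * d l
    rw [show (fun l => d 0 * ((d 0)⁻¹ * v l * d l) * (d l)⁻¹) = v from funext fun l => by
      have := n 0; have := n l; field_simp] at e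
    calc _ = ρ (SC.dg d) * (w * ρ (rv 0 fun l => (d 0)⁻¹ * v l * d l) * w⁻¹) * (ρ (SC.dg d))⁻¹ := by
          rw [← e]; group
      _ = _ := by
        rw [h.v _ (by simp [v0]), k]
        congr 2
        funext l
        have := n 0; have := n l
        by_cases e : l = la
        · subst e
          rw [Pi.add_apply, Pi.add_apply, Pi.single_eq_same, Pi.single_eq_same, mul_right_comm _ (v 1)]
          field_simp
        · rw [Pi.add_apply, Pi.add_apply, Pi.single_eq_of_ne e, Pi.single_eq_of_ne e]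
          field_simp
          ring

theorem T.list (hm : 3 ≤ m) (h0 : St ρ t) {w : G} {b : F} {ψ : F → F} (h : T ρ t w b ψ)
    (l : List (Fin m → F)) (hl : ∀ d ∈ l, ∏ i, d i = 1) :
    ∃ w, T ρ t w ((l.map fun d => d 0 * (d la)⁻¹).sum * b)
      fun a => (l.map fun d => d 0 * (d la)⁻¹ * ψ ((d 0)⁻¹ * d 1 * a)).sum := by
  induction l with
  | nil => exact ⟨1, rfl, by simp [rv_zero], by simp⟩
  | cons d l ih =>
    obtain ⟨w', hw⟩ := ih fun d hd => hl d (List.mem_cons_of_mem _ hd)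
    exact ⟨_, by simpa [add_mul] using (h.dg hm h0 (hl d List.mem_cons_self)).mul hm hw⟩

end Trn


/-- An additive involution `L` of the vectors with `v 0 = 0` commuting with all
`v ↦ v + (v j * c) e k`, `0 < j < k`.  With `k = la`: `L (c e la) = μ c e la`, `μ ^ 2 = 1`,
`(L v) j = v j` for `j < la`; so `L v = v + ψ v e la`; with `j = 1`: `ψ` kills the `c e k`,
`k > 1`. -/
theorem lin (hm : 3 ≤ m) (L : (Fin m → F) → (Fin m → F)) (h0 : ∀ v, v 0 = 0 → L v 0 = 0)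
    (hadd : ∀ v w, v 0 = 0 → w 0 = 0 → L (v + w) = L v + L w) (h2 : ∀ v, v 0 = 0 → L (L v) = v)
    (hc : ∀ (j k : Fin m) (c : F) v, 0 < j → j < k → v 0 = 0 →
      L (v + Pi.single k (v j * c)) = L v + Pi.single k (L v j * c)) :
    ∃ φ : F →+ F, ∀ v, v 0 = 0 → L v = v + Pi.single la (φ (v 1)) := by
  have h01 := Trn.zero_lt hm
  have h1l := Trn.lt_la hm
  have L0 : L 0 = 0 := by simpa using hadd 0 0 rfl rfl
  have s0 : ∀ {k : Fin m} (c : F), 0 < k → (Pi.single k c : Fin m → F) 0 = 0 := fun c hk => by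
    rw [Pi.single_eq_of_ne hk.ne]
  have k : ∀ (j k : Fin m) (c : F) v, 0 < j → j < k → v 0 = 0 →
      L (Pi.single k (v j * c)) = Pi.single k (L v j * c) := fun j k c v a b v0 =>
    add_left_cancel ((hadd _ _ v0 (s0 _ (a.trans b))).symm.trans (hc j k c v a b v0))
  have k1 : ∀ (l : Fin m) (c : F), 1 < l → L (Pi.single l c) = Pi.single l (L (Pi.single 1 1) 1 * c) :=
    fun l c b => by simpa using k 1 l c (Pi.single 1 1) h01 b (s0 _ h01)
  have μ : L (Pi.single 1 1) 1 = 1 := by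
    have := congrFun (h2 (Pi.single la 1) (s0 _ (h01.trans h1l))) la
    rw [k1 _ _ h1l, k1 _ _ h1l, Pi.single_eq_same, Pi.single_eq_same, mul_one] at this
    exact eq_one_of_pow (n := 1) ((pow_two _).trans this)
  simp only [μ, one_mul] at k1
  have k2 : ∀ v j, v 0 = 0 → j ≠ la → L v j = v j := fun v j v0 jl => by
    by_cases j0 : j = 0
    · rw [j0, h0 v v0, v0]
    · have := congrFun (k j la 1 v (Fin.pos_iff_ne_zero.2 j0)
        (lt_of_le_of_ne (Fin.le_def.2 (by rw [la_val]; omega)) jl) v0) la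
      rw [k1 _ _ h1l] at this
      simpa using this.symm
  have k3 : ∀ v : Fin m → F, v 0 = 0 → v 1 = 0 → L v = v := fun v v0 v1 => by
    have : ∀ s : Finset (Fin m), L (∑ i ∈ s, Pi.single i (v i)) = ∑ i ∈ s, Pi.single i (v i) := by
      intro s
      induction s using Finset.induction_on with
      | empty => exact L0
      | insert i s hi ih =>
        have z : ∀ i, (Pi.single i (v i) : Fin m → F) 0 = 0 := fun i => by
          by_cases e : i = 0
          · rw [e, Pi.single_eq_same, v0]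
          · exact Pi.single_eq_of_ne (Ne.symm e) _
        rw [Finset.sum_insert hi, hadd _ _ (z i) (by simp [z]), ih]
        congr 1
        by_cases e0 : i = 0
        · rw [e0, v0, Pi.single_zero, L0]
        by_cases e1 : i = 1
        · rw [e1, v1, Pi.single_zero, L0]
        refine k1 _ _ ?_
        rw [Fin.ext_iff] at e0 e1
        rw [Fin.lt_def]
        rw [Trn.one_val hm] at e1 ⊢
        rw [Fin.val_zero] at e0
        omega
    simpa [Finset.univ_sum_single] using this Finset.univ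
  refine ⟨AddMonoidHom.mk' (fun a => L (Pi.single 1 a) la) fun a b => by
    rw [Pi.single_add, hadd _ _ (s0 _ h01) (s0 _ h01), Pi.add_apply], fun v v0 => funext fun j => ?_⟩
  by_cases e : j = la
  · have z : (v - Pi.single 1 (v 1) : Fin m → F) 0 = 0 := by rw [Pi.sub_apply, v0, s0 _ h01, sub_zero]
    have := hadd _ _ z (s0 (v 1) h01)
    rw [sub_add_cancel, k3 _ z (by simp)] at this
    rw [e, this]
    simp [h1l.ne']
  · rw [k2 v j v0 e, Pi.add_apply, Pi.single_eq_of_ne e, add_zero]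

/-- pairs `(β, γ)` = action of a diagonal matrix on the last and the first coordinate; a family
for which the sum `Σ β φ(γ⁻¹ a)` is linear and `Σ β ≠ 0`.  `q = 2`: `d = 1`.  `m ≥ 4`, `q > 2`, or
`m = 3`, `q > 4`: the powers `d ^ i`, `i < r`, of `d = (1, g, g⁻¹, 1, …)` resp. `(a, a⁻¹ ^ 2, a)`,
where `β = 1` and `γ ≠ 1` has odd order `r`: the sum is `φ 0 = 0`.  `m = 3`, `q = 4`:
`φ a = u a + u' a ^ 2`, `d = 1` and `d = (1, ω, ω⁻¹)`. -/
theorem average (hp : Par m F) (φ : F →+ F) : ∃ (l : List (Fin m → F)) (c : F),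
    (∀ d ∈ l, ∏ i, d i = 1) ∧ (l.map fun d => d 0 * (d la)⁻¹).sum ≠ 0 ∧
      ∀ a, (l.map fun d => d 0 * (d la)⁻¹ * φ ((d 0)⁻¹ * d 1 * a)).sum = a * c := by
  have hm := hp.1
  have h01 := (Trn.zero_lt hm).ne
  have h1l := (Trn.lt_la hm).ne
  have h0l := zero_ne_la (m := m) (by omega)
  by_cases hq : ∀ a : F, a = 0 ∨ a = 1
  · refine ⟨[1], φ 1, by simp, by simp, fun a => ?_⟩
    rcases hq a with rfl | rfl <;> simp
  push Not at hq
  obtain ⟨ω, ω0, ω1⟩ := hq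
  by_cases h4 : 4 ≤ m
  · obtain ⟨j, j0, jl, j1⟩ := Pr.mid h4 1
    exact Trn.avg_pow φ (d := fun k => if k = 1 then ω else if k = j then ω⁻¹ else 1)
      (by rw [Pr.prod_two j1.symm, mul_inv_cancel₀ ω0])
      (by rw [if_neg h01, if_neg j0.symm, if_neg h1l.symm, if_neg jl.symm])
      (by rwa [if_neg h01, if_neg j0.symm, if_pos rfl, inv_one, one_mul])
  obtain rfl : m = 3 := by omega
  by_cases h3 : ∃ a : F, a ≠ 0 ∧ a ^ 3 ≠ 1
  · obtain ⟨a, a0, a3⟩ := h3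
    refine Trn.avg_pow φ (d := ![a, a⁻¹ ^ 2, a]) (by rw [Fin.prod_univ_three]; simp; field_simp) rfl
      fun e => a3 ?_
    rw [← inv_eq_one, ← inv_pow, ← e]
    simp [pow_succ']
  push Not at h3
  have q : ∀ a : F, a ≠ 0 → a ≠ 1 → a * a = a + 1 := fun a a0 a1 => mul_left_cancel₀ (sub_ne_zero.2 a1)
    (by linear_combination h3 a a0 + (1 - a * a) * (CharTwo.two_eq_zero (R := F)))
  have e := q ω ω0 ω1
  refine ⟨[1, ![1, ω, ω⁻¹]], φ 1 + ω * φ ω, by simp [Fin.prod_univ_three, ω0], ?_, fun a => ?_⟩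
  · show 1 * (1 : F)⁻¹ + (1 * ω⁻¹⁻¹ + 0) ≠ 0
    simpa [← e, add_comm] using ω0
  · show 1 * (1 : F)⁻¹ * φ (1⁻¹ * 1 * a) + (1 * ω⁻¹⁻¹ * φ (1⁻¹ * ω * a) + 0) = _
    simp only [inv_one, one_mul, inv_inv, add_zero]
    have k : φ ω + ω * φ (ω * ω) = ω * (φ 1 + ω * φ ω) := by
      rw [e, map_add]
      linear_combination -φ ω * e
    by_cases a0 : a = 0
    · simp [a0]
    by_cases a1 : a = 1
    · simp [a1]
    rcases mul_eq_zero.1 (show (a - ω) * (a - (ω + 1)) = 0 by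
      linear_combination q a a0 a1 + e + (1 + ω - a * ω) * (CharTwo.two_eq_zero (R := F))) with b | b <;>
      rw [sub_eq_zero.1 b]
    · exact k
    · rw [mul_add ω, map_add, map_add, mul_one]
      linear_combination k

/-- `E = Et (row 0)`, `V = ρ(row 0)`.  The conjugates of `t` in `E` are exactly `t V` (`nr`,
`row_trans'`), `N(E)` is transitive on them and normalises `V`. -/
theorem St1.trans (hp : Par m F) (h : St1 ρ t) : (∀ a ∈ row F 0,
    ∃ n ∈ normalizer (Et ρ t (row F 0) : Set G), n * t * n⁻¹ = t * ρ a) ∧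
      normalizer (Et ρ t (row F 0) : Set G) ≤
        normalizer (((row F 0).map ρ : Subgroup G) : Set G) := by
  have p1 : ∀ b ∈ row F 0, ∃ n ∈ normalizer (Et ρ t (row F 0) : Set G), n * t * n⁻¹ = t * ρ b := by
    intro b hb
    by_cases b1 : b = 1
    · exact ⟨1, one_mem _, by simp [b1]⟩
    obtain ⟨n, hn, c⟩ := h.pair hp
    obtain ⟨a, ha, e⟩ := Trn.conj_t hp.1 h hn
    obtain ⟨g, hg, rfl⟩ := row_trans' hp.1 ha hb
      (fun k => c (mul_inv_eq_iff_eq_mul.1 (by rw [e, k, map_one, mul_one]))) b1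
    refine ⟨ρ g * n, mul_mem (Trn.norm_Et h.toSt hg) hn, ?_⟩
    calc _ = ρ g * (n * t * n⁻¹) * (ρ g)⁻¹ := by group
      _ = _ := by rw [e, ← mul_assoc, ← (h.tc g).eq, map_mul, map_mul, map_inv]; group
  refine ⟨p1, fun n hn => mem_norm_of_le ?_⟩
  rintro _ ⟨a, ha, rfl⟩
  obtain ⟨b, hb, e | e⟩ := (Trn.mem_Et h.toSt).1 ((mem_normalizer_iff.1 hn _).1 (Trn.r_Et ha))
  · exact ⟨b, hb, e.symm⟩
  · obtain ⟨c, -, e1⟩ := p1 b hb
    exact absurd ((isConj_iff.2 ⟨c, e1⟩).trans (isConj_iff.2 ⟨n, e⟩).symm) (Trn.not_conj hp.1 h ha)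

/-- If `k * k = t`: `n k n⁻¹` centralises `E`, so is `ρ a k'` (`cent_row`), and
`k' * k' = n t n⁻¹ = t ρ v`, `v ≠ 1`, against `kt_two`. -/
theorem St1.r2 (hp : Par m F) (h : St1 ρ t) {k : G} (hk : Kt ρ t k) : k * k ≠ t := by
  intro e
  have h0l := zero_ne_la (m := m) (by have := hp.1; omega)
  obtain ⟨n, hn, e1⟩ := (h.trans hp).1 (zz 1) (X_le_row _ _ (Pr.xX _ _ _))
  have c := Trn.cen_conj hn (Trn.cen_Et h.toSt hk.1 fun a _ => hk.2 a)
  obtain ⟨b, hb, k⟩ := h.toSt.cent_row hp.1 (n := n * k * n⁻¹) (c _ Trn.t_Et).symm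
    fun a ha => (c _ (Trn.r_Et ha)).symm
  have k2 := Kt.mul ⟨Commute.refl t, h.tc⟩ (k.pow 2)
  rw [(Commute.inv_left (c _ (Trn.r_Et hb))).mul_pow, inv_pow, sq, sq, ← map_mul, el_row 0 b hb, map_one,
    inv_one, one_mul, conj_mul, e, e1, ← mul_assoc, h.toSt.tt, one_mul] at k2
  exact one_ne_zero ((x_eq_one h0l).1 (h.toSt.kt_two hp.1 (Pr.zz_sq 1) k2))

/-- A Sylow subgroup `P ≥ ρ(U)` of `N(E)` is transitive on `t V` (the stabiliser has index a power
of 2).  Take `s ∈ P` whose image in `P / C_P(E)` is a central involution.  `s` moves `t` (else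
it fixes `t V`), `s t s⁻¹ = t ρ (zz b)`, `b ≠ 0` (`cent_U`), and `s` acts on `V` as in `lin`. -/
theorem St1.exists_s (hp : Par m F) (h : St1 ρ t) : ∃ (s : G) (b : F) (φ : F →+ F), b ≠ 0 ∧
    s * t * s⁻¹ = t * ρ (zz b) ∧ ∀ v, v 0 = 0 →
      s * ρ (rv 0 v) * s⁻¹ = ρ (rv 0 (v + Pi.single la (φ (v 1)))) := by
  have hm := hp.1
  have h0l := zero_ne_la (m := m) (by omega)
  obtain ⟨p1, p2⟩ := h.trans hp
  set N := normalizer (Et ρ t (row F 0) : Set G) with hN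
  have nU : U m F ≤ normalizer (row F (0 : Fin m) : Set (SL m F)) := row_zero (F := F) (m := m) ▸ U_norm_A 1
  obtain ⟨P, hP, hUP, hPN, odd⟩ := exists_syl (H := N) (pgroup_U.map ρ)
    (by rintro _ ⟨a, ha, rfl⟩; exact Trn.norm_Et h.toSt (nU ha))
  have idx : (centralizer {t}).relIndex N = Nat.card ((row F (0 : Fin m)).map ρ) := by
    rw [← CL.CS.ncard_conj_subgroup, ← SetLike.coe_sort_coe ((row F (0 : Fin m)).map ρ), Nat.card_coe_set_eq,
      ← Set.ncard_image_of_injective (((row F (0 : Fin m)).map ρ : Subgroup G) : Set G) (mul_right_injective t)]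
    congr 1
    ext y
    constructor
    · rintro ⟨n, rfl⟩
      obtain ⟨a, ha, e⟩ := Trn.conj_t hm h n.2
      exact ⟨_, ⟨a, ha, rfl⟩, e.symm⟩
    · rintro ⟨_, ⟨a, ha, rfl⟩, rfl⟩
      obtain ⟨n, hn, e⟩ := p1 a ha
      exact ⟨⟨n, hn⟩, e⟩
  have tr : ∀ a ∈ row F (0 : Fin m), ∃ p ∈ P, p * t * p⁻¹ = t * ρ a := fun a ha => by
    obtain ⟨n, hn, e⟩ := p1 a ha
    obtain ⟨k, hk⟩ := IsPGroup.iff_card.1 ((el_row (F := F) (0 : Fin m)).map ρ).pgroup
    obtain ⟨p, hp, c, hc, e1⟩ := CL.exists_mul_eq_of_coprime_index (P.subgroupOf N)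
      ((centralizer {t}).subgroupOf N) (by
        show (P.relIndex N).Coprime ((centralizer {t}).relIndex N)
        rw [idx, hk]
        exact (Nat.coprime_two_right.2 odd).pow_right k) ⟨n, hn⟩
    refine ⟨p, hp, ?_⟩
    have c1 : (c : G) * t = t * c := mem_centralizer_singleton_iff.1 hc
    rw [← e, show n = p * c from congrArg Subtype.val e1, mul_assoc (p : G) c, c1]
    group
  obtain ⟨s, s1, s2, s3, s4⟩ := Trn.exists_inv hP hPN fun k => by
    obtain ⟨p, hp, e⟩ := tr (zz 1) (X_le_row _ _ (Pr.xX _ _ _))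
    rw [← k hp t Trn.t_Et, mul_inv_cancel_right, left_eq_mul] at e
    exact one_ne_zero ((x_eq_one h0l).1 (h.fr.eq_one (Pr.zz_sq 1) e))
  have sw : ∀ y ∈ P, ∀ e ∈ Et ρ t (row F 0), y * (s * e * s⁻¹) * y⁻¹ = s * (y * e * y⁻¹) * s⁻¹ :=
    fun y hy e he => Trn.swap (s3 y hy)
      ((mem_normalizer_iff.1 (hPN s1) _).1 ((mem_normalizer_iff.1 (hPN hy) _).1 he))
  obtain ⟨a, ha, e⟩ := Trn.conj_t hm h (hPN s1)
  obtain ⟨b, rfl⟩ := cent_U (by omega) (n := 1) ((pow_two a).trans (el_row 0 a ha)) fun u hu =>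
    h.fr.commute (n := 1) ((pow_two a).trans (el_row 0 a ha)) (by
      have := sw _ (hUP ⟨u, hu, rfl⟩) t Trn.t_Et
      rw [← (h.tc u).eq, mul_inv_cancel_right, e, ← mul_assoc, ← (h.tc u).eq, mul_assoc, mul_assoc,
        mul_right_inj, ← mul_assoc, mul_inv_eq_iff_eq_mul] at this
      exact this.symm)
  choose! L L0 hL using fun v : Fin m → F => Tl.mem_V.1 ((mem_normalizer_iff.1 (p2 (hPN s1)) _).1 (Tl.r_mem v))
  obtain ⟨φ, hφ⟩ := lin hm L (fun v _ => L0 v)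
    (fun v w _ _ => Tl.r_inj h.fr (L0 _) (by rw [Pi.add_apply, L0, L0, add_zero])
      (by rw [Tl.r_add, ← hL, ← hL, ← hL, Tl.r_add, conj_mul]))
    (fun v v0 => Tl.r_inj h.fr (L0 _) v0 (by
      rw [← hL, ← hL]
      calc _ = s * s * ρ (rv 0 v) * (s * s)⁻¹ := by group
        _ = _ := by rw [← s4 _ (Trn.r_Et (rv_mem 0 v)), mul_inv_cancel_right]))
    fun j k c v j0 jk v0 => Tl.r_inj h.fr (L0 _)
      (by rw [Pi.add_apply, L0, Pi.single_eq_of_ne (j0.trans jk).ne, add_zero]) (by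
      have := sw _ (hUP ⟨_, x_mem (s := fun i j => i < j) jk c, rfl⟩) _ (Trn.r_Et (rv_mem 0 v))
      rw [← hL, add_comm v, add_comm (L v), ← Tl.conj_x v0 (j0.trans jk).ne' jk.ne,
        ← Tl.conj_x (L0 v) (j0.trans jk).ne' jk.ne]
      simp only [map_mul, map_inv]
      rw [← this, hL])
  refine ⟨s, b, φ, fun b0 => s2 ?_, e, fun v v0 => by rw [hL, hφ v v0]⟩
  rw [b0, zz, x_zero, map_one, mul_one] at e
  refine Trn.cen_Et h.toSt (mul_inv_eq_iff_eq_mul.1 e) fun a ha => ?_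
  obtain ⟨p, hp, e1⟩ := tr a ha
  have := sw p hp t Trn.t_Et
  rw [e, e1, ← conj_mul, e, mul_right_inj] at this
  exact mul_inv_eq_iff_eq_mul.1 this.symm

/-- The product of the `ρ (dg d) s (ρ (dg d))⁻¹`, `d ∈ l`, times `ρ (x 1 la c)` centralises `V` and
moves `t`; conjugate by `row_trans'`. -/
theorem St1.st2 (hp : Par m F) (h : St1 ρ t) : St2 ρ t := by
  obtain ⟨s, b, φ, b0, h1, h2⟩ := h.exists_s hp
  obtain ⟨l, c, l1, l2, l3⟩ := average hp φ
  have h01 := (Trn.zero_lt hp.1).ne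
  have h1l := (Trn.lt_la hp.1).ne
  have h0l := zero_ne_la (m := m) (by have := hp.1; omega)
  obtain ⟨w, hw⟩ := (⟨map_zero φ, by rw [h1, rv_single, zz], h2⟩ : Trn.T ρ t s b φ).list hp.1 h.toSt l l1
  have hx : Trn.T ρ t (ρ (x 1 la c)) 0 fun a => a * c :=
    ⟨zero_mul c, by rw [Pi.single_zero, Tl.r_zero, mul_one, ← (h.tc _).eq, mul_inv_cancel_right],
      fun v v0 => by rw [add_comm, ← Tl.conj_x v0 h0l.symm h1l, map_mul, map_mul, map_inv]⟩
  have k := hw.mul hp.1 hx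
  simp only [l3, CharTwo.add_self_eq_zero, add_zero] at k
  have hL : Tl.L ρ t (w * ρ (x 1 la c)) _ := ⟨fun a ha => by
    obtain ⟨v, v0, rfl⟩ := mem_row.1 ha
    exact mul_inv_eq_iff_eq_mul.1 (by simpa using k.v v v0), k.a⟩
  refine ⟨h.toSt, fun k hk => h.r2 hp hk, fun v => ?_⟩
  by_cases v1 : rv 0 v = 1
  · exact ⟨1, one_mem _, by simp [v1]⟩
  obtain ⟨g, hg, e⟩ := row_trans' hp.1 (rv_mem 0 _) (rv_mem 0 v)
    (fun e => mul_ne_zero l2 b0 ((x_eq_one h0l).1 ((rv_single _ _ _).symm.trans e))) v1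
  have := hL.conj (h.tc g).symm (Tl.norm_V hg) (w := v) (by rw [← e, map_mul, map_mul, map_inv])
  exact ⟨_, by rintro _ ⟨a, ha, rfl⟩; exact (this.1 a ha).symm, this.2⟩

end CL.SC
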