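import Cfsg.Agent.INV.SC.Kap1
import Cfsg.Agent.INV.SC.Til
import Cfsg.Agent.INV.SC.Tr

/-!
The doubled row and column groups.
-/

set_option autoImplicit false
set_option linter.unusedSectionVars false
set_option linter.unusedVariables false

namespace CL.SC

open Matrix Subgroup
open scoped commutatorElement

variable {m : ℕ} [NeZero m] {F : Type*} [Field F] [Finite F] [CharP F 2]
variable {G : Type*} [Group G] [Finite G]
variable {ρ : SL m F →* G} {t : G}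
variable {W W' : Subgroup G} {κ κ' : F}

namespace Kp

theorem rf_rf (ρ : SL m F →* G) : rf (rf ρ gr) gr = ρ :=
  MonoidHom.ext fun a => congrArg ρ (gr_gr a)

theorem gr_zz (c : F) : gr (zz c : SL m F) = zz c := by
  rw [← std_one_true, std_zz]; rfl

theorem map_rf (ρ : SL m F →* G) (α : MulAut (SL m F)) (H : Subgroup (SL m F)) :
    H.map (rf ρ α) = (H.map α.toMonoidHom).map ρ := (map_map _ _ _).symm

theorem row_gr (ρ : SL m F →* G) : (row F 0).map (rf ρ gr) = (col F la).map ρ := by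
  rw [map_rf, map_row_gr]

theorem gr_col {a : SL m F} (h : a ∈ row F 0) : gr a ∈ col F la :=
  (map_row_gr 0).le ⟨a, h, rfl⟩

theorem gr_row {a : SL m F} (h : a ∈ col F la) : gr a ∈ row F 0 := by
  have := (map_col_gr la).le ⟨a, h, rfl⟩
  rwa [Fin.rev_rev] at this

theorem Q_ind {p : SL m F → Prop} (h : ∀ a ∈ row F 0, ∀ b ∈ col F la, p (a * b)) :
    ∀ g ∈ Q m F, p g := fun g hg => by
  obtain ⟨v, w, -, -, rfl⟩ := mem_Q.1 hg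
  exact h _ (rv_mem _ _) _ (cv_mem _ _)

theorem gr_Q : ∀ a ∈ Q m F, gr a ∈ Q m F := Q_ind fun a ha b hb => by
  rw [map_mul]
  exact mul_mem (col_Q (gr_col ha)) (row_Q (gr_row hb))

theorem X_gr (ρ : SL m F →* G) : (X F 0 la).map (rf ρ gr) = (X F 0 la).map ρ := by
  ext y
  constructor <;> rintro ⟨a, ha, rfl⟩ <;> obtain ⟨c, rfl⟩ := mem_X.1 ha
  · exact ⟨_, zz_X c, congrArg ρ (gr_zz c).symm⟩
  · exact ⟨_, zz_X c, congrArg ρ (gr_zz c)⟩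

theorem kt_gr {k : G} (h : Kt ρ t k) : Kt (rf ρ gr) t k := ⟨h.1, fun _ => h.2 _⟩

theorem colW (h2 : Ab (rf ρ gr) t W' κ') {a : SL m F} (ha : a ∈ col F la) : ρ a ∈ W' :=
  h2.le (row_gr ρ ▸ mem_map_of_mem ρ ha)

theorem rowW (h1 : Ab ρ t W κ) {a : SL m F} (ha : a ∈ row F 0) : ρ a ∈ W :=
  h1.le (mem_map_of_mem ρ ha)

theorem odd_kill {u o : G} (hc : Commute o u) (h1 : u ^ 4 = 1) (h2 : (u * o) ^ 4 = 1)
    (ho : Odd (orderOf o)) : o = 1 := by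
  rw [hc.symm.mul_pow, h1, one_mul] at h2
  exact orderOf_eq_one_iff.1 (Nat.eq_one_of_dvd_coprimes
    ((Nat.coprime_two_right.2 ho).pow_right 2) dvd_rfl (orderOf_dvd_of_pow_eq_one h2))

theorem four (hW : Ab ρ t W κ) {y : G} (hy : y ∈ W) : y ^ 4 = 1 := by
  obtain ⟨v, hv⟩ := hW.lam y hy
  rw [show 4 = 2 * 2 from rfl, pow_mul, sq, sq, hW.sq y hy v hv, R_sq]

theorem four' (h : St ρ t) (hW : Ab ρ t W κ) {y : G} (hy : y ∈ W) : (y * t) ^ 4 = 1 := by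
  obtain ⟨v, hv⟩ := hW.lam y hy
  have e : y * t * (y * t) = ρ (rv 0 (v + κ • v)) := by
    calc _ = y * t * y⁻¹ * (y * y) * t := by group
      _ = _ := by
        rw [hv, hW.sq y hy v hv, mul_assoc t, ← map_mul, ← rv_add, (h.tc _).eq, mul_assoc, h.tt,
          mul_one]
  rw [show 4 = 2 * 2 from rfl, pow_mul, sq, sq, e, R_sq]

/-- `g` centralises `B` and `Q B / B` -/
def CQ (ρ : SL m F →* G) (B : Subgroup G) (g : G) : Prop :=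
  (∀ z ∈ B, Commute g z) ∧ ∀ a ∈ Q m F, g * ρ a * g⁻¹ * (ρ a)⁻¹ ∈ B

theorem CQ.inv {B : Subgroup G} {g : G} (h : CQ ρ B g) : CQ ρ B g⁻¹ :=
  ⟨fun z hz => (h.1 z hz).inv_left, fun a ha => by
    have := inv_mem (h.2 a ha)
    rwa [show g⁻¹ * ρ a * g⁻¹⁻¹ * (ρ a)⁻¹ = g⁻¹ * ((g * ρ a * g⁻¹ * (ρ a)⁻¹)⁻¹ * g) by group,
      ← (h.1 _ this).eq, inv_mul_cancel_left]⟩

theorem CQ.mul {B : Subgroup G} {g g' : G} (h : CQ ρ B g) (h' : CQ ρ B g') : CQ ρ B (g * g') :=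
  ⟨fun z hz => (h.1 z hz).mul_left (h'.1 z hz), fun a ha => by
    rw [show g * g' * ρ a * (g * g')⁻¹ * (ρ a)⁻¹ =
      g * (g' * ρ a * g'⁻¹ * (ρ a)⁻¹) * g⁻¹ * (g * ρ a * g⁻¹ * (ρ a)⁻¹) by group,
      (h.1 _ (h'.2 a ha)).eq, mul_inv_cancel_right]
    exact mul_mem (h'.2 a ha) (h.2 a ha)⟩

theorem CQ.gr {B : Subgroup G} {g : G} (h : CQ (rf ρ gr) B g) : CQ ρ B g :=
  ⟨h.1, fun a ha => by simpa only [rf_apply, gr_gr] using h.2 _ (gr_Q a ha)⟩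

theorem cq_of (hW : Ab ρ t W κ) {B : Subgroup G} (hB : B ≤ W) {y : G} (hy : y ∈ W)
    (h : ∀ a ∈ col F la, ρ a * y * (ρ a)⁻¹ * y⁻¹ ∈ B) : CQ ρ B y :=
  ⟨fun z hz => hW.comm _ hy _ (hB hz), Q_ind fun a ha b hb => by
    have h1 := inv_mem (h b hb)
    rwa [map_mul, ← mul_assoc y, ← (hW.comm _ (rowW hW ha) _ hy).eq,
      show ρ a * y * ρ b * y⁻¹ * (ρ a * ρ b)⁻¹ = ρ a * (ρ b * y * (ρ b)⁻¹ * y⁻¹)⁻¹ * (ρ a)⁻¹ by group,
      (hW.comm _ (rowW hW ha) _ (hB h1)).eq, mul_inv_cancel_right]⟩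

theorem cenZ (hm : 2 ≤ m) (h : St ρ t) (hW : Ab ρ t W κ) {a : SL m F} (ha : a ∈ row F 0)
    (hc : ∀ u ∈ col F la, Commute (ρ a) (ρ u)) : a ∈ X F 0 la := by
  obtain ⟨v, -, rfl⟩ := mem_row.1 ha
  rw [rv_X fun j j0 jl => ?_]
  · exact zz_X _
  have := dl_R hm h hW (Pi.single j 1) v
  rw [dl_eq_one (hc _ (cv_mem _ _)).symm, ← map_one ρ, ← x_zero 0 la, md_single,
    if_neg (by simp [j0, jl]), mul_one] at this
  exact (zz_inj hm h hW this).symm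

theorem comm_of_sq {y : G} (ht : t * t = 1) (hy : y * y = 1) (h : t * y * (t * y) = 1) :
    Commute y t := by
  have := inv_eq_of_mul_eq_one_right h
  rwa [_root_.mul_inv_rev, inv_eq_of_mul_eq_one_right hy, inv_eq_of_mul_eq_one_right ht] at this

theorem el (hW : Ab ρ t W 0) : El W := fun y hy => by
  obtain ⟨v, hv⟩ := hW.lam y hy
  rw [hW.sq y hy v hv, zero_smul, rv_zero, map_one]

theorem memZ (hm : 2 ≤ m) (h : St ρ t) (h1 : Ab ρ t W 0) (h2 : Ab (rf ρ gr) t W' 0) {y : G}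
    (hy : y ∈ W) (hc : ∀ u ∈ col F la, Commute y (ρ u)) : y ∈ W' := by
  obtain ⟨v, hv⟩ := h1.lam y hy
  have e : y * t * y⁻¹ * t⁻¹ = ρ (rv 0 v) := by rw [hv, (h.tc _).eq, mul_inv_cancel_right]
  rcases h2.max y (el h1 y hy) (by
    rw [row_gr, mem_centralizer_iff]
    rintro _ ⟨u, hu, rfl⟩
    exact (hc u hu).symm.eq) (by
    rw [row_gr, e]
    exact mem_map_of_mem ρ (X_le_col _ _ (cenZ hm h h1 (rv_mem 0 v) fun u hu => e ▸
      (((hc u hu).mul_left (h.tc u)).mul_left (hc u hu).inv_left).mul_left (h.tc u).inv_left)))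
    with h3 | h3
  · exact h3
  · obtain ⟨a, ha, rfl⟩ := h1.ker y hy (comm_of_sq h.tt (el h1 y hy) (el h2 _ h3))
    exact colW h2 (X_le_col _ _ (cenZ hm h h1 ha hc))

theorem inf_Z (h : St ρ t) {y : G} (h1 : y ∈ (row F 0).map ρ) (h2 : y ∈ (col F la).map ρ) :
    y ∈ (X F 0 la).map ρ := by
  obtain ⟨a, ha, rfl⟩ := h1
  obtain ⟨b, hb, e⟩ := h2
  rw [h.fr.inj_inv (el_col _ b hb) (el_row _ a ha) e] at hb
  exact mem_map_of_mem ρ (row_inf_col.le ⟨ha, hb⟩)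

end Kp

open Kp

/-- Take `y1 ∈ W`, `y2 ∈ W'` with `λ = zz c`.  `n = y1⁻¹ y2` centralises `t`, `Z` and `Q / Z`
(`wz` for both frames; `gr` exchanges row and column), so `n = ρ(v1 v2) k` (`cent_QZ`).
`ζ = y1 ρ v1 = y2 (ρ v2)⁻¹ k⁻¹` centralises `ρ(Q)`; `k = o` or `t o` (`kt_dec`), `ζ ^ 4 = 1`,
`(ζ o) ^ 4 = 1` and `o` commutes with `ζ` (`odd`), so `o = 1`. -/
theorem exists_zeta (hp : Par m F) (h : St2 ρ t) (h1 : Ab ρ t W κ) (h2 : Ab (rf ρ gr) t W' κ')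
    (c : F) : ∃ ζ ∈ W, ζ * t * ζ⁻¹ = t * ρ (zz c) ∧ (∀ g ∈ Q m F, Commute ζ (ρ g)) ∧
      (ζ ∈ W' ∨ t * ζ ∈ W') := by
  obtain ⟨y1, m1, e1⟩ := h1.sur (Pi.single la c)
  obtain ⟨y2, m2, e2⟩ := h2.sur (Pi.single la c)
  rw [← zz_rv] at e1 e2
  have q1 : CQ ρ ((X F 0 la).map ρ) y1 := cq_of h1 ((map_mono (X_le_row _ _)).trans h1.le) m1
    fun a ha => h1.wz hp h.toSt m1 e1 ha
  have q2 : CQ ρ ((X F 0 la).map ρ) y2 := X_gr ρ ▸ (cq_of h2 ((map_mono (X_le_row _ _)).trans h2.le)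
    m2 fun a ha => h2.wz hp (h.toSt.aut gr) m2 e2 ha).gr
  rw [rf_apply, gr_zz, ← e1] at e2
  have q := q1.inv.mul q2
  have ct : Commute (y1⁻¹ * y2) t := by
    change y1⁻¹ * y2 * t = t * (y1⁻¹ * y2)
    calc _ = y1⁻¹ * (y2 * t * y2⁻¹) * y2 := by group
      _ = _ := by rw [e2]; group
  obtain ⟨a, ha, hk⟩ := h.toSt.cent_QZ hp.1 ct (fun c => q.1 _ ⟨_, zz_X c, rfl⟩) q.2
  obtain ⟨v, w, -, -, rfl⟩ := mem_Q.1 ha
  set k := (ρ (rv 0 v * cv la w))⁻¹ * (y1⁻¹ * y2) with hk'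
  have mz : y1 * ρ (rv 0 v) ∈ W := mul_mem m1 (RW h1 v)
  have mz' : y2 * (ρ (cv la w))⁻¹ ∈ W' := mul_mem m2 (inv_mem (colW h2 (cv_mem _ _)))
  have e3 : y2 * (ρ (cv la w))⁻¹ = y1 * ρ (rv 0 v) * k := by
    rw [mul_inv_eq_iff_eq_mul, mul_assoc, (hk.2 _).eq, hk', map_mul]; group
  have e4 : y1 * ρ (rv 0 v) * t * (y1 * ρ (rv 0 v))⁻¹ = t * ρ (zz c) := by
    rw [← e1, mul_assoc y1, ← (h.tc _).eq]; group
  refine ⟨_, mz, e4, Q_ind fun a ha b hb => ?_, ?_⟩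
  · rw [map_mul]
    refine (h1.comm _ mz _ (rowW h1 ha)).mul_right ?_
    rw [← mul_inv_eq_iff_eq_mul.2 e3]
    exact (h2.comm _ mz' _ (colW h2 hb)).mul_left (hk.2 b).inv_left
  obtain ⟨o, ho, hodd, e | e⟩ := h.toSt.kt_dec h.r2 hk
  · rw [e] at e3
    rw [odd_kill (h1.odd o ho hodd _ mz) (four h1 mz) (e3 ▸ four h2 mz') hodd, mul_one] at e3
    exact Or.inl (e3 ▸ mz')
  · rw [e, ← mul_assoc] at e3
    rw [odd_kill ((h1.odd o ho hodd _ mz).mul_right ho.1) (four' h.toSt h1 mz) (e3 ▸ four h2 mz') hodd,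
      mul_one] at e3
    have := mul_mem (colW h2 (X_le_col _ _ (zz_X c))) (e3 ▸ mz')
    rw [mul_inv_eq_iff_eq_mul.1 e4, ← mul_assoc, (h.tc _).eq, ← mul_assoc (ρ _) (ρ _), zz, ← map_mul,
      x_sq, map_one, one_mul] at this
    exact Or.inr this

/-- with `κ = 0`, `W` is the canonical doubling -/
theorem Ab.dbl (h : St ρ t) (hW : Ab ρ t W 0) :
    W = Rt ρ t 0 ∧ Dbl t ((row F 0).map ρ) W := by
  have lam : ∀ y ∈ W, y * t * y⁻¹ * t⁻¹ ∈ (row F 0).map ρ := fun y hy => by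
    obtain ⟨v, hv⟩ := hW.lam y hy
    rw [hv, (h.tc _).eq, mul_inv_cancel_right]
    exact mem_map_of_mem ρ (rv_mem _ _)
  refine ⟨le_antisymm (fun y hy => Subgroup.subset_closure ?_) ((closure_le _).2 ?_), hW.le, el hW, lam,
    hW.ker, ?_⟩
  · by_cases hc : Commute y t
    · exact Or.inl (hW.ker y hy hc)
    · exact Or.inr ⟨el hW y hy, mem_centralizer_iff.2 fun v hv => (hW.comm _ (hW.le hv) _ hy).eq,
        lam y hy, hc⟩
  · rintro y (hy | ⟨e1, e2, e3, e4⟩)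
    · exact hW.le hy
    · exact (hW.max y e1 e2 e3).resolve_right fun e => e4 (comm_of_sq h.tt e1 (el hW _ e))
  · rintro _ ⟨a, ha, rfl⟩
    obtain ⟨v, -, rfl⟩ := mem_row.1 ha
    obtain ⟨y, hy, e⟩ := hW.sur v
    exact ⟨y, hy, by rw [e, (h.tc _).eq, mul_inv_cancel_right]⟩

/-- `κ = κ' = 0` (`kappa` for both frames; for the second one exchange the roles, `gr_mul_gr`).
`ζ ∈ W ⊓ W'` (if `t ζ ∈ W'` then `(t ζ) ^ 2 = 1`, `c = 0`, take `ζ = 1`).  An element of `W`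
centralising `ρ(col la)` lies in `Z̃ = W ⊓ W'`; so `[W, ρ col] ≤ Z̃`, `[W', ρ row] ≤ Z̃`, and `Z̃`
centralises `W, W', ρ(Q)`.  For `y1 ∈ W`, `y2 ∈ W'`, `λ y1 = v`, `λ y2 = a`: `y1 y2` and `y2 y1` map
`t` to the involutions `t v a ζ1`, `t a v ζ2`, so `λ ζ1 = (v a) ^ 2 = λ ζ2`, the images differ by
`z' ∈ Z`; take `λ ζ = z'`.  `n = (y2 y1)⁻¹ ζ y1 y2` centralises `t` and `ρ(Q)` (`y1, y2` act on
`Q Z̃` trivially on `Z̃` and modulo `Z̃`, such automorphisms commute), `n = ρ(zz c) k` (`cent_Q`),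
`k = o` has odd order as `n` centralises `Z̃` and `t` does not; `y1 y2 = y2 y1 ζ' o` with `ζ' o`
commuting with `y1, y2` gives `(ζ' o) ^ 2 = 1`, `o = 1`. -/
theorem kp (hp : Par m F) (h : St2 ρ t) (h1 : Ab ρ t W κ) (h2 : Ab (rf ρ gr) t W' κ') : KP ρ t := by
  have hm : 2 ≤ m := by have := hp.1; omega
  have s1 := h.toSt
  have s2 := s1.aut gr
  obtain ⟨rfl, k1⟩ := h1.kappa hp s1 fun c => by
    obtain ⟨ζ, a, b, c, -⟩ := exists_zeta hp h h1 h2 c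
    exact ⟨ζ, a, b, c⟩
  obtain ⟨rfl, k2⟩ := h2.kappa hp s2 fun c => by
    obtain ⟨ζ, -, b, c, d | d⟩ := exists_zeta hp h h1 h2 c
    · exact ⟨ζ, d, by rwa [rf_apply, gr_zz], fun g hg => c _ (gr_Q g hg)⟩
    · refine ⟨_, d, ?_, fun g hg => (h.tc _).mul_left (c _ (gr_Q g hg))⟩
      rw [rf_apply, gr_zz, show t * ζ * t * (t * ζ)⁻¹ = t * (ζ * t * ζ⁻¹) * t⁻¹ by group, b,
        mul_assoc, (h.tc _).eq, mul_inv_cancel_right, (h.tc _).eq]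
  obtain ⟨e1, d1⟩ := h1.dbl s1
  obtain ⟨e2, d2⟩ := h2.dbl s2
  rw [row_gr] at d2
  rw [Rt, row_gr] at e2
  have dz : Dbl t ((X F 0 la).map ρ) (W ⊓ W') := by
    refine ⟨le_inf ((map_mono (X_le_row _ _)).trans d1.le) ((map_mono (X_le_col _ _)).trans d2.le),
      d1.sq.mono inf_le_left, fun y hy => inf_Z s1 (d1.lam y hy.1) (d2.lam y hy.2),
      fun y hy hc => inf_Z s1 (d1.ker y hy.1 hc) (d2.ker y hy.2 hc), ?_⟩
    rintro _ ⟨a, ha, rfl⟩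
    obtain ⟨c, rfl⟩ := mem_X.1 ha
    obtain ⟨ζ, a, b, -, d⟩ := exists_zeta hp h h1 h2 c
    have e : ζ * t * ζ⁻¹ * t⁻¹ = ρ (x 0 la c) := by rw [b, (h.tc _).eq, mul_inv_cancel_right, zz]
    rcases d with d | d
    · exact ⟨ζ, ⟨a, d⟩, e⟩
    · refine ⟨1, one_mem _, ?_⟩
      rw [← e, (comm_of_sq s1.tt (d1.sq _ a) (d2.sq _ d)).eq]
      group
  refine ⟨s1, e1 ▸ d1, by rw [Ct, ← e2]; exact d2, by rw [Xt, ← e1, Ct, ← e2]; exact dz, ?_⟩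
  rw [Xt, ← e1, Ct, ← e2, commutator_le]
  intro y1 m1 y2 m2
  have q1 : CQ ρ (W ⊓ W') y1 := cq_of h1 inf_le_left m1 fun a ha => by
    obtain ⟨w, -, rfl⟩ := mem_col.1 ha
    exact ⟨dW hm s1 h1 w m1, memZ hm s1 h1 h2 (dW hm s1 h1 w m1) fun u hu => k1 _ m1 _ ha _ (col_Q hu)⟩
  have q2 : CQ ρ (W ⊓ W') y2 := (cq_of h2 inf_le_right m2 fun a ha => by
    obtain ⟨w, -, rfl⟩ := mem_col.1 ha
    exact ⟨memZ hm s2 h2 ((rf_rf ρ).symm ▸ h1) (dW hm s2 h2 w m2)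
      fun u hu => k2 _ m2 _ ha _ (col_Q hu), dW hm s2 h2 w m2⟩).gr
  have cq : ∀ z ∈ W ⊓ W', ∀ g ∈ Q m F, Commute z (ρ g) := fun z hz => Q_ind fun a ha b hb => by
    rw [map_mul]
    exact (h1.comm _ hz.1 _ (rowW h1 ha)).mul_right (h2.comm _ hz.2 _ (colW h2 hb))
  obtain ⟨v, hv, f1⟩ := d1.lam y1 m1
  obtain ⟨a, ha, f2⟩ := d2.lam y2 m2
  have z1 := q1.2 a (col_Q ha)
  have z2 := q2.2 v (row_Q hv)
  set ζ1 := y1 * ρ a * y1⁻¹ * (ρ a)⁻¹ with hζ1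
  set ζ2 := y2 * ρ v * y2⁻¹ * (ρ v)⁻¹ with hζ2
  have g1 : y1 * y2 * t * (y1 * y2)⁻¹ = ζ1 * ρ (a * v) * t := by
    calc _ = y1 * (y2 * t * y2⁻¹ * t⁻¹) * y1⁻¹ * (y1 * t * y1⁻¹ * t⁻¹) * t := by group
      _ = _ := by rw [← f1, ← f2, map_mul, hζ1]; group
  have g2 : y2 * y1 * t * (y2 * y1)⁻¹ = ζ2 * ρ (v * a) * t := by
    calc _ = y2 * (y1 * t * y1⁻¹ * t⁻¹) * y2⁻¹ * (y2 * t * y2⁻¹ * t⁻¹) * t := by group
      _ = _ := by rw [← f1, ← f2, map_mul, hζ2]; group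
  have av : a * v ∈ Q m F := mul_mem (col_Q ha) (row_Q hv)
  have z3 : ζ2 * ρ (v * a * v⁻¹ * a⁻¹) * ζ1⁻¹ ∈ W ⊓ W' :=
    mul_mem (mul_mem z2 (dz.le (mem_map_of_mem ρ (comm_row_col hm hv ha)))) (inv_mem z1)
  set z := ζ2 * ρ (v * a * v⁻¹ * a⁻¹) * ζ1⁻¹ with hz
  set p := ζ1 * ρ (a * v) with hp'
  have g3 : ζ2 * ρ (v * a) = z * p := by
    rw [hz, hp']
    simp only [map_mul, map_inv]
    group
  have cp : Commute z p := (h1.comm _ z3.1 _ z1.1).mul_right (cq _ z3 _ av)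
  have sq : ∀ g : G, g * t * g⁻¹ * (g * t * g⁻¹) = 1 := fun g => by
    rw [conj_mul, s1.tt, mul_one, mul_inv_cancel]
  have ct : Commute z t := by
    have i1 := sq (y1 * y2)
    have i2 := sq (y2 * y1)
    rw [g1] at i1
    rw [g2, g3] at i2
    have i3 : Commute z (p * t) := (comm_of_sq (dz.sq z z3) i1 (by rw [← i2]; group)).symm
    simpa using cp.inv_right.mul_right i3
  obtain ⟨ζ, mζ, f3⟩ := dz.sur z (dz.ker z z3 ct)
  have nt : Commute ((y2 * y1)⁻¹ * (ζ * (y1 * y2))) t := by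
    have : ζ * (y1 * y2) * t * (ζ * (y1 * y2))⁻¹ = y2 * y1 * t * (y2 * y1)⁻¹ := by
      calc _ = ζ * (y1 * y2 * t * (y1 * y2)⁻¹) * ζ⁻¹ := by group
        _ = p * (ζ * t * ζ⁻¹ * t⁻¹) * t := by
          rw [g1, ← mul_assoc ζ, hp', ((h1.comm _ mζ.1 _ z1.1).mul_right (cq _ mζ _ av)).eq]; group
        _ = _ := by rw [f3, ← cp.eq, g2, g3]
    change _ * t = t * _
    calc _ = (y2 * y1)⁻¹ * (ζ * (y1 * y2) * t * (ζ * (y1 * y2))⁻¹) * (ζ * (y1 * y2)) := by group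
      _ = _ := by rw [this]; group
  obtain ⟨c, hk⟩ := s1.cent_Q hp.1 nt fun g hg => by
    have a1 := q1.2 g hg
    have a2 := q2.2 g hg
    have k : ∀ {y y' : G}, CQ ρ (W ⊓ W') y → CQ ρ (W ⊓ W') y' → y * y' * ρ g * (y * y')⁻¹ =
        y' * ρ g * y'⁻¹ * (ρ g)⁻¹ * (y * ρ g * y⁻¹ * (ρ g)⁻¹) * ρ g := fun {y y'} b b' => by
      calc _ = y * (y' * ρ g * y'⁻¹ * (ρ g)⁻¹) * ρ g * y⁻¹ := by group
        _ = _ := by rw [(b.1 _ (b'.2 g hg)).eq]; group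
    have : ζ * (y1 * y2) * ρ g * (ζ * (y1 * y2))⁻¹ = y2 * y1 * ρ g * (y2 * y1)⁻¹ := by
      calc _ = ζ * (y1 * y2 * ρ g * (y1 * y2)⁻¹) * ζ⁻¹ := by group
        _ = _ := by
          rw [k q1 q2, k q2 q1, ((h1.comm _ mζ.1 _ (mul_mem a2 a1).1).mul_right (cq _ mζ _ hg)).eq,
            mul_inv_cancel_right, (h1.comm _ a1.1 _ a2.1).eq]
    change _ * ρ g = ρ g * _
    calc _ = (y2 * y1)⁻¹ * (ζ * (y1 * y2) * ρ g * (ζ * (y1 * y2))⁻¹) * (ζ * (y1 * y2)) := by group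
      _ = _ := by rw [this]; group
  have mc : ρ (zz c) ∈ W ⊓ W' := dz.le (mem_map_of_mem ρ (zz_X c))
  obtain ⟨o, ho, hodd, e | e⟩ := s1.kt_dec h.r2 hk
  · have mu : ζ⁻¹ * ρ (zz c) ∈ W ⊓ W' := mul_mem (inv_mem mζ) mc
    set u := ζ⁻¹ * ρ (zz c) with hu
    have c1 : Commute (u * o) y1 := (q1.1 _ mu).symm.mul_left (h1.odd o ho hodd _ m1)
    have c2 : Commute (u * o) y2 := (q2.1 _ mu).symm.mul_left (h2.odd o (kt_gr ho) hodd _ m2)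
    have g4 : y1 * y2 * y1⁻¹ = u * o * y2 := by
      rw [mul_inv_eq_iff_eq_mul, mul_assoc _ y2, (c2.mul_right c1).eq, hu, ← e, mul_assoc ζ⁻¹,
        mul_inv_cancel_left, ← mul_assoc (y2 * y1), ((q2.mul q1).1 _ (inv_mem mζ)).eq]
      group
    have g5 : (u * o) ^ 2 = 1 := by
      have : y1 * y2 * y1⁻¹ * (y1 * y2 * y1⁻¹) = 1 := by
        rw [conj_mul, d2.sq _ m2, mul_one, mul_inv_cancel]
      rwa [g4, ← pow_two, c2.mul_pow, pow_two y2, d2.sq _ m2, mul_one] at this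
    rw [commutatorElement_def, g4, mul_inv_cancel_right,
      odd_kill (h1.odd o ho hodd _ mu.1) (four h1 mu.1)
        (by rw [show 4 = 2 * 2 from rfl, pow_mul, g5, one_pow]) hodd, mul_one]
    exact mu
  · obtain ⟨η, mη, f4⟩ := dz.sur _ (mem_map_of_mem ρ (zz_X 1))
    have c3 : Commute (t * o) η := e ▸ (h1.comm _ mc.1 _ mη.1).inv_left.mul_left
      (((q2.mul q1).1 _ mη).inv_left.mul_left
        ((h1.comm _ mζ.1 _ mη.1).mul_left ((q1.mul q2).1 _ mη)))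
    have c4 : Commute η t := by
      simpa using (c3.mul_left (h1.odd o ho hodd _ mη.1).inv_left).symm
    rw [c4.eq, mul_inv_cancel_right, mul_inv_cancel, ← map_one ρ, ← x_zero 0 la] at f4
    exact (zero_ne_one (zz_inj hm s1 h1 f4)).elim

theorem St1.kp (hp : Par m F) (h : St1 ρ t) : KP ρ t := by
  obtain ⟨W, κ, h1⟩ := (h.st2 hp).ab hp
  obtain ⟨W', κ', h2⟩ := ((h.aut hp.1 gr).st2 hp).ab hp
  exact CL.SC.kp hp (h.st2 hp) h1 h2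

end CL.SC
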