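import Cfsg.Agent.INV.SC.Bas2
import Cfsg.Agent.INV.SC.NF

/-!
Subgroups consisting of root elements; the pairing of the row and the column group.
-/

set_option autoImplicit false
set_option linter.unusedSectionVars false
set_option linter.unusedVariables false

namespace CL.SC

open Matrix Subgroup
open scoped commutatorElement

variable {m : ℕ} [NeZero m] {F : Type*} [Field F] [Finite F] [CharP F 2]

namespace PU

theorem vv (hm : 3 ≤ m) {a : SL m F} (h : a = 1 ∨ IsRoot a) :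
    ∃ u v : Fin m → F, (a : Matrix (Fin m) (Fin m) F) = 1 + vecMulVec u v := by
  rcases h with rfl | h
  · exact ⟨0, 0, by simp⟩
  · obtain ⟨u, v, -, -, -, h⟩ := (isRoot_iff hm).1 h
    exact ⟨u, v, h⟩

theorem ent {a : SL m F} {u v : Fin m → F} (h : (a : Matrix (Fin m) (Fin m) F) = 1 + vecMulVec u v) (i j : Fin m) :
    a i j = (1 : Matrix (Fin m) (Fin m) F) i j + u i * v j := congrFun (congrFun h i) j

theorem le_la (i : Fin m) : i ≤ la := by rw [Fin.le_def, la_val]; omega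

theorem mem_row0 {a : SL m F} (hU : a ∈ U m F) (h : ∀ k l, k ≠ 0 → a k l = (1 : Matrix (Fin m) (Fin m) F) k l) :
    a ∈ row F 0 := (mem_Pat (hs_row 0)).2 fun k l e => by
  by_cases k0 : k = 0
  · exact mem_U.1 hU k l (by rw [k0, not_not.1 (not_and.1 e k0)])
  · exact h k l k0

theorem mem_colla {a : SL m F} (hU : a ∈ U m F) (h : ∀ k l, l ≠ la → a k l = (1 : Matrix (Fin m) (Fin m) F) k l) :
    a ∈ col F la := (mem_Pat (hs_col la)).2 fun k l e => by
  by_cases k0 : l = la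
  · exact mem_U.1 hU k l (by rw [k0, not_not.1 (not_and.1 e k0)])
  · exact h k l k0

/-- proportional vectors -/
def Pr (v w : Fin m → F) : Prop := ∀ j l, v j * w l = v l * w j

theorem Pr.symm {v w : Fin m → F} (h : Pr v w) : Pr w v := fun j l => by rw [mul_comm, h, mul_comm]

theorem Pr.trans {u v w : Fin m → F} (h : Pr u v) (h' : Pr v w) (hv : v ≠ 0) : Pr u w := fun j l => by
  obtain ⟨i, hi⟩ := Function.ne_iff.1 hv
  apply mul_left_cancel₀ hi
  linear_combination u j * h' i l - u l * h' i j + w i * h j l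

theorem Pr.ex {v w : Fin m → F} (h : Pr v w) (hv : v ≠ 0) : ∃ c : F, w = c • v := by
  obtain ⟨i, hi⟩ := Function.ne_iff.1 hv
  exact ⟨w i / v i, funext fun l => by
    rw [Pi.smul_apply, smul_eq_mul, div_mul_eq_mul_div, eq_div_iff hi, mul_comm, h, mul_comm]⟩

theorem dich {u v u' v' p q : Fin m → F}
    (h : (1 + vecMulVec u v) * (1 + vecMulVec u' v') = 1 + vecMulVec p q) : Pr u u' ∨ Pr v v' := by
  rw [mul_add, add_mul, add_mul, mul_one, mul_one, one_mul, vecMulVec_mul_vecMulVec, add_assoc, add_right_inj] at h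
  have e : ∀ i j, u i * v j + (u' i * v' j + u i * ((v ⬝ᵥ u') * v' j)) = p i * q j := fun i j =>
    congrFun (congrFun h i) j
  rw [or_iff_not_imp_left]
  intro k j l
  obtain ⟨i, i', k⟩ : ∃ i i', u i * u' i' - u i' * u' i ≠ 0 := by
    by_contra! k'
    exact k fun i i' => sub_eq_zero.1 (k' i i')
  apply mul_left_cancel₀ k
  linear_combination (p i' * q l) * e i j + (u i * v j + (u' i * v' j + u i * ((v ⬝ᵥ u') * v' j))) * e i' l -
    (p i' * q j) * e i l - (u i * v l + (u' i * v' l + u i * ((v ⬝ᵥ u') * v' l))) * e i' j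

theorem count {α : Type*} (f : α → Fin m → F) (hf : Function.Injective f) {i j : Fin m} (h : i ≠ j)
    (h1 : ∀ a, f a i = 0) (h2 : ∀ a, f a j = 0) : Nat.card α < Nat.card F ^ (m - 1) := by
  have := Nat.card_le_card_of_injective (fun a (l : ↥({i, j}ᶜ : Finset (Fin m))) => f a l) fun a b e => hf (by
    ext l
    by_cases e1 : l = i
    · rw [e1, h1, h1]
    by_cases e2 : l = j
    · rw [e2, h2, h2]
    exact congrFun e ⟨l, by simp [e1, e2]⟩)
  rw [Nat.card_fun, Nat.card_eq_fintype_card (α := ↥({i, j}ᶜ : Finset (Fin m))), Fintype.card_coe, Finset.card_compl,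
    Finset.card_pair h, Fintype.card_fin] at this
  have h3 : 2 ≤ m := by simpa [Finset.card_pair h] using Finset.card_le_univ ({i, j} : Finset (Fin m))
  exact this.trans_lt (Nat.pow_lt_pow_right Finite.one_lt_card (by omega))

theorem rv_X {v : Fin m → F} (hv : v 0 = 0) : rv 0 v ∈ X F 0 la ↔ ∀ l, l ≠ la → v l = 0 := by
  rw [mem_X]
  refine ⟨fun ⟨a, h⟩ l hl => ?_, fun h => ⟨v la, ?_⟩⟩
  · by_cases e : l = 0
    · rw [e, hv]
    · rw [← rv_single, rv_inj] at h
      rw [h l e, Pi.single_eq_of_ne hl]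
  · rw [← rv_single, rv_inj]
    intro l _
    by_cases e : l = la
    · simp [e]
    · rw [h l e, Pi.single_eq_of_ne e]

theorem cv_X {v : Fin m → F} (hv : v la = 0) : cv la v ∈ X F 0 la ↔ ∀ l, l ≠ 0 → v l = 0 := by
  rw [mem_X]
  refine ⟨fun ⟨a, h⟩ l hl => ?_, fun h => ⟨v 0, ?_⟩⟩
  · by_cases e : l = la
    · rw [e, hv]
    · rw [← cv_single, cv_inj] at h
      rw [h l e, Pi.single_eq_of_ne hl]
  · rw [← cv_single, cv_inj]
    intro l _
    by_cases e : l = 0
    · simp [e]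
    · rw [h l e, Pi.single_eq_of_ne e]

theorem card_center (hm : 2 ≤ m) : Nat.card (center (U m F)) = Nat.card F := by
  have e : center (U m F) = (X F 0 la).subgroupOf (U m F) := Subgroup.ext fun a => by
    rw [mem_subgroupOf, mem_X, mem_center_iff]
    refine ⟨fun h => ?_, fun ⟨c, h⟩ u => Subtype.ext ?_⟩
    · obtain ⟨n, hn⟩ := U_two a.2
      exact cent_U hm hn fun u hu => (congrArg Subtype.val (h ⟨u, hu⟩)).symm
    · rw [Subgroup.coe_mul, Subgroup.coe_mul, h]
      exact (zz_comm u.2 c).eq.symm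
  rw [e, Nat.card_congr (subgroupOfEquivOfLe (by rintro _ h; obtain ⟨c, rfl⟩ := mem_X.1 h; exact zz_mem_U c)).toEquiv,
    card_X (zero_ne_la hm)]

end PU

/-- `a = 1 + u vᵀ` with `v 0 = 0 = u la`, `a * zz c = 1 + u vᵀ + c E`; rank at most one forces
`u ∈ F e 0` or `v ∈ F e la`. -/
theorem mem_row_or_col (hm : 3 ≤ m) {a : SL m F} (hU : a ∈ U m F) (h : a = 1 ∨ IsRoot a) {c : F}
    (hc : c ≠ 0) (h' : a * zz c = 1 ∨ IsRoot (a * zz c)) : a ∈ row F 0 ∨ a ∈ col F la := by
  obtain ⟨u, v, e⟩ := PU.vv hm h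
  obtain ⟨p, q, e'⟩ := PU.vv hm h'
  have h0 := zero_ne_la (m := m) (by omega)
  have k : ∀ i j, p i * q j = u i * v j + if i = 0 ∧ j = la then c else 0 := fun i j => by
    have := congrFun (congrFun e' i) j
    rw [Matrix.SpecialLinearGroup.coe_mul, zz, x_val h0, mul_add, mul_one, Matrix.add_apply, Matrix.add_apply,
      PU.ent e, add_assoc, add_right_inj, vecMulVec_apply] at this
    rw [← this]
    congr 1
    by_cases hj : j = la
    · rw [hj, mul_single_apply_same, mem_U.1 hU i 0 (Fin.zero_le i), one_apply]; simp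
    · rw [mul_single_apply_of_ne _ _ _ _ _ hj]; simp [hj]
  have k1 : ∀ i j, i ≠ 0 → j ≠ la → u i * v j = 0 := fun i j hi hj => by
    have a1 := k 0 la
    have a2 := k i j
    have a3 := k 0 j
    have a4 := k i la
    simp only [hi, hj, and_self, if_true, false_and, and_false, if_false, add_zero] at a1 a2 a3 a4
    apply mul_left_cancel₀ hc
    linear_combination (p 0 * q j) * a4 + (u i * v la) * a3 - (p 0 * q la) * a2 - (u i * v j) * a1
  by_cases e1 : ∀ i, i ≠ 0 → u i = 0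
  · exact .inl (PU.mem_row0 hU fun k l hk => by rw [PU.ent e, e1 k hk, zero_mul, add_zero])
  · push Not at e1
    obtain ⟨i, hi, ui⟩ := e1
    exact .inr (PU.mem_colla hU fun k l hl => by
      rw [PU.ent e, (mul_eq_zero.1 (k1 i l hi hl)).resolve_left ui, mul_zero, add_zero])

/-- Two commuting transvections `1 + u vᵀ`, `1 + u' v'ᵀ` have `v ⬝ u' = 0 = v' ⬝ u`; if the product
has rank at most one, `u ∥ u'` or `v ∥ v'`.  So all elements share `u` or all share `v`; by the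
order `B` is the full group of `u` (or `v`), and `B ≤ U` forces `u ∥ e 0` (`v ∥ e la`). -/
theorem pure_sub (hm : 3 ≤ m) {B : Subgroup (SL m F)} (hU : B ≤ U m F)
    (h : ∀ b ∈ B, b ≠ 1 → IsRoot b) (hc : Nat.card F ^ (m - 1) ≤ Nat.card B) :
    B = row F 0 ∨ B = col F la := by
  have r : ∀ b ∈ B, ∃ u v : Fin m → F, (b : Matrix (Fin m) (Fin m) F) = 1 + vecMulVec u v ∧
      (b ≠ 1 → u ≠ 0 ∧ v ≠ 0) ∧ (b = 1 → u = 0 ∧ v = 0) := fun b hb => by
    by_cases e : b = 1
    · exact ⟨0, 0, by simp [e], fun k => (k e).elim, fun _ => ⟨rfl, rfl⟩⟩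
    · obtain ⟨u, v, h1, h2, -, h4⟩ := (isRoot_iff hm).1 (h b hb e)
      exact ⟨u, v, h4, fun _ => ⟨h1, h2⟩, fun k => (e k).elim⟩
  choose! u v h1 h2 h3 using r
  have d : ∀ a ∈ B, ∀ b ∈ B, PU.Pr (u a) (u b) ∨ PU.Pr (v a) (v b) := fun a ha b hb =>
    PU.dich (by rw [← h1 _ (B.mul_mem ha hb), ← h1 a ha, ← h1 b hb, Matrix.SpecialLinearGroup.coe_mul])
  obtain ⟨⟨a, ha⟩, a1⟩ : ∃ a : B, a ≠ 1 := by
    have : Nontrivial B := Finite.one_lt_card_iff_nontrivial.1
      ((Nat.one_lt_pow (by omega) Finite.one_lt_card).trans_le hc)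
    exact exists_ne 1
  obtain ⟨u0, v0⟩ := h2 a ha fun e => a1 (Subtype.ext e)
  have t : ∀ b ∈ B, ∀ i j, j ≤ i → u b i * v b j = 0 := fun b hb i j hij => by
    simpa [PU.ent (h1 b hb)] using mem_U.1 (hU hb) i j hij
  have c : (∀ b ∈ B, PU.Pr (u a) (u b)) ∨ ∀ b ∈ B, PU.Pr (v a) (v b) := by
    by_contra! k
    obtain ⟨⟨b, hb, k1⟩, b', hb', k2⟩ := k
    have b1 : b ≠ 1 := fun e => k1 fun j l => by simp [(h3 b hb e).1]
    have b2 : b' ≠ 1 := fun e => k2 fun j l => by simp [(h3 b' hb' e).2]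
    rcases d b hb b' hb' with e | e
    · exact k1 (((d a ha b' hb').resolve_right k2).trans e.symm (h2 b' hb' b2).1)
    · exact k2 (((d a ha b hb).resolve_left k1).trans e (h2 b hb b1).2)
  rcases c with c | c
  · choose! z hz using fun b hb => (c b hb).ex u0
    refine .inl (Subgroup.eq_of_le_of_card_ge (fun b hb => PU.mem_row0 (hU hb) fun k l hk => ?_) (by rwa [card_row]))
    by_cases e : u a k = 0
    · rw [PU.ent (h1 b hb), hz b hb, Pi.smul_apply, e, smul_zero, zero_mul, add_zero]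
    refine absurd hc (not_le.2 (PU.count (fun (b : B) l => u b k * v b l) (fun b b' e' => ?_) hk
      (fun b => t b b.2 k k le_rfl) fun b => t b b.2 k 0 (Fin.zero_le k)))
    ext i j
    have := congrFun e' j
    simp only [hz b b.2, hz b' b'.2, Pi.smul_apply, smul_eq_mul] at this
    rw [PU.ent (h1 b b.2), PU.ent (h1 b' b'.2), hz b b.2, hz b' b'.2, Pi.smul_apply, Pi.smul_apply, smul_eq_mul,
      smul_eq_mul, add_right_inj]
    apply mul_left_cancel₀ e
    linear_combination u a i * this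
  · choose! z hz using fun b hb => (c b hb).ex v0
    refine .inr (Subgroup.eq_of_le_of_card_ge (fun b hb => PU.mem_colla (hU hb) fun k l hl => ?_) (by rwa [card_col]))
    by_cases e : v a l = 0
    · rw [PU.ent (h1 b hb), hz b hb, Pi.smul_apply, e, smul_zero, mul_zero, add_zero]
    refine absurd hc (not_le.2 (PU.count (fun (b : B) k => u b k * v b l) (fun b b' e' => ?_) hl
      (fun b => t b b.2 l l le_rfl) fun b => t b b.2 la l (PU.le_la l)))
    ext i j
    have := congrFun e' i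
    simp only [hz b b.2, hz b' b'.2, Pi.smul_apply, smul_eq_mul] at this
    rw [PU.ent (h1 b b.2), PU.ent (h1 b' b'.2), hz b b.2, hz b' b'.2, Pi.smul_apply, Pi.smul_apply, smul_eq_mul,
      smul_eq_mul, add_right_inj]
    apply mul_left_cancel₀ e
    linear_combination v a j * this

theorem exists_row_not_X (hm : 3 ≤ m) : ∃ a ∈ row F (0 : Fin m), a ∉ X F 0 la := by
  obtain ⟨j, h1, h2⟩ := exists_third hm 0 la
  refine ⟨_, rv_mem 0 (Pi.single j 1), fun h => ?_⟩
  simpa using (PU.rv_X (Pi.single_eq_of_ne h1.symm _)).1 h j h2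

theorem row_ne_col (hm : 3 ≤ m) : row F (0 : Fin m) ≠ col F la := fun e => by
  obtain ⟨a, h1, h2⟩ := exists_row_not_X (F := F) hm
  exact h2 (row_inf_col.le ⟨h1, e.le h1⟩)

theorem U_norm_row : U m F ≤ normalizer (row F (0 : Fin m) : Set (SL m F)) := row_zero (m := m) (F := F) ▸ U_norm_A 1

theorem U_norm_col : U m F ≤ normalizer (col F (la : Fin m) : Set (SL m F)) := col_la (m := m) (F := F) ▸ U_norm_A (m - 1)

/-- the pairing `row 0 × col la → X 0 la` (`rv_cv`) -/
theorem pair_row (hm : 3 ≤ m) {a : SL m F} (ha : a ∈ row F 0) (hz : a ∉ X F 0 la) {y : SL m F}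
    (hy : y ∈ X F 0 la) : ∃ u ∈ col F la, a * u * a⁻¹ * u⁻¹ = y := by
  obtain ⟨v, v0, rfl⟩ := mem_row.1 ha
  obtain ⟨c, rfl⟩ := mem_X.1 hy
  obtain ⟨j, h1, h2⟩ : ∃ j, j ≠ la ∧ v j ≠ 0 := by simpa [PU.rv_X v0] using hz
  exact ⟨_, cv_mem la (Pi.single j (c / v j)), by
    rw [rv_cv (zero_ne_la (by omega)) v0 (Pi.single_eq_of_ne h1.symm _), dotProduct_single, mul_div_cancel₀ _ h2]⟩

theorem pair_col (hm : 3 ≤ m) {a : SL m F} (ha : a ∈ col F la) (hz : a ∉ X F 0 la) {y : SL m F}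
    (hy : y ∈ X F 0 la) : ∃ u ∈ row F 0, a * u * a⁻¹ * u⁻¹ = y := by
  obtain ⟨v, v0, rfl⟩ := mem_col.1 ha
  obtain ⟨c, rfl⟩ := mem_X.1 hy
  obtain ⟨j, h1, h2⟩ : ∃ j, j ≠ 0 ∧ v j ≠ 0 := by simpa [PU.cv_X v0] using hz
  refine ⟨_, rv_mem 0 (Pi.single j (c / v j)), ?_⟩
  have := rv_cv (zero_ne_la (by omega)) (Pi.single_eq_of_ne h1.symm (c / v j)) v0
  rw [single_dotProduct, div_mul_cancel₀ _ h2] at this
  rw [← x_inv, ← this]; group

theorem pair_sep_row (hm : 3 ≤ m) {a b : SL m F} (ha : a ∈ row F 0) (hb : b ∈ row F 0)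
    (hz : a ∉ X F 0 la) (h : ∀ u ∈ col F la, a * u * a⁻¹ * u⁻¹ = zz 1 → b * u * b⁻¹ * u⁻¹ = zz 1) :
    a * b ∈ X F 0 la := by
  obtain ⟨v, v0, rfl⟩ := mem_row.1 ha
  obtain ⟨w, w0, rfl⟩ := mem_row.1 hb
  have h0 := zero_ne_la (m := m) (by omega)
  obtain ⟨j, h1, h2⟩ : ∃ j, j ≠ la ∧ v j ≠ 0 := by simpa [PU.rv_X v0] using hz
  have k : ∀ z : Fin m → F, z la = 0 → v ⬝ᵥ z = 1 → w ⬝ᵥ z = 1 := fun z hz e =>
    x_inj h0 ((rv_cv h0 w0 hz).symm.trans (h _ (cv_mem la z) (by rw [rv_cv h0 v0 hz, e, zz])))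
  have k1 := k (Pi.single j (v j)⁻¹) (Pi.single_eq_of_ne h1.symm _) (by rw [dotProduct_single, mul_inv_cancel₀ h2])
  rw [dotProduct_single, mul_inv_eq_one₀ h2] at k1
  rw [← rv_add, PU.rv_X (by rw [Pi.add_apply, v0, w0, add_zero])]
  intro l hl
  have := k (Pi.single j ((1 - v l) / v j) + Pi.single l 1) (by simp [h1.symm, hl.symm])
    (by rw [dotProduct_add, dotProduct_single, dotProduct_single, mul_div_cancel₀ _ h2]; ring)
  rw [dotProduct_add, dotProduct_single, dotProduct_single, k1, mul_div_cancel₀ _ h2] at this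
  rw [Pi.add_apply, CharTwo.add_eq_zero]
  linear_combination -this

theorem comm_row_col {a u : SL m F} (hm : 2 ≤ m) (ha : a ∈ row F 0) (hu : u ∈ col F la) :
    a * u * a⁻¹ * u⁻¹ ∈ X F 0 la := by
  obtain ⟨v, v0, rfl⟩ := mem_row.1 ha
  obtain ⟨w, w0, rfl⟩ := mem_col.1 hu
  exact mem_X.2 ⟨_, rv_cv (zero_ne_la hm) v0 w0⟩

theorem comm_Q (hm : 3 ≤ m) : ⁅Q m F, Q m F⁆ = X F 0 la := by
  have st : ∀ a b h : SL m F, a ∈ U m F → ⁅a, h⁆ ∈ X F 0 la → ⁅b, h⁆ ∈ X F 0 la → ⁅a * b, h⁆ ∈ X F 0 la :=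
    fun a b h ha h1 h2 => by
      obtain ⟨c, hc⟩ := mem_X.1 h2
      rw [show ⁅a * b, h⁆ = a * ⁅b, h⁆ * a⁻¹ * ⁅a, h⁆ by simp only [commutatorElement_def]; group, hc, ← zz,
        ← (zz_comm ha c).eq, mul_inv_cancel_right]
      exact Subgroup.mul_mem _ (mem_X.2 ⟨c, rfl⟩) h1
  have sw : ∀ a b : SL m F, ⁅a, b⁆ ∈ X F 0 la → ⁅b, a⁆ ∈ X F 0 la := fun a b h => by
    rw [← commutatorElement_inv]; exact Subgroup.inv_mem _ h
  have o : ∀ a b : SL m F, Commute a b → ⁅a, b⁆ ∈ X F 0 la := fun a b h => by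
    rw [h.commutator_eq]; exact Subgroup.one_mem _
  have rU : ∀ v, rv 0 v ∈ U m F := fun v => Q_le_U (mem_sup_left (rv_mem 0 v))
  refine le_antisymm (Subgroup.commutator_le.2 fun a ha b hb => ?_) fun y hy => ?_
  · obtain ⟨v, w, -, -, rfl⟩ := mem_Q.1 ha
    obtain ⟨v', w', -, -, rfl⟩ := mem_Q.1 hb
    exact st _ _ _ (rU v)
      (sw _ _ (st _ _ _ (rU v') (o _ _ (Pat_comm (hs_row 0) (rv_mem 0 v') (rv_mem 0 v)))
        (sw _ _ (comm_row_col (by omega) (rv_mem 0 v) (cv_mem la w')))))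
      (sw _ _ (st _ _ _ (rU v') (comm_row_col (by omega) (rv_mem 0 v') (cv_mem la w))
        (o _ _ (Pat_comm (hs_col la) (cv_mem la w') (cv_mem la w)))))
  · obtain ⟨a, h1, h2⟩ := exists_row_not_X (F := F) hm
    obtain ⟨u, hu, rfl⟩ := pair_row hm h1 h2 hy
    exact Subgroup.commutator_mem_commutator (mem_sup_left h1) (mem_sup_right hu)

theorem card_Q (hm : 3 ≤ m) : Nat.card (Q m F) = Nat.card F ^ (2 * m - 3) := by
  have e : (row F (0 : Fin m)).relIndex (col F la) = (row F (0 : Fin m)).relIndex (col F la ⊔ row F 0) := by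
    have hn : col F (la : Fin m) ≤ _ := (le_sup_right.trans Q_le_U).trans U_norm_row
    letI := Subgroup.normal_subgroupOf_of_le_normalizer hn
    letI := Subgroup.normal_subgroupOf_sup_of_le_normalizer hn
    exact Nat.card_congr (QuotientGroup.quotientInfEquivProdNormalizerQuotient _ _ hn).toEquiv
  have e1 := ((row F (0 : Fin m)).subgroupOf (col F la)).card_mul_index
  have e2 := ((row F (0 : Fin m)).subgroupOf (col F la ⊔ row F 0)).card_mul_index
  rw [Nat.card_congr (subgroupOfEquivOfLe le_sup_right).toEquiv, card_row, ← relIndex, ← e, sup_comm] at e2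
  rw [← inf_subgroupOf_right, Nat.card_congr (subgroupOfEquivOfLe inf_le_right).toEquiv, row_inf_col,
    card_X (zero_ne_la (by omega)), card_col, ← row_inf_col, inf_subgroupOf_right, ← relIndex,
    show m - 1 = 1 + (m - 2) by omega, pow_add, pow_one] at e1
  rw [Q, ← e2, Nat.eq_of_mul_eq_mul_left Nat.card_pos e1, ← pow_add]
  congr 1
  omega

/-- Sylow subgroups of `PSL` determine the parameters: the centre of `U n K` has order `|K|`
(`n ≥ 2`, `cent_U`), and the order is `|K| ^ (n (n - 1) / 2)`. -/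
theorem param_of_iso (hm : 3 ≤ m) {n : ℕ} [NeZero n] (hn : 2 ≤ n) {K : Type*} [Field K] [Finite K]
    [CharP K 2] (e : U m F ≃* U n K) : n = m ∧ Nat.card K = Nat.card F := by
  have h1 : Nat.card K = Nat.card F := by
    rw [← PU.card_center (F := K) hn, ← PU.card_center (m := m) (F := F) (by omega),
      Nat.card_congr (Subgroup.centerCongr e).toEquiv]
  have h2 := Nat.card_congr e.toEquiv
  rw [card_U, card_U, h1] at h2
  have h3 := Nat.pow_right_injective (Finite.one_lt_card (α := F)) h2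
  have k : ∀ a b : ℕ, 1 ≤ a → a < b → a * (a - 1) / 2 < b * (b - 1) / 2 := fun a b h h' => by
    have := Nat.triangle_succ a
    have := Nat.div_le_div_right (c := 2) (Nat.mul_le_mul (show a + 1 ≤ b from h') (show a + 1 - 1 ≤ b - 1 by omega))
    omega
  refine ⟨?_, h1⟩
  rcases lt_trichotomy n m with h | h | h
  exacts [absurd h3 (k n m (by omega) h).ne', h, absurd h3 (k m n (by omega) h).ne]

/-- a Sylow 2-subgroup of `PSL` is isomorphic to `U` -/
theorem sylow_psl (P : Sylow 2 (ProjectiveSpecialLinearGroup (Fin m) F)) :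
    Nonempty ((P : Subgroup (ProjectiveSpecialLinearGroup (Fin m) F)) ≃* U m F) := by
  obtain ⟨S, hS⟩ := exists_sylow_U (m := m) (F := F)
  have f : Fr (QuotientGroup.mk' (center (SL m F))) := (QuotientGroup.ker_mk' _).le
  refine ⟨(Sylow.equiv P (S.mapSurjective (QuotientGroup.mk'_surjective _))).trans (MulEquiv.symm ?_)⟩
  rw [Sylow.coe_mapSurjective, hS]
  exact MulEquiv.ofBijective ((QuotientGroup.mk' (center (SL m F))).subgroupMap (U m F))
    ⟨fun a b e => Subtype.ext (f.inj_U a.2 b.2 (congrArg Subtype.val e)), MonoidHom.subgroupMap_surjective _ _⟩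

end CL.SC
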