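import Cfsg.Agent.INV.SC.Base
import Cfsg.Agent.INV.SC.Pure

/-!
Action of the column group on the abelian subgroup.
-/

set_option autoImplicit false
set_option linter.unusedSectionVars false
set_option linter.unusedVariables false

namespace CL.SC

open Matrix Subgroup
open scoped commutatorElement

variable {m : ℕ} [NeZero m] {F : Type*} [Field F] [Finite F] [CharP F 2]
variable {G : Type*} [Group G] [Finite G]
variable {ρ : SL m F →* G} {t : G}
variable {W : Subgroup G} {κ : F}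

namespace Kp

theorem exists_not (s : Finset (Fin m)) (h : s.card < m) : ∃ i, i ∉ s := by
  by_contra! h1
  have := Finset.card_le_card (fun i _ => h1 i : Finset.univ ⊆ s)
  rw [Finset.card_univ, Fintype.card_fin] at this
  omega

/-- the pairing of the middle coordinates -/
def md (v w : Fin m → F) : F := Function.update v 0 0 ⬝ᵥ Function.update w la 0

theorem md_eq (v w : Fin m → F) : md v w = ∑ l, if l = 0 ∨ l = la then 0 else v l * w l := by
  rw [md, dotProduct]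
  refine Finset.sum_congr rfl fun l _ => ?_
  by_cases h : l = 0
  · simp [h]
  · by_cases h' : l = la
    · simp [h']
    · simp [h, h']

theorem md_add (r v w : Fin m → F) : md r (v + w) = md r v + md r w := by
  simp only [md_eq, ← Finset.sum_add_distrib]
  refine Finset.sum_congr rfl fun l _ => ?_
  split_ifs <;> simp [mul_add]

theorem md_smul (r w : Fin m → F) (c : F) : md r (c • w) = c * md r w := by
  simp only [md_eq, Finset.mul_sum]
  refine Finset.sum_congr rfl fun l _ => ?_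
  split_ifs <;> simp [mul_left_comm]

theorem md_single (r : Fin m → F) (i : Fin m) (c : F) :
    md r (Pi.single i c) = if i = 0 ∨ i = la then 0 else r i * c := by
  rw [md_eq, Finset.sum_eq_single i (fun l _ h => by simp [h]) (by simp)]
  simp

theorem md_comm (v w : Fin m → F) : md v w = md w v := by
  simp only [md_eq, mul_comm]

theorem rv_up (i : Fin m) (v : Fin m → F) : rv i v = rv i (Function.update v i 0) :=
  rv_inj.2 fun l h => by simp [h]

theorem cv_up (i : Fin m) (v : Fin m → F) : cv i v = cv i (Function.update v i 0) :=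
  cv_inj.2 fun l h => by simp [h]

theorem rv_sq (i : Fin m) (v : Fin m → F) : rv i v * rv i v = 1 := el_row i _ (rv_mem i v)

theorem cv_sq (i : Fin m) (v : Fin m → F) : cv i v * cv i v = 1 := el_col i _ (cv_mem i v)

theorem zz_rv (c : F) : (zz c : SL m F) = rv 0 (Pi.single la c) := (rv_single _ _ _).symm

theorem zz_X (c : F) : (zz c : SL m F) ∈ X F 0 la := mem_X.2 ⟨c, rfl⟩

theorem zz_Q (c : F) {g : SL m F} (h : g ∈ Q m F) : Commute (zz c) g := zz_comm (Q_le_U h) c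

theorem col_Q {g : SL m F} (h : g ∈ col F la) : g ∈ Q m F := mem_sup_right h

theorem row_Q {g : SL m F} (h : g ∈ row F 0) : g ∈ Q m F := mem_sup_left h

theorem cv_rv (hm : 2 ≤ m) (v w : Fin m → F) :
    cv la w * rv 0 v * (cv la w)⁻¹ * (rv 0 v)⁻¹ = zz (md v w) := by
  have := rv_cv (zero_ne_la hm) (v := Function.update v 0 0) (w := Function.update w la 0)
    (by simp) (by simp)
  rw [← rv_up, ← cv_up] at this
  rw [zz, md, ← x_inv, ← this]
  group

theorem cv_conj (hm : 2 ≤ m) (v w : Fin m → F) :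
    cv la w * rv 0 v * (cv la w)⁻¹ = rv 0 (v + Pi.single la (md v w)) := by
  rw [add_comm, rv_add, ← zz_rv, ← cv_rv hm, inv_mul_cancel_right]

theorem x_col0 {j k : Fin m} (h : j ≠ k) (k0 : k ≠ 0) (s : F) :
    ∀ l, l ≠ 0 → (x j k s : SL m F) l 0 = 0 := fun l hl => by
  rw [x_val h]
  simp [hl, k0]

theorem x_rv {j k : Fin m} (h : j ≠ k) (j0 : j ≠ 0) (k0 : k ≠ 0) (s : F) (v : Fin m → F) :
    x j k s * rv 0 v * (x j k s)⁻¹ = rv 0 (v + Pi.single k (v j * s)) := by
  rw [rv_up, conj_rv (x_col0 h k0 s) (by simp), x_inv, rv_inj]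
  intro l hl
  have e : (x j k s : SL m F) 0 0 = 1 := by
    rw [x_val h]
    simp [j0]
  rw [e, one_smul, x_val h, vecMul_add, vecMul_one]
  by_cases h1 : l = k
  · subst h1
    simp [vecMul, dotProduct, single, j0, hl]
  · simp [vecMul, dotProduct, single, h1, Ne.symm h1, hl]

theorem x_cv {j k : Fin m} (h : j ≠ k) (jl : j ≠ la) (kl : k ≠ la) (s : F) (w : Fin m → F) :
    x j k s * cv la w * (x j k s)⁻¹ = cv la (w + Pi.single j (s * w k)) := by
  have e : (x j k s : SL m F) la la = 1 := by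
    rw [x_val h]
    simp [jl]
  rw [cv_up, conj_cv (fun l hl => by
    rw [x_val h]
    simp [hl.symm, jl]) (by simp), cv_inj]
  intro l hl
  rw [e, inv_one, one_smul, x_val h, add_mulVec, one_mulVec]
  by_cases h1 : l = j
  · subst h1
    simp [mulVec, dotProduct, single, kl, hl]
  · simp [mulVec, dotProduct, single, h1, Ne.symm h1, hl]

theorem cv_col0 (hm : 2 ≤ m) (w : Fin m → F) : ∀ l, l ≠ 0 → (cv la w : SL m F) l 0 = 0 :=
  fun l hl => by simp [cv_apply, hl, zero_ne_la hm]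

theorem rv_X {r : Fin m → F} (h : ∀ j, j ≠ 0 → j ≠ la → r j = 0) : rv 0 r = zz (r la) := by
  rw [zz_rv, rv_inj]
  intro l hl
  by_cases h1 : l = la
  · simp [h1]
  · simp [h1, h l hl h1]

/-- the algebra behind `kappa` -/
theorem alg (hp : Par m F) {κ : F} (b : (Fin m → F) → (Fin m → F) → (Fin m → F) → F)
    (add : ∀ v v' w w', b (v + v') w w' = b v w w' + b v' w w')
    (sym : ∀ v w w', b v w w' = b v w' w) (lin : ∀ v w, ∃ r, ∀ w', b v w w' = md r w')
    (diag : ∀ v w, b v w w = κ * md v w)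
    (ker : ∀ v, (∀ j, j ≠ 0 → j ≠ la → v j = 0) → ∀ w w', b v w w' = 0)
    (inv : ∀ j k, j ≠ k → j ≠ 0 → j ≠ la → k ≠ 0 → k ≠ la → ∀ (s : F) (v w w' : Fin m → F),
      b (v + Pi.single k (v j * s)) (w + Pi.single j (s * w k)) (w' + Pi.single j (s * w' k)) =
        b v w w') : κ = 0 ∧ ∀ v w w', b v w w' = 0 := by
  have add2 : ∀ v w w' w'', b v w (w' + w'') = b v w w' + b v w w'' := fun v w w' w'' => by
    obtain ⟨r, hr⟩ := lin v w
    rw [hr, hr, hr, md_add]
  have sm : ∀ v w i c, b v w (Pi.single i c) = c * b v w (Pi.single i 1) := fun v w i c => by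
    obtain ⟨r, hr⟩ := lin v w
    rw [hr, hr, ← md_smul, ← Pi.single_smul', smul_eq_mul, mul_one]
  have E1 : ∀ j k, j ≠ k → j ≠ 0 → j ≠ la → k ≠ 0 → k ≠ la → ∀ i l, i ≠ k → l ≠ k → ∀ c,
      b (Pi.single k c) (Pi.single i 1) (Pi.single l 1) = 0 := fun j k h j0 jl k0 kl i l ik lk c => by
    have := inv j k h j0 jl k0 kl c (Pi.single j 1) (Pi.single i 1) (Pi.single l 1)
    simpa [ik.symm, lk.symm, add] using this
  have E2 : ∀ j k, j ≠ k → j ≠ 0 → j ≠ la → k ≠ 0 → k ≠ la → ∀ c,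
      b (Pi.single k c) (Pi.single j 1) (Pi.single k 1) = c * κ := fun j k h j0 jl k0 kl c => by
    have := inv j k h j0 jl k0 kl c (Pi.single j 1) (Pi.single j 1) (Pi.single k 1)
    simp only [Pi.single_eq_same, one_mul, mul_one, Pi.single_eq_of_ne h.symm, mul_zero,
      Pi.single_zero, add_zero, add, add2] at this
    rw [sm _ _ j c, sm _ _ j c, diag, diag, md_single, md_single] at this
    simp only [j0, jl, or_self, if_false, Pi.single_eq_same, Pi.single_eq_of_ne h] at this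
    linear_combination (exp := 1) this - (c * κ) * (CharTwo.two_eq_zero (R := F))
  have k0 : κ = 0 := by
    obtain ⟨j, hj⟩ := exists_not {0, la} (Finset.card_le_two.trans_lt hp.1)
    simp only [Finset.mem_insert, Finset.mem_singleton, not_or] at hj
    by_cases hm : m ≤ 4
    · obtain ⟨c, c0, c1⟩ := exists_ne_01 (F := F) (lt_of_lt_of_le (by omega) (hp.2 hm))
      have := diag (Pi.single j 1) (Pi.single j c)
      rw [sm, sym, sm, diag, md_single, md_single] at this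
      simp only [hj, or_self, if_false, Pi.single_eq_same, mul_one, one_mul] at this
      have e : κ * (c * (c - 1)) = 0 := by linear_combination this
      exact (mul_eq_zero.1 e).resolve_right (mul_ne_zero c0 (sub_ne_zero.2 c1))
    · obtain ⟨k, hk⟩ := exists_not {0, la, j} (Finset.card_le_three.trans_lt (by omega))
      obtain ⟨l, hl⟩ := exists_not {0, la, j, k} (Finset.card_le_four.trans_lt (by omega))
      simp only [Finset.mem_insert, Finset.mem_singleton, not_or] at hk hl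
      have := inv j l (Ne.symm hl.2.2.1) hj.1 hj.2 hl.1 hl.2.1 1 (Pi.single k 1) (Pi.single k 1)
        (Pi.single l 1)
      simp only [Pi.single_eq_same, mul_one, Pi.single_eq_of_ne (Ne.symm hk.2.2),
        mul_zero, Pi.single_eq_of_ne hl.2.2.2, Pi.single_zero, add_zero, add2, add_eq_left] at this
      rwa [sym, E2 j k (Ne.symm hk.2.2) hj.1 hj.2 hk.1 hk.2.1, one_mul] at this
  have bas : ∀ k c i l, i ≠ 0 → i ≠ la → l ≠ 0 → l ≠ la →
      b (Pi.single k c) (Pi.single i 1) (Pi.single l 1) = 0 := fun k c i l i0 il l0 ll => by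
    by_cases h : k = 0 ∨ k = la
    · refine ker _ (fun j j0 jl => Pi.single_eq_of_ne ?_ _) _ _
      rintro rfl
      exact h.elim j0 jl
    rw [not_or] at h
    by_cases h1 : i = l
    · rw [h1, diag, k0, zero_mul]
    by_cases h2 : i = k
    · subst h2
      rw [sym, E2 l i (Ne.symm h1) l0 ll i0 il, k0, mul_zero]
    by_cases h3 : l = k
    · subst h3
      rw [E2 i l h1 i0 il l0 ll, k0, mul_zero]
    exact E1 i k h2 i0 il h.1 h.2 i l h2 h3 c
  have red : ∀ v w, (∀ l, l ≠ 0 → l ≠ la → b v w (Pi.single l 1) = 0) → ∀ w', b v w w' = 0 :=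
    fun v w h w' => by
    obtain ⟨r, hr⟩ := lin v w
    rw [hr, md_eq]
    refine Finset.sum_eq_zero fun l _ => ?_
    split_ifs with h1
    · rfl
    · have := h l (not_or.1 h1).1 (not_or.1 h1).2
      rw [hr, md_single, if_neg h1, mul_one] at this
      rw [this, zero_mul]
  refine ⟨k0, fun v w w' => ?_⟩
  induction v using Pi.single_induction with
  | zero => exact ker _ (fun _ _ _ => rfl) _ _
  | add v v' h1 h2 => rw [add, h1, h2, add_zero]
  | single k c =>
    exact red _ _ (fun l l0 ll => by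
      rw [sym]; exact red _ _ (fun i i0 il => bas k c l i l0 ll i0 il) _) _

/-- `y` translates `t` by `v` -/
def Lm (ρ : SL m F →* G) (t y : G) (v : Fin m → F) : Prop := y * t * y⁻¹ = t * ρ (rv 0 v)

/-- the commutator -/
def dl (n y : G) : G := n * y * n⁻¹ * y⁻¹

theorem RW (hW : Ab ρ t W κ) (v : Fin m → F) : ρ (rv 0 v) ∈ W := hW.le ⟨_, rv_mem 0 v, rfl⟩

theorem R_sq (ρ : SL m F →* G) (v : Fin m → F) : ρ (rv 0 v) * ρ (rv 0 v) = 1 := by
  rw [← map_mul, rv_sq, map_one]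

theorem Lm.mul (hW : Ab ρ t W κ) {y y' : G} {v v' : Fin m → F} (hy : y ∈ W) (h : Lm ρ t y v)
    (h' : Lm ρ t y' v') : Lm ρ t (y * y') (v + v') := by
  unfold Lm at *
  calc _ = y * (y' * t * y'⁻¹) * y⁻¹ := by group
    _ = y * t * y⁻¹ * (y * ρ (rv 0 v') * y⁻¹) := by rw [h']; group
    _ = _ := by
      rw [h, (hW.comm _ hy _ (RW hW v')).eq, mul_inv_cancel_right, rv_add, map_mul, mul_assoc]

theorem Lm.inv (hW : Ab ρ t W κ) {y : G} {v : Fin m → F} (hy : y ∈ W) (h : Lm ρ t y v) :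
    Lm ρ t y⁻¹ v := by
  unfold Lm at *
  calc _ = y⁻¹ * (t * ρ (rv 0 v)) * (ρ (rv 0 v) * y) := by
        rw [inv_inv, mul_assoc y⁻¹ (t * _), mul_assoc t, ← mul_assoc (ρ _), R_sq, one_mul, mul_assoc]
    _ = t * (y⁻¹ * (ρ (rv 0 v) * y)) := by rw [← h]; group
    _ = _ := by rw [← (hW.comm _ hy _ (RW hW v)).eq, inv_mul_cancel_left]

theorem Lm.ker (hW : Ab ρ t W κ) {y y' : G} {v : Fin m → F} (hy : y ∈ W) (hy' : y' ∈ W)
    (h : Lm ρ t y v) (h' : Lm ρ t y' v) : ∃ r, y = y' * ρ (rv 0 r) := by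
  have h1 := (h'.inv hW hy').mul hW (inv_mem hy') h
  unfold Lm at h1
  rw [rv_add, rv_sq, map_one, mul_one] at h1
  obtain ⟨a, ha, e⟩ := hW.ker _ (mul_mem (inv_mem hy') hy) (mul_inv_eq_iff_eq_mul.1 h1)
  obtain ⟨r, -, rfl⟩ := mem_row.1 ha
  exact ⟨r, by rw [e, mul_inv_cancel_left]⟩

theorem nW (h : St ρ t) (hW : Ab ρ t W κ) {g : SL m F} (hg : ∀ k, k ≠ 0 → g k 0 = 0) {y : G}
    (hy : y ∈ W) : ρ g * y * (ρ g)⁻¹ ∈ W :=
  (mem_normalizer_iff.1 (hW.nrm _ (h.tc g).symm (le_normalizer_map ρ ⟨g, norm_row hg, rfl⟩)) y).1 hy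

theorem Lm.conj (h : St ρ t) {y : G} {v v' : Fin m → F} (hv : Lm ρ t y v) {g : SL m F}
    (hg : g * rv 0 v * g⁻¹ = rv 0 v') : Lm ρ t (ρ g * y * (ρ g)⁻¹) v' := by
  unfold Lm at *
  have c := (h.tc g).eq
  calc _ = ρ g * (y * ((ρ g)⁻¹ * (t * ρ g)) * y⁻¹) * (ρ g)⁻¹ := by group
    _ = _ := by
      rw [c, inv_mul_cancel_left, hv, ← hg, map_mul, map_mul, map_inv, ← mul_assoc, ← c]; group

theorem dl_conj (g n y : G) : g * dl n y * g⁻¹ = dl (g * n * g⁻¹) (g * y * g⁻¹) := by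
  unfold dl; group

theorem dl_eq_one {n y : G} (h : Commute n y) : dl n y = 1 := by
  rw [dl, h.eq, mul_inv_cancel_right, mul_inv_cancel]

section
variable (hm : 2 ≤ m) (h : St ρ t) (hW : Ab ρ t W κ)
include hm h hW

theorem cW (w : Fin m → F) {y : G} (hy : y ∈ W) : ρ (cv la w) * y * (ρ (cv la w))⁻¹ ∈ W :=
  nW h hW (cv_col0 hm w) hy

theorem dW (w : Fin m → F) {y : G} (hy : y ∈ W) : dl (ρ (cv la w)) y ∈ W :=
  mul_mem (cW hm h hW w hy) (inv_mem hy)

theorem dl_mul (w : Fin m → F) {y y' : G} (hy : y ∈ W) (hy' : y' ∈ W) :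
    dl (ρ (cv la w)) (y * y') = dl (ρ (cv la w)) y * dl (ρ (cv la w)) y' := by
  rw [dl, dl, mul_assoc _ y⁻¹, (hW.comm _ (inv_mem hy) _ (dW hm h hW w hy')).eq, dl]
  group

theorem dl_R (w v : Fin m → F) : dl (ρ (cv la w)) (ρ (rv 0 v)) = ρ (zz (md v w)) := by
  rw [← cv_rv hm]
  simp only [dl, map_mul, map_inv]

theorem dl_lm (w : Fin m → F) {y : G} (hy : y ∈ W) {v : Fin m → F} (hv : Lm ρ t y v) :
    Lm ρ t (dl (ρ (cv la w)) y) (Pi.single la (md v w)) := by
  have := (hv.conj h (cv_conj hm v w)).mul hW (cW hm h hW w hy) (hv.inv hW hy)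
  rwa [add_right_comm, CharTwo.add_self_eq_zero, zero_add] at this

theorem dl_dl (w : Fin m → F) {y : G} (hy : y ∈ W) :
    dl (ρ (cv la w)) (dl (ρ (cv la w)) y) = (dl (ρ (cv la w)) y * dl (ρ (cv la w)) y)⁻¹ := by
  have e : ρ (cv la w) * ρ (cv la w) = 1 := by rw [← map_mul, cv_sq, map_one]
  have e' := inv_eq_of_mul_eq_one_right e
  rw [_root_.mul_inv_rev, dl]
  congr 1
  rw [dl, e']
  simp only [_root_.mul_inv_rev, inv_inv, e', ← mul_assoc, e, one_mul]

theorem dl_comm (w w' : Fin m → F) {y : G} (hy : y ∈ W) :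
    dl (ρ (cv la w)) (dl (ρ (cv la w')) y) = dl (ρ (cv la w')) (dl (ρ (cv la w)) y) := by
  have c : Commute (ρ (cv la w)) (ρ (cv la w')) :=
    (Pat_comm (hs_col la) (cv_mem la w) (cv_mem la w')).map ρ
  have h1 := cW hm h hW w (inv_mem hy)
  have h2 := cW hm h hW w' (inv_mem hy)
  have k : ∀ n n' : G, dl n (dl n' y) =
      n * n' * y * (n * n')⁻¹ * (n * y⁻¹ * n⁻¹ * (y * (n' * y⁻¹ * n'⁻¹))) := fun n n' => by
    unfold dl; group
  rw [k, k, c.eq, (hW.comm _ h1 _ (mul_mem hy h2)).eq, (hW.comm _ hy _ h2).eq,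
    mul_assoc (_ * y⁻¹ * _) y]

theorem zz_inj {a b : F} (e : ρ (zz a) = ρ (zz b)) : a = b :=
  x_inj (zero_ne_la hm) (h.fr.inj_U (zz_mem_U a) (zz_mem_U b) e)

theorem wz_x (hp : Par m F) {y : G} (hy : y ∈ W) {c : F} (hc : Lm ρ t y (Pi.single la c))
    {i : Fin m} (i0 : i ≠ 0) (il : i ≠ la) {b : F} (hb : b ≠ 0) :
    dl (ρ (x i la b)) y ∈ (X F 0 la).map ρ := by
  rw [← cv_single]
  have h1 := dl_lm hm h hW (Pi.single i b) hy hc
  rw [md_comm, md_single, if_pos (Or.inr rfl), Pi.single_zero] at h1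
  obtain ⟨r, hr⟩ := h1.ker hW (dW hm h hW _ hy) (one_mem _) (by simp [Lm, rv_zero])
  rw [one_mul] at hr
  have h2 := dl_dl hm h hW (Pi.single i b) hy
  rw [hr, R_sq, inv_one, dl_R hm h hW, md_single, if_neg (by simp [i0, il]), ← map_one ρ,
    ← x_zero 0 la] at h2
  have ri : r i = 0 := (mul_eq_zero.1 (zz_inj hm h hW h2)).resolve_right hb
  have key : ∀ g : SL m F, (∀ k, k ≠ 0 → g k 0 = 0) → Commute g (x i la b) → Commute g (zz c) →
      ∀ r', g * rv 0 r * g⁻¹ = rv 0 r' → ∀ l, l ≠ 0 → l ≠ la → r' l = r l := by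
    intro g hg c1 c2 r' hr' l l0 ll
    obtain ⟨u, hu⟩ := (hc.conj h (g := g) (by rw [← zz_rv, c2.eq, mul_inv_cancel_right])).ker hW
      (nW h hW hg hy) hy hc
    have e := dl_conj (ρ g) (ρ (cv la (Pi.single i b))) y
    rw [hr, hu, ← map_inv, ← map_mul, ← map_mul, ← map_mul, ← map_mul, hr', cv_single, c1.eq,
      mul_inv_cancel_right, ← cv_single, dl_mul hm h hW _ hy (RW hW u), hr, dl_R hm h hW,
      ← map_mul, zz_rv, ← rv_add] at e
    have := rv_inj.1 (h.fr.inj_inv (rv_sq _ _) (rv_sq _ _) e) l l0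
    simpa [ll] using this
  refine ⟨zz (r la), zz_X _, ?_⟩
  rw [hr, rv_X]
  intro j j0 jl
  by_cases ji : j = i
  · rw [ji, ri]
  by_cases h5 : m ≤ 4
  · obtain ⟨g, g0, g1⟩ := exists_ne_01 (F := F) (lt_of_lt_of_le (by omega) (hp.2 h5))
    have h4 : m = 4 := by
      by_contra h4
      have : ({0, la, i, j} : Finset (Fin m)).card = 4 := by
        rw [Finset.card_insert_of_notMem (by simp [zero_ne_la hm, i0.symm, j0.symm]),
          Finset.card_insert_of_notMem (by simp [il.symm, jl.symm]), Finset.card_pair (Ne.symm ji)]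
      have := Finset.card_le_univ ({0, la, i, j} : Finset (Fin m))
      rw [Fintype.card_fin] at this
      omega
    have hd : ∏ l, Function.update (fun _ : Fin m => g) j (g⁻¹ ^ 3) l = 1 := by
      rw [Finset.prod_update_of_mem (Finset.mem_univ j), Finset.prod_const,
        Finset.card_sdiff_of_subset (Finset.subset_univ _), Finset.card_univ, Fintype.card_fin,
        Finset.card_singleton, show m - 1 = 3 by omega, ← mul_pow, inv_mul_cancel₀ g0, one_pow]
    have cx : ∀ k, k ≠ j → ∀ a, Commute (dg (Function.update (fun _ : Fin m => g) j (g⁻¹ ^ 3)))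
        (x k la a) := fun k hk a => by
      refine mul_inv_eq_iff_eq_mul.1 ((dg_x hd _ _ _).trans ?_)
      rw [Function.update_of_ne hk, Function.update_of_ne jl.symm, mul_right_comm,
        mul_inv_cancel₀ g0, one_mul]
    have := key _ (fun k hk => by
      rw [dg_val hd, diagonal_apply_ne _ hk]) (cx i (Ne.symm ji) b) (cx 0 j0.symm c) _
      (dg_rv hd 0 r) j j0 jl
    simp only [Function.update_self, Function.update_of_ne j0.symm, inv_pow, inv_inv] at this
    by_contra rj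
    refine g1 (eq_one_of_pow (n := 2) (mul_right_cancel₀ rj ?_))
    linear_combination this
  · obtain ⟨k, hk⟩ := exists_not {0, la, i, j} (Finset.card_le_four.trans_lt (by omega))
    simp only [Finset.mem_insert, Finset.mem_singleton, not_or] at hk
    have := key _ (x_col0 (Ne.symm hk.2.2.2) hk.1 1) (x_comm jl hk.2.2.1 _ _) (x_comm jl hk.1 _ _) _
      (x_rv (Ne.symm hk.2.2.2) j0 hk.1 1 r) k hk.1 hk.2.1
    simpa using this

end

end Kp

open Kp

/-- For `a = cv la w` put `δ a y = ρ a * y * (ρ a)⁻¹ * y⁻¹ ∈ W` (`nrm`, `norm_row`); `δ a` is an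
endomorphism of the abelian group `W`, `λ (δ a y) = (λ y ⬝ w) e la`, `δ a (δ a y) = (δ a y)⁻¹ ^ 2`.
For `λ y = c e la`: `δ a y = ρ (rv 0 r)`, `r = r(w)` modulo `e la` depends only on `c` and `w`
(two such `y` differ by an element of `V`), and is equivariant under the elements of `SL` fixing
`zz c` and normalising row and column.  `δ a δ a y = 1` gives `r ⬝ w = 0`, which settles `m = 3`.
It suffices to treat `a = x i la b` (the `a` with the property form a subgroup).  `r j = 0` for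
`0 < j < la`, `j ≠ i`: conjugate by `x j k 1`, `k ≠ 0, i, j, la` (`m ≥ 5`), or for `m = 4` by the
diagonal matrix with entry `g⁻¹ ^ 3` at `j` and `g` elsewhere. -/
theorem Ab.wz (hp : Par m F) (h : St ρ t) (hW : Ab ρ t W κ) {y : G} (hy : y ∈ W) {c : F}
    (hc : y * t * y⁻¹ = t * ρ (zz c)) {a : SL m F} (ha : a ∈ col F la) :
    ρ a * y * (ρ a)⁻¹ * y⁻¹ ∈ (X F 0 la).map ρ := by
  have hm : 2 ≤ m := by have := hp.1; omega
  have cz : ∀ a ∈ col F la, ∀ z ∈ (X F 0 la).map ρ, ρ a * z * (ρ a)⁻¹ = z := by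
    rintro a ha _ ⟨z, hz, rfl⟩
    rw [((Pat_comm (hs_col la) ha (X_le_col _ _ hz)).map ρ).eq, mul_inv_cancel_right]
  change dl (ρ a) y ∈ _
  induction ha using closure_induction with
  | mem g hg =>
    obtain ⟨i, j, b, ⟨rfl, il⟩, rfl⟩ := hg
    by_cases i0 : i = 0
    · rw [dl_eq_one (hW.comm _ (hW.le ⟨_, x_mem ⟨i0, i0 ▸ il.symm⟩ b, rfl⟩) _ hy)]
      exact one_mem _
    by_cases hb : b = 0
    · rw [hb, x_zero, map_one, dl_eq_one (Commute.one_left _)]
      exact one_mem _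
    exact wz_x hm h hW hp hy (c := c) (by rw [Lm, hc, zz_rv]) i0 il hb
  | one =>
    rw [map_one, dl_eq_one (Commute.one_left _)]
    exact one_mem _
  | mul a b ha hb h1 h2 =>
    rw [show dl (ρ (a * b)) y = ρ a * dl (ρ b) y * (ρ a)⁻¹ * dl (ρ a) y by
      rw [map_mul]; unfold dl; group, cz a ha _ h2]
    exact mul_mem h2 h1
  | inv a ha h1 => rwa [inv_eq_of_mul_eq_one_right (el_col la a ha)]

/-- Assume every `zz c` is `λ ζ` with `ζ ∈ W` centralising `ρ(Q)`.  For `y ∈ W`, `λ y = v`, write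
`δ a y = ζ ρ(rv 0 r)`; then `δ b δ a y = zz (r ⬝ w_b)`.  The `δ a` commute and
`δ (a a') = δ a + δ a' + δ a δ a'`, so `β_v(a, b) = r(a) ⬝ w_b = r(b) ⬝ w_a` is a symmetric
`F`-bilinear form on the middle coordinates, additive in `v`, depending only on `v` modulo
`e la`, equivariant, with `β_v(a, a) = κ (v ⬝ w_a)`.  `q ≥ 4`: replace `a` by `c a`:
`(c c + c) κ (v ⬝ w) = 0`, `κ = 0`; `β_v` is alternating: zero for `m = 3`; for `m = 4` it is
`ω(v) det` with `ω` additive and constant on non-zero vectors, so zero.  `m ≥ 5`: for `v = c e i`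
invariance under `x j k 1` (`j ≠ i`; `w ↦ w + w k e j`) gives `β(b e j, b' e l) = 0` for `j ≠ i`
(take `k ≠ j, l`); invariance of `β_{c e i + c e j}` under `x i k 1 * x j k 1` kills the remaining
coefficient.  So `β = 0`, `r ∈ F e la`, `κ = 0`. -/
theorem Ab.kappa (hp : Par m F) (h : St ρ t) (hW : Ab ρ t W κ)
    (hz : ∀ c, ∃ ζ ∈ W, ζ * t * ζ⁻¹ = t * ρ (zz c) ∧ ∀ g ∈ Q m F, Commute ζ (ρ g)) :
    κ = 0 ∧ ∀ y ∈ W, ∀ a ∈ col F la, ∀ g ∈ Q m F, Commute (ρ a * y * (ρ a)⁻¹ * y⁻¹) (ρ g) := by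
  have hm : 2 ≤ m := by have := hp.1; omega
  have ex : ∀ y ∈ W, ∀ w, ∃ r, ∃ ζ ∈ W, (∀ g ∈ Q m F, Commute ζ (ρ g)) ∧
      dl (ρ (cv la w)) y = ζ * ρ (rv 0 r) ∧
      ∀ w', dl (ρ (cv la w')) (dl (ρ (cv la w)) y) = ρ (zz (md r w')) := fun y hy w => by
    obtain ⟨v, hv⟩ := hW.lam y hy
    obtain ⟨ζ, h1, h2, h3⟩ := hz (md v w)
    obtain ⟨r, hr⟩ := (dl_lm hm h hW w hy hv).ker hW (dW hm h hW w hy) h1 (by rw [Lm, h2, zz_rv])
    refine ⟨r, ζ, h1, h3, hr, fun w' => ?_⟩
    rw [hr, dl_mul hm h hW _ h1 (RW hW r), dl_eq_one (h3 _ (col_Q (cv_mem la w'))).symm, one_mul,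
      dl_R hm h hW]
  choose! r hr using ex
  have hr2 : ∀ y ∈ W, ∀ w w', dl (ρ (cv la w')) (dl (ρ (cv la w)) y) = ρ (zz (md (r y w) w')) :=
    fun y hy w => by obtain ⟨-, -, -, -, e⟩ := hr y hy w; exact e
  choose Y hY hL using hW.sur
  have mul : ∀ y ∈ W, ∀ y' ∈ W, ∀ w w',
      md (r (y * y') w) w' = md (r y w) w' + md (r y' w) w' := fun y hy y' hy' w w' => by
    refine zz_inj hm h hW ?_
    rw [← hr2 _ (mul_mem hy hy'), dl_mul hm h hW _ hy hy',
      dl_mul hm h hW _ (dW hm h hW _ hy) (dW hm h hW _ hy'), hr2 _ hy, hr2 _ hy', ← map_mul, zz, zz, zz,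
      x_add]
  have z1 : ∀ y ∈ W, ∀ w w', dl (ρ (cv la w')) (dl (ρ (cv la w)) y) = 1 → md (r y w) w' = 0 :=
    fun y hy w w' e => zz_inj hm h hW (by rw [← hr2 _ hy, e, zz, x_zero, map_one])
  have rR : ∀ u w w', md (r (ρ (rv 0 u)) w) w' = 0 := fun u w w' => z1 _ (RW hW u) _ _ (by
    rw [dl_R hm h hW, dl_eq_one ((zz_Q _ (col_Q (cv_mem la w'))).symm.map ρ)])
  have eq : ∀ y ∈ W, ∀ y' ∈ W, ∀ v, Lm ρ t y v → Lm ρ t y' v → ∀ w w',
      md (r y w) w' = md (r y' w) w' := fun y hy y' hy' v h1 h2 w w' => by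
    obtain ⟨u, rfl⟩ := h1.ker hW hy hy' h2
    rw [mul _ hy' _ (RW hW u), rR, add_zero]
  obtain ⟨k0, hb⟩ := alg hp (κ := κ) (fun v w w' => md (r (Y v) w) w')
    (fun v v' w w' => by
      rw [← mul _ (hY v) _ (hY v')]
      exact eq _ (hY _) _ (mul_mem (hY v) (hY v')) _ (hL _) (Lm.mul hW (hY v) (hL v) (hL v')) _ _)
    (fun v w w' => zz_inj hm h hW (by rw [← hr2 _ (hY v), ← hr2 _ (hY v), dl_comm hm h hW _ _ (hY v)]))
    (fun v w => ⟨_, fun _ => rfl⟩)
    (fun v w => zz_inj hm h hW (by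
      rw [← hr2 _ (hY v), dl_dl hm h hW _ (hY v),
        hW.sq _ (dW hm h hW _ (hY v)) _ (dl_lm hm h hW w (hY v) (hL v)),
        inv_eq_of_mul_eq_one_right (R_sq ρ _), zz_rv, ← Pi.single_smul', smul_eq_mul]))
    (fun v hv w w' => by
      obtain ⟨ζ, h1, h2, h3⟩ := hz (v la)
      rw [eq _ (hY v) _ h1 v (hL v) (by rw [Lm, h2, rv_X hv])]
      exact z1 _ h1 _ _ (by
        rw [dl_eq_one (h3 _ (col_Q (cv_mem la w))).symm, dl_eq_one (Commute.one_right _)]))
    (fun j k jk j0 jl k0 kl s v w w' => by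
      have h1 := nW h hW (x_col0 jk k0 s) (hY v)
      rw [eq _ (hY _) _ h1 _ (hL _) (Lm.conj h (hL v) (x_rv jk j0 k0 s v))]
      refine zz_inj hm h hW ?_
      rw [← hr2 _ h1, ← x_cv jk jl kl, ← x_cv jk jl kl]
      simp only [map_mul, map_inv]
      rw [← dl_conj, ← dl_conj, hr2 _ (hY v), zz, ((x_comm jl k0 _ _).map ρ).eq,
        mul_inv_cancel_right])
  refine ⟨k0, fun y hy a ha g hg => ?_⟩
  obtain ⟨w, -, rfl⟩ := mem_col.1 ha
  obtain ⟨v, hv⟩ := hW.lam y hy
  obtain ⟨ζ, -, h1, h2, -⟩ := hr y hy w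
  change Commute (dl _ _) _
  rw [h2, rv_X fun j j0 jl => by
    have := (eq _ hy _ (hY v) v hv (hL v) w (Pi.single j 1)).trans (hb _ _ _)
    rwa [md_single, if_neg (by simp [j0, jl]), mul_one] at this]
  exact (h1 g hg).mul_left ((zz_Q _ hg).map ρ)

end CL.SC
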