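import Cfsg.Agent.INV.SC.Base
import Cfsg.Agent.INV.SC.Pure
import Cfsg.Agent.TECH.LargeTI

/-!
An element normalising the extended row group and moving the involution.
-/

set_option autoImplicit false
set_option linter.unusedSectionVars false
set_option linter.unusedVariables false

namespace CL.SC.Pr

open Matrix Subgroup
open scoped commutatorElement

variable {m : ℕ} [NeZero m] {F : Type*} [Field F] [Finite F] [CharP F 2]

theorem exists_not (s : Finset (Fin m)) (h : s.card < m) : ∃ i, i ∉ s := by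
  by_contra hc
  push Not at hc
  have := Finset.card_le_card (show Finset.univ ⊆ s from fun i _ => hc i)
  rw [Finset.card_univ, Fintype.card_fin] at this
  omega

theorem mid (hm : 4 ≤ m) (j : Fin m) : ∃ i : Fin m, i ≠ 0 ∧ i ≠ la ∧ i ≠ j := by
  obtain ⟨i, hi⟩ := exists_not {0, la, j} (Finset.card_le_three.trans_lt hm)
  exact ⟨i, by simpa using hi⟩

theorem mid2 (hm : 5 ≤ m) (j l : Fin m) : ∃ i : Fin m, i ≠ 0 ∧ i ≠ la ∧ i ≠ j ∧ i ≠ l := by
  obtain ⟨i, hi⟩ := exists_not {0, la, j, l} (Finset.card_le_four.trans_lt hm)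
  exact ⟨i, by simpa using hi⟩

theorem xX (i j : Fin m) (a : F) : x i j a ∈ X F i j := mem_X.2 ⟨a, rfl⟩

theorem comm_rv {v : Fin m → F} (hv : v 0 = 0) {j l : Fin m} (hl : l ≠ 0) (h : j ≠ l) (s : F) :
    x j l s * rv 0 v * (x j l s)⁻¹ * (rv 0 v)⁻¹ = x 0 l (v j * s) := by
  have := rv_cv hl.symm hv (w := Pi.single j s) (by rw [Pi.single_eq_of_ne h.symm])
  rw [cv_single, dotProduct_single] at this
  rw [← x_inv 0 l, ← this]
  group

theorem comm_cv {w : Fin m → F} (hw : w la = 0) {j l : Fin m} (hj : j ≠ la) (h : j ≠ l) (s : F) :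
    x j l s * cv la w * (x j l s)⁻¹ * (cv la w)⁻¹ = x j la (s * w l) := by
  have := rv_cv hj (v := Pi.single l s) (by rw [Pi.single_eq_of_ne h]) hw
  rwa [rv_single, single_dotProduct] at this

theorem comm_mem {H : Type*} [Group H] {B : Subgroup H} {g b : H} (hg : g ∈ normalizer (B : Set H))
    (hb : b ∈ B) : g * b * g⁻¹ * b⁻¹ ∈ B := mul_mem ((mem_normalizer_iff.1 hg b).1 hb) (inv_mem hb)

theorem ex_v {v : Fin m → F} (hv : v 0 = 0) (h : rv 0 v ∉ X F 0 la) :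
    ∃ j, j ≠ 0 ∧ j ≠ la ∧ v j ≠ 0 := by
  by_contra hc
  push Not at hc
  refine h (mem_X.2 ⟨v la, ?_⟩)
  rw [← rv_single, rv_inj]
  intro l hl
  by_cases h1 : l = la
  · rw [h1, Pi.single_eq_same]
  · rw [Pi.single_eq_of_ne h1, hc l hl h1]

theorem ex_w {w : Fin m → F} (hw : w la = 0) (h : cv la w ∉ X F 0 la) :
    ∃ j, j ≠ 0 ∧ j ≠ la ∧ w j ≠ 0 := by
  by_contra hc
  push Not at hc
  refine h (mem_X.2 ⟨w 0, ?_⟩)
  rw [← cv_single, cv_inj]
  intro l hl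
  by_cases h1 : l = 0
  · rw [h1, Pi.single_eq_same]
  · rw [Pi.single_eq_of_ne h1, hc l h1 hl]

variable {B : Subgroup (SL m F)}

theorem row_le (hm : 4 ≤ m) (hZ : X F 0 la ≤ B)
    (hx : ∀ i j a, i ≠ 0 → i ≠ la → j ≠ 0 → j ≠ la → x i j a ∈ normalizer (B : Set (SL m F)))
    {a : SL m F} (ha : a ∈ row F 0) (hn : a ∉ X F 0 la) (hB : a ∈ B) : row F 0 ≤ B := by
  obtain ⟨v, hv, rfl⟩ := mem_row.1 ha
  obtain ⟨j, j0, jl, hj⟩ := ex_v hv hn
  have h1 : ∀ k, k ≠ 0 → k ≠ la → k ≠ j → ∀ c, x 0 k c ∈ B := fun k k0 kl kj c => by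
    have := comm_mem (hx j k ((v j)⁻¹ * c) j0 jl k0 kl) hB
    rwa [comm_rv hv k0 kj.symm, mul_inv_cancel_left₀ hj] at this
  refine Pat_le ?_
  rintro _ k c - ⟨rfl, k0⟩
  by_cases kl : k = la
  · exact hZ (kl ▸ xX _ _ _)
  by_cases kj : k = j
  · obtain ⟨i, i0, il, ij⟩ := mid hm j
    have := comm_mem (hx i k c i0 il k0 kl) (h1 i i0 il ij 1)
    rwa [← rv_single 0 i, comm_rv (Pi.single_eq_of_ne i0.symm _) k0 (kj ▸ ij), Pi.single_eq_same,
      one_mul] at this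
  · exact h1 k k0 kl kj c

theorem col_le (hm : 4 ≤ m) (hZ : X F 0 la ≤ B)
    (hx : ∀ i j a, i ≠ 0 → i ≠ la → j ≠ 0 → j ≠ la → x i j a ∈ normalizer (B : Set (SL m F)))
    {a : SL m F} (ha : a ∈ col F la) (hn : a ∉ X F 0 la) (hB : a ∈ B) : col F la ≤ B := by
  obtain ⟨w, hw, rfl⟩ := mem_col.1 ha
  obtain ⟨j, j0, jl, hj⟩ := ex_w hw hn
  have h1 : ∀ k, k ≠ 0 → k ≠ la → k ≠ j → ∀ c, x k la c ∈ B := fun k k0 kl kj c => by
    have := comm_mem (hx k j (c * (w j)⁻¹) k0 kl j0 jl) hB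
    rwa [comm_cv hw kl kj, inv_mul_cancel_right₀ hj] at this
  refine Pat_le ?_
  rintro k _ c - ⟨rfl, kl⟩
  by_cases k0 : k = 0
  · exact hZ (k0 ▸ xX _ _ _)
  by_cases kj : k = j
  · obtain ⟨i, i0, il, ij⟩ := mid hm j
    have := comm_mem (hx k i c k0 kl i0 il) (h1 i i0 il ij 1)
    rwa [← cv_single i la, comm_cv (Pi.single_eq_of_ne il.symm _) kl (kj ▸ ij.symm),
      Pi.single_eq_same, mul_one] at this
  · exact h1 k k0 kl kj c

theorem step (hm : 2 ≤ m) (hZ : X F 0 la ≤ B) {r c g : SL m F} (hr : r ∈ row F 0)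
    (hb : r * c ∈ B) (hg : g ∈ normalizer (B : Set (SL m F))) (hc : g * c * g⁻¹ * c⁻¹ ∈ col F la) :
    g * r * g⁻¹ * r⁻¹ * (g * c * g⁻¹ * c⁻¹) ∈ B := by
  have h1 := comm_mem hg hb
  have h2 := comm_row_col hm hr hc
  have h3 := (Pat_comm (hs_col la) (X_le_col _ _ h2) hc).eq
  have h4 : g * (r * c) * g⁻¹ * (r * c)⁻¹ = g * r * g⁻¹ * r⁻¹ *
      (r * (g * c * g⁻¹ * c⁻¹) * r⁻¹ * (g * c * g⁻¹ * c⁻¹)⁻¹ * (g * c * g⁻¹ * c⁻¹)) := by group
  rw [h4, h3, ← mul_assoc] at h1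
  exact (B.mul_mem_cancel_right (hZ h2)).1 h1

theorem exists_a (hp : Par m F) (hm : m ≤ 4) : ∃ a : F, a ≠ 0 ∧ ∀ n, a ^ 2 ^ n ≠ 1 := by
  obtain ⟨a, a0, a1⟩ := exists_ne_01 (F := F) (by have := hp.2 hm; omega)
  exact ⟨a, a0, fun n h => a1 (eq_one_of_pow h)⟩

theorem prod_two {i j : Fin m} (h : i ≠ j) (a b : F) :
    ∏ k, (if k = i then a else if k = j then b else 1) = a * b := by
  rw [Finset.prod_eq_mul i j h] <;> simp +contextual [h.symm]

theorem dg_pow {d : Fin m → F} (h : ∏ i, d i = 1) : dg d ^ (Nat.card F - 1) = 1 := by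
  refine Subtype.ext ?_
  rw [Matrix.SpecialLinearGroup.coe_pow, dg_val h, diagonal_pow, Matrix.SpecialLinearGroup.coe_one,
    ← diagonal_one]
  congr 1
  ext i
  have := Fintype.ofFinite F
  rw [Nat.card_eq_fintype_card]
  exact FiniteField.pow_card_sub_one_eq_one _ (ne_zero_of_prod h i)

theorem zz_sq (c : F) : (zz c : SL m F) ^ 2 ^ 1 = 1 := by
  rw [pow_one, pow_two]
  exact x_sq _ _ _

theorem mem_U_three (hm : m = 3) {a : SL m F} (ha : a * a = 1) (h : Commute a (zz 1)) :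
    a ∈ U m F := by
  subst hm
  obtain ⟨h1, h2, -⟩ := supp (g := Matrix.SpecialLinearGroup.toGL a) (i := 0) (j := la) (k := 0)
    (l := la) (zero_ne_la (by omega)) (zero_ne_la (by omega)) (one_ne_zero (α := F)) (b := 1) (by
      rw [inn_toGL]
      exact mul_inv_eq_iff_eq_mul.2 h.eq)
  have e10 : a 1 0 = 0 := h1 1 (by simp)
  have e20 : a 2 0 = 0 := h1 2 (by simp)
  have e21 : a 2 1 = 0 := h2 1 (Fin.ne_of_val_ne (by rw [la_val]; simp))
  have hd : ∀ i, a i i * a i i = 1 → a i i = 1 := fun i h =>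
    eq_one_of_pow (n := 1) (by rwa [pow_one, pow_two])
  have hs : ∀ i j, ∑ k, a i k * a k j = (1 : Matrix (Fin 3) (Fin 3) F) i j := fun i j => by
    rw [← Matrix.mul_apply, ← Matrix.SpecialLinearGroup.coe_mul, ha]
    rfl
  have d0 := hs 0 0
  have d1 := hs 1 1
  have d2 := hs 2 2
  simp only [Fin.sum_univ_three, e10, e20, e21, mul_zero, zero_mul, add_zero, zero_add,
    one_apply_eq] at d0 d1 d2
  rw [mem_U]
  intro i j hij
  fin_cases i <;> fin_cases j <;> simp_all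

variable {G : Type*} [Group G] [Finite G] {ρ : SL m F →* G} {t y c : G}

/-- `C(t, z)` -/
def CC (ρ : SL m F →* G) (t : G) : Subgroup G := centralizer {t} ⊓ centralizer {ρ (zz 1)}

theorem mem_CC : c ∈ CC ρ t ↔ Commute c t ∧ Commute c (ρ (zz 1)) := by
  rw [CC, mem_inf, mem_centralizer_singleton_iff, mem_centralizer_singleton_iff]
  rfl

theorem zz2 : ρ (zz 1) * ρ (zz 1) = 1 := by rw [← map_mul, zz, x_sq, map_one]

theorem inv_hyp (h1 : y * t * y⁻¹ = t * ρ (zz 1)) (h2 : Commute y (ρ (zz 1))) :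
    y⁻¹ * t * y⁻¹⁻¹ = t * ρ (zz 1) := by
  have : y * (t * ρ (zz 1)) * y⁻¹ = t := by
    rw [← conj_mul, h1, h2.eq, mul_inv_cancel_right, mul_assoc, zz2, mul_one]
  nth_rw 1 [← this]
  group

theorem conj_CC (h1 : y * t * y⁻¹ = t * ρ (zz 1)) (h2 : Commute y (ρ (zz 1))) (hc : c ∈ CC ρ t) :
    y * c * y⁻¹ ∈ CC ρ t := by
  obtain ⟨a, b⟩ := mem_CC.1 hc
  have h3 : Commute (y * c * y⁻¹) (ρ (zz 1)) := (h2.mul_left b).mul_left h2.inv_left
  refine mem_CC.2 ⟨?_, h3⟩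
  have h4 := a.map (MulAut.conj y)
  rw [MulAut.conj_apply, MulAut.conj_apply, h1] at h4
  have := h4.mul_right h3
  rwa [mul_assoc t, zz2, mul_one] at this

theorem norm_CC (h1 : y * t * y⁻¹ = t * ρ (zz 1)) (h2 : Commute y (ρ (zz 1))) :
    y ∈ normalizer (CC ρ t : Set G) := mem_norm_of_le fun _ => conj_CC h1 h2

theorem rho_CC (h : St ρ t) {a : SL m F} (ha : Commute a (zz 1)) : ρ a ∈ CC ρ t :=
  mem_CC.2 ⟨(h.tc a).symm, ha.map ρ⟩

theorem x_CC (h : St ρ t) {i j : Fin m} (hi : i ≠ la) (hj : j ≠ 0) (a : F) : ρ (x i j a) ∈ CC ρ t :=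
  rho_CC h (x_comm hi hj a 1)

theorem U_CC (h : St ρ t) {a : SL m F} (ha : a ∈ U m F) : ρ a ∈ CC ρ t :=
  rho_CC h (zz_comm ha 1).symm

theorem conj_comm (h1 : y * t * y⁻¹ = t * ρ (zz 1)) (h2 : Commute y (ρ (zz 1)))
    (hc : c ∈ ⁅CC ρ t, CC ρ t⁆) : y * c * y⁻¹ ∈ ⁅CC ρ t, CC ρ t⁆ := by
  have : cj y ⁅CC ρ t, CC ρ t⁆ = ⁅CC ρ t, CC ρ t⁆ := by
    rw [cj, map_commutator]
    congr 1 <;> exact cj_eq_of_norm (norm_CC h1 h2)
  exact this ▸ mem_map_of_mem _ hc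

theorem norm_of_ac {α : MulAut (SL m F)} (hac : Ac ρ c α) {P : Subgroup (SL m F)}
    (h : P.map α.toMonoidHom = P) : c ∈ normalizer ((P.map ρ : Subgroup G) : Set G) :=
  mem_norm_of_le (by
    rintro _ ⟨a, ha, rfl⟩
    rw [hac]
    exact mem_map_of_mem _ (h ▸ mem_map_of_mem _ ha))

theorem nrc (hm : 3 ≤ m) (h : St ρ t) (hc : c ∈ CC ρ t)
    (hty : ∀ α σ, Ac ρ c α → ¬ Ty α σ true) :
    c ∈ normalizer (((row F 0).map ρ : Subgroup G) : Set G) ∧
      c ∈ normalizer (((col F la).map ρ : Subgroup G) : Set G) := by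
  obtain ⟨α, hα⟩ := h.ac hm (mem_CC.1 hc).1
  rcases nz hm one_ne_zero ((hα.fix h.fr (zz_sq 1)).1 (mem_CC.1 hc).2) with
    ⟨h1, h2, -⟩ | ⟨-, -, σ, h3⟩
  · exact ⟨norm_of_ac hα h1, norm_of_ac hα h2⟩
  · exact absurd h3 (hty α σ hα)

theorem ty_comm (hm : 3 ≤ m) (h : St ρ t) (hc : c ∈ ⁅CC ρ t, CC ρ t⁆) {α : MulAut (SL m F)}
    (hα : Ac ρ c α) : Ty α 1 false := h.fr.ty_comm hm (fun g hg => h.nrm g (mem_CC.1 hg).1) hc hα

theorem comm_le : ⁅CC ρ t, CC ρ t⁆ ≤ CC ρ t := commutator_le.2 fun _ ha _ hb =>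
  mul_mem (mul_mem (mul_mem ha hb) (inv_mem ha)) (inv_mem hb)

theorem nrc_comm (hm : 3 ≤ m) (h : St ρ t) (hc : c ∈ ⁅CC ρ t, CC ρ t⁆) :
    c ∈ normalizer (((row F 0).map ρ : Subgroup G) : Set G) ∧
      c ∈ normalizer (((col F la).map ρ : Subgroup G) : Set G) :=
  nrc hm h (comm_le hc) fun α σ hα h1 => by simpa using (h1.unique hm (ty_comm hm h hc hα)).2

theorem tri_comm (h : St ρ t) {i j k : Fin m} (h1 : i ≠ j) (h2 : j ≠ k) (h3 : i ≠ k) (il : i ≠ la)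
    (j0 : j ≠ 0) (jl : j ≠ la) (k0 : k ≠ 0) (a : F) : ρ (x i k a) ∈ ⁅CC ρ t, CC ρ t⁆ := by
  rw [← mul_one a, ← x_tri h1 h2 h3, ← commutatorElement_def, map_commutatorElement]
  exact commutator_mem_commutator (x_CC h il j0 a) (x_CC h jl k0 1)

theorem Q_comm (hm : 4 ≤ m) (h : St ρ t) : (Q m F).map ρ ≤ ⁅CC ρ t, CC ρ t⁆ := by
  rw [map_le_iff_le_comap]
  refine sup_le (Pat_le ?_) (Pat_le ?_)
  · rintro _ k a - ⟨rfl, k0⟩
    obtain ⟨i, i0, il, ik⟩ := mid hm k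
    exact tri_comm h i0.symm ik k0.symm (zero_ne_la (by omega)) i0 il k0 a
  · rintro k _ a - ⟨rfl, kl⟩
    obtain ⟨i, i0, il, ik⟩ := mid hm k
    exact tri_comm h ik.symm il kl kl i0 il (zero_ne_la (by omega)).symm a

theorem dg_CC (h : St ρ t) {d : Fin m → F} (hd : ∏ i, d i = 1) (h0 : d 0 = d la) :
    ρ (dg d) ∈ CC ρ t := rho_CC h (mul_inv_eq_iff_eq_mul.1 (by
      rw [zz, dg_x hd, h0, mul_one, mul_inv_cancel₀ (ne_zero_of_prod hd _)]))

theorem mid_comm (hp : Par m F) (h : St ρ t) {i j : Fin m} (i0 : i ≠ 0) (il : i ≠ la) (j0 : j ≠ 0)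
    (jl : j ≠ la) (a : F) : ρ (x i j a) ∈ ⁅CC ρ t, CC ρ t⁆ := by
  by_cases ij : i = j
  · rw [ij, x_self, map_one]
    exact one_mem _
  by_cases hm : 5 ≤ m
  · obtain ⟨n, n0, nl, ni, nj⟩ := mid2 hm i j
    exact tri_comm h ni.symm nj ij il n0 nl j0 a
  obtain ⟨g, g0, hg⟩ := exists_a hp (by omega)
  have hd := (prod_two ij g g⁻¹).trans (mul_inv_cancel₀ g0)
  have h1 : g ^ 2 - 1 ≠ 0 := sub_ne_zero.2 (hg 1)
  have := commutator_mem_commutator (dg_CC h hd (by simp [i0.symm, j0.symm, il.symm, jl.symm]))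
    (x_CC h il j0 (a / (g ^ 2 - 1)))
  rw [← map_commutatorElement, commutatorElement_def, dg_x hd, x_inv', ← x_add] at this
  convert this using 3
  simp only [if_true, if_neg (Ne.symm ij), inv_inv]
  field_simp
  ring

theorem pg_Q : IsPGroup 2 (Q m F) := pgroup_U.to_le Q_le_U

theorem Z_cen {a b : SL m F} (ha : a ∈ X F 0 la) (hb : b ∈ U m F) : Commute a b := by
  obtain ⟨c, rfl⟩ := mem_X.1 ha
  exact zz_comm hb c

theorem cj_Et (h : St ρ t) (h1 : y * t * y⁻¹ = t * ρ (zz 1)) {V : Subgroup (SL m F)}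
    (hV : cj y (V.map ρ) = (row F 0).map ρ) :
    cj y (zpowers t ⊔ V.map ρ) = zpowers t ⊔ (row F 0).map ρ := by
  have hz : ρ (zz 1) ∈ (row F 0).map ρ := mem_map_of_mem _ (X_le_row _ _ (xX _ _ _))
  rw [cj, Subgroup.map_sup, MonoidHom.map_zpowers, show (V.map ρ).map _ = _ from hV,
    show (MulAut.conj y).toMonoidHom t = _ from h1]
  refine le_antisymm (sup_le (zpowers_le_of_mem ?_) le_sup_right)
    (sup_le (zpowers_le_of_mem ?_) le_sup_right)
  · exact mul_mem (mem_sup_left (mem_zpowers t)) (mem_sup_right hz)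
  · exact (Subgroup.mul_mem_cancel_right _ (mem_sup_right hz)).1 (mem_sup_left (mem_zpowers _))

theorem cj_inv {A B : Subgroup G} (h : cj y⁻¹ A = B) : cj y B = A := by
  rw [← h, ← cj_mul', mul_inv_cancel, cj_eq_of_norm (one_mem _)]

end CL.SC.Pr

namespace CL.SC

open Matrix Subgroup
open scoped commutatorElement

variable {m : ℕ} [NeZero m] {F : Type*} [Field F] [Finite F] [CharP F 2]
variable {G : Type*} [Group G] [Finite G]
variable {ρ : SL m F →* G} {t : G}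

/-- `⟨t⟩ ρ(V)` -/
def Et (ρ : SL m F →* G) (t : G) (V : Subgroup (SL m F)) : Subgroup G := zpowers t ⊔ V.map ρ

/-- `m = 3`: `y` normalises `C(t, z)`, so `E = y⁻¹ (Et (row 0)) y ≤ C(t, z)` has order `2 q ^ 2`;
by `rank_eq` `E = ⟨t⟩ ρ(s (A d) s⁻¹)`, `d = 1, 2`, and `s (A d) s⁻¹` centralises `zz 1`, lies in
`U` (involutions commuting with `zz 1` are upper triangular), `cj_A_le_U`. -/
theorem St1.pair_three (hp : Par m F) (hm : m = 3) (h : St ρ t) {y : G}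
    (h1 : y * t * y⁻¹ = t * ρ (zz 1)) (h2 : Commute y (ρ (zz 1))) :
    cj y (Et ρ t (row F 0)) = Et ρ t (row F 0) ∨ cj y (Et ρ t (col F la)) = Et ρ t (row F 0) := by
  have h3 : 3 ≤ m := hp.1
  have hc : ∀ v ∈ (row F (0 : Fin m)).map ρ, Commute t v := by
    rintro _ ⟨a, -, rfl⟩
    exact h.tc a
  have hE : El (Et ρ t (row F 0)) := (el_zpowers h.tt).sup ((el_row 0).map ρ) (by
    rintro _ ⟨n, rfl⟩ v hv
    exact (hc v hv).zpow_left n)
  have hrU : row F (0 : Fin m) ≤ U m F := le_sup_left.trans Q_le_U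
  have hC : Et ρ t (row F 0) ≤ Pr.CC ρ t :=
    sup_le (zpowers_le_of_mem (Pr.mem_CC.2 ⟨Commute.refl t, h.tc _⟩)) (by
      rintro _ ⟨a, ha, rfl⟩
      exact Pr.U_CC h (hrU ha))
  have hC' : cj y⁻¹ (Et ρ t (row F 0)) ≤ Pr.CC ρ t := by
    rintro _ ⟨e, he, rfl⟩
    exact Pr.conj_CC (Pr.inv_hyp h1 h2) h2.inv_left (hC he)
  obtain ⟨s, d, hd, hs⟩ := h.rank_eq hp (hE.map _) (fun e he => (Pr.mem_CC.1 (hC' he)).1) (by
    rw [card_cj, Et, card_zsup h.tt hc (fun ht => h.not_mem h3 (map_le_range _ _ ht)),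
      h.fr.card_map (pgroup_U.to_le hrU), card_row]
    subst hm
    exact le_rfl)
  have h4 : cj s (A m F d) = A m F d := cj_A_le_U (by omega) (by omega) fun a ha =>
    Pr.mem_U_three hm ((el_A d).map _ a ha) (h.fr.commute (Pr.zz_sq 1)
      (Pr.mem_CC.1 (hC' (hs.ge (mem_sup_right (mem_map_of_mem _ ha))))).2.symm).symm
  rw [h4] at hs
  rcases hd with rfl | rfl
  · refine Or.inl (Pr.cj_inv (hs.trans ?_))
    rw [Et, row_zero, show m / 2 = 1 by omega]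
  · refine Or.inr (Pr.cj_inv (hs.trans ?_))
    rw [Et, col_la, show m - m / 2 = m - 1 by omega]

/-- `m ≥ 4`.  `C = C(t, z)` is normalised by `y` and normalises `ρ(Q)` and `Q' = y ρ(Q) y⁻¹`
(`norm_Q`).  `D = ⟨x i j a, 0 < i, j < la⟩ ≤ C` is perfect (each generator is a commutator of
elements of `ρ⁻¹ C`: third index for `m ≥ 5`, a diagonal matrix for `m = 4`).  `ρ(Q) ≤ ⁅C, C⁆`
(`x 0 j a = [x 0 i a, x i j 1]`), so `Q' ≤ ⁅C, C⁆` acts by inner-diagonal automorphisms, fixes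
`Z` (`nz_inner`) and normalises the row and the column group (`nz`).  The elements `v` of the row
group with `[Q', v] ≤ Z` form a `D`-invariant subgroup strictly above `Z` (a 2-group acts), and
`D` is transitive on the non-zero vectors modulo `Z`; so `Q'` is trivial on `Q / Z` and
`cent_QZ` gives `w = ρ a k`.  For an involution `w`, `k * k ∈ ρ(Q)` is trivial (`kt_two`), so
`k ∈ {1, t}`.  Hence `Q' ≤ ⟨t⟩ ρ(Q)`; `Q'` is generated by commutators `[w, c]`, `w ∈ Q'`, `c ∈ C`,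
which lie in `ρ(Q)`. -/
theorem St1.norm_Q (hp : Par m F) (hm : 4 ≤ m) (h : St ρ t) {y : G}
    (h1 : y * t * y⁻¹ = t * ρ (zz 1)) (h2 : Commute y (ρ (zz 1))) :
    cj y ((Q m F).map ρ) = (Q m F).map ρ := by
  have h3 : 3 ≤ m := hp.1
  have hQC : cj y ((Q m F).map ρ) ≤ ⁅Pr.CC ρ t, Pr.CC ρ t⁆ := by
    rintro _ ⟨e, he, rfl⟩
    exact Pr.conj_comm h1 h2 (Pr.Q_comm hm h he)
  have nQ : ∀ c ∈ Pr.CC ρ t, c ∈ normalizer (((Q m F).map ρ : Subgroup G) : Set G) := fun c hc =>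
    h.norm_Q h3 (Pr.mem_CC.1 hc).1 one_ne_zero (Pr.mem_CC.1 hc).2
  have nQ' : ∀ c ∈ Pr.CC ρ t, ∀ w ∈ cj y ((Q m F).map ρ), c * w * c⁻¹ ∈ cj y ((Q m F).map ρ) := by
    intro c hc w hw
    have := (mem_normalizer_iff.1 (nQ _ (Pr.conj_CC (Pr.inv_hyp h1 h2) h2.inv_left hc)) _).1
      (mem_cj.1 hw)
    rw [mem_cj]
    convert this using 1
    group
  have cZ : ∀ w ∈ cj y ((Q m F).map ρ), ∀ c, Commute w (ρ (zz c)) := fun w hw c => by
    have k1 := Pr.mem_CC.1 (Pr.comm_le (hQC hw))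
    obtain ⟨α, hα⟩ := h.ac h3 k1.1
    exact hα.commute (nz_inner h3 (Pr.ty_comm h3 h (hQC hw) hα) one_ne_zero
      ((hα.fix h.fr (Pr.zz_sq 1)).1 k1.2) c)
  have cU : ∀ a ∈ U m F, ∀ z ∈ (X F 0 la).map ρ, ρ a * z * (ρ a)⁻¹ = z := by
    rintro a ha _ ⟨z, hz, rfl⟩
    exact mul_inv_eq_iff_eq_mul.2 ((Pr.Z_cen hz ha).symm.map ρ)
  let B : Subgroup (SL m F) :=
    { carrier := {a | a ∈ Q m F ∧ ∀ w ∈ cj y ((Q m F).map ρ),
        w * ρ a * w⁻¹ * (ρ a)⁻¹ ∈ (X F 0 la).map ρ}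
      one_mem' := ⟨one_mem _, fun w _ => by simp⟩
      mul_mem' := by
        rintro a b ⟨ha, ha'⟩ ⟨hb, hb'⟩
        refine ⟨mul_mem ha hb, fun w hw => ?_⟩
        have := mul_mem (ha' w hw) (hb' w hw)
        rw [← cU a (Q_le_U ha) _ (hb' w hw)] at this
        convert this using 1
        rw [map_mul]
        group
      inv_mem' := by
        rintro a ⟨ha, ha'⟩
        refine ⟨inv_mem ha, fun w hw => ?_⟩
        have := inv_mem (ha' w hw)
        rw [← cU a⁻¹ (Q_le_U (inv_mem ha)) _ this] at this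
        convert this using 1
        rw [map_inv]
        group }
  have hZ : X F 0 la ≤ B := fun a ha => ⟨le_sup_left (a := row F 0) (X_le_row _ _ ha), fun w hw => by
    obtain ⟨c, rfl⟩ := mem_X.1 ha
    rw [show w * ρ (x 0 la c) = ρ (x 0 la c) * w from (cZ w hw c).eq]
    simp⟩
  have hx : ∀ i j a, i ≠ 0 → i ≠ la → j ≠ 0 → j ≠ la →
      x i j a ∈ normalizer (B : Set (SL m F)) := by
    intro i j a i0 il j0 jl
    refine mem_norm_of_le ?_
    rintro b ⟨hb, hb'⟩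
    have k1 : x i j a ∈ normalizer (Q m F : Set (SL m F)) := by
      rw [← cj_eq_iff]
      exact nz_Q (α := MulAut.conj (x i j a)) h3 one_ne_zero
        (mul_inv_eq_iff_eq_mul.2 (x_comm il j0 a 1))
    refine ⟨(mem_normalizer_iff.1 k1 b).1 hb, fun w hw => ?_⟩
    obtain ⟨z, hz, k2⟩ := hb' _ (nQ' _ (inv_mem (Pr.x_CC h il j0 a)) w hw)
    obtain ⟨c, rfl⟩ := mem_X.1 hz
    refine ⟨_, hz, ?_⟩
    rw [← mul_inv_eq_iff_eq_mul.2 ((x_comm il j0 a c).map ρ).eq, k2]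
    simp only [map_mul, map_inv]
    group
  have pQ : IsPGroup 2 (cj y ((Q m F).map ρ)) := (Pr.pg_Q.map ρ).map _
  have key : ∀ V ≤ Q m F, (∃ a ∈ V, a ∉ X F 0 la) →
      cj y ((Q m F).map ρ) ≤ normalizer ((V.map ρ : Subgroup G) : Set G) →
      ∃ a ∈ V, a ∉ X F 0 la ∧ a ∈ B := by
    rintro V hV ⟨a, ha, ha'⟩ hn
    obtain ⟨_, ⟨b, hb, rfl⟩, k1, k2⟩ := CL.LTI.exists_fix (V := (X F 0 la).map ρ)
      ((Pr.pg_Q.to_le hV).map ρ) pQ hn fun hle => by
        obtain ⟨z, hz, e⟩ := hle (mem_map_of_mem _ ha)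
        exact ha' (h.fr.inj_p Pr.pg_Q (hZ hz).1 (hV ha) e ▸ hz)
    exact ⟨b, hb, fun k3 => k1 (mem_map_of_mem _ k3), hV hb, k2⟩
  obtain ⟨a, ha, ha', haB⟩ := key (row F 0) le_sup_left (exists_row_not_X h3)
    fun w hw => (Pr.nrc_comm h3 h (hQC hw)).1
  obtain ⟨b, hb, hb', hbB⟩ := key (col F la) le_sup_right (by
      obtain ⟨i, i0, il, -⟩ := Pr.mid hm 0
      refine ⟨x i la 1, X_le_col _ _ (Pr.xX _ _ _), fun k => ?_⟩
      have k1 : x i la (1 : F) ∈ row F i ⊓ row F 0 := ⟨X_le_row _ _ (Pr.xX _ _ _), X_le_row _ _ k⟩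
      rw [row_inf_row i0, mem_bot, x_eq_one il] at k1
      exact one_ne_zero k1)
    fun w hw => (Pr.nrc_comm h3 h (hQC hw)).2
  have hQB : Q m F ≤ B := sup_le (Pr.row_le hm hZ hx ha ha' haB) (Pr.col_le hm hZ hx hb hb' hbB)
  have fin : ∀ a ∈ Q m F, a * a = 1 → ∀ c ∈ Pr.CC ρ t,
      y * ⁅ρ a, c⁆ * y⁻¹ ∈ (Q m F).map ρ := by
    intro a ha aa c hc
    have hw : y * ρ a * y⁻¹ ∈ cj y ((Q m F).map ρ) := mem_map_of_mem _ (mem_map_of_mem _ ha)
    have ww : y * ρ a * y⁻¹ * (y * ρ a * y⁻¹) = 1 := by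
      rw [conj_mul, ← map_mul, aa]
      simp
    have hc' := Pr.conj_CC h1 h2 hc
    rw [conjugate_commutatorElement]
    generalize y * ρ a * y⁻¹ = w at hw ww
    generalize y * c * y⁻¹ = c' at hc'
    obtain ⟨b, hb, hk⟩ := h.cent_QZ h3 (Pr.mem_CC.1 (Pr.comm_le (hQC hw))).1 (cZ w hw)
      fun a ha => (hQB ha).2 w hw
    obtain ⟨k, hk', rfl⟩ : ∃ k, Kt ρ t k ∧ w = ρ b * k := ⟨_, hk, by group⟩
    clear hk
    rename' hk' => hk
    have k1 : k * k = ρ (b * b)⁻¹ := by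
      rw [map_inv, eq_inv_iff_mul_eq_one, map_mul, ← ww, ← (hk.2 b).eq, mul_assoc, mul_assoc,
        ← mul_assoc k (ρ b), (hk.2 b).eq, mul_assoc (ρ b) k, (hk.2 b).eq]
    obtain ⟨n, hn⟩ := U_two (inv_mem (Q_le_U (mul_mem hb hb)))
    rw [h.kt_two h3 hn (k1 ▸ hk.mul hk), map_one] at k1
    have k2 : Commute k c' := by
      rcases h.inv k hk k1 with rfl | rfl
      · exact Commute.one_left _
      · exact (Pr.mem_CC.1 hc').1.symm
    have k3 : ⁅ρ b * k, c'⁆ = (c' * ρ b * c'⁻¹ * (ρ b)⁻¹)⁻¹ := by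
      rw [commutatorElement_def, mul_assoc (ρ b), k2.eq]
      group
    rw [k3]
    exact inv_mem (Pr.comm_mem (nQ _ hc') (mem_map_of_mem _ hb))
  refine eq_of_le_of_card_ge ?_ (card_cj _ _).ge
  rw [cj, Subgroup.map_map, map_le_iff_le_comap]
  refine sup_le (Pat_le ?_) (Pat_le ?_)
  · rintro _ k a - ⟨rfl, k0⟩
    obtain ⟨i, i0, il, ik⟩ := Pr.mid hm k
    have := fin (x 0 i a) (le_sup_left (a := row F 0) (X_le_row _ _ (Pr.xX _ _ _))) (x_sq _ _ _) _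
      (Pr.x_CC h il k0 1)
    rwa [← map_commutatorElement, commutatorElement_def, x_tri i0.symm ik k0.symm, mul_one] at this
  · rintro k _ a - ⟨rfl, kl⟩
    obtain ⟨i, i0, il, ik⟩ := Pr.mid hm k
    have := inv_mem (fin (x i la a) (le_sup_right (a := row F 0) (X_le_col _ _ (Pr.xX _ _ _)))
      (x_sq _ _ _) _ (Pr.x_CC h kl i0 1))
    rwa [conj_inv, commutatorElement_inv, ← map_commutatorElement, commutatorElement_def,
      x_tri ik.symm il kl, one_mul] at this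

/-- pure matrix lemma, `m ≥ 4`: `B ≤ Q` elementary abelian of the order of the row group,
containing `Z`, normalised by the `x i j a` (`0 < i, j < la`) and the diagonal matrices
centralising `Z`.  If `B` meets the row (column) group outside `Z` it contains it.  Otherwise
take `rv 0 v * cv la w ∈ B` with `v, w ≠ 0` modulo `Z`, `v ⬝ w = 0`; move `w` to `e 1`, so
`v 1 = 0`, `v j ≠ 0`; conjugate by `x j l 1` with a third index `l` (`m ≥ 5`) or by
`dg (a, a, a⁻¹ ^ 3, a)` (`m = 4`): the quotient lies in the row group outside `Z`. -/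
theorem inv_sub_Q (hp : Par m F) (hm : 4 ≤ m) {B : Subgroup (SL m F)} (hB : El B) (hQ : B ≤ Q m F)
    (hc : Nat.card B = Nat.card F ^ (m - 1)) (hZ : X F 0 la ≤ B)
    (hx : ∀ i j a, i ≠ 0 → i ≠ la → j ≠ 0 → j ≠ la → x i j a ∈ normalizer (B : Set (SL m F)))
    (hd : ∀ d : Fin m → F, ∏ i, d i = 1 → d 0 = d la → dg d ∈ normalizer (B : Set (SL m F))) :
    B = row F 0 ∨ B = col F la := by
  have h2 : 2 ≤ m := by omega
  have h0 := zero_ne_la (m := m) h2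
  by_cases hr : ∃ a ∈ row F 0, a ∉ X F 0 la ∧ a ∈ B
  · obtain ⟨a, k1, k2, k3⟩ := hr
    exact Or.inl (eq_of_le_of_card_ge (Pr.row_le hm hZ hx k1 k2 k3) (by rw [hc, card_row])).symm
  by_cases hl : ∃ a ∈ col F la, a ∉ X F 0 la ∧ a ∈ B
  · obtain ⟨a, k1, k2, k3⟩ := hl
    exact Or.inr (eq_of_le_of_card_ge (Pr.col_le hm hZ hx k1 k2 k3) (by rw [hc, card_col])).symm
  exfalso
  have nr : ∀ l, l ≠ 0 → l ≠ la → ∀ c, c ≠ 0 → x 0 l c ∉ B := fun l l0 ll c c0 k =>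
    hr ⟨_, X_le_row _ _ (Pr.xX _ _ _), fun k1 => by
      have k2 : x 0 l c ∈ col F l ⊓ col F la := ⟨X_le_col _ _ (Pr.xX _ _ _), X_le_col _ _ k1⟩
      rw [col_inf_col ll, mem_bot, x_eq_one l0.symm] at k2
      exact c0 k2, k⟩
  obtain ⟨b, hb, hbZ⟩ : ∃ b ∈ B, b ∉ X F 0 la := by
    by_contra k
    push Not at k
    have k1 := card_le_of_le (show B ≤ X F 0 la from k)
    rw [hc, card_X h0] at k1
    have k2 := Nat.pow_lt_pow_right (Finite.one_lt_card (α := F)) (show 1 < m - 1 by omega)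
    rw [pow_one] at k2
    omega
  obtain ⟨v, w, hv, hw, rfl⟩ := mem_Q.1 (hQ hb)
  obtain ⟨j, j0, jl, hj⟩ := Pr.ex_v hv fun k => hl ⟨_, cv_mem la w,
    fun k1 => hbZ (mul_mem k k1), (B.mul_mem_cancel_left (hZ k)).1 hb⟩
  obtain ⟨l, l0, ll, lj⟩ := Pr.mid hm j
  have k1 := Pr.step h2 hZ (rv_mem 0 v) hb (hx j l 1 j0 jl l0 ll) (by
    rw [Pr.comm_cv hw jl lj.symm]
    exact X_le_col _ _ (Pr.xX _ _ _))
  rw [Pr.comm_rv hv l0 lj.symm, Pr.comm_cv hw jl lj.symm, mul_one] at k1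
  by_cases h5 : 5 ≤ m
  · obtain ⟨n, n0, nl, nj, nl'⟩ := Pr.mid2 h5 j l
    have k2 : x l n (1 : F) * x j la (1 * w l) * (x l n 1)⁻¹ * (x j la (1 * w l))⁻¹ = 1 := by
      rw [(x_comm ll nj _ _).eq]
      group
    have k3 := Pr.step h2 hZ (X_le_row _ _ (Pr.xX _ _ _)) k1 (hx l n 1 l0 ll n0 nl)
      (k2 ▸ one_mem _)
    rw [k2, mul_one, ← rv_single 0 l, Pr.comm_rv (Pi.single_eq_of_ne l0.symm _) n0 nl'.symm,
      Pi.single_eq_same, mul_one] at k3
    exact nr n n0 nl _ hj k3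
  · obtain ⟨a, a0, ha⟩ := Pr.exists_a hp (by omega)
    obtain rfl : m = 4 := by omega
    have hd1 : ∏ k : Fin 4, (if k = l then (a ^ 3)⁻¹ else a) = 1 := by
      rw [Finset.prod_ite, Finset.prod_const, Finset.prod_const, Finset.filter_eq', Finset.filter_ne']
      simp [a0]
    have k2 : dg (fun k => if k = l then (a ^ 3)⁻¹ else a) * x j la (1 * w l) *
        (dg fun k => if k = l then (a ^ 3)⁻¹ else a)⁻¹ * (x j la (1 * w l))⁻¹ = 1 := by
      rw [dg_x hd1, if_neg lj.symm, if_neg ll.symm, mul_inv_eq_one]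
      congr 1
      field_simp
    have k3 := Pr.step h2 hZ (X_le_row _ _ (Pr.xX _ _ _)) k1
      (hd _ hd1 (by rw [if_neg l0.symm, if_neg ll.symm])) (k2 ▸ one_mem _)
    rw [k2, mul_one, dg_x hd1, x_inv', ← x_add, if_neg l0.symm, if_pos rfl, inv_inv] at k3
    refine nr l l0 ll _ (fun k => ?_) k3
    exact mul_ne_zero hj (sub_ne_zero.2 (ha 2)) (by linear_combination k)

/-- `y` normalises `ρ(Q)` and `ρ(Z) = ⁅ρ Q, ρ Q⁆`; `B = y⁻¹ ρ(row 0) y` is normalised by `⁅C, C⁆`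
and by the elements of odd order of `C` (`C` permutes the row and the column group, `nz`). -/
theorem St1.pair_four (hp : Par m F) (hm : 4 ≤ m) (h : St ρ t) {y : G}
    (h1 : y * t * y⁻¹ = t * ρ (zz 1)) (h2 : Commute y (ρ (zz 1))) :
    cj y (Et ρ t (row F 0)) = Et ρ t (row F 0) ∨ cj y (Et ρ t (col F la)) = Et ρ t (row F 0) := by
  have h3 : 3 ≤ m := hp.1
  have nQ := cj_eq_iff.1 (St1.norm_Q hp hm h h1 h2)
  have nZ : cj y ((X F 0 la).map ρ) = (X F 0 la).map ρ := by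
    rw [← comm_Q h3, map_commutator, cj, map_commutator]
    congr 1 <;> exact cj_eq_of_norm nQ
  have hle : cj y⁻¹ ((row F 0).map ρ) ≤ (Q m F).map ρ := by
    rintro _ ⟨e, he, rfl⟩
    exact (mem_normalizer_iff.1 (inv_mem nQ) e).1 (map_mono le_sup_left he)
  set B := (cj y⁻¹ ((row F 0).map ρ)).comap ρ ⊓ Q m F with hB
  have hBm : B.map ρ = cj y⁻¹ ((row F 0).map ρ) := by
    refine le_antisymm (map_le_iff_le_comap.2 inf_le_left) fun e he => ?_
    obtain ⟨a, ha, rfl⟩ := hle he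
    exact mem_map_of_mem _ ⟨he, ha⟩
  have hn : ∀ g : SL m F, Commute g (zz 1) →
      y * ρ g * y⁻¹ ∈ normalizer (((row F 0).map ρ : Subgroup G) : Set G) →
      g ∈ normalizer (B : Set (SL m F)) := by
    intro g hg k
    have k1 : g ∈ normalizer (Q m F : Set (SL m F)) := by
      rw [← cj_eq_iff]
      exact nz_Q (α := MulAut.conj g) h3 one_ne_zero (mul_inv_eq_iff_eq_mul.2 hg)
    refine mem_norm_of_le fun b hb => mem_inf.2 ⟨?_, (mem_normalizer_iff.1 k1 b).1 hb.2⟩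
    have := (mem_normalizer_iff.1 k _).1 (mem_cj.1 (mem_comap.1 (mem_inf.1 hb).1))
    rw [mem_comap, mem_cj]
    convert this using 1
    simp only [map_mul, map_inv]
    group
  have := inv_sub_Q hp hm (B := B) (fun b hb => h.fr.inj_p Pr.pg_Q (mul_mem hb.2 hb.2) (one_mem _)
      (by rw [map_mul, map_one]; exact ((el_row 0).map ρ).map _ _ hb.1)) inf_le_right
    (by rw [← h.fr.card_map (Pr.pg_Q.to_le inf_le_right), hBm, card_cj,
      h.fr.card_map (Pr.pg_Q.to_le le_sup_left), card_row])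
    (fun a ha => mem_inf.2 ⟨mem_comap.2 (mem_cj.2 (map_mono (X_le_row 0 la) (by
      rw [← nZ, inv_inv]
      exact mem_map_of_mem _ (mem_map_of_mem _ ha)))), le_sup_left (a := row F 0) (X_le_row _ _ ha)⟩)
    (fun i j a i0 il j0 jl => hn _ (x_comm il j0 a 1)
      (Pr.nrc_comm h3 h (Pr.conj_comm h1 h2 (Pr.mid_comm hp h i0 il j0 jl a))).1)
    fun d hd h0 => hn _ (mul_inv_eq_iff_eq_mul.1 (by
        rw [zz, dg_x hd, h0, mul_one, mul_inv_cancel₀ (ne_zero_of_prod hd _)]))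
      (Pr.nrc h3 h (Pr.conj_CC h1 h2 (Pr.dg_CC h hd h0)) fun α σ hα k => by
        simpa using (k.pow h3 (odd_card_sub (F := F)) (hα.pow_eq_one h3 h.fr (by
          rw [conj_pow, ← map_pow, Pr.dg_pow hd]
          simp))).2).1
  exact this.imp (fun e => Pr.cj_Et h h1 (Pr.cj_inv (by rw [← hBm, e])))
    fun e => Pr.cj_Et h h1 (Pr.cj_inv (by rw [← hBm, e]))

/-- In the second case take `n = y (ρ l) y⁻¹`, `l = x 1 0 1` (normalises the column group, moves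
`zz 1`); note `y⁻¹ t y = t ρ (zz 1)`. -/
theorem St1.pair (hp : Par m F) (h : St1 ρ t) :
    ∃ n ∈ normalizer (Et ρ t (row F 0) : Set G), ¬ Commute n t := by
  have h3 : 3 ≤ m := hp.1
  have h0 := zero_ne_la (m := m) (by omega)
  obtain ⟨y, h1, h2⟩ := h.mv
  have hy : cj y (Et ρ t (row F 0)) = Et ρ t (row F 0) ∨
      cj y (Et ρ t (col F la)) = Et ρ t (row F 0) := by
    by_cases hm : m = 3
    · exact St1.pair_three hp hm h.toSt h1 h2
    · exact St1.pair_four hp (by omega) h.toSt h1 h2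
  rcases hy with hy | hy
  · refine ⟨y, cj_eq_iff.1 hy, fun hc => ?_⟩
    rw [hc.eq, mul_inv_cancel_right, left_eq_mul] at h1
    exact one_ne_zero ((x_eq_one h0).1 (h.fr.eq_one (Pr.zz_sq 1) h1))
  · obtain ⟨j, j0, jl⟩ := exists_third h3 (0 : Fin m) la
    have k1 : x j 0 (1 : F) ∈ normalizer (col F (la : Fin m) : Set (SL m F)) :=
      norm_col fun k hk => by
        rw [x_val j0, Matrix.add_apply, one_apply_ne (Ne.symm hk), single_apply_of_row_ne jl,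
          add_zero]
    have k2 : cj (ρ (x j 0 1)) (Et ρ t (col F la)) = Et ρ t (col F la) := by
      rw [Et, cj, Subgroup.map_sup, MonoidHom.map_zpowers]
      congr 1
      · congr 1
        exact mul_inv_eq_iff_eq_mul.2 (h.tc _).eq.symm
      · exact cj_eq_of_norm (Pr.norm_of_ac (ac_self ρ _) (cj_eq_of_norm k1))
    refine ⟨y * ρ (x j 0 1) * y⁻¹, cj_eq_iff.1 ?_, fun hc => ?_⟩
    · rw [← hy, ← cj_mul', inv_mul_cancel_right, cj_mul', k2]
    · have k3 := hc.map (MulAut.conj y⁻¹)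
      rw [MulAut.conj_apply, MulAut.conj_apply, Pr.inv_hyp h1 h2,
        show y⁻¹ * (y * ρ (x j 0 1) * y⁻¹) * y⁻¹⁻¹ = ρ (x j 0 1) by group] at k3
      have k4 := (h.tc (x j 0 1)).symm.inv_right.mul_right k3
      rw [inv_mul_cancel_left] at k4
      have k5 := (h.fr.commute (Pr.zz_sq 1) k4.symm).symm
      have k6 := x_tri j0 h0 jl (1 : F) 1
      rw [show x j 0 (1 : F) * x 0 la 1 = _ from k5.eq, mul_inv_cancel_right, zz, mul_inv_cancel,
        eq_comm, x_eq_one jl, mul_one] at k6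
      exact one_ne_zero k6

end CL.SC
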