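import Cfsg.Agent.INV.SC.IC3
import Cfsg.Agent.INV.SC.F1

/-!
The wreathed case: elements which are inner on one factor.
-/

set_option autoImplicit false
set_option maxHeartbeats 200000
set_option linter.unusedSectionVars false
set_option linter.unusedVariables false

namespace CL.SC

open Matrix Subgroup
open scoped commutatorElement

variable {m : ℕ} [NeZero m] {F : Type*} [Field F] [Finite F] [CharP F 2]
variable {G : Type*} [Group G] [Finite G]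
variable {ρ π : SL m F →* G} {t : G} {S : Sylow 2 G}
variable {w : G} {α β : MulAut (SL m F)}

/-- the conclusion for an element which is inner on the first and outer on the second factor -/
def In (ρ π : SL m F →* G) (w : G) (α : MulAut (SL m F)) : Prop :=
  α = 1 ∧ ∀ r, IsRoot r → IsConj (ρ (zz 1)) (w * π r)

namespace P1

theorem cj (g y : G) : IsConj y (g * y * g⁻¹) := isConj_iff.2 ⟨g, rfl⟩

theorem cj_sq {y : G} (h : y * y = 1) (g : G) : g * y * g⁻¹ * (g * y * g⁻¹) = 1 := by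
  rw [conj_mul, h, mul_one, mul_inv_cancel]

theorem map_sq (π : SL m F →* G) {a : SL m F} (h : a * a = 1) : π a * π a = 1 := by
  rw [← map_mul, h, map_one]

theorem r1 : IsRoot (zz (1 : F) : SL m F) := IsConj.refl _

theorem sq (hc : IsConj (π (zz 1)) w) : w * w = 1 := by
  obtain ⟨g, rfl⟩ := isConj_iff.1 hc
  exact cj_sq (map_sq π r1.sq) g

theorem ne (h : Fr π) {a : SL m F} (ha : a * a = 1) (h1 : a ≠ 1) : π a ≠ 1 := fun e =>
  h1 (h.inj_inv ha (one_mul 1) (e.trans π.map_one.symm))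

theorem comm_le {H : Type*} [Group H] (K : Subgroup H) : ⁅K, K⁆ ≤ K :=
  commutator_le.2 fun _ ha _ hb => mul_mem (mul_mem (mul_mem ha hb) (inv_mem ha)) (inv_mem hb)

theorem ty (hm : 3 ≤ m) {δ : MulAut (SL m F)} {σ : F ≃+* F} {ε : Bool} (h : Ty (δ * β * δ⁻¹) σ ε) :
    Ty β σ ε := by simpa [mul_assoc] using h.conj hm δ⁻¹

theorem ou (hm : 3 ≤ m) (h : Ou β) (δ : MulAut (SL m F)) : Ou (δ * β * δ⁻¹) := fun h1 => h (ty hm h1)

theorem ty_gr : Ty (gr : MulAut (SL m F)) 1 true := std_one_true (m := m) (F := F) ▸ ty_std 1 true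

theorem pu {π' : SL m F →* G} (hπ : π' = π ∨ π' = tw t π) (a : SL m F) : Pu t π (π' a) := by
  rcases hπ with rfl | rfl
  exacts [Or.inl ⟨a, rfl⟩, Or.inr ⟨a, rfl⟩]

theorem fr (h : Wr ρ t π) {π' : SL m F →* G} (hπ : π' = π ∨ π' = tw t π) : Fr π' := by
  rcases hπ with rfl | rfl
  exacts [h.frπ, h.fr2]

theorem conj_z (h : Wr ρ t π) {r r' : SL m F} (hr : IsRoot r) (hr' : IsRoot r') :
    IsConj (ρ (zz 1)) (π r * tw t π r') :=
  let ⟨g, _, e⟩ := h.conj_z hr hr'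
  (isConj_iff.2 ⟨g, e⟩).symm

theorem clB (hp : Par m F) (h : Ws ρ t π S) {g : G} {a b : SL m F} (ha : a * a = 1) (ha1 : a ≠ 1)
    (hb : b * b = 1) (hb1 : b ≠ 1) (h1 : g * π a * g⁻¹ ∈ π.range) (h2 : g * tw t π b * g⁻¹ ∈ π.range) :
    False :=
  h.clB hp ⟨a, rfl⟩ (map_sq π ha) (ne h.frπ ha ha1) ⟨b, rfl⟩ (map_sq _ hb) (ne h.toWr.fr2 hb hb1)
    (Or.inl (mul_mem h1 h2))

theorem inner3 (hp : Par m F) (h : Ws ρ t π S) (h3 : m = 3) {e v : G} (hc : IsConj (π (zz 1)) e)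
    (h1 : Ac π e α) (hv : v ∈ π.range) (h2 : v * v = 1) (c : Commute e v)
    (hz : IsConj (ρ (zz 1)) (e * v)) : Ty α 1 false := by_contra fun ho =>
  h.not_z1 hp (hc.trans (h.frπ.stab h3 (sq hc) h1 ho hv h2 c)) hz

theorem mul_z {π' : SL m F →* G} (h1 : Ac π' w β) {y v : SL m F} (hy : β y = y * v) {g : G}
    (hw : g * w * g⁻¹ = π (zz 1)) : IsConj (π (zz 1)) (π (zz 1) * (g * π' v * g⁻¹)) := by
  rw [← hw, conj_mul]
  exact ((cj g w).symm.trans (h1.isConj hy)).trans (cj g _)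

end P1

/-- invariance (`IsRoot.aut`) -/
theorem In.of_conj (hm : 3 ≤ m) {n : G} {γ : MulAut (SL m F)} (hn : Ac π n γ)
    (h : In ρ π (n * w * n⁻¹) (γ * α * γ⁻¹)) : In ρ π w α := by
  refine ⟨conj_eq_one_iff.1 h.1, fun r hr => (h.2 _ (hr.aut hm γ)).trans ?_⟩
  rw [← hn, conj_mul]
  exact (P1.cj n _).symm

/-- With `g` as in `om'`: there is a root element `r ∈ ⁅U ⊓ Fx α, U ⊓ Fx α⁆` (`com_wr` for `s > 0`,
where `w ~ w * π r`; `zz_mem_comm` for `s = 0`), `e = g (π r) g⁻¹ ∈ G0` is pure (`ic2`).  If `e` lies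
in the second factor, then `s = 0` (`clA`), `clC`, and `w` commutes with the first factor. -/
theorem Ws.in_or (hp : Par m F) (h : Ws ρ t π S) (h1 : Ac π w α) {s : ℕ} (hs : s ≤ m / 2)
    (hα : α = MulAut.conj (CL.SC.wr m F s)) {g : G} (hw : g * w * g⁻¹ = π (zz 1))
    (hg : ∀ a ∈ ⁅U m F ⊓ Fx α, U m F ⊓ Fx α⁆, g * π a * g⁻¹ ∈ G0 t π) :
    In ρ π w α ∨ ∃ r, IsRoot r ∧ α r = r ∧ r ∈ U m F ∧ g * π r * g⁻¹ ∈ π.range := by
  have hm := hp.1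
  subst hα
  rcases Nat.eq_zero_or_pos s with rfl | h0
  · rw [wr_zero, map_one] at *
    have e : U m F ⊓ Fx 1 = U m F := inf_eq_left.2 fun _ _ => rfl
    rcases h.ic2 hp (Or.inl ⟨_, rfl⟩) (P1.map_sq π P1.r1.sq) (hg _ (e.symm ▸ zz_mem_comm hm 1)) (P1.cj g _) with
      h2 | h2
    · exact Or.inr ⟨_, P1.r1, rfl, zz_mem_U 1, h2⟩
    refine Or.inl ⟨rfl, fun r hr => ?_⟩
    obtain ⟨c, rfl⟩ := isConj_iff.1 hr
    have := h.clC hp (P1.cj g _) h2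
    nth_rw 1 [← hw] at this
    rw [conj_mul] at this
    refine (this.trans (P1.cj g _).symm).trans (isConj_iff.2 ⟨π c, ?_⟩)
    rw [← conj_mul, ← (ac_one.1 h1 c).eq]
    simp
  · obtain ⟨r, h2, hr, c, h3⟩ := com_wr hp h0 hs
    have e : Fx (MulAut.conj (CL.SC.wr m F s)) = centralizer {CL.SC.wr m F s} := ext fun a => by
      rw [mem_Fx, mem_centralizer_singleton_iff, MulAut.conj_apply, mul_inv_eq_iff_eq_mul, eq_comm]
    obtain ⟨y, hy⟩ := isConj_iff.1 h3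
    refine Or.inr ⟨r, hr, mul_inv_eq_iff_eq_mul.2 c.symm, (P1.comm_le _ h2).1, h.clA hp hw (Or.inl ⟨r, rfl⟩)
      (P1.map_sq π hr.sq) (P1.ne h.frπ hr.sq (hr.ne_one (by omega))) (hg r (e ▸ h2)) (h1.isConj (y := y⁻¹) ?_)⟩
    calc CL.SC.wr m F s * y⁻¹ * (CL.SC.wr m F s)⁻¹
        = y⁻¹ * (y * CL.SC.wr m F s * y⁻¹) * (CL.SC.wr m F s)⁻¹ := by group
      _ = y⁻¹ * r := by rw [hy, ← c.eq]; group

/-- `out2` for `β`, `Ac.isConj`, `clA` -/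
theorem Ws.out_mem (hp : Par m F) (h : Ws ρ t π S) {π' : SL m F →* G} (hπ : π' = π ∨ π' = tw t π)
    (h2 : Ac π' w β) (hβ : Sd β) (h3 : ¬ (m = 3 ∧ β = gr)) {g : G} (hw : g * w * g⁻¹ = π (zz 1))
    (hg : ∀ a ∈ ⁅U m F ⊓ Fx β, U m F ⊓ Fx β⁆, g * π' a * g⁻¹ ∈ G0 t π) :
    ∃ v, v ≠ 1 ∧ v * v = 1 ∧ β v = v ∧ g * π' v * g⁻¹ ∈ π.range := by
  obtain ⟨v, h4, h5, h6, y, hy⟩ := out2 hp hβ h3
  exact ⟨v, h5, h6, (P1.comm_le _ h4).2, h.clA hp hw (P1.pu hπ v) (P1.map_sq _ h6)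
    (P1.ne (P1.fr h.toWr hπ) h6 h5) (hg v h4) (h2.isConj hy)⟩

/-- `om'`, `in_or`, `out_mem`, `clB` -/
theorem Ws.l1s (hp : Par m F) (h : Ws ρ t π S) (hc : IsConj (π (zz 1)) w) (h1 : Ac π w α)
    (h2 : Ac (tw t π) w β) {s : ℕ} (hs : s ≤ m / 2) (hα : α = MulAut.conj (CL.SC.wr m F s))
    (hβ : Sd β) (h3 : ¬ (m = 3 ∧ β = gr)) : In ρ π w α := by
  obtain ⟨g, hw, -, -, h4, h5⟩ := h.om' hp hc h1 h2
  refine (h.in_or hp h1 hs hα hw h4).resolve_right fun ⟨r, hr, _, _, h6⟩ => ?_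
  obtain ⟨v, v1, v2, -, h7⟩ := h.out_mem hp (Or.inr rfl) h2 hβ h3 hw h5
  exact P1.clB hp h hr.sq (hr.ne_one (by have := hp.1; omega)) v2 v1 h6 h7

/-- `stand`, `Ty.conj` -/
theorem Ws.l1 (hp : Par m F) (h : Ws ρ t π S) (hc : IsConj (π (zz 1)) w) (h1 : Ac π w α)
    (h2 : Ac (tw t π) w β) (hα : Ty α 1 false) (hβ : Ou β) (h3 : ¬ (m = 3 ∧ Ty β 1 true)) :
    In ρ π w α := by
  have hm := hp.1
  obtain ⟨n, γ, δ, k1, -, k2, k3, k4, k5⟩ := h.stand hm (P1.sq hc) h1 h2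
  obtain ⟨s, hs, e⟩ := k2.wr hm (hα.conj hm γ)
  exact (h.l1s hp (hc.trans (P1.cj n w)) k4 k5 hs e (k3.sd hm (P1.ou hm hβ δ))
    fun k => h3 ⟨k.1, P1.ty hm (k.2 ▸ P1.ty_gr)⟩).of_conj hm k1

/-- `m = 3`, `β = gr`.  In the second case of `in_or`, let `v = g (π r) g⁻¹` and
`e c = g (π2 (zz c)) g⁻¹ ∈ S ⊓ M0`, `c ≠ 0`; `z1 * e c ~ z1` (`out3`).  `e c ∉ G0` (`clA`, `clB`);
`e c` is inner on the first factor (`Fr.stab`: `e c * v ~ z` by `conj_z`; `not_z1`), so outer on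
the second.  If `e 1`, `e c` (`c ≠ 0, 1`) both have type `(1, true)` there, `e (1 + c) ∈ G0`.
Otherwise `l1` gives `z ~ e c * z1`. -/
theorem Ws.l2s (hp : Par m F) (h : Ws ρ t π S) (hc : IsConj (π (zz 1)) w) (h1 : Ac π w α)
    (h2 : Ac (tw t π) w gr) {s : ℕ} (hs : s ≤ m / 2) (hα : α = MulAut.conj (CL.SC.wr m F s))
    (h3 : m = 3) : In ρ π w α := by
  have hm := hp.1
  obtain ⟨g, hw, -, h4, h5, -⟩ := h.om' hp hc h1 h2
  refine (h.in_or hp h1 hs hα hw h5).resolve_right fun ⟨r, hr, _, _, h6⟩ => ?_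
  have key : ∀ c : F, c ≠ 0 → Tp (tw t π) (g * tw t π (zz c) * g⁻¹) 1 true := fun c hc0 => by
    have rc : IsRoot (zz c : SL m F) := isRoot_x hm (zero_ne_la (by omega)) hc0
    obtain ⟨k1, k2⟩ := h4 (zz c) ⟨zz_mem_U c, by simpa [std_one_true, mem_Fx] using std_zz (m := m) 1 true c⟩
    obtain ⟨y, hy⟩ := out3 h3 c
    have k3 : IsConj (π (zz 1)) (g * tw t π (zz c) * g⁻¹) := (PuR.isConj ⟨_, rc, Or.inr rfl⟩).trans (P1.cj g _)
    obtain ⟨γ, δ, k4, k5⟩ := h.toWr.ac hm k2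
    have k6 := P1.inner3 hp h h3 k3 k4 h6 (P1.cj_sq (P1.map_sq π hr.sq) g) (commute_cj.2 (h.comm _ _).symm) (by
      rw [conj_mul, ← (h.comm _ _).eq]
      exact (P1.conj_z h.toWr hr rc).trans (P1.cj g _))
    refine ⟨δ, k5, by_contra fun k7 => ?_⟩
    have := (h.l1 hp k3 k4 k5 k6 (fun k8 => P1.clB hp h hr.sq (hr.ne_one (by omega)) rc.sq (rc.ne_one (by omega)) h6
      (h.clA hp hw (Or.inr ⟨_, rfl⟩) (P1.map_sq _ rc.sq) (P1.ne h.toWr.fr2 rc.sq (rc.ne_one (by omega)))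
        (h.toWr.inn_mem hm (P1.sq k3) k4 k5 k6 k8) (h2.isConj hy))) fun k => k7 k.2).2 _ P1.r1
    rw [(h.z1_comm k1 k2).1.eq] at this
    exact h.not_z1 hp (P1.mul_z h2 hy hw) this
  obtain ⟨c, c0, c1⟩ := exists_ne_01 (F := F) (by have := hp.2 (by omega); omega)
  have := (key 1 one_ne_zero).mul (key c c0)
  rw [conj_mul, ← map_mul, zz, zz, ← x_add] at this
  simpa using (this.unique hm h.toWr.fr2 (key (1 + c) fun e => c1 (CharTwo.add_eq_zero.1 e).symm)).2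

theorem Ws.in' (hp : Par m F) (h : Ws ρ t π S) (hc : IsConj (π (zz 1)) w) (h1 : Ac π w α)
    (h2 : Ac (tw t π) w β) (hα : Ty α 1 false) (hβ : Ou β) : In ρ π w α := by
  have hm := hp.1
  by_cases h3 : m = 3 ∧ Ty β 1 true
  swap
  · exact h.l1 hp hc h1 h2 hα hβ h3
  obtain ⟨n, γ, δ, k1, -, k2, k3, k4, k5⟩ := h.stand hm (P1.sq hc) h1 h2
  obtain ⟨s, hs, e⟩ := k2.wr hm (hα.conj hm γ)
  have e2 : δ * β * δ⁻¹ = gr := by
    rcases k3.sd hm (P1.ou hm hβ δ) with ⟨φ, ε, k6, -, k7⟩ | k6 | ⟨k6, -⟩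
    · exact (k6 ((k7 ▸ ty_std φ ε).unique hm (h3.2.conj hm δ)).1).elim
    · exact k6
    · exact absurd (h3.1 ▸ k6) (by decide)
  exact (h.l2s hp (hc.trans (P1.cj n w)) k4 (e2 ▸ k5) hs e h3.1).of_conj hm k1

/-- an element with `z1 * w ~ z1` -/
theorem Ws.not_in (hp : Par m F) (h : Ws ρ t π S) (hc : IsConj (π (zz 1)) w)
    (hc' : IsConj (π (zz 1)) (π (zz 1) * w)) (h1 : Ac π w α) (h2 : Ac (tw t π) w β)
    (hα : Ty α 1 false) : w ∈ G0 t π := by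
  refine h.toWr.inn_mem hp.1 (P1.sq hc) h1 h2 hα (by_contra fun ho => ?_)
  obtain ⟨rfl, k⟩ := h.in' hp hc h1 h2 hα ho
  exact h.not_z1 hp hc' ((ac_one.1 h1 _).eq ▸ k _ P1.r1)

end CL.SC
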