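import Cfsg.Agent.INV.SC.Pur1

/-!
The wreathed case: the conjugates of a pure root element in the normaliser.
-/

set_option autoImplicit false
set_option linter.unusedSectionVars false
set_option linter.unusedVariables false

namespace CL.SC

open Matrix Subgroup
open scoped commutatorElement

variable {m : ℕ} [NeZero m] {F : Type*} [Field F] [Finite F] [CharP F 2]
variable {G : Type*} [Group G] [Finite G]
variable {ρ π : SL m F →* G} {t : G} {S : Sylow 2 G}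
variable {w : G} {α β : MulAut (SL m F)}

namespace P2

theorem z2 : π (zz 1) * π (zz 1) = 1 := by rw [← map_mul, zz, x_sq, map_one]

theorem cj_sq {a : G} (h : a * a = 1) (g : G) : g * a * g⁻¹ * (g * a * g⁻¹) = 1 := by
  rw [conj_mul, h, mul_one, mul_inv_cancel]

theorem map_sq {a : SL m F} (h : a * a = 1) : π a * π a = 1 := by rw [← map_mul, h, map_one]

theorem sq_of (hc : IsConj (π (zz 1)) w) : w * w = 1 := by
  obtain ⟨g, rfl⟩ := isConj_iff.1 hc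
  exact cj_sq z2 g

theorem icj (a g : G) : IsConj a (g * a * g⁻¹) := isConj_iff.2 ⟨g, rfl⟩

theorem ou_conj (hm : 3 ≤ m) (h : Ou α) (γ : MulAut (SL m F)) : Ou (γ * α * γ⁻¹) := fun k =>
  h (by simpa [mul_assoc] using k.conj hm γ⁻¹)

theorem root_z : IsRoot (zz 1 : SL m F) := IsConj.refl _

theorem z_ne (hm : 3 ≤ m) : (zz 1 : SL m F) ≠ 1 := root_z.ne_one (by omega)

theorem z_sq : (zz 1 : SL m F) * zz 1 = 1 := root_z.sq

theorem map_ne (h : Fr π) {a : SL m F} (h2 : a * a = 1) (h1 : a ≠ 1) : π a ≠ 1 := fun e =>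
  h1 (h.eq_one (n := 1) ((pow_two a).trans h2) e)

theorem clB (hp : Par m F) (h : Ws ρ t π S) {g : G} {a b : SL m F} (a2 : a * a = 1) (a1 : a ≠ 1)
    (b2 : b * b = 1) (b1 : b ≠ 1) (ha : g * π a * g⁻¹ ∈ π.range)
    (hb : g * tw t π b * g⁻¹ ∈ π.range) : False :=
  h.clB hp ⟨a, rfl⟩ (map_sq a2) (map_ne h.frπ a2 a1) ⟨b, rfl⟩ (map_sq b2) (map_ne h.toWr.fr2 b2 b1)
    (Or.inl (mul_mem ha hb))

theorem conj2 (h : Wr ρ t π) {r r' : SL m F} (hr : IsRoot r) (hr' : IsRoot r') :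
    IsConj (ρ (zz 1)) (π r * tw t π r') := by
  obtain ⟨g, -, e⟩ := h.conj_z hr hr'
  exact (isConj_iff.2 ⟨g, e⟩).symm

theorem z1_z2 : IsConj (π (zz 1)) (tw t π (zz 1)) := PuR.isConj ⟨_, root_z, Or.inr rfl⟩

theorem mul_cj {g e : G} (hw : g * w * g⁻¹ = π (zz 1)) (hc : IsConj w (w * e)) :
    IsConj (π (zz 1)) (π (zz 1) * (g * e * g⁻¹)) := by
  rw [← hw, conj_mul]
  exact ((icj w g).symm.trans hc).trans (icj _ g)

theorem z_G0 (h : Wr ρ t π) : ρ (zz 1) ∈ G0 t π := h.mem_G0.2 ⟨_, _, (h.diag _).symm⟩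

theorem one_G0 (a : SL m F) : π a ∈ G0 t π := mem_sup_left ⟨a, rfl⟩

theorem ac_cen {d : G} (hd : d ∈ centralizer (G0 t π : Set G)) : Ac π d 1 ∧ Ac (tw t π) d 1 :=
  ⟨ac_one.2 fun a => (hd _ (one_G0 a)).symm, ac_one.2 fun a => (hd _ (mem_sup_right ⟨a, rfl⟩)).symm⟩

theorem std_pow (σ : F ≃+* F) (ε : Bool) (k : ℕ) :
    (std σ ε : MulAut (SL m F)) ^ (2 * k) = std (σ ^ (2 * k)) false := by
  rw [pow_mul, pow_mul, sq, sq, std_mul, Bool.xor_self, std_false, std_false, map_pow]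

end P2

open P2


/-- `m = 3`, `α = gr ≠ β`.  `out_mem` gives `v' = g (π2 v) g⁻¹` in the first factor, `v` a root
element (`isRoot_three`); `e = g z1 g⁻¹ ∈ S ⊓ M0`, `z1 * e ~ z1` (`out3`).  `e` is inner on the first
factor (`Fr.stab`, `e * v' ~ z`), so `e ∈ G0` (`not_in`); `clA`, `clB`. -/
theorem Ws.l3a (hp : Par m F) (h : Ws ρ t π S) {π' : SL m F →* G} (hπ : π' = π ∨ π' = tw t π)
    (hc : IsConj (π (zz 1)) w) (h1 : Ac π' w gr) (h2 : Ac (tw t π') w β) (h3 : m = 3) (hβ : Sd β) :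
    β = gr := by
  have hm := hp.1
  have tt := h.toSt.tt
  by_contra hne
  have gz : gr (zz 1 : SL m F) = zz 1 := Sd.zz_one (Or.inr (Or.inl rfl))
  have hz : (zz 1 : SL m F) ∈ U m F ⊓ Fx gr := ⟨zz_mem_U 1, gz⟩
  obtain ⟨g, hw, ⟨e1, e2⟩, hg⟩ : ∃ g, g * w * g⁻¹ = π (zz 1) ∧
      (g * π' (zz 1) * g⁻¹ ∈ S ∧ g * π' (zz 1) * g⁻¹ ∈ M0 t π) ∧
      ∀ a ∈ ⁅U m F ⊓ Fx β, U m F ⊓ Fx β⁆, g * tw t π' a * g⁻¹ ∈ G0 t π := by
    rcases hπ with rfl | rfl
    · obtain ⟨g, a, b, -, -, c⟩ := h.om' hp hc h1 h2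
      exact ⟨g, a, b _ hz, c⟩
    · rw [tw_tw tt] at h2 ⊢
      obtain ⟨g, a, -, b, c, -⟩ := h.om' hp hc h2 h1
      exact ⟨g, a, b _ hz, c⟩
  obtain ⟨v, v1, v2, -, hv⟩ := h.out_mem hp (π' := tw t π')
    (hπ.symm.imp (fun e => by rw [e, tw_tw tt]) fun e => by rw [e]) h2 hβ (fun k => hne k.2) hw hg
  have rv := isRoot_three h3 v2 v1
  obtain ⟨y, hy⟩ := out3 (F := F) h3 1
  have pr : PuR t π (π' (zz 1)) := ⟨_, root_z, hπ.imp (fun e => by rw [e]) fun e => by rw [e]⟩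
  have c1 := pr.isConj.trans (icj _ g)
  have cm : Commute (π' (zz 1)) (tw t π' v) ∧ IsConj (ρ (zz 1)) (π' (zz 1) * tw t π' v) := by
    rcases hπ with rfl | rfl
    · exact ⟨h.comm _ _, conj2 h.toWr root_z rv⟩
    · rw [tw_tw tt]
      exact ⟨(h.comm _ _).symm, (h.comm _ _).eq ▸ conj2 h.toWr rv root_z⟩
  obtain ⟨γ, δ, a1, a2⟩ := h.toWr.ac hm e2
  have hγ : Ty γ 1 false := by
    by_contra ho
    have := h.frπ.stab h3 (cj_sq z2 g) a1 ho hv (cj_sq (P2.map_sq v2) g) (commute_cj.2 cm.1)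
    rw [conj_mul] at this
    exact h.not_z1 hp c1 ((cm.2.trans (icj _ g)).trans this.symm)
  have k := h.clA hp hw pr.pu z2 (fun e => map_ne h.frπ z_sq (z_ne hm) (isConj_one_left.1 (e ▸ pr.isConj)))
    (h.not_in hp c1 (mul_cj hw (h1.isConj hy)) a1 a2 hγ) (h1.isConj hy)
  rcases hπ with rfl | rfl
  · exact P2.clB hp h z_sq (z_ne hm) v2 v1 k hv
  · rw [tw_tw tt] at hv
    exact P2.clB hp h v2 v1 z_sq (z_ne hm) hv k

/-- `stand`; `out_mem` twice and `clB`; `l3a`; `(gr, gr)`: `Wr.eq`, `z1` -/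
theorem Ws.l3 (hp : Par m F) (h : Ws ρ t π S) (hc : IsConj (π (zz 1)) w) (h1 : Ac π w α)
    (h2 : Ac (tw t π) w β) (hα : Ou α) : ¬ Ou β := by
  intro hβ
  have hm := hp.1
  obtain ⟨n, γ, δ, -, -, s1, s2, a1, a2⟩ := h.stand hm (sq_of hc) h1 h2
  replace s1 := s1.sd hm (ou_conj hm hα γ)
  replace s2 := s2.sd hm (ou_conj hm hβ δ)
  replace hc := hc.trans (icj w n)
  generalize n * w * n⁻¹ = w, γ * α * γ⁻¹ = α, δ * β * δ⁻¹ = β at *
  have k : α = gr → β = gr → False := fun e e' => by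
    obtain ⟨u, u1, -, u2⟩ := h.toWr.eq hm (sq_of hc) a1 a2 (by rw [e, e']; exact Cj.refl _)
    exact h.z1 hp hc u1 u2
  by_cases c1 : m = 3 ∧ α = gr
  · exact k c1.2 (h.l3a hp (Or.inl rfl) hc (c1.2 ▸ a1) a2 c1.1 s2)
  by_cases c2 : m = 3 ∧ β = gr
  · exact k (h.l3a hp (Or.inr rfl) hc (c2.2 ▸ a2) (by rwa [tw_tw h.toSt.tt]) c2.1 s1) c2.2
  obtain ⟨g, hw, -, -, g1, g2⟩ := h.om' hp hc a1 a2
  obtain ⟨v, v1, v2, -, hv⟩ := h.out_mem hp (Or.inl rfl) a1 s1 c1 hw g1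
  obtain ⟨v', v1', v2', -, hv'⟩ := h.out_mem hp (Or.inr rfl) a2 s2 c2 hw g2
  exact P2.clB hp h v2 v1 v2' v1' hv hv'

/-- `(w t) ^ 4` centralises `G0`; `exists_adjust` with `j = 2`, `t' = d t d⁻¹`, `w' = t' w t'⁻¹` -/
theorem Wr.partner (hm : 3 ≤ m) (h : Wr ρ t π) (hw : w * w = 1) (h1 : Ac π w 1)
    (h2 : Ac (tw t π) w β) : ∃ u w', IsConj t u ∧ u ∈ Mw t π ∧ IsConj w w' ∧ Commute w w' ∧
      Commute (w * w') u ∧ Ac π w' β ∧ Ac (tw t π) w' 1 := by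
  have tt := h.toSt.tt
  have ti : t⁻¹ = t := inv_eq_of_mul_eq_one_right tt
  have b2 := h2.sq hm h.fr2 hw
  obtain ⟨t1, t2⟩ := h.ac_t h1 h2
  have e : (w * t) ^ 2 ^ 2 = w * (t * w * t⁻¹) * (w * (t * w * t⁻¹)) := by
    rw [ti, show 2 ^ 2 = 4 from rfl]; simp only [pow_succ, pow_zero, mul_assoc, one_mul]
  obtain ⟨d, hd, e1⟩ := exists_adjust (j := 2) hw tt (h.odd_cent hm) (by
    rw [e]
    have k1 := (h1.mul t1).mul (h1.mul t1)
    have k2 := (h2.mul t2).mul (h2.mul t2)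
    rw [one_mul, b2, ac_one] at k1
    rw [mul_one, b2, ac_one] at k2
    intro y hy
    obtain ⟨a, b, rfl⟩ := h.mem_G0.1 hy
    exact ((k1 a).mul_right (k2 b)).symm)
  obtain ⟨d1, d2⟩ := ac_cen hd
  have u2 := cj_sq tt d
  obtain ⟨c1, c2⟩ := h.ac_t ((d1.inv.mul h1).mul d1) ((d2.inv.mul h2).mul d2)
  have c3 := (d1.mul c1).mul d1.inv
  have c4 := (d2.mul c2).mul d2.inv
  rw [show d * (t * (d⁻¹ * w * d) * t⁻¹) * d⁻¹ = d * t * d⁻¹ * w * (d * t * d⁻¹)⁻¹ by group] at c3 c4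
  have uM : d * t * d⁻¹ ∈ Mw t π :=
    mul_mem (mul_mem (centralizer_le_normalizer _ hd) h.t_mem) (inv_mem (centralizer_le_normalizer _ hd))
  have uc := icj t d
  generalize d * t * d⁻¹ = u at *
  have ui : u⁻¹ = u := inv_eq_of_mul_eq_one_right u2
  have cm : Commute w (u * w * u⁻¹) := by
    have : w * (u * w * u⁻¹) * (w * (u * w * u⁻¹)) = 1 := by
      rw [ui, ← e1, show 2 ^ 2 = 4 from rfl]; simp only [pow_succ, pow_zero, mul_assoc, one_mul]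
    rw [Commute, SemiconjBy, eq_inv_of_mul_eq_one_left this, _root_.mul_inv_rev,
      inv_eq_of_mul_eq_one_right hw, inv_eq_of_mul_eq_one_right (cj_sq hw u)]
  refine ⟨u, u * w * u⁻¹, uc, uM, icj w u, cm, ?_, by simpa using c3, by simpa using c4⟩
  refine (mul_inv_eq_iff_eq_mul.1 ?_ : Commute u _).symm
  rw [← conj_mul, cm.eq, ui]
  congr 1
  calc u * (u * w * u) * u = u * u * w * (u * u) := by group
    _ = w := by rw [u2, one_mul, mul_one]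

/-- `i = w w'` is outer, so not fused into `G0` (`f5`).  `om` for `P = π(U) ⊔ ⟨w'⟩`; `ω = g w' g⁻¹`,
`g i g⁻¹ = z1 ω`.  `ω` is neither in `G0`, nor outer on both factors (`l3`), nor inner on the first
and outer on the second (`in'`: `i ~ z`).  So it centralises the second factor (`in'` for
`Ws.swap`).  `m = 3`: `Fr.stab` gives `i ~ ω ~ z1`.  `m ≥ 4`: `g z1 g⁻¹` lies in the second factor
(`w z1 ~ z`, `not_z`), and so does `g (π e) g⁻¹` for `e` as in `mov` (`ic2` for `π (e * zz 1)`,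
`not_pu'`); thus `w'` commutes with `π e`. -/
theorem Ws.l4s (hp : Par m F) (h : Ws ρ t π S) (hc : IsConj (π (zz 1)) w) (h1 : Ac π w 1)
    (h2 : Ac (tw t π) w β) : ¬ Sd β := by
  intro hβ
  have hm := hp.1
  have tt := h.toSt.tt
  have w2 := sq_of hc
  obtain ⟨u, w', u1, u2, c1, c2, c3, a1, a2⟩ := h.toWr.partner hm w2 h1 h2
  have w2' := sq_of (hc.trans c1)
  have nf : ∀ y ∈ G0 t π, y * y = 1 → ¬ IsConj y (w * w') := fun y hy y2 c =>
    hβ.ou hm (h.toWr.ty_of_mem hm (h.f5 hp u1 u2 c3 hy y2 c) (by simpa using h1.mul a1))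
  obtain ⟨g, hw, g1, g2⟩ := h.om hp hc (P := (U m F).map π ⊔ zpowers w')
    (pgroup_sup_norm (pgroup_U.map π) (el_zpowers w2').pgroup (zpowers_le_of_mem (mem_norm_of_le (by
      rintro _ ⟨a, ha, rfl⟩
      exact ⟨_, hβ.mem_U ha, (a1 a).symm⟩))))
    fun p hp => mem_centralizer_singleton_iff.1 ((sup_le (by
      rintro _ ⟨a, -, rfl⟩
      exact mem_centralizer_singleton_iff.2 (ac_one.1 h1 a).symm)
      (zpowers_le_of_mem (mem_centralizer_singleton_iff.2 c2.symm)) : _ ≤ centralizer {w}) hp)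
  have o1 := (g1 w' (mem_sup_right (mem_zpowers w'))).2
  have oc := (hc.trans c1).trans (icj w' g)
  have oi : IsConj (π (zz 1) * (g * w' * g⁻¹)) (w * w') := by
    rw [← hw, conj_mul]; exact (icj _ g).symm
  have om : Commute (π (zz 1)) (g * w' * g⁻¹) := hw ▸ commute_cj.2 c2
  obtain ⟨γ, δ, b1, b2⟩ := h.toWr.ac hm o1
  have hγ : Ou γ := fun k => by
    by_cases k' : Ty δ 1 false
    · refine nf _ (mul_mem (one_G0 _) (h.toWr.inn_mem hm (sq_of oc) b1 b2 k k')) ?_ oi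
      rw [← sq, om.mul_pow, sq, sq, z2, sq_of oc, one_mul]
    · exact nf _ (z_G0 h.toWr) z2 (((h.in' hp oc b1 b2 k k').2 _ root_z).trans (om.eq ▸ oi))
  have hδ := (h.swap.in' hp (z1_z2.symm.trans oc) b2 (by rwa [tw_tw tt]) (not_not.1 (h.l3 hp oc b1 b2 hγ))
    hγ).1
  subst hδ
  by_cases h3 : m = 3
  · exact nf _ (one_G0 _) z2 (oc.trans ((h.frπ.stab h3 (sq_of oc) b1 hγ ⟨_, rfl⟩ z2 om.symm).trans
      (om.eq ▸ oi)))
  have pu : ∀ a ∈ ⁅U m F, U m F⁆, a * a = 1 → Pu t π (g * π a * g⁻¹) := fun a ha a2 =>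
    h.ic2 hp (Or.inl ⟨a, rfl⟩) (P2.map_sq a2) (g2 _ (Subgroup.commutator_mono le_sup_left le_sup_left
      (map_commutator _ _ π ▸ mem_map_of_mem π ha))) (icj _ g)
  have hz := zz_mem_comm (F := F) hm 1
  have f2 := (pu _ hz z_sq).resolve_left fun k => h.not_z hp (Or.inl (mul_mem ⟨zz 1, rfl⟩ k)) (by
    have := ((h.in' hp hc h1 h2 ty_one (hβ.ou hm)).2 _ root_z).trans (icj _ g)
    rwa [← conj_mul, hw] at this)
  obtain ⟨e, e1, e2, e3, e4⟩ := mov (by omega) hβ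
  rcases pu e e1 e2 with k | ⟨b, k⟩
  · have := pu _ (mul_mem e1 hz) (by rw [← sq, e3.mul_pow, sq, sq, e2, z_sq, one_mul])
    rw [map_mul, ← conj_mul] at this
    exact h.toWr.not_pu' hm k (cj_sq (P2.map_sq e2) g)
      (fun q => map_ne h.frπ e2 (fun q => e4 (by rw [q, map_one])) (conj_eq_one_iff.1 q)) f2 (cj_sq z2 g)
      (fun q => map_ne h.frπ z_sq (z_ne hm) (conj_eq_one_iff.1 q)) this
  · exact e4 ((a1.fix h.frπ (k := 1) ((pow_two e).trans e2)).1 (commute_cj.1 (k ▸ ac_one.1 b2 b)))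

theorem Ws.l4 (hp : Par m F) (h : Ws ρ t π S) (hc : IsConj (π (zz 1)) w) (h1 : Ac π w α)
    (h2 : Ac (tw t π) w β) (hα : Ty α 1 false) : ¬ Ou β := by
  intro hβ
  have hm := hp.1
  obtain rfl := (h.in' hp hc h1 h2 hα hβ).1
  obtain ⟨n, γ, δ, -, -, -, s2, a1, a2⟩ := h.stand hm (sq_of hc) h1 h2
  exact h.l4s hp (hc.trans (icj w n)) (by simpa using a1) a2 (s2.sd hm (ou_conj hm hβ δ))

theorem Ws.pur0 (hp : Par m F) (h : Ws ρ t π S) (hc : IsConj (π (zz 1)) w) (h0 : w ∈ M0 t π) :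
    w ∈ G0 t π := by
  obtain ⟨α, β, h1, h2⟩ := h.toWr.ac hp.1 h0
  by_cases a : Ty α 1 false
  · exact h.toWr.inn_mem hp.1 (sq_of hc) h1 h2 a (not_not.1 (h.l4 hp hc h1 h2 a))
  · exact absurd a (h.swap.l4 hp (z1_z2.symm.trans hc) h2 (by rwa [tw_tw h.toSt.tt])
      (not_not.1 (h.l3 hp hc h1 h2 a)))

/-- Conjugate `w` into `S`; `w t` acts as `(γ, γ⁻¹)`, `γ = conj a * std σ ε`, `a ∈ U`; after
conjugating `w` by `(π a)⁻¹`, `γ = std σ ε`.  `w t` is a 2-element of order at least 4 (`z1`), its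
power `i = (w t) ^ (2 k)` of order 2 acts as `std τ false`, `τ ≠ 1` (`eq_one`), so `i ∉ G0`.
`w ~ w i` (`conj_mul_central`); `om` for `⟨i⟩`, `pur0` for `g (w i) g⁻¹`, `f5`. -/
theorem Ws.pur1 (hp : Par m F) (h : Ws ρ t π S) (hc : IsConj (π (zz 1)) w) (hM : w ∈ Mw t π) :
    w ∈ M0 t π := by
  have hm := hp.1
  have tt := h.toSt.tt
  have ti : t⁻¹ = t := inv_eq_of_mul_eq_one_right tt
  have key : ∀ w σ ε, IsConj (π (zz 1)) w → w ∈ S → w * t ∈ M0 t π → ¬ Ac π (w * t) (std σ ε) := by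
    intro w σ ε hc hS h0 a1
    have w2 := sq_of hc
    obtain ⟨γ, δ, a0, a2⟩ := h.toWr.ac hm h0
    obtain rfl := a0.unique hm h.frπ a1
    have hδ : δ = (std σ ε)⁻¹ := (h.toWr.ac_t a1 a2).1.unique hm h.frπ (by
      have := a1.inv
      rwa [_root_.mul_inv_rev, inv_eq_of_mul_eq_one_right w2, ti, ← mul_inv_cancel_right (t * w) t,
        mul_assoc t] at this)
    obtain ⟨N, hN⟩ := S.isPGroup' ⟨_, mul_mem hS h.tS⟩
    replace hN : (w * t) ^ 2 ^ N = 1 := congrArg Subtype.val hN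
    obtain ⟨k, k1, k2⟩ := exists_inv_pow (x := (w * t) ^ 2) N
      (by rw [← pow_mul, mul_comm, pow_mul, hN, one_pow]) fun e => h.z1 hp hc (IsConj.refl t) (by
        rw [Commute, SemiconjBy, eq_inv_of_mul_eq_one_left ((sq _).symm.trans e), _root_.mul_inv_rev, ti,
          inv_eq_of_mul_eq_one_right w2])
    rw [← pow_mul] at k1 k2
    have b1 := a1.pow (2 * k)
    have b2 := a2.pow (2 * k)
    rw [hδ, inv_pow, std_pow] at b2
    rw [std_pow] at b1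
    have c1 := dih_y w2 tt (2 * k : ℕ)
    have c2 := dih_t w2 tt (2 * k : ℕ)
    rw [zpow_natCast, inv_eq_of_mul_eq_one_right k1, mul_inv_eq_iff_eq_mul] at c1 c2
    have c3 := conj_mul_central w2 tt (rfl : _ = (w * t) ^ (2 * k))
    generalize (w * t) ^ (2 * k) = i at *
    obtain ⟨g, hw, g1, -⟩ := h.om hp hc (el_zpowers k1).pgroup fun p hp =>
      zp_comm k1 (V := zpowers w) (fun v hv => by
        obtain ⟨n, rfl⟩ := hv
        exact (Commute.symm c1).zpow_right n) p hp w (mem_zpowers w)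
    have := h.pur0 hp (mul_cj hw c3) (mul_mem (h.toWr.G0_le (one_G0 _)) (g1 i (mem_zpowers i)).2)
    have := h.f5 hp (IsConj.refl t) h.toWr.t_mem (Commute.symm c2)
      ((Subgroup.mul_mem_cancel_left _ (one_G0 _)).1 this) (cj_sq k1 g) (icj i g).symm
    have e := ((ty_std _ _).unique hm (h.toWr.ty_of_mem hm this b1)).1
    rw [e, std_one] at b1 b2
    exact k2 (h.toWr.eq_one hm (k := 1) ((pow_two i).trans k1) b1 (by simpa using b2))
  by_contra h0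
  obtain ⟨n, n0, nS⟩ := h.conj_inv hm (sq_of hc) hM
  have h1 : n * w * n⁻¹ ∉ M0 t π := fun k =>
    h0 ((Subgroup.mul_mem_cancel_left _ n0).1 ((Subgroup.mul_mem_cancel_right _ (inv_mem n0)).1 k))
  replace hc := hc.trans (icj w n)
  generalize n * w * n⁻¹ = w at *
  have s0 : w * t ∈ M0 t π := by
    have := inv_mem ((h.toWr.comp hm (h.le_M nS)).resolve_left h1)
    rwa [_root_.mul_inv_rev, ti, inv_eq_of_mul_eq_one_right (sq_of hc)] at this
  obtain ⟨⟨a, ha, σ, ε, a1⟩, -⟩ := h.sd2 (mul_mem nS h.tS) s0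
  have e : (π a)⁻¹ * w * (π a)⁻¹⁻¹ * t = (π a)⁻¹ * (w * t) * tw t π a := by
    rw [tw_apply, ti]
    calc _ = (π a)⁻¹ * w * (t * t) * π a * t := by rw [tt]; group
      _ = _ := by group
  refine key _ σ ε (hc.trans (icj w (π a)⁻¹))
    (mul_mem (mul_mem (inv_mem (h.US a ha)) nS) (inv_mem (inv_mem (h.US a ha)))) ?_ ?_ <;> rw [e]
  · exact mul_mem (mul_mem (inv_mem (h.toWr.G0_le (one_G0 a))) s0) (h.toWr.G0_le (mem_sup_right ⟨a, rfl⟩))
  · simpa using ((ac_self π a).inv.mul a1).mul (ac_one.2 fun b => (h.comm b a).symm)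

theorem Ws.pur (hp : Par m F) (h : Ws ρ t π S) (hc : IsConj (π (zz 1)) w) (hM : w ∈ Mw t π) :
    PuR t π w := by
  exact h.ic1 hp (h.pur0 hp hc (h.pur1 hp hc hM)) hc

end CL.SC
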