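import Cfsg.Agent.INV.SC.K0
import Cfsg.Agent.INV.SC.StdA

/-!
Field involutions.
-/

set_option autoImplicit false
set_option linter.unusedSectionVars false
set_option linter.unusedVariables false

namespace CL.SC

open Matrix Subgroup
open scoped commutatorElement

variable {m : ℕ} [NeZero m] {F : Type*} [Field F] [Finite F] [CharP F 2]

/-- Hilbert 90 for `GL`: if `g φ(g) = 1` then `g = y φ(y)⁻¹`.  (The semilinear involution
`v ↦ g φ(v)` has a basis of fixed vectors: they span since `v + g φ v` and `θ v + g φ(θ v)` are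
fixed; or look at `CLAS/LangPSL`.) -/
theorem hilbert {φ : F ≃+* F} (h1 : φ ≠ 1) (h2 : φ * φ = 1) {g : Matrix (Fin m) (Fin m) F}
    (hg : g * g.map φ = 1) : ∃ y : Matrix (Fin m) (Fin m) F, y.det ≠ 0 ∧ g * y.map φ = y := by
  let s : (Fin m → F) →+ (Fin m → F) :=
    { toFun := fun v => g *ᵥ fun i => φ (v i)
      map_zero' := by simp [← Pi.zero_def]
      map_add' := fun v w => by rw [← mulVec_add]; congr 1; ext i; simp }
  have o : orderOf φ = 2 := orderOf_eq_prime (by rw [pow_two, h2]) h1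
  obtain ⟨b, hb⟩ := CL.FieldAut.exists_basis_fixed (isOfFinOrder_of_finite φ) s
    (fun c v => by
      show g *ᵥ _ = φ c • g *ᵥ _
      rw [← mulVec_smul]; congr 1; ext i; simp)
    (fun v => by
      rw [o]
      show g *ᵥ (fun i => φ ((g *ᵥ fun i => φ (v i)) i)) = v
      have : (fun i => φ ((g *ᵥ fun i => φ (v i)) i)) = g.map φ *ᵥ v := by
        ext i
        simp [mulVec, dotProduct, map_sum, show ∀ a, φ (φ a) = a from fun a => congr($h2 a)]
      rw [this, mulVec_mulVec, hg, one_mulVec])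
    (ι := Fin m) (by simp)
  refine ⟨(Pi.basisFun F (Fin m)).toMatrix b, ?_, ?_⟩
  · have := Module.Basis.invertibleToMatrix (Pi.basisFun F (Fin m)) b
    exact (isUnit_det_of_invertible _).ne_zero
  · ext i j
    simpa [Matrix.mul_apply, Module.Basis.toMatrix_apply, s, mulVec, dotProduct] using congrFun (hb j) i

/-- `s φ(s) = λ` is scalar, `λ ^ m = 1`, `φ λ = λ`.  Let `λ = μ ^ 2` (`φ μ = μ`, `μ ^ m = 1`);
`g = μ⁻¹ s` has determinant 1 and `g φ(g) = 1`, so `g = y φ(y)⁻¹` with `φ(det y) = det y`; replace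
`y` by `y · diag((det y)⁻¹, 1, …, 1)`. -/
theorem std_f (hm : 3 ≤ m) {φ : F ≃+* F} (h1 : φ ≠ 1) (h2 : φ * φ = 1) {α : MulAut (SL m F)}
    (h : Si α φ false) (hα : α * α = 1) : Cj (std φ false) α := by
  obtain ⟨s, rfl⟩ := h
  obtain ⟨s, e, hs⟩ := SA.norm (by rw [std_mul, h2, Bool.xor_self, std_one]) hα
  rw [e]
  rw [std_false] at hs ⊢
  obtain ⟨y, y0, hy⟩ := hilbert h1 h2 (g := (s : Matrix (Fin m) (Fin m) F)) (congrArg Subtype.val hs)
  have d : φ y.det = y.det := by
    have := congrArg Matrix.det hy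
    rwa [det_mul, s.det_coe, one_mul, show (y.map φ).det = φ y.det from ((φ : F →+* F).map_det y).symm] at this
  refine SA.cj_of' (y := ⟨y * diagonal (Function.update 1 0 y.det⁻¹), ?_⟩) (Subtype.ext ?_)
  · rw [det_mul, det_diagonal, Finset.prod_update_of_mem (Finset.mem_univ _)]
    simp [y0]
  · show (s : Matrix (Fin m) (Fin m) F) * (y * diagonal (Function.update 1 0 y.det⁻¹)).map φ = _
    rw [SA.map_mul', ← Matrix.mul_assoc, hy, diagonal_map (map_zero φ)]
    congr 2
    ext i
    by_cases e : i = 0 <;> simp [e, d]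

end CL.SC
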