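import Cfsg.Agent.INV.SC.Base

/-!
Helpers for `Til`: elements translating `t V`, and the algebra of the squaring map.
-/

set_option autoImplicit false
set_option linter.unusedSectionVars false
set_option linter.unusedVariables false

namespace CL.SC.Tl

open Matrix Subgroup

section gen

variable {G : Type*} [Group G]

theorem two_mul [Finite G] {H : Subgroup G} (h : ∀ g ∈ H, ∀ k ∈ H, Commute (g ^ 4) k) {a b : G}
    (ha : a ∈ H) (hb : b ∈ H) (h1 : ∃ n, a ^ 2 ^ n = 1) (h2 : ∃ n, b ^ 2 ^ n = 1) :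
    ∃ n, (a * b) ^ 2 ^ n = 1 := by
  have hp : IsPGroup 2 (H ⧸ center H) := fun g => by
    obtain ⟨g, rfl⟩ := QuotientGroup.mk_surjective g
    refine ⟨2, ?_⟩
    rw [← QuotientGroup.mk_pow, QuotientGroup.eq_one_iff, mem_center_iff]
    exact fun k => Subtype.ext (h g g.2 k k.2).symm.eq
  have hn : Group.IsNilpotent H := Group.of_quotient_center_nilpotent hp.isNilpotent
  obtain ⟨P⟩ : Nonempty (Sylow 2 H) := inferInstance
  have u := P.unique_of_normal inferInstance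
  have k : ∀ c : H, (∃ n, (c : G) ^ 2 ^ n = 1) → c ∈ P := by
    rintro c ⟨n, hc⟩
    have hz : IsPGroup 2 (zpowers c) := by
      rintro ⟨_, j, rfl⟩
      refine ⟨n, Subtype.ext (Subtype.ext ?_)⟩
      show ((c : G) ^ j) ^ 2 ^ n = 1
      rw [← _root_.zpow_natCast, ← _root_.zpow_mul, mul_comm, _root_.zpow_mul, _root_.zpow_natCast, hc,
        _root_.one_zpow]
    obtain ⟨Q, hQ⟩ := hz.exists_le_sylow
    exact Subsingleton.elim Q P ▸ hQ (mem_zpowers c)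
  obtain ⟨n, hn⟩ := P.isPGroup' ⟨_, mul_mem (k ⟨a, ha⟩ h1) (k ⟨b, hb⟩ h2)⟩
  exact ⟨n, congrArg (fun z : P => ((z : H) : G)) hn⟩

theorem odd_eq_one {e o : G} (hc : Commute e o) (he : ∃ n, e ^ 2 ^ n = 1)
    (h : ∃ n, (e * o) ^ 2 ^ n = 1) (ho : Odd (orderOf o)) : o = 1 := by
  obtain ⟨a, ha⟩ := he
  obtain ⟨b, hb⟩ := h
  have h1 : e ^ 2 ^ (a + b) = 1 := by rw [pow_add, pow_mul, ha, one_pow]
  have h2 : (e * o) ^ 2 ^ (a + b) = 1 := by rw [add_comm, pow_add, pow_mul, hb, one_pow]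
  rw [hc.mul_pow, h1, one_mul] at h2
  exact orderOf_eq_one_iff.1 (Nat.eq_one_of_dvd_coprimes
    ((Nat.coprime_two_right.2 ho).pow_right _) dvd_rfl (orderOf_dvd_of_pow_eq_one h2))

theorem inv_eq_one {e o : G} (hc : Commute e o) (he : e * e = 1) (h : Odd (orderOf (e * o)))
    (ho : Odd (orderOf o)) : e = 1 := by
  obtain ⟨j, hj⟩ := h.mul ho
  have h1 : (e * o) ^ (2 * j + 1) = 1 := by rw [← hj, pow_mul, pow_orderOf_eq_one, one_pow]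
  have h2 : o ^ (2 * j + 1) = 1 := by rw [← hj, mul_comm, pow_mul, pow_orderOf_eq_one, one_pow]
  rwa [hc.mul_pow, h2, mul_one, pow_succ, pow_mul, sq, he, one_pow, one_mul] at h1

theorem odd_conj {o : G} (ho : Odd (orderOf o)) (g : G) : Odd (orderOf (g * o * g⁻¹)) :=
  (orderOf_injective (MulAut.conj g).toMonoidHom (MulAut.conj g).injective o).symm ▸ ho

variable {M : Type*} [CommRing M]

theorem tri (h2 : (2 : M) = 0) {v w u a b c d : M} (ha : a = 0 ∨ a = v + w + u)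
    (hb : b = 0 ∨ b = w + u) (hc : c = 0 ∨ c = v + w) (hd : d = 0 ∨ d = v + u)
    (e : a + b + c + d = 0) (n1 : v ≠ 0) (n2 : w ≠ 0) (n3 : u ≠ 0) (n4 : v ≠ w) (n5 : v ≠ u)
    (n6 : w ≠ u) : b = 0 ↔ c = 0 := by
  constructor
  · rintro rfl
    refine hc.resolve_right fun k => ?_
    subst k
    rcases ha with rfl | rfl <;> rcases hd with rfl | rfl
    · exact n4 (by linear_combination e - w * h2)
    · exact n6 (by linear_combination e - (v + u) * h2)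
    · exact n3 (by linear_combination e - (v + w) * h2)
    · exact n1 (by linear_combination e - (v + w + u) * h2)
  · rintro rfl
    refine hb.resolve_right fun k => ?_
    subst k
    rcases ha with rfl | rfl <;> rcases hd with rfl | rfl
    · exact n6 (by linear_combination e - u * h2)
    · exact n4 (by linear_combination e - (w + u) * h2)
    · exact n1 (by linear_combination e - (w + u) * h2)
    · exact n3 (by linear_combination e - (v + w + u) * h2)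

theorem const (h2 : (2 : M) = 0) {Y : Subgroup G} {lam q : G → M}
    (lm : ∀ y ∈ Y, ∀ y' ∈ Y, lam (y * y') = lam y + lam y')
    (sy : ∀ y ∈ Y, ∀ y' ∈ Y, q (y * y') = q (y' * y))
    (coc : ∀ y ∈ Y, ∀ y' ∈ Y, ∀ y'' ∈ Y, q (y * y' * y'') + q (y' * y'') + q (y * y') +
      q (y * y'') + q y + q y' + q y'' = 0)
    (alt : ∀ y ∈ Y, q y = 0 ∨ q y = lam y)
    (big : ∀ a b c : M, ∃ z ∈ Y, q z = 0 ∧ lam z ≠ 0 ∧ lam z ≠ a ∧ lam z ≠ b ∧ lam z ≠ c) :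
    (∀ y ∈ Y, ∀ y' ∈ Y, q y = 0 → q y' = 0 → lam y ≠ 0 → lam y' ≠ 0 → lam y ≠ lam y' →
      q (y * y') = 0) ∨
    (∀ y ∈ Y, ∀ y' ∈ Y, q y = 0 → q y' = 0 → lam y ≠ 0 → lam y' ≠ 0 → lam y ≠ lam y' →
      q (y * y') ≠ 0) := by
  let Gd : G → Prop := fun y => y ∈ Y ∧ q y = 0 ∧ lam y ≠ 0
  have T : ∀ z y y', Gd z → Gd y → Gd y' → lam z ≠ lam y → lam z ≠ lam y' → lam y ≠ lam y' →
      (q (y * y') = 0 ↔ q (z * y) = 0) := by
    rintro z y y' ⟨z1, z2, z3⟩ ⟨a1, a2, a3⟩ ⟨b1, b2, b3⟩ n1 n2 n3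
    have e := coc z z1 y a1 y' b1
    rw [z2, a2, b2, add_zero, add_zero, add_zero] at e
    refine tri h2 ?_ ?_ ?_ ?_ e z3 a3 b3 n1 n2 n3
    · rw [← lm z z1 y a1, ← lm _ (mul_mem z1 a1) y' b1]; exact alt _ (mul_mem (mul_mem z1 a1) b1)
    · rw [← lm y a1 y' b1]; exact alt _ (mul_mem a1 b1)
    · rw [← lm z z1 y a1]; exact alt _ (mul_mem z1 a1)
    · rw [← lm z z1 y' b1]; exact alt _ (mul_mem z1 b1)
  have S : ∀ y y' y'', Gd y → Gd y' → Gd y'' → lam y ≠ lam y' → lam y ≠ lam y'' →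
      (q (y * y') = 0 ↔ q (y * y'') = 0) := fun y y' y'' a b c n1 n2 => by
    obtain ⟨z, z1, z2, z3, z4, z5, z6⟩ := big (lam y) (lam y') (lam y'')
    rw [T z y y' ⟨z1, z2, z3⟩ a b z4 z5 n1, T z y y'' ⟨z1, z2, z3⟩ a c z4 z6 n2]
  have K : ∀ a b c d, Gd a → Gd b → Gd c → Gd d → lam a ≠ lam b → lam c ≠ lam d →
      (q (a * b) = 0 ↔ q (c * d) = 0) := fun a b c d ha hb hc hd n1 n2 => by
    by_cases e : lam a = lam c
    · have n3 : lam b ≠ lam c := e ▸ n1.symm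
      rw [sy a ha.1 b hb.1, S b a c hb ha hc n1.symm n3, sy b hb.1 c hc.1, S c b d hc hb hd n3.symm n2]
    · rw [S a b c ha hb hc n1 e, sy a ha.1 c hc.1, S c a d hc ha hd (Ne.symm e) n2]
  by_contra hc
  push Not at hc
  obtain ⟨⟨a, a1, b, b1, a2, b2, a3, b3, n1, e1⟩, c, c1, d, d1, c2, d2, c3, d3, n2, e2⟩ := hc
  exact e1 ((K a b c d ⟨a1, a2, a3⟩ ⟨b1, b2, b3⟩ ⟨c1, c2, c3⟩ ⟨d1, d2, d3⟩ n1 n2).2 e2)

end gen

variable {m : ℕ} [NeZero m] {F : Type*} [Field F] [Finite F] [CharP F 2]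
variable {G : Type*} [Group G] [Finite G]
variable {ρ : SL m F →* G} {t : G}

theorem vv (v : Fin m → F) : v + v = 0 := funext fun _ => CharTwo.add_self_eq_zero _

theorem two_v : (2 : Fin m → F) = 0 := by rw [← one_add_one_eq_two, vv]

theorem r_add (v w : Fin m → F) : ρ (rv 0 (v + w)) = ρ (rv 0 v) * ρ (rv 0 w) := by
  rw [rv_add, map_mul]

theorem r_zero : ρ (rv 0 (0 : Fin m → F)) = 1 := by rw [rv_zero, map_one]

theorem r_sq (v : Fin m → F) : ρ (rv 0 v) * ρ (rv 0 v) = 1 := by rw [← r_add, vv, r_zero]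

theorem r_inv (v : Fin m → F) : (ρ (rv 0 v))⁻¹ = ρ (rv 0 v) := inv_eq_of_mul_eq_one_right (r_sq v)

theorem r_eq (h : Fr ρ) {v w : Fin m → F} (e : ρ (rv 0 v) = ρ (rv 0 w)) : rv 0 v = rv 0 w :=
  h.inj_inv (el_row 0 _ (rv_mem 0 v)) (el_row 0 _ (rv_mem 0 w)) e

theorem r_inj (h : Fr ρ) {v w : Fin m → F} (hv : v 0 = 0) (hw : w 0 = 0)
    (e : ρ (rv 0 v) = ρ (rv 0 w)) : v = w := funext fun l => by
  by_cases hl : l = 0
  · rw [hl, hv, hw]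
  · exact rv_inj.1 (r_eq h e) l hl

theorem r_mem (v : Fin m → F) : ρ (rv 0 v) ∈ (row F 0).map ρ := ⟨_, rv_mem 0 v, rfl⟩

theorem mem_V {y : G} : y ∈ (row F 0).map ρ ↔ ∃ v, v 0 = 0 ∧ y = ρ (rv 0 v) :=
  ⟨fun ⟨a, ha, e⟩ => by obtain ⟨v, v0, rfl⟩ := mem_row.1 ha; exact ⟨v, v0, e.symm⟩,
    fun ⟨v, _, e⟩ => e ▸ r_mem v⟩

theorem exists_v0 (v : Fin m → F) : ∃ w : Fin m → F, w 0 = 0 ∧ rv 0 v = rv 0 w :=
  mem_row.1 (rv_mem 0 v)

/-- `y` centralises `V` and translates `t` by `v` -/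
def L (ρ : SL m F →* G) (t y : G) (v : Fin m → F) : Prop :=
  (∀ a ∈ row F 0, Commute y (ρ a)) ∧ y * t * y⁻¹ = t * ρ (rv 0 v)

variable {y y' n e o : G} {v w : Fin m → F}

theorem L.c (h : L ρ t y v) (w : Fin m → F) : Commute y (ρ (rv 0 w)) := h.1 _ (rv_mem 0 w)

theorem L.mul (h : L ρ t y v) (h' : L ρ t y' w) : L ρ t (y * y') (v + w) :=
  ⟨fun a ha => (h.1 a ha).mul_left (h'.1 a ha), by
    calc y * y' * t * (y * y')⁻¹ = y * (y' * t * y'⁻¹) * y⁻¹ := by group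
      _ = y * t * y⁻¹ * (y * ρ (rv 0 w) * y⁻¹) := by rw [h'.2]; group
      _ = _ := by rw [h.2, (h.c w).eq, mul_inv_cancel_right, r_add, mul_assoc]⟩

theorem L.inv (h : L ρ t y v) : L ρ t y⁻¹ v :=
  ⟨fun a ha => (h.1 a ha).inv_left, by
    calc y⁻¹ * t * y⁻¹⁻¹ = y⁻¹ * (t * ρ (rv 0 v) * ρ (rv 0 v)) * y := by
          rw [mul_assoc t, r_sq, mul_one, inv_inv]
      _ = t * (y⁻¹ * (ρ (rv 0 v) * y)) := by rw [← h.2]; group
      _ = _ := by rw [← (h.c v).eq, inv_mul_cancel_left]⟩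

theorem L.comm (h : L ρ t y 0) : Commute y t := by
  have := h.2
  rwa [r_zero, mul_one, mul_inv_eq_iff_eq_mul] at this

theorem L.of (hc : ∀ a ∈ row F 0, Commute y (ρ a)) (h : Commute y t) : L ρ t y 0 :=
  ⟨hc, by rw [r_zero, mul_one, h.eq, mul_inv_cancel_right]⟩

theorem L.sq (h : L ρ t y v) : L ρ t (y * y) 0 := vv v ▸ h.mul h

theorem L.one : L ρ t 1 0 := L.of (fun _ _ => Commute.one_left _) (Commute.one_left _)

theorem L.pow (h : L ρ t y v) {k : ℕ} (hk : Odd k) : L ρ t (y ^ k) v := by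
  obtain ⟨j, rfl⟩ := hk
  induction j with
  | zero => simpa using h
  | succ j ih =>
    have := ih.mul h.sq
    rwa [add_zero, ← _root_.sq, ← pow_add] at this

theorem L.conj (h : L ρ t y v) (hn : Commute n t)
    (hV : n ∈ normalizer (((row F 0).map ρ : Subgroup G) : Set G))
    (hw : n * ρ (rv 0 v) * n⁻¹ = ρ (rv 0 w)) : L ρ t (n * y * n⁻¹) w := by
  refine ⟨fun a ha => ?_, ?_⟩
  · obtain ⟨b, hb, e⟩ := (mem_normalizer_iff''.1 hV (ρ a)).1 ⟨a, ha, rfl⟩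
    have := (h.1 b hb).map (MulAut.conj n)
    rw [e] at this
    simpa [mul_assoc] using this
  · calc n * y * n⁻¹ * t * (n * y * n⁻¹)⁻¹ = n * (y * (n⁻¹ * (t * n)) * y⁻¹) * n⁻¹ := by group
      _ = n * t * n⁻¹ * (n * ρ (rv 0 v) * n⁻¹) := by
          rw [← hn.eq, inv_mul_cancel_left, h.2]; group
      _ = _ := by rw [hw, hn.eq, mul_inv_cancel_right]

theorem norm_V {g : SL m F} (hg : g ∈ normalizer (row F (0 : Fin m) : Set (SL m F))) :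
    ρ g ∈ normalizer (((row F 0).map ρ : Subgroup G) : Set G) := mem_norm_of_le (by
  rintro _ ⟨a, ha, rfl⟩
  exact ⟨_, (mem_normalizer_iff.1 hg a).1 ha, by rw [map_mul, map_mul, map_inv]⟩)

/-- the group `V × ⟨t⟩` -/
def E (ρ : SL m F →* G) (t e : G) : Prop := ∃ v, e = ρ (rv 0 v) ∨ e = t * ρ (rv 0 v)

theorem L_r (h : St ρ t) (v : Fin m → F) : L ρ t (ρ (rv 0 v)) 0 :=
  L.of (fun a ha => ((el_row 0).comm (rv_mem 0 v) ha).map ρ) (h.tc _).symm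

theorem L_t (h : St ρ t) : L ρ t t 0 := L.of (fun a _ => h.tc a) (Commute.refl t)

theorem E.sq (h : St ρ t) (he : E ρ t e) : e * e = 1 := by
  obtain ⟨v, rfl | rfl⟩ := he
  · exact r_sq v
  · rw [← _root_.sq, (h.tc _).mul_pow, _root_.sq, _root_.sq, h.tt, r_sq, one_mul]

theorem E.L (h : St ρ t) (he : E ρ t e) : L ρ t e 0 := by
  obtain ⟨v, rfl | rfl⟩ := he
  · exact L_r h v
  · simpa using (L_t h).mul (L_r h v)

theorem E.kt (he : E ρ t e) (ho : Kt ρ t o) : Commute e o := by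
  obtain ⟨v, rfl | rfl⟩ := he
  exacts [(ho.2 _).symm, (ho.1.mul_right (ho.2 _)).symm]

theorem E.mem (h : St ρ t) (he : E ρ t e) : e ∈ (row F 0).map ρ ∨ t * e ∈ (row F 0).map ρ := by
  obtain ⟨v, rfl | rfl⟩ := he
  · exact Or.inl (r_mem v)
  · exact Or.inr (by rw [← mul_assoc, h.tt, one_mul]; exact r_mem v)

theorem dec (hm : 3 ≤ m) (h : St2 ρ t) (hn : L ρ t n 0) :
    ∃ e o, E ρ t e ∧ Kt ρ t o ∧ Odd (orderOf o) ∧ n = e * o := by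
  obtain ⟨a, ha, hk⟩ := h.toSt.cent_row hm hn.comm hn.1
  obtain ⟨v, -, rfl⟩ := mem_row.1 ha
  obtain ⟨o, h1, h2, e | e⟩ := h.toSt.kt_dec h.r2 hk
  · exact ⟨_, o, ⟨v, Or.inl rfl⟩, h1, h2, by rw [← e, mul_inv_cancel_left]⟩
  · exact ⟨_, o, ⟨v, Or.inr rfl⟩, h1, h2, by rw [(h.tc _).eq, mul_assoc, ← e, mul_inv_cancel_left]⟩

theorem kt_odd (hm : 3 ≤ m) (h : St2 ρ t) (hn : L ρ t n 0) (ho : Odd (orderOf n)) : Kt ρ t n := by
  obtain ⟨e, o, h1, h2, h3, rfl⟩ := dec hm h hn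
  rwa [inv_eq_one (h1.kt h2) (h1.sq h.toSt) ho h3, one_mul]

theorem L.kt (hm : 3 ≤ m) (h : St2 ρ t) (hy : L ρ t y v) (ho : Kt ρ t o) (h2 : Odd (orderOf o)) :
    Kt ρ t (y * o * y⁻¹) := by
  have := (hy.mul (L.of (fun a _ => ho.2 a) ho.1)).mul hy.inv
  rw [add_zero, vv] at this
  exact kt_odd hm h this (odd_conj h2 y)

/-- `Y1` -/
def Y1 (ρ : SL m F →* G) (t : G) : Subgroup G where
  carrier := {y | (∃ v, L ρ t y v) ∧ ∀ o, Kt ρ t o → Odd (orderOf o) → Commute y o}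
  mul_mem' := fun ⟨⟨_, h1⟩, h2⟩ ⟨⟨_, h3⟩, h4⟩ =>
    ⟨⟨_, h1.mul h3⟩, fun o a b => (h2 o a b).mul_left (h4 o a b)⟩
  one_mem' := ⟨⟨_, L.one⟩, fun _ _ _ => Commute.one_left _⟩
  inv_mem' := fun ⟨⟨_, h1⟩, h2⟩ => ⟨⟨_, h1.inv⟩, fun o a b => (h2 o a b).inv_left⟩

theorem four (hm : 3 ≤ m) (h : St2 ρ t) (hy : L ρ t y v) :
    Kt ρ t (y ^ 4) ∧ Odd (orderOf (y ^ 4)) := by
  obtain ⟨e, o, h1, h2, h3, e1⟩ := dec hm h hy.sq
  have : y ^ 4 = o ^ 2 := by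
    rw [show y ^ 4 = (y * y) ^ 2 by rw [← sq, ← pow_mul], e1, (h1.kt h2).mul_pow, _root_.sq,
      h1.sq h.toSt, one_mul]
  rw [this]
  exact ⟨h2.pow 2, h3.of_dvd_nat (orderOf_pow_dvd 2)⟩

theorem Y1_mul (hm : 3 ≤ m) (h : St2 ρ t) {a b : G} (ha : a ∈ Y1 ρ t) (hb : b ∈ Y1 ρ t)
    (h1 : ∃ n, a ^ 2 ^ n = 1) (h2 : ∃ n, b ^ 2 ^ n = 1) : ∃ n, (a * b) ^ 2 ^ n = 1 :=
  two_mul (H := Y1 ρ t) (fun _ ⟨⟨_, hg⟩, _⟩ _ hk => (hk.2 _ (four hm h hg).1 (four hm h hg).2).symm)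
    ha hb h1 h2

theorem card_V (hp : Par m F) : 4 < Nat.card (row F (0 : Fin m)) := by
  rw [card_row]
  have h2 : 2 ≤ Nat.card F := Finite.one_lt_card
  by_cases hm : m ≤ 4
  · calc 4 < 4 ^ 2 := by norm_num
      _ ≤ Nat.card F ^ 2 := Nat.pow_le_pow_left (hp.2 hm) 2
      _ ≤ _ := Nat.pow_le_pow_right (by omega) (by have := hp.1; omega)
  · calc 4 < 2 ^ 3 := by norm_num
      _ ≤ Nat.card F ^ 3 := Nat.pow_le_pow_left h2 3
      _ ≤ _ := Nat.pow_le_pow_right (by omega) (by omega)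

theorem exists_vec (hp : Par m F) (a b c : Fin m → F) :
    ∃ v : Fin m → F, v 0 = 0 ∧ rv 0 v ≠ 1 ∧ rv 0 v ≠ rv 0 a ∧ rv 0 v ≠ rv 0 b ∧ rv 0 v ≠ rv 0 c := by
  classical
  have := Fintype.ofFinite (row F (0 : Fin m))
  obtain ⟨z, -, hz⟩ := Finset.exists_mem_notMem_of_card_lt_card
    (s := ({1, ⟨_, rv_mem 0 a⟩, ⟨_, rv_mem 0 b⟩, ⟨_, rv_mem 0 c⟩} : Finset (row F (0 : Fin m))))
    (t := Finset.univ) (Finset.card_le_four.trans_lt (by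
      rw [Finset.card_univ, ← Nat.card_eq_fintype_card]; exact card_V hp))
  obtain ⟨z, hz'⟩ := z
  obtain ⟨v, v0, rfl⟩ := mem_row.1 hz'
  exact ⟨v, v0, by simpa [Subtype.ext_iff] using hz⟩

theorem Y1_sur (hp : Par m F) (h : St2 ρ t) (v : Fin m → F) :
    ∃ y ∈ Y1 ρ t, L ρ t y v ∧ ∃ n, y ^ 2 ^ n = 1 := by
  suffices ∃ y ∈ Y1 ρ t, L ρ t y v by
    obtain ⟨y, h1, h2⟩ := this
    refine ⟨_, pow_mem h1 _, h2.pow (four hp.1 h h2).2, 2, ?_⟩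
    rw [← pow_mul, mul_comm, pow_mul]
    exact pow_orderOf_eq_one _
  obtain ⟨a, a0, a1, a2, -⟩ := exists_vec hp v v v
  obtain ⟨g, hg, e⟩ := row_trans' hp.1 (rv_mem 0 a) (rv_mem 0 (v + a)) a1 fun e => a2 (by
    rw [rv_add, mul_eq_one_iff_eq_inv, inv_eq_of_mul_eq_one_right (el_row 0 _ (rv_mem 0 a))] at e
    exact e.symm)
  obtain ⟨y, y1, y2⟩ := h.trn a
  have hy : L ρ t y a := ⟨fun b hb => (y1 _ ⟨b, hb, rfl⟩).symm, y2⟩
  have h1 := (hy.conj (h.tc g).symm (norm_V hg) (w := v + a)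
    (by rw [← e, map_mul, map_mul, map_inv])).mul hy.inv
  rw [add_assoc, vv, add_zero] at h1
  refine ⟨_, ⟨⟨_, h1⟩, fun o o1 o2 => ?_⟩, h1⟩
  have c := ((hy.inv.kt hp.1 h o1 o2).2 g).eq
  rw [inv_inv] at c
  calc ρ g * y * (ρ g)⁻¹ * y⁻¹ * o = ρ g * y * (ρ g)⁻¹ * (y⁻¹ * o * y * ρ g) * (ρ g)⁻¹ * y⁻¹ := by
        group
    _ = ρ g * o * ((ρ g)⁻¹ * ρ g * y * (ρ g)⁻¹ * y⁻¹) * 1 := by rw [c]; group
    _ = o * (ρ g * y * (ρ g)⁻¹ * y⁻¹) := by rw [← (o1.2 g).eq]; group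

theorem mem_Y1 (hp : Par m F) (h : St2 ρ t) (hy : L ρ t y v) (h2 : ∃ n, y ^ 2 ^ n = 1) :
    y ∈ Y1 ρ t := by
  obtain ⟨z, z1, z2, z3⟩ := Y1_sur hp h v
  have := z2.inv.mul hy
  rw [vv] at this
  obtain ⟨e, o, h1, h3, h4, e1⟩ := dec hp.1 h this
  have he : e ∈ Y1 ρ t := ⟨⟨_, h1.L h.toSt⟩, fun o a _ => h1.kt a⟩
  have e2 : y = z * e * o := by rw [mul_assoc, ← e1, mul_inv_cancel_left]
  have := odd_eq_one ((mul_mem z1 he).2 o h3 h4)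
    (Y1_mul hp.1 h z1 he z3 ⟨1, (pow_two e).trans (h1.sq h.toSt)⟩) (e2 ▸ h2) h4
  rw [e2, this, mul_one]
  exact mul_mem z1 he

theorem ker_E (hm : 3 ≤ m) (h : St2 ρ t) (hy : L ρ t y 0) (h2 : ∃ n, y ^ 2 ^ n = 1) : E ρ t y := by
  obtain ⟨e, o, h1, h3, h4, rfl⟩ := dec hm h hy
  rwa [odd_eq_one (h1.kt h3) ⟨1, (pow_two e).trans (h1.sq h.toSt)⟩ h2 h4, mul_one]

/-- the 2-elements translating `t V` -/
def YY (hp : Par m F) (h : St2 ρ t) : Subgroup G where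
  carrier := {y | (∃ n, y ^ 2 ^ n = 1) ∧ ∃ v, L ρ t y v}
  mul_mem' := fun ⟨h1, _, h2⟩ ⟨h3, _, h4⟩ =>
    ⟨Y1_mul hp.1 h (mem_Y1 hp h h2 h1) (mem_Y1 hp h h4 h3) h1 h3, _, h2.mul h4⟩
  one_mem' := ⟨⟨0, one_pow _⟩, _, L.one⟩
  inv_mem' := fun ⟨⟨n, h1⟩, _, h2⟩ => ⟨⟨n, by rw [inv_pow, h1, inv_one]⟩, _, h2.inv⟩

end CL.SC.Tl
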