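import Cfsg.Agent.INV.SC.Base
import Cfsg.Agent.INV.SC.K6

/-!
The wreathed case: basic facts.
-/

set_option autoImplicit false
set_option linter.unusedSectionVars false
set_option linter.unusedVariables false

namespace CL.SC

open Matrix Subgroup
open scoped commutatorElement

variable {m : ℕ} [NeZero m] {F : Type*} [Field F] [Finite F] [CharP F 2]
variable {G : Type*} [Group G] [Finite G]
variable {ρ π : SL m F →* G} {t : G}

/-- the product of a subgroup of the first and a subgroup of the second factor -/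
def pr (t : G) (π : SL m F →* G) (H K : Subgroup (SL m F)) : Subgroup G :=
  H.map π ⊔ K.map (tw t π)

/-- the normaliser of both factors -/
def M0 (t : G) (π : SL m F →* G) : Subgroup G :=
  normalizer (π.range : Set G) ⊓ normalizer ((tw t π).range : Set G)

/-- the normaliser of the product of the two factors -/
abbrev Mw (t : G) (π : SL m F →* G) : Subgroup G := normalizer (G0 t π : Set G)

theorem Fr.exists_rf (hm : 3 ≤ m) {π' : SL m F →* G} (h : Fr π) (h' : Fr π')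
    (hle : π'.range ≤ π.range) : ∃ α, π' = CL.SC.rf π α := by
  choose c hc using fun a => hle ⟨a, rfl⟩
  have q : ∀ {a b : SL m F}, π a = π b →
      (QuotientGroup.mk a : ProjectiveSpecialLinearGroup (Fin m) F) = QuotientGroup.mk b :=
    fun e => QuotientGroup.eq.2 (h.cen e)
  let f : SL m F →* ProjectiveSpecialLinearGroup (Fin m) F :=
    MonoidHom.mk' (fun a => QuotientGroup.mk (c a))
      fun a b => (q (b := c a * c b) (by rw [map_mul, hc, hc, hc, map_mul]))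
  have k1 : f.ker ≤ Subgroup.center (SL m F) := fun a ha => h'.center hm fun b => by
    have := (QuotientGroup.eq_one_iff (c a)).1 ha
    rw [← hc, ← hc]
    exact (show Commute (c a) (c b) from (mem_center_iff.1 this _).symm).map π
  have c1 := card_le_of_le k1
  have c2 : Nat.card f.range ≤ Nat.card (ProjectiveSpecialLinearGroup (Fin m) F) :=
    Nat.card_le_card_of_injective _ f.range.subtype_injective
  have c3 := f.ker.card_mul_index
  rw [index_ker] at c3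
  have c4 := (Subgroup.center (SL m F)).card_mul_index
  rw [index_eq_card] at c4
  have p1 : 0 < Nat.card f.ker := Nat.card_pos
  have p2 : 0 < Nat.card f.range := Nat.card_pos
  have f1 : Function.Surjective f := MonoidHom.range_eq_top.1 (eq_top_of_card_eq _
    (le_antisymm c2 (by
      change Nat.card (SL m F ⧸ Subgroup.center (SL m F)) ≤ _
      change _ ≤ Nat.card (SL m F ⧸ Subgroup.center (SL m F)) at c2
      nlinarith)))
  have f2 : Subgroup.center (SL m F) = f.ker := (eq_of_le_of_card_ge k1 (by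
      change _ ≤ Nat.card (SL m F ⧸ Subgroup.center (SL m F)) at c2
      nlinarith)).symm
  obtain ⟨α, -, -, -, hα⟩ := exists_lift hm (QuotientGroup.liftEquiv _ f1 f2)
  have z : ∀ a, (c a)⁻¹ * α a ∈ Subgroup.center (SL m F) := fun a => QuotientGroup.eq.1 (hα a)
  have : ⊤ ≤ π'.eqLocus (CL.SC.rf π α) := by
    rw [← commutator_SL hm, commutator_def, Subgroup.commutator_le]
    intro a _ b _
    show π' _ = π (α _)
    rw [map_commutatorElement α, comm_center (z a) (z b), map_commutatorElement,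
      map_commutatorElement, hc, hc]
  exact ⟨α, MonoidHom.ext fun a => this (mem_top a)⟩

theorem Ac.isConj {w : G} {α : MulAut (SL m F)} (h : Ac π w α) {y v : SL m F} (hy : α y = y * v) :
    IsConj w (w * π v) := by
  have := h y
  rw [hy, map_mul] at this
  refine isConj_iff.2 ⟨w * (π y)⁻¹, ?_⟩
  have e : π v = (π y)⁻¹ * (w * π y * w⁻¹) := by rw [this]; group
  rw [e]; group

theorem tw_tw (h : t * t = 1) : tw t (tw t π) = π := MonoidHom.ext fun a => by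
  rw [tw_apply, tw_apply]
  calc _ = t * t * π a * (t * t)⁻¹ := by group
    _ = _ := by rw [h]; group

theorem G0_swap (h : t * t = 1) : G0 t (tw t π) = G0 t π := by rw [G0, tw_tw h, sup_comm, G0]

theorem M0_swap (h : t * t = 1) : M0 t (tw t π) = M0 t π := by rw [M0, tw_tw h, inf_comm, M0]

theorem pr_swap (h : t * t = 1) (H K : Subgroup (SL m F)) : pr t (tw t π) H K = pr t π K H := by
  rw [pr, tw_tw h, sup_comm, pr]

theorem pu_swap (h : t * t = 1) {w : G} : Pu t (tw t π) w ↔ Pu t π w := by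
  rw [Pu, tw_tw h, or_comm, Pu]

theorem puR_swap (h : t * t = 1) {w : G} : PuR t (tw t π) w ↔ PuR t π w := by
  simp only [PuR, tw_tw h, or_comm]

theorem PuR.pu {w : G} (h : PuR t π w) : Pu t π w := by
  obtain ⟨r, -, rfl | rfl⟩ := h
  exacts [Or.inl ⟨r, rfl⟩, Or.inr ⟨r, rfl⟩]

theorem Pu.mem {w : G} (h : Pu t π w) : w ∈ G0 t π := h.elim mem_sup_left mem_sup_right

theorem pr_le_G0 (H K : Subgroup (SL m F)) : pr t π H K ≤ G0 t π :=
  sup_le_sup (map_le_range _ _) (map_le_range _ _)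

theorem Wr.tt (h : Wr ρ t π) : t * t = 1 := h.toSt.tt

theorem Wr.fr2 (h : Wr ρ t π) : Fr (CL.SC.tw t π) := h.frπ.tw t

theorem Wr.swap (h : Wr ρ t π) : Wr ρ t (CL.SC.tw t π) where
  toSt := h.toSt
  frπ := h.fr2
  comm a b := by rw [tw_tw h.tt]; exact (h.comm b a).symm
  diag a := by rw [tw_tw h.tt, ← (h.comm a a).eq, h.diag]
  nrm0 := by rw [G0_swap h.tt]; exact h.nrm0
  can := by rw [G0_swap h.tt]; exact h.can

theorem G0_rf (α : MulAut (SL m F)) : G0 t (rf π α) = G0 t π := by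
  rw [G0, G0, range_rf, range_tw, range_tw, range_rf]

theorem Wr.rf (h : Wr ρ t π) (α : MulAut (SL m F)) : Wr (CL.SC.rf ρ α) t (CL.SC.rf π α) where
  toSt := h.toSt.aut α
  frπ := h.frπ.rf α
  comm a b := h.comm _ _
  diag a := h.diag _
  nrm0 := by rw [G0_rf]; exact h.nrm0
  can β := by rw [G0_rf]; exact h.can (α * β)

theorem Wr.comm' (h : Wr ρ t π) {v w : G} (hv : v ∈ π.range) (hw : w ∈ (tw t π).range) :
    Commute v w := by
  obtain ⟨a, rfl⟩ := hv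
  obtain ⟨b, rfl⟩ := hw
  exact h.comm a b

theorem Wr.mem_pr (h : Wr ρ t π) {H K : Subgroup (SL m F)} {y : G} :
    y ∈ pr t π H K ↔ ∃ a ∈ H, ∃ b ∈ K, y = π a * tw t π b := by
  rw [pr, mem_sup_comm fun a ha b hb => h.comm' (map_le_range _ _ ha) (map_le_range _ _ hb)]
  constructor
  · rintro ⟨_, ⟨a, ha, rfl⟩, _, ⟨b, hb, rfl⟩, rfl⟩
    exact ⟨a, ha, b, hb, rfl⟩
  · rintro ⟨a, ha, b, hb, rfl⟩
    exact ⟨_, ⟨a, ha, rfl⟩, _, ⟨b, hb, rfl⟩, rfl⟩

theorem G0_eq_pr : G0 t π = pr t π ⊤ ⊤ := by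
  rw [G0, pr, MonoidHom.range_eq_map, MonoidHom.range_eq_map]

theorem Wr.mem_G0 (h : Wr ρ t π) {y : G} : y ∈ G0 t π ↔ ∃ a b, y = π a * tw t π b := by
  simp [G0_eq_pr, h.mem_pr]

theorem Wr.mul (h : Wr ρ t π) (a b a' b' : SL m F) :
    π a * tw t π b * (π a' * tw t π b') = π (a * a') * tw t π (b * b') := by
  rw [map_mul, map_mul, (h.comm a' b).symm.mul_mul_mul_comm]

theorem Wr.pow (h : Wr ρ t π) (a b : SL m F) (n : ℕ) :
    (π a * tw t π b) ^ n = π (a ^ n) * tw t π (b ^ n) := by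
  rw [(h.comm a b).mul_pow, map_pow, map_pow]

theorem Wr.inter (hm : 3 ≤ m) (h : Wr ρ t π) {a b : SL m F} (hab : π a = tw t π b) :
    a ∈ center (SL m F) ∧ b ∈ center (SL m F) :=
  ⟨h.frπ.center hm fun c => hab ▸ (h.comm c b).symm, h.fr2.center hm fun c => hab ▸ h.comm a c⟩

theorem Wr.cen (hm : 3 ≤ m) (h : Wr ρ t π) {a b a' b' : SL m F}
    (hab : π a * tw t π b = π a' * tw t π b') :
    a⁻¹ * a' ∈ center (SL m F) ∧ b * b'⁻¹ ∈ center (SL m F) :=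
  h.inter hm (by
    rw [map_mul, map_mul, map_inv, map_inv, inv_mul_eq_iff_eq_mul, ← mul_assoc, hab]; group)

theorem eq_of_center {a a' : SL m F} {n : ℕ} (ha : a ^ 2 ^ n = 1) (ha' : a' ^ 2 ^ n = 1)
    (h : a⁻¹ * a' ∈ center (SL m F)) : a = a' :=
  conj_inj2 ha ha' (by
    have := conj_eq_one.2 h
    rw [map_mul, map_inv, inv_mul_eq_one] at this
    exact this)

theorem Wr.inj (hm : 3 ≤ m) (h : Wr ρ t π) {a b a' b' : SL m F} {n : ℕ} (ha : a ^ 2 ^ n = 1)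
    (hb : b ^ 2 ^ n = 1) (ha' : a' ^ 2 ^ n = 1) (hb' : b' ^ 2 ^ n = 1)
    (hab : π a * tw t π b = π a' * tw t π b') : a = a' ∧ b = b' := by
  have := eq_of_center ha ha' (h.cen hm hab).1
  subst this
  exact ⟨rfl, h.fr2.inj2 hb hb' (mul_left_cancel hab)⟩

theorem sq_pow {H : Type*} [Group H] {a : H} : a ^ 2 ^ 1 = 1 ↔ a * a = 1 := by
  rw [pow_one, pow_two]

theorem Wr.inj_inv (hm : 3 ≤ m) (h : Wr ρ t π) {a b a' b' : SL m F} (ha : a * a = 1)
    (hb : b * b = 1) (ha' : a' * a' = 1) (hb' : b' * b' = 1)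
    (hab : π a * tw t π b = π a' * tw t π b') : a = a' ∧ b = b' :=
  h.inj hm (sq_pow.2 ha) (sq_pow.2 hb) (sq_pow.2 ha') (sq_pow.2 hb') hab

theorem Wr.lift (hm : 3 ≤ m) (h : Wr ρ t π) {y : G} (hy : y ∈ G0 t π) {n : ℕ} (h2 : y ^ 2 ^ n = 1) :
    ∃ a b : SL m F, a ^ 2 ^ n = 1 ∧ b ^ 2 ^ n = 1 ∧ y = π a * tw t π b := by
  obtain ⟨a, b, rfl⟩ := h.mem_G0.1 hy
  have h3 := h2
  rw [h.pow] at h3
  obtain ⟨c1, c2⟩ := h.cen hm (a' := 1) (b' := 1) (by rw [h3, map_one, map_one, mul_one])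
  rw [mul_one, Subgroup.inv_mem_iff] at c1
  rw [inv_one, mul_one] at c2
  have o := odd_card_sub (F := F)
  obtain ⟨k, hk⟩ : ∃ k, (Nat.card F - 1) * k % 2 ^ n = 1 % 2 ^ n := by
    have := Nat.ModEq.pow_totient (x := Nat.card F - 1) (n := 2 ^ n)
      (Nat.Coprime.pow_right _ (Odd.coprime_two_right o))
    obtain ⟨j, hj⟩ := Nat.exists_eq_succ_of_ne_zero (Nat.totient_pos.2 (by positivity : 0 < 2 ^ n)).ne'
    exact ⟨(Nat.card F - 1) ^ j, by rw [← pow_succ', ← Nat.succ_eq_add_one, ← hj]; exact this⟩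
  have key : ∀ c : SL m F, c ^ 2 ^ n ∈ center (SL m F) → (c ^ ((Nat.card F - 1) * k)) ^ 2 ^ n = 1 :=
    fun c hc => by
      rw [← pow_mul, mul_comm, pow_mul, pow_mul, orderOf_dvd_iff_pow_eq_one.1 (order_center hc),
        one_pow]
  refine ⟨_, _, key a c1, key b c2, ?_⟩
  rw [← h.pow, pow_eq_pow_mod _ h2, hk, ← pow_eq_pow_mod _ h2, pow_one]

theorem Wr.lift_inv (hm : 3 ≤ m) (h : Wr ρ t π) {y : G} (hy : y ∈ G0 t π) (h2 : y * y = 1) :
    ∃ a b : SL m F, a * a = 1 ∧ b * b = 1 ∧ y = π a * tw t π b := by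
  simpa only [sq_pow] using h.lift hm hy (sq_pow.2 h2)

theorem Wr.eq_one_of_both (hm : 3 ≤ m) (h : Wr ρ t π) {y : G} (h1 : y ∈ π.range)
    (h2 : y ∈ (tw t π).range) (hy : y * y = 1) : y = 1 := by
  obtain ⟨a, ha, rfl⟩ := h.frπ.lift_inv h1 hy
  obtain ⟨b, hb⟩ := h2
  rw [eq_one_of_center (h.inter hm hb.symm).1 (sq_pow.2 ha), map_one]

theorem Wr.snd_one (hm : 3 ≤ m) (h : Wr ρ t π) {a b : SL m F} {n : ℕ} (hb : b ^ 2 ^ n = 1)
    (h1 : π a * tw t π b ∈ π.range) : b = 1 := by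
  obtain ⟨c, hc⟩ := h1
  have := (h.cen hm (a := a) (b := b) (a' := c) (b' := 1) (by rw [map_one, mul_one, hc])).2
  rw [inv_one, mul_one] at this
  exact eq_one_of_center this hb

theorem Wr.pr_inf (hm : 3 ≤ m) (h : Wr ρ t π) {H K : Subgroup (SL m F)} (hK : IsPGroup 2 K)
    {y : G} (hy : y ∈ pr t π H K) (h1 : y ∈ π.range) : y ∈ H.map π := by
  obtain ⟨a, ha, b, hb, rfl⟩ := h.mem_pr.1 hy
  obtain ⟨n, hn⟩ := hK ⟨b, hb⟩
  rw [h.snd_one hm (b := b) (congrArg Subtype.val hn) h1, map_one, mul_one]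
  exact ⟨a, ha, rfl⟩

theorem Wr.card_pr (hm : 3 ≤ m) (h : Wr ρ t π) {H K : Subgroup (SL m F)} (hH : IsPGroup 2 H)
    (hK : IsPGroup 2 K) : Nat.card (pr t π H K) = Nat.card H * Nat.card K := by
  rw [pr, card_sup_comm (fun a ha b hb => h.comm' (map_le_range _ _ ha) (map_le_range _ _ hb)),
    h.frπ.card_map hH, h.fr2.card_map hK]
  rintro _ ⟨a, ha, rfl⟩ ⟨b, -, hb⟩
  obtain ⟨n, hn⟩ := hH ⟨a, ha⟩
  rw [eq_one_of_center (h.inter hm hb.symm).1 (congrArg Subtype.val hn), map_one]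

theorem Wr.pgroup_pr (h : Wr ρ t π) {H K : Subgroup (SL m F)} (hH : IsPGroup 2 H)
    (hK : IsPGroup 2 K) : IsPGroup 2 (pr t π H K) :=
  pgroup_sup_norm (hH.map _) (hK.map _) fun b hb => centralizer_le_normalizer _ fun a ha =>
    h.comm' (map_le_range _ _ ha) (map_le_range _ _ hb)

theorem Wr.el_pr (h : Wr ρ t π) {H K : Subgroup (SL m F)} (hH : El H) (hK : El K) :
    El (pr t π H K) :=
  (hH.map _).sup (hK.map _) fun a ha b hb => h.comm' (map_le_range _ _ ha) (map_le_range _ _ hb)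

theorem Wr.not_pu (hm : 3 ≤ m) (h : Wr ρ t π) {a b : SL m F} (ha : a * a = 1) (ha1 : a ≠ 1)
    (hb : b * b = 1) (hb1 : b ≠ 1) : ¬ Pu t π (π a * tw t π b) := by
  rintro (h1 | h1)
  · exact hb1 (h.snd_one hm (sq_pow.2 hb) h1)
  · refine ha1 (h.swap.snd_one hm (a := b) (sq_pow.2 ha) ?_)
    rwa [tw_tw h.tt, ← (h.comm a b).eq]

theorem Wr.not_pu' (hm : 3 ≤ m) (h : Wr ρ t π) {v w : G} (hv : v ∈ π.range) (hv2 : v * v = 1)
    (hv1 : v ≠ 1) (hw : w ∈ (tw t π).range) (hw2 : w * w = 1) (hw1 : w ≠ 1) :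
    ¬ Pu t π (v * w) := by
  obtain ⟨a, ha, rfl⟩ := h.frπ.lift_inv hv hv2
  obtain ⟨b, hb, rfl⟩ := h.fr2.lift_inv hw hw2
  exact h.not_pu hm ha (fun e => hv1 (by rw [e, map_one])) hb fun e => hw1 (by rw [e, map_one])

theorem Wr.t_mem (h : Wr ρ t π) : t ∈ Mw t π := h.nrm0 t (Commute.refl t)

theorem zz_sq (a : F) : (zz a : SL m F) * zz a = 1 := x_sq _ _ _

theorem zz_ne (hm : 2 ≤ m) {a : F} (ha : a ≠ 0) : (zz a : SL m F) ≠ 1 :=
  fun e => ha ((x_eq_one (zero_ne_la hm)).1 e)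

theorem Fr.ne_one (h : Fr π) {a : SL m F} (ha : a * a = 1) (h1 : a ≠ 1) : π a ≠ 1 :=
  fun e => h1 (h.eq_one (sq_pow.2 ha) e)

theorem Fr.zz_ne (hm : 3 ≤ m) (h : Fr π) : π (zz 1) ≠ 1 :=
  h.ne_one (zz_sq 1) (CL.SC.zz_ne (by omega) one_ne_zero)

theorem map_sq {H : Type*} [Group H] (f : SL m F →* H) {a : SL m F} (ha : a * a = 1) :
    f a * f a = 1 := by rw [← map_mul, ha, map_one]

theorem Wr.range_ne (hm : 3 ≤ m) (h : Wr ρ t π) : ¬ π.range ≤ (tw t π).range := fun e =>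
  h.frπ.zz_ne hm (h.eq_one_of_both hm ⟨_, rfl⟩ (e ⟨_, rfl⟩) (map_sq _ (zz_sq 1)))

theorem Wr.t_not_mem (hm : 3 ≤ m) (h : Wr ρ t π) : t ∉ normalizer (π.range : Set G) := fun e =>
  h.range_ne hm (by rw [range_tw, cj_eq_iff.2 e])

theorem Wr.ac_pr (h : Wr ρ t π) (a b : SL m F) : Ac π (π a * tw t π b) (MulAut.conj a) ∧
    Ac (tw t π) (π a * tw t π b) (MulAut.conj b) :=
  ⟨mul_one (MulAut.conj a) ▸ (ac_self π a).mul (ac_one.2 fun c => (h.comm c b).symm),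
    one_mul (MulAut.conj b) ▸ (ac_one.2 fun c => h.comm a c).mul (ac_self _ b)⟩

theorem Wr.G0_le (h : Wr ρ t π) : G0 t π ≤ M0 t π := fun y hy => by
  obtain ⟨a, b, rfl⟩ := h.mem_G0.1 hy
  exact ⟨(h.ac_pr a b).1.mem, (h.ac_pr a b).2.mem⟩

theorem M0_le : M0 t π ≤ Mw t π := fun n hn => cj_eq_iff.1 (by
  rw [G0, cj, Subgroup.map_sup]
  exact congrArg₂ _ (cj_eq_iff.2 hn.1) (cj_eq_iff.2 hn.2))

theorem mem_M0 {n : G} :
    n ∈ M0 t π ↔ cj n π.range = π.range ∧ cj n (tw t π).range = (tw t π).range := by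
  rw [cj_eq_iff, cj_eq_iff]; rfl

theorem Wr.cj_t (h : Wr ρ t π) : cj t (tw t π).range = π.range := by rw [← range_tw, tw_tw h.tt]

theorem Wr.t_inv (h : Wr ρ t π) : t⁻¹ = t := inv_eq_of_mul_eq_one_right h.tt

theorem Wr.t_norm (h : Wr ρ t π) : t ∈ normalizer (M0 t π : Set G) :=
  mem_norm_of_le fun y hy => by
    rw [mem_M0] at hy ⊢
    rw [h.t_inv, cj_mul', cj_mul', cj_mul', cj_mul', h.cj_t, hy.1, ← range_tw t π, hy.2, h.cj_t]
    exact ⟨rfl, rfl⟩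

theorem Wr.odd_cent (hm : 3 ≤ m) (h : Wr ρ t π) :
    Odd (Nat.card (centralizer (G0 t π : Set G))) := by
  refine h.toSt.odd_cent ?_ h.t_mem fun e => h.t_not_mem hm ?_
  · rintro _ ⟨a, rfl⟩
    exact h.mem_G0.2 ⟨a, a, (h.diag a).symm⟩
  · exact centralizer_le_normalizer _ (centralizer_le (SetLike.coe_subset_coe.2 le_sup_left) e)

theorem Fr.le_or_cent (hm : 3 ≤ m) (h : Fr π) {N : Subgroup G}
    (h1 : π.range ≤ normalizer (N : Set G)) (h2 : N ≤ normalizer (π.range : Set G)) :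
    π.range ≤ N ∨ ∀ y ∈ N, ∀ a, Commute y (π a) := by
  refine (h.normal hm h1).imp_right fun h3 y hy => ?_
  obtain ⟨α, hα⟩ := h.exists_ac hm (h2 hy)
  refine ac_one.1 (aut_eq_one hm (α := α) (fun b => h.center hm (h3 _ ?_ ⟨_, rfl⟩)) ▸ hα)
  rw [map_mul, ← hα, map_inv]
  have := mul_mem hy ((mem_normalizer_iff.1 (h1 ⟨b, rfl⟩) _).1 (inv_mem hy))
  simpa only [mul_assoc] using this

theorem Wr.comp1 (hm : 3 ≤ m) (h : Wr ρ t π) {n : G} (hn : n ∈ Mw t π) :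
    cj n π.range = π.range ∨ cj n π.range = (tw t π).range := by
  have hG : cj n (G0 t π) = G0 t π := cj_eq_iff.2 hn
  have le : cj n π.range ≤ G0 t π := hG ▸ map_mono le_sup_left
  have nr : G0 t π ≤ normalizer (cj n π.range : Set G) := fun g hg => cj_eq_iff.1 (by
    have : n⁻¹ * g * n ∈ M0 t π := h.G0_le (mem_cj.1 (hG.symm ▸ hg))
    rw [← cj_mul', show g * n = n * (n⁻¹ * g * n) by group, cj_mul', (mem_M0.1 this).1])
  rcases h.frπ.le_or_cent hm (le_sup_left.trans nr) (le.trans (h.G0_le.trans inf_le_left)) with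
    h1 | h1
  · exact Or.inl (eq_of_le_of_card_ge h1 (card_cj _ _).le).symm
  rcases h.fr2.le_or_cent hm (le_sup_right.trans nr) (le.trans (h.G0_le.trans inf_le_right)) with
    h2 | h2
  · exact Or.inr (eq_of_le_of_card_ge h2 (by rw [card_cj, range_tw, card_cj])).symm
  refine absurd (eq_one_of_center (c := zz 1) (h.frπ.center hm fun b => ?_) (sq_pow.2 (zz_sq 1)))
    (zz_ne (by omega) one_ne_zero)
  obtain ⟨c, d, e⟩ := h.mem_G0.1 (le (cj_mem ⟨b, rfl⟩))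
  rw [← commute_cj (g := n), e]
  exact (h1 _ (cj_mem ⟨_, rfl⟩) c).mul_right (h2 _ (cj_mem ⟨_, rfl⟩) d)

theorem cj_inj (g : G) {H K : Subgroup G} (h : cj g H = cj g K) : H = K :=
  Subgroup.map_injective (MulAut.conj g).injective h

theorem Wr.comp (hm : 3 ≤ m) (h : Wr ρ t π) {n : G} (hn : n ∈ Mw t π) :
    n ∈ M0 t π ∨ t * n ∈ M0 t π := by
  have h2 := h.swap.comp1 hm (n := n) (by rwa [Mw, G0_swap h.tt])
  rw [tw_tw h.tt] at h2
  simp only [mem_M0, cj_mul']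
  rcases h.comp1 hm hn with h1 | h1 <;> rcases h2 with h2 | h2
  · exact Or.inl ⟨h1, h2⟩
  · exact absurd (cj_inj n (h1.trans h2.symm)).le (h.range_ne hm)
  · exact absurd (cj_inj n (h1.trans h2.symm)).le (h.range_ne hm)
  · exact Or.inr ⟨by rw [h1, h.cj_t], by rw [h2, range_tw]⟩

theorem Wr.mem_M0 (hm : 3 ≤ m) (h : Wr ρ t π) {n : G} (hn : n ∈ Mw t π)
    (h1 : n ∈ normalizer (π.range : Set G)) : n ∈ M0 t π :=
  (h.comp hm hn).elim id fun e => absurd ((mul_mem_cancel_right h1).1 e.1) (h.t_not_mem hm)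

theorem Wr.norm_M0 (hm : 3 ≤ m) (h : Wr ρ t π) : Mw t π ≤ normalizer (M0 t π : Set G) :=
  fun n hn => (h.comp hm hn).elim (fun e => le_normalizer e)
    fun e => (mul_mem_cancel_left h.t_norm).1 (le_normalizer e)

theorem Wr.ac (hm : 3 ≤ m) (h : Wr ρ t π) {n : G} (hn : n ∈ M0 t π) :
    ∃ α β, Ac π n α ∧ Ac (tw t π) n β := by
  obtain ⟨α, hα⟩ := h.frπ.exists_ac hm hn.1
  obtain ⟨β, hβ⟩ := h.fr2.exists_ac hm hn.2
  exact ⟨α, β, hα, hβ⟩

theorem Wr.sw (hm : 3 ≤ m) (h : Wr ρ t π) {n : G} (hn : n ∈ Mw t π) (h0 : n ∉ M0 t π) :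
    ∃ α β : MulAut (SL m F), (∀ a, n * π a * n⁻¹ = tw t π (α a)) ∧
      ∀ a, n * tw t π a * n⁻¹ = π (β a) := by
  obtain ⟨α, β, h1, h2⟩ := h.ac hm ((h.comp hm hn).resolve_left h0)
  refine ⟨α, β, fun a => ?_, fun a => ?_⟩
  · rw [tw_apply, ← h1]
    calc _ = t * t * n * π a * (t * t * n)⁻¹ := by rw [h.tt]; group
      _ = _ := by group
  · have := h2 a
    rw [tw_apply t π (β a)] at this
    exact (MulAut.conj t).injective (by simpa only [MulAut.conj_apply, _root_.mul_inv_rev, mul_assoc] using this)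

theorem Wr.ac_t (h : Wr ρ t π) {n : G} {α β : MulAut (SL m F)} (h1 : Ac π n α)
    (h2 : Ac (tw t π) n β) : Ac π (t * n * t⁻¹) β ∧ Ac (tw t π) (t * n * t⁻¹) α :=
  ⟨by simpa only [tw_tw h.tt] using h2.tw t, h1.tw t⟩

theorem Wr.ty_of_mem (hm : 3 ≤ m) (h : Wr ρ t π) {n : G} (hn : n ∈ G0 t π) {α : MulAut (SL m F)}
    (h1 : Ac π n α) : Ty α 1 false := by
  obtain ⟨a, b, rfl⟩ := h.mem_G0.1 hn
  exact Ac.unique hm h.frπ (h.ac_pr a b).1 h1 ▸ ty_conj a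

theorem Wr.mem_cent (h : Wr ρ t π) {n : G} (h1 : Ac π n 1) (h2 : Ac (tw t π) n 1) :
    n ∈ centralizer (G0 t π : Set G) := fun y hy => by
  obtain ⟨a, b, rfl⟩ := h.mem_G0.1 hy
  exact ((ac_one.1 h1 a).mul_right (ac_one.1 h2 b)).symm

theorem Wr.eq_one (hm : 3 ≤ m) (h : Wr ρ t π) {n : G} {k : ℕ} (hn : n ^ 2 ^ k = 1) (h1 : Ac π n 1)
    (h2 : Ac (tw t π) n 1) : n = 1 :=
  orderOf_eq_one_iff.1 (Nat.Coprime.eq_one_of_dvd (Nat.Coprime.pow_right _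
    (Odd.coprime_two_right ((h.odd_cent hm).of_dvd_nat
      (orderOf_dvd_natCard _ (h.mem_cent h1 h2))))) (orderOf_dvd_of_pow_eq_one hn))

theorem Wr.inn' (hm : 3 ≤ m) (h : Wr ρ t π) {n : G} {k : ℕ} (hn : n ^ 2 ^ k = 1) {a b : SL m F}
    (ha : a ^ 2 ^ k = 1) (hb : b ^ 2 ^ k = 1) (h1 : Ac π n (MulAut.conj a))
    (h2 : Ac (tw t π) n (MulAut.conj b)) : n = π a * tw t π b := by
  have h3 := inv_mul_cancel (MulAut.conj a) ▸ (h.ac_pr a b).1.inv.mul h1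
  have h4 := inv_mul_cancel (MulAut.conj b) ▸ (h.ac_pr a b).2.inv.mul h2
  have c : Commute (π a * tw t π b)⁻¹ n := by
    have := ((ac_one.1 h3 a).mul_right (ac_one.1 h4 b)).eq
    have : Commute n (π a * tw t π b) := by
      rw [Commute, SemiconjBy, ← inv_mul_cancel_left (π a * tw t π b)⁻¹ (n * _), inv_inv,
        ← mul_assoc _ n, this]
      group
    exact this.symm.inv_left
  refine (inv_mul_eq_one.1 (h.eq_one hm (k := k) ?_ h3 h4)).symm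
  rw [c.mul_pow, hn, inv_pow, h.pow, ha, hb, map_one, map_one, mul_one, mul_one, inv_one]

theorem Wr.inn (hm : 3 ≤ m) (h : Wr ρ t π) {n : G} {k : ℕ} (hn : n ^ 2 ^ k = 1)
    {α β : MulAut (SL m F)} (h1 : Ac π n α) (h2 : Ac (tw t π) n β) (hα : Ty α 1 false)
    (hβ : Ty β 1 false) : ∃ a b : SL m F, a ^ 2 ^ k = 1 ∧ b ^ 2 ^ k = 1 ∧ α = MulAut.conj a ∧
      β = MulAut.conj b ∧ n = π a * tw t π b := by
  obtain ⟨a, ha, rfl⟩ := hα.two hm (h1.pow_eq_one hm h.frπ hn)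
  obtain ⟨b, hb, rfl⟩ := hβ.two hm (h2.pow_eq_one hm h.fr2 hn)
  exact ⟨a, b, ha, hb, rfl, rfl, h.inn' hm hn ha hb h1 h2⟩

theorem Wr.inn_mem (hm : 3 ≤ m) (h : Wr ρ t π) {n : G} (hn : n * n = 1)
    {α β : MulAut (SL m F)} (h1 : Ac π n α) (h2 : Ac (tw t π) n β) (hα : Ty α 1 false)
    (hβ : Ty β 1 false) : n ∈ G0 t π := by
  obtain ⟨a, b, -, -, -, -, e⟩ := h.inn hm (sq_pow.2 hn) h1 h2 hα hβ
  exact h.mem_G0.2 ⟨a, b, e⟩

theorem Wr.eq (hm : 3 ≤ m) (h : Wr ρ t π) {w : G} (hw : w * w = 1) {α β : MulAut (SL m F)}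
    (h1 : Ac π w α) (h2 : Ac (tw t π) w β) (hc : Cj α β) :
    ∃ u, IsConj t u ∧ u ∈ Mw t π ∧ Commute w u := by
  obtain ⟨s, rfl⟩ := hc
  obtain ⟨p1, p2⟩ := h.ac_pr 1 s
  set p := π 1 * tw t π s
  have pM : p ∈ Mw t π := M0_le ⟨p1.mem, p2.mem⟩
  have k1 : Ac π (p⁻¹ * w * p) α := by simpa using (p1.inv.mul h1).mul p1
  have k2 : Ac (tw t π) (p⁻¹ * w * p) α := by simpa [mul_assoc] using (p2.inv.mul h2).mul p2
  obtain ⟨k3, k4⟩ := h.ac_t k1 k2
  have hα := h1.sq hm h.frπ hw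
  have hw' : p⁻¹ * w * p * (p⁻¹ * w * p) = 1 := by
    rw [show p⁻¹ * w * p * (p⁻¹ * w * p) = p⁻¹ * (w * w) * p by group, hw]; group
  obtain ⟨d, hd, e⟩ := exists_adjust hw' h.tt (h.odd_cent hm) (j := 1) (by
    have := h.mem_cent (hα ▸ k1.mul k3) (hα ▸ k2.mul k4)
    rw [h.t_inv] at this
    simpa only [pow_one, pow_two, mul_assoc] using this)
  have tt : d * t * d⁻¹ * (d * t * d⁻¹) = 1 := by rw [conj_mul, h.tt, mul_one, mul_inv_cancel]
  refine ⟨p * (d * t * d⁻¹) * p⁻¹, (isConj_iff.2 ⟨d, rfl⟩).trans (isConj_iff.2 ⟨p, rfl⟩), ?_, ?_⟩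
  · have := centralizer_le_normalizer _ hd
    exact mul_mem (mul_mem pM (mul_mem (mul_mem this h.t_mem) (inv_mem this))) (inv_mem pM)
  · have c : Commute (p⁻¹ * w * p) (d * t * d⁻¹) := by
      rw [sq_pow] at e
      rw [Commute, SemiconjBy, ← inv_eq_of_mul_eq_one_right e, _root_.mul_inv_rev,
        inv_eq_of_mul_eq_one_right tt, inv_eq_of_mul_eq_one_right hw']
    have := commute_cj (g := p).2 c
    simpa only [mul_assoc, mul_inv_cancel_left, mul_inv_cancel, mul_one] using this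

theorem Wr.exists_f (hm : 3 ≤ m) (h : Fr π) {B : Subgroup G} (hB : B ≤ normalizer (π.range : Set G))
    (hE : El B) : ∃ f : B →* MulAut (SL m F), (∀ e : B, Ac π e (f e)) ∧ El f.range := by
  obtain ⟨θ, hθ⟩ := h.exists_hom hm
  have hf : ∀ e : B, Ac π e (θ.comp (inclusion hB) e) := fun e => hθ (inclusion _ e)
  exact ⟨_, hf, by rintro _ ⟨e, rfl⟩; exact (hf e).sq hm h (hE e e.2)⟩

theorem card_cj_A {s : SL m F} {d : ℕ} (hd : d = m / 2 ∨ d = m - m / 2) :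
    Nat.card (cj s (A m F d)) = Nat.card F ^ cc m := by
  rw [card_cj]
  rcases hd with rfl | rfl
  exacts [card_Ak, card_Ak']

theorem Wr.el_M0 (hp : Par m F) (h : Wr ρ t π) {B : Subgroup G} (hB : B ≤ Mw t π) (hE : El B)
    (hc : Nat.card F ^ (2 * cc m) ≤ Nat.card B) : B ≤ M0 t π := by
  have hm := hp.1
  intro b hb
  by_contra h0
  obtain ⟨α, β, -, h2⟩ := h.sw hm (hB hb) h0
  obtain ⟨f, hf, hf'⟩ := Wr.exists_f hm h.frπ (B := B ⊓ M0 t π) (inf_le_right.trans inf_le_left)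
    (hE.mono inf_le_left)
  have inj : Function.Injective f := (injective_iff_map_eq_one f).2 fun e he =>
    Subtype.ext (h.eq_one hm (sq_pow.2 (hE e e.2.1)) (he ▸ hf e) (ac_one.2 fun a => by
      have c := ac_one.1 (he ▸ hf e) (β a)
      rw [← h2, ← (hE.comm hb e.2.1).mul_inv_cancel] at c
      exact commute_cj.1 c))
  have c1 := aut_card_le hp hf'
  rw [← Nat.card_congr (f.ofInjective inj).toEquiv] at c1
  have c2 : B = zpowers b ⊔ B ⊓ M0 t π := le_antisymm (fun y hy =>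
    (mem_zsup (V := B ⊓ M0 t π) (hE b hb) fun v hv => hE.comm hb hv.1).2 (by
      by_cases hy0 : y ∈ M0 t π
      · exact Or.inl ⟨hy, hy0⟩
      · refine Or.inr ⟨mul_mem hb hy, ?_⟩
        have := mul_mem (inv_mem ((h.comp hm (hB hb)).resolve_left h0))
          ((h.comp hm (hB hy)).resolve_left hy0)
        rwa [_root_.mul_inv_rev, mul_assoc, inv_mul_cancel_left,
          inv_eq_of_mul_eq_one_right (hE b hb)] at this))
    (sup_le (zpowers_le.2 hb) inf_le_left)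
  rw [c2, card_zsup (V := B ⊓ M0 t π) (hE b hb) (fun v hv => hE.comm hb hv.1) fun e => h0 e.2, two_mul, pow_add] at hc
  have := two_lt_pow_cc hp
  nlinarith

theorem Wr.k1 (hp : Par m F) (h : Wr ρ t π) {B : Subgroup G} (hB : B ≤ Mw t π) (hE : El B)
    (hc : Nat.card F ^ (2 * cc m) ≤ Nat.card B) : ∃ (s s' : SL m F) (d d' : ℕ),
      (d = m / 2 ∨ d = m - m / 2) ∧ (d' = m / 2 ∨ d' = m - m / 2) ∧
      B = pr t π (cj s (A m F d)) (cj s' (A m F d')) := by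
  have hm := hp.1
  have h0 := h.el_M0 hp hB hE hc
  obtain ⟨f, hf, hf'⟩ := Wr.exists_f hm h.frπ (h0.trans inf_le_left) hE
  obtain ⟨g, hg, hg'⟩ := Wr.exists_f hm h.fr2 (h0.trans inf_le_right) hE
  have c0 : Nat.card B ≤ Nat.card f.range * Nat.card g.range := by
    rw [← Nat.card_prod]
    refine Nat.card_le_card_of_injective (f.rangeRestrict.prod g.rangeRestrict)
      ((injective_iff_map_eq_one _).2 fun e he => Subtype.ext ?_)
    exact h.eq_one hm (sq_pow.2 (hE e e.2))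
      ((show f e = 1 from congrArg (fun z => (z.1 : MulAut (SL m F))) he) ▸ hf e)
      ((show g e = 1 from congrArg (fun z => (z.2 : MulAut (SL m F))) he) ▸ hg e)
  have c1 := aut_card_le hp hf'
  have c2 := aut_card_le hp hg'
  have p := two_lt_pow_cc hp
  rw [two_mul, pow_add] at hc
  obtain ⟨s, d, hd, e⟩ := aut_eq_A hp hf' (by nlinarith)
  obtain ⟨s', d', hd', e'⟩ := aut_eq_A hp hg' (by nlinarith)
  refine ⟨s, s', d, d', hd, hd', eq_of_le_of_card_ge (fun y hy => ?_) (le_trans ?_ hc)⟩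
  · obtain ⟨a, ha, k⟩ := e.le ⟨⟨y, hy⟩, rfl⟩
    obtain ⟨b, hb, k'⟩ := e'.le ⟨⟨y, hy⟩, rfl⟩
    exact h.mem_pr.2 ⟨a, ha, b, hb, h.inn' hm (sq_pow.2 (hE y hy)) (sq_pow.2 ((el_A d).map _ a ha))
      (sq_pow.2 ((el_A d').map _ b hb)) (k ▸ hf ⟨y, hy⟩) (k' ▸ hg ⟨y, hy⟩)⟩
  · rw [h.card_pr hm ((el_A d).map _).pgroup ((el_A d').map _).pgroup, card_cj_A hd, card_cj_A hd']

theorem Wr.el_G0 (hm : 3 ≤ m) (h : Wr ρ t π) {y : G} (hy : y ∈ G0 t π) (h2 : y * y = 1) :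
    ∃ B ≤ G0 t π, El B ∧ y ∈ B ∧ Nat.card B = Nat.card F ^ (2 * cc m) := by
  obtain ⟨a, b, ha, hb, rfl⟩ := h.lift_inv hm hy h2
  obtain ⟨B, h1, h2, h3⟩ := exists_el ha
  obtain ⟨B', h1', h2', h3'⟩ := exists_el hb
  exact ⟨_, pr_le_G0 B B', h.el_pr h2 h2', h.mem_pr.2 ⟨a, h1, b, h1', rfl⟩, by
    rw [h.card_pr hm h2.pgroup h2'.pgroup, h3, h3', two_mul, pow_add]⟩

theorem sq_of_conj {y w : G} (h : IsConj y w) (hy : y * y = 1) : w * w = 1 := by
  obtain ⟨g, rfl⟩ := isConj_iff.1 h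
  rw [conj_mul, hy, mul_one, mul_inv_cancel]

theorem ne_one_of_conj {y w : G} (h : IsConj y w) (hy : y ≠ 1) : w ≠ 1 :=
  fun e => hy (isConj_one_right.1 (e ▸ h).symm)

theorem Wr.not_conj (hp : Par m F) (h : Wr ρ t π) {y : G} (hy : y ∈ G0 t π) : ¬ IsConj t y := by
  intro hc
  obtain ⟨B, -, h1, h2, h3⟩ := h.el_G0 hp.1 hy (sq_of_conj hc h.tt)
  have := h.toSt.rank_conj hp hc h1 fun e he => h1.comm he h2
  rw [h3, two_mul, pow_add] at this
  have := two_lt_pow_cc hp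
  nlinarith

theorem Wr.conj_pr (hm : 3 ≤ m) (h : Wr ρ t π) {n : G} (hn : n ∈ Mw t π) :
    ∃ α β : MulAut (SL m F), ((∀ a, n * π a * n⁻¹ = π (α a)) ∧
      ∀ a, n * tw t π a * n⁻¹ = tw t π (β a)) ∨ ((∀ a, n * π a * n⁻¹ = tw t π (α a)) ∧
      ∀ a, n * tw t π a * n⁻¹ = π (β a)) := by
  by_cases h0 : n ∈ M0 t π
  · obtain ⟨α, β, e⟩ := h.ac hm h0
    exact ⟨α, β, Or.inl e⟩
  · obtain ⟨α, β, e⟩ := h.sw hm hn h0
    exact ⟨α, β, Or.inr e⟩

theorem Wr.pu_conj (hm : 3 ≤ m) (h : Wr ρ t π) {n w : G} (hn : n ∈ Mw t π) (hw : Pu t π w) :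
    Pu t π (n * w * n⁻¹) := by
  obtain ⟨α, β, e | e⟩ := h.conj_pr hm hn <;> rcases hw with ⟨a, rfl⟩ | ⟨a, rfl⟩
  exacts [Or.inl ⟨_, (e.1 a).symm⟩, Or.inr ⟨_, (e.2 a).symm⟩, Or.inr ⟨_, (e.1 a).symm⟩,
    Or.inl ⟨_, (e.2 a).symm⟩]

theorem Wr.puR_conj (hm : 3 ≤ m) (h : Wr ρ t π) {n w : G} (hn : n ∈ Mw t π) (hw : PuR t π w) :
    PuR t π (n * w * n⁻¹) := by
  obtain ⟨α, β, e | e⟩ := h.conj_pr hm hn <;> obtain ⟨a, ha, rfl | rfl⟩ := hw
  exacts [⟨_, ha.aut hm α, Or.inl (e.1 a)⟩, ⟨_, ha.aut hm β, Or.inr (e.2 a)⟩,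
    ⟨_, ha.aut hm α, Or.inr (e.1 a)⟩, ⟨_, ha.aut hm β, Or.inl (e.2 a)⟩]

theorem PuR.isConj {w : G} (hw : PuR t π w) : IsConj (π (zz 1)) w := by
  obtain ⟨r, hr, rfl | rfl⟩ := hw
  · exact π.map_isConj hr
  · exact (π.map_isConj hr).trans (isConj_iff.2 ⟨t, rfl⟩)

theorem Wr.conj_z (h : Wr ρ t π) {r r' : SL m F} (hr : IsRoot r) (hr' : IsRoot r') :
    ∃ g ∈ G0 t π, g * (π r * tw t π r') * g⁻¹ = ρ (zz 1) := by
  obtain ⟨s, hs⟩ := isConj_iff.1 (IsConj.symm hr)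
  obtain ⟨s', hs'⟩ := isConj_iff.1 (IsConj.symm hr')
  refine ⟨_, h.mem_G0.2 ⟨s, s', rfl⟩, ?_⟩
  rw [← conj_mul, (h.ac_pr s s').1, (h.ac_pr s s').2, MulAut.conj_apply, MulAut.conj_apply, hs, hs',
    h.diag]

theorem Wr.not_pu_z (hm : 3 ≤ m) (h : Wr ρ t π) : ¬ Pu t π (ρ (zz 1)) :=
  h.diag _ ▸ h.not_pu hm (zz_sq 1) (zz_ne (by omega) one_ne_zero) (zz_sq 1)
    (zz_ne (by omega) one_ne_zero)

theorem Wr.pu_comm (hm : 3 ≤ m) (h : Wr ρ t π) {w : G} (hw : Pu t π w) (h2 : w * w = 1)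
    (hc : Commute w t) : w = 1 := by
  have e : w ∈ cj t (zpowers w) := by
    have := cj_mem (g := t) (mem_zpowers w)
    rwa [hc.symm.mul_inv_cancel] at this
  rcases hw with hw | hw
  · exact h.eq_one_of_both hm hw (range_tw t π ▸ map_mono (zpowers_le.2 hw) e) h2
  · exact h.eq_one_of_both hm (h.cj_t ▸ map_mono (zpowers_le.2 hw) e) hw h2

end CL.SC
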