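import Cfsg.Agent.INV.SC.W0

/-!
The wreathed case: conjugates of `t` exchanging the factors.
-/

set_option autoImplicit false
set_option linter.unusedSectionVars false
set_option linter.unusedVariables false

namespace CL.SC

open Matrix Subgroup
open scoped commutatorElement

variable {m : ℕ} [NeZero m] {F : Type*} [Field F] [Finite F] [CharP F 2]
variable {G : Type*} [Group G] [Finite G]
variable {ρ π : SL m F →* G} {t : G}

theorem comm_mul_mul {a a' y z : G} (h : Commute a a') (h1 : Commute a y) (h2 : Commute a z)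
    (h3 : Commute a' y) (h4 : Commute a' z) : ⁅a * y, a' * z⁆ = ⁅y, z⁆ := by
  have k : a * (a' * z) * a⁻¹ = a' * z := (h.mul_right h2).mul_inv_cancel
  have k' : a' * (y * z * y⁻¹ * z⁻¹) * a'⁻¹ = y * z * y⁻¹ * z⁻¹ :=
    (((h3.mul_right h4).mul_right h3.inv_right).mul_right h4.inv_right).mul_inv_cancel
  rw [commutatorElement_def, commutatorElement_def, h1.eq, ← k']
  calc _ = y * (a * (a' * z) * a⁻¹) * y⁻¹ * (a' * z)⁻¹ := by group
    _ = y * a' * z * y⁻¹ * (a' * z)⁻¹ := by rw [k]; group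
    _ = _ := by rw [← h3.eq]; group

theorem St.range_le (hm : 3 ≤ m) (h : St ρ t) {ρ' : SL m F →* G} (hc : ∀ a, Commute (ρ' a) t) :
    ρ'.range ≤ ρ.range := by
  have h1 : ρ'.range ≤ centralizer {t} := by
    rintro _ ⟨a, rfl⟩
    exact mem_centralizer_singleton_iff.2 (hc a)
  have c : ∀ v ∈ ρ.range, Commute t v := by
    rintro _ ⟨a, rfl⟩
    exact h.tc a
  have h2 : ρ'.range ≤ zpowers t ⊔ ρ.range := by
    rw [MonoidHom.range_eq_map, ← closure_x, map_le_iff_le_comap, closure_le]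
    rintro _ ⟨i, j, a, rfl⟩
    change ρ' (x i j a) ∈ zpowers t ⊔ ρ.range
    obtain ⟨b, -, e | e⟩ := h.inner_comm hm (map_sq ρ' (x_sq i j a))
      (commutator_mono h1 h1 ((perfect_range hm ρ').ge ⟨_, rfl⟩))
    · exact e ▸ mem_sup_right ⟨b, rfl⟩
    · exact e ▸ mul_mem_sup (mem_zpowers t) ⟨b, rfl⟩
  rw [← perfect_range hm ρ']
  refine (commutator_mono h2 h2).trans (Subgroup.commutator_le.2 fun y hy z hz => ?_)
  obtain ⟨a, ha, _, ⟨b, rfl⟩, rfl⟩ := (mem_sup_comm (zp_comm h.tt c)).1 hy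
  obtain ⟨a', ha', _, ⟨b', rfl⟩, rfl⟩ := (mem_sup_comm (zp_comm h.tt c)).1 hz
  refine ⟨⁅b, b'⁆, ?_⟩
  have k1 := zp_comm h.tt c a ha
  have k2 := zp_comm h.tt c a' ha'
  rw [map_commutatorElement, comm_mul_mul ((el_zpowers h.tt).comm ha ha') (k1 _ ⟨b, rfl⟩)
    (k1 _ ⟨b', rfl⟩) (k2 _ ⟨b, rfl⟩) (k2 _ ⟨b', rfl⟩)]

theorem Wr.w1 (hm : 3 ≤ m) (h : Wr ρ t π) {g : G} (hg : g * t * g⁻¹ ∈ Mw t π)
    (h0 : g * t * g⁻¹ ∉ M0 t π) : g ∈ Mw t π := by
  obtain ⟨γ, δ, h1, h2⟩ := h.sw hm hg h0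
  have hs := h.toSt.conj g
  set u := g * t * g⁻¹ with hu
  have uu := hs.tt
  let ρ' : SL m F →* G := MonoidHom.mk' (fun a => π a * tw t π (γ a)) fun a b => by
    rw [h.mul, map_mul γ]
  have e : ∀ a, ρ' a = π a * (u * π a * u⁻¹) := fun a => by rw [h1]; rfl
  have fr : Fr ρ' := fun a ha => by
    have := (h.cen hm (a := a) (b := γ a) (a' := 1) (b' := 1)
      (by rw [map_one, map_one, mul_one]; exact ha)).1
    rwa [mul_one, Subgroup.inv_mem_iff] at this
  have cu : ∀ a, Commute (ρ' a) u := fun a => by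
    have c : Commute (π a) (u * π a * u⁻¹) := h1 a ▸ h.comm a _
    refine (mul_inv_eq_iff_eq_mul.1 ?_).symm
    rw [e, ← conj_mul, c.eq]
    congr 1
    calc _ = u * u * π a * (u * u)⁻¹ := by group
      _ = _ := by rw [uu]; group
  obtain ⟨α, hα⟩ := hs.fr.exists_rf hm fr (hs.range_le hm cu)
  have k : π.range ≤ cj g (G0 t π) := by
    rw [MonoidHom.range_eq_map, ← closure_x, map_le_iff_le_comap, closure_le]
    rintro _ ⟨i, j, a, rfl⟩
    change π (x i j a) ∈ cj g (G0 t π)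
    by_cases h3 : x i j a = 1
    · rw [h3, map_one]; exact one_mem _
    have hx : x i j a ∈ row F i := X_le_row i j (mem_X.2 ⟨a, rfl⟩)
    refine map_mono (h.can (α * MulAut.conj (pm F (Equiv.swap 0 i)))) ?_
    have e2 : cj g ((row F 0).map (CL.SC.rf ρ (α * MulAut.conj (pm F (Equiv.swap 0 i))))) =
        (row F i).map ρ' := by
      rw [row_cj i, hα, cj, cj, Subgroup.map_map, Subgroup.map_map]
      rfl
    change _ ∈ cj g _
    rw [cj_til, e2]
    refine subset_closure (Or.inr ⟨map_sq π (x_sq i j a), ?_, ⟨x i j a, hx, ?_⟩, fun c => ?_⟩)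
    · rintro _ ⟨b, hb, rfl⟩
      exact (((Pat_comm (hs_row i) hb hx).map π).mul_left (h.comm _ _).symm).eq
    · rw [e, ← hu, ← map_inv, x_inv]; group
    · refine h.frπ.ne_one (x_sq i j a) h3 (h.eq_one_of_both hm ⟨_, rfl⟩ ⟨γ (x i j a), ?_⟩
        (map_sq π (x_sq i j a)))
      rw [← h1, c.symm.mul_inv_cancel]
  have un : cj u (cj g (G0 t π)) = cj g (G0 t π) := by
    rw [← cj_mul', hu, inv_mul_cancel_right, cj_mul', cj_eq_iff.2 h.t_mem]
  refine cj_eq_iff.1 (eq_of_le_of_card_ge (sup_le k ?_) (card_cj _ _).le).symm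
  rintro _ ⟨a, rfl⟩
  rw [← un, ← γ.apply_symm_apply a, ← h1]
  exact cj_mem (k ⟨_, rfl⟩)

end CL.SC
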