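import Cfsg.Agent.INV.SC.W0
import Cfsg.Agent.INV.SC.Sing

/-!
The wreathed case: no conjugate of `t` normalises the factors.
-/

set_option autoImplicit false
set_option linter.unusedSectionVars false
set_option linter.unusedVariables false

namespace CL.SC

open Matrix Subgroup
open scoped commutatorElement

variable {m : ℕ} [NeZero m] {F : Type*} [Field F] [Finite F] [CharP F 2]
variable {G : Type*} [Group G] [Finite G]
variable {ρ π : SL m F →* G} {t : G}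
variable {u : G} {α β : MulAut (SL m F)}

theorem Wr.conj_sq (h : Wr ρ t π) (hu : IsConj t u) : u * u = 1 := by
  obtain ⟨g, rfl⟩ := isConj_iff.1 hu
  rw [conj_mul, h.tt, mul_one, mul_inv_cancel]

theorem Wr.ac_swap (h : Wr ρ t π) (h1 : Ac π u α) : Ac (CL.SC.tw t (CL.SC.tw t π)) u α := by
  rwa [tw_tw h.tt]

/-- an elementary abelian subgroup of `G0` centralised by a conjugate of `t` (`rank_conj` for
`zpowers u ⊔ B`, `not_conj`) -/
theorem Wr.rank (hp : Par m F) (h : Wr ρ t π) (hu : IsConj t u) {B : Subgroup G} (hB : B ≤ G0 t π)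
    (hE : El B) (hc : ∀ b ∈ B, Commute b u) : Nat.card B ≤ Nat.card F ^ cc m := by
  have u2 := h.conj_sq hu
  have c : ∀ b ∈ B, Commute u b := fun b hb => (hc b hb).symm
  have := h.toSt.rank_conj hp hu ((el_zpowers u2).sup hE (zp_comm u2 c)) fun e he => by
    rcases (mem_zsup u2 c).1 he with e1 | e1
    · exact hc e e1
    · have := (Commute.refl u).mul_left (hc _ e1)
      rwa [← mul_assoc, u2, one_mul] at this
  rw [card_zsup u2 c fun e => h.not_conj hp (hB e) hu] at this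
  omega

theorem Wr.rank_pr (hp : Par m F) (h : Wr ρ t π) (hu : IsConj t u) (h1 : Ac π u α)
    (h2 : Ac (CL.SC.tw t π) u β) {B B' : Subgroup (SL m F)} (hB : B ≤ Fx α) (hB' : B' ≤ Fx β)
    (hE : El B) (hE' : El B') : Nat.card B * Nat.card B' ≤ Nat.card F ^ cc m := by
  rw [← h.card_pr hp.1 hE.pgroup hE'.pgroup]
  refine h.rank hp hu (pr_le_G0 _ _) (h.el_pr hE hE') fun y hy => ?_
  obtain ⟨a, ha, b, hb, rfl⟩ := h.mem_pr.1 hy
  exact (h1.commute (hB ha)).symm.mul_left (h2.commute (hB' hb)).symm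

/-- `inn`, or `exists_el`, `out` and `rank` -/
theorem Wr.w2_inner (hp : Par m F) (h : Wr ρ t π) (hu : IsConj t u) (h1 : Ac π u α)
    (h2 : Ac (tw t π) u β) : Ou α := fun hα => by
  have u2 := h.conj_sq hu
  by_cases hβ : Ty β 1 false
  · exact h.not_conj hp (h.inn_mem hp.1 u2 h1 h2 hα hβ) hu
  obtain ⟨a, ha, rfl⟩ := hα.invol hp.1 (h1.sq hp.1 h.frπ u2)
  obtain ⟨B, hB, hE, hc⟩ := exists_el ha
  obtain ⟨v, hv, v1, v2, -⟩ := out hp (h2.sq hp.1 h.fr2 u2) hβ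
  have := h.rank_pr hp hu h1 h2 (B := B) (B' := zpowers v)
    (fun b hb => mul_inv_eq_iff_eq_mul.2 (hE.comm hB hb).eq)
    (zpowers_le.2 (commutator_le_self _ hv)) hE (el_zpowers v2)
  rw [hc, Nat.card_zpowers, CL.HHL.orderOf_eq_two v2 v1] at this
  have : 0 < Nat.card F ^ cc m := pow_pos Nat.card_pos _
  omega

/-- `fxr` for both factors and `rank` -/
theorem Wr.w2_g (hp : Par m F) (h : Wr ρ t π) (hu : IsConj t u) (h1 : Ac π u α)
    (h2 : Ac (tw t π) u β) (he : Even m) : ¬ Ty α 1 true := fun hα => by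
  have u2 := h.conj_sq hu
  obtain ⟨B, b1, b2, -, b3⟩ := fxr hp.1 he (h1.sq hp.1 h.frπ u2) (h.w2_inner hp hu h1 h2)
  obtain ⟨B', c1, c2, c3, -⟩ := fxr hp.1 he (h2.sq hp.1 h.fr2 u2)
    (h.swap.w2_inner hp hu h2 (h.ac_swap h1))
  have k := Nat.pow_le_pow_left (h.rank_pr hp hu h1 h2 b1 c1 b2 c2) 2
  rw [mul_pow] at k
  have k2 := (Nat.mul_le_mul (b3 hα) c3).trans k
  rw [← pow_add, ← pow_mul, Nat.pow_le_pow_iff_right Finite.one_lt_card] at k2
  have := hp.1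
  omega

/-- an involution of `⁅Fx α, Fx α⁆` seen from `u` -/
theorem St.inner_fx (hm : 3 ≤ m) {ρ' : SL m F →* G} (h : St ρ' u) (h1 : Ac π u α) {v : SL m F}
    (hv : v ∈ ⁅Fx α, Fx α⁆) (h2 : v * v = 1) :
    ∃ a : SL m F, a * a = 1 ∧ (π v = ρ' a ∨ π v = u * ρ' a) := by
  have le : (Fx α).map π ≤ centralizer {u} := by
    rintro _ ⟨b, hb, rfl⟩
    exact mem_centralizer_singleton_iff.2 (h1.commute hb).symm
  exact h.inner_comm hm (e := π v) (by rw [← map_mul, h2, map_one])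
    (commutator_mono le le (map_commutator _ _ π ▸ mem_map_of_mem π hv))

/-- as `u ∉ G0`, the involution of `out` for `β` gives `a ≠ 1` -/
theorem Wr.w2_out (hp : Par m F) (h : Wr ρ t π) (hu : IsConj t u) {ρ' : SL m F →* G}
    (h' : St ρ' u) (h2 : Ac (tw t π) u β) (ho : Ou β) : ∃ a : SL m F, a * a = 1 ∧ a ≠ 1 ∧
      ∀ b, Commute (π b) u → Commute (π b) (ρ' a) := by
  obtain ⟨v, hv, v1, v2, -⟩ := out hp (h2.sq hp.1 h.fr2 (h.conj_sq hu)) ho
  obtain ⟨a, ha, e⟩ := h'.inner_fx hp.1 h2 hv v2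
  refine ⟨a, ha, ?_, fun b hb => ?_⟩
  · rintro rfl
    rcases e with e | e
    · exact v1 (h.fr2.eq_one (n := 1) ((pow_two v).trans v2) (e.trans (map_one _)))
    · rw [map_one, mul_one] at e
      exact h.not_conj hp (mem_sup_right ⟨v, e⟩) hu
  · have := h.comm b v
    rcases e with e | e
    · rwa [e] at this
    · have := hb.inv_right.mul_right this
      rwa [e, inv_mul_cancel_left] at this

/-- `m3b` for `α`, `inner_fx`, `w2_out`, `m3a` -/
theorem Wr.w2_three (hp : Par m F) (h : Wr ρ t π) (hu : IsConj t u) (h1 : Ac π u α)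
    (h2 : Ac (tw t π) u β) : m ≠ 3 := fun hm => by
  have u2 := h.conj_sq hu
  obtain ⟨ρ', h'⟩ := h.toSt.of_conj hu
  obtain ⟨v, hv, g, hg, v2, hn⟩ := m3b hm hp (h1.sq hp.1 h.frπ u2) (h.w2_inner hp hu h1 h2)
  obtain ⟨a, a2, a1, ha⟩ := h.w2_out hp hu h' h2 (h.swap.w2_inner hp hu h2 (h.ac_swap h1))
  have key : ∀ v ∈ ⁅Fx α, Fx α⁆, v * v = 1 → ∃ b : SL m F, b * b = 1 ∧ Commute a b ∧
      ∃ z, Commute z u ∧ z * z = 1 ∧ (∀ c, Commute z (ρ' c)) ∧ π v = z * ρ' b := fun v hv v2 => by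
    obtain ⟨b, b2, e⟩ := h'.inner_fx hp.1 h1 hv v2
    have c := (ha v (h1.commute (commutator_le_self _ hv)).symm).symm
    refine ⟨b, b2, h'.fr.commute (n := 1) ((pow_two a).trans a2) ?_, ?_⟩
    · rcases e with e | e
      · rwa [e] at c
      · have := (h'.tc a).symm.inv_right.mul_right c
        rwa [e, inv_mul_cancel_left] at this
    · rcases e with e | e
      · exact ⟨1, Commute.one_left _, one_mul 1, fun _ => Commute.one_left _, by rw [e, one_mul]⟩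
      · exact ⟨u, Commute.refl _, u2, h'.tc, e⟩
  have hv' : g * v * g⁻¹ ∈ ⁅Fx α, Fx α⁆ := by
    have : (⁅Fx α, Fx α⁆).map (MulAut.conj g).toMonoidHom ≤ ⁅Fx α, Fx α⁆ := by
      have le : (Fx α).map (MulAut.conj g).toMonoidHom ≤ Fx α := by
        rintro _ ⟨b, hb, rfl⟩
        exact mul_mem (mul_mem hg hb) (inv_mem hg)
      rw [map_commutator]
      exact commutator_mono le le
    exact this ⟨v, hv, rfl⟩
  obtain ⟨b, b2, hb, z, z1, z2, z3, e⟩ := key v hv v2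
  obtain ⟨c, c2, hc, w, w1, w2, w3, e'⟩ := key _ hv' (by rw [conj_mul, v2, mul_one, mul_inv_cancel])
  have zw : Commute z w := by
    rcases h'.inv z ⟨z1, z3⟩ z2 with rfl | rfl
    exacts [Commute.one_left _, w1.symm]
  refine hn (h.frπ ?_)
  rw [MonoidHom.mem_ker, map_pow, map_mul, e, e', mul_assoc, ← mul_assoc (ρ' b), ← (w3 b).eq,
    mul_assoc, ← map_mul, ← mul_assoc, ((z3 _).mul_left (w3 _)).mul_pow, ← map_pow,
    m3a hm a2 a1 b2 c2 hb hc, map_one, mul_one, zw.mul_pow, show 4 = 2 * 2 from rfl, pow_mul,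
    pow_mul, pow_two z, pow_two w, z2, w2, one_pow, one_mul]

/-- `π a` acts on the frame of `u` as `γ`, `γ ^ r = 1`, which is inner-diagonal (`Ty.pow`) and fixes
an involution (`w2_out`); `ppd`, `St.kill`. -/
theorem Wr.w2_good (hp : Par m F) (h : Wr ρ t π) (hu : IsConj t u) (h1 : Ac π u α)
    (h2 : Ac (tw t π) u β) {r : ℕ} (hr : Good m (Nat.card F) r) (hr' : ¬ r ∣ Nat.card (F ≃+* F))
    {a : SL m F} (ha : a ∈ Fx α) : orderOf a ≠ r := fun ho => by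
  obtain ⟨ρ', h'⟩ := h.toSt.of_conj hu
  obtain ⟨b, b2, b1, hb⟩ := h.w2_out hp hu h' h2 (h.swap.w2_inner hp hu h2 (h.ac_swap h1))
  have c := (h1.commute ha).symm
  obtain ⟨γ, hγ⟩ := h'.ac hp.1 c
  have g1 : γ ^ r = 1 := hγ.pow_eq_one hp.1 h'.fr (by rw [← map_pow, ← ho, pow_orderOf_eq_one, map_one])
  obtain ⟨σ, ε, ty⟩ := exists_ty hp.1 γ
  obtain ⟨s1, rfl⟩ := ty.pow hp.1 (hr.1.odd_of_ne_two hr.2.1) g1
  obtain rfl : σ = 1 := by
    rcases (Nat.dvd_prime hr.1).1 (orderOf_dvd_of_pow_eq_one s1) with e | e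
    · exact orderOf_eq_one_iff.1 e
    · exact (hr' (e ▸ orderOf_dvd_natCard σ)).elim
  obtain rfl := ppd hp.1 hr ty g1 b2 b1 ((hγ.fix h'.fr (k := 1) ((pow_two b).trans b2)).1 (hb a c))
  exact h'.kill hp h.frπ h1 (h.w2_inner hp hu h1 h2) hr ho ⟨c, ac_one.1 hγ⟩

theorem Wr.w2_faith (hp : Par m F) (h : Wr ρ t π) {ρ' : SL m F →* G} (h' : St ρ' u)
    (h1 : Ac π u α) {a b v : SL m F} (hk : Kt ρ' u (π a * CL.SC.tw t π b))
    (hv : v ∈ ⁅Fx α, Fx α⁆) (v2 : v * v = 1) : Commute a v := by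
  obtain ⟨c, -, e⟩ := h'.inner_fx hp.1 h1 hv v2
  have c1 : Commute (π a * CL.SC.tw t π b) (π v) := by
    rcases e with e | e <;> rw [e]
    exacts [hk.2 c, hk.1.mul_right (hk.2 c)]
  have := c1.mul_left (h.comm v b).symm.inv_left
  rw [mul_inv_cancel_right] at this
  exact (h.frπ.commute (n := 1) ((pow_two v).trans v2) this.symm).symm

/-- `t27` for both factors: `T × T'` acts faithfully on the frame of `u` (`inner_fx`,
`Fr.commute`); `not_dvd_729`. -/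
theorem Wr.w2_exc (hp : Par m F) (h : Wr ρ t π) (hu : IsConj t u) (h1 : Ac π u α)
    (h2 : Ac (tw t π) u β)
    (e1 : (m = 4 ∧ Nat.card F = 4 ∧ ∃ φ, φ ≠ 1 ∧ Ty α φ true) ∨ (m = 7 ∧ Nat.card F = 2))
    (e2 : (m = 4 ∧ Nat.card F = 4 ∧ ∃ φ, φ ≠ 1 ∧ Ty β φ true) ∨ (m = 7 ∧ Nat.card F = 2)) :
    False := by
  have u2 := h.conj_sq hu
  obtain ⟨ρ', h'⟩ := h.toSt.of_conj hu
  obtain ⟨T, t1, t2, t3⟩ := t27 (h1.sq hp.1 h.frπ u2)
    (e1.imp_right fun e => ⟨e.1, e.2, h.w2_inner hp hu h1 h2⟩)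
  obtain ⟨T', s1, s2, s3⟩ := t27 (h2.sq hp.1 h.fr2 u2)
    (e2.imp_right fun e => ⟨e.1, e.2, h.swap.w2_inner hp hu h2 (h.ac_swap h1)⟩)
  obtain ⟨θ, hθ⟩ := h'.fr.exists_hom hp.1
  let f : T × T' →* G := MonoidHom.noncommCoprod (π.comp T.subtype) ((tw t π).comp T'.subtype)
    fun a b => h.comm a b
  have c : ∀ p, Commute (f p) u := fun p =>
    (h1.commute (t1 p.1.2)).symm.mul_left (h2.commute (s1 p.2.2)).symm
  let f' := θ.comp (f.codRestrict _ fun p => h'.nrm _ (c p))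
  have inj : Function.Injective f' := (injective_iff_map_eq_one f').2 fun p e => by
    have k : Kt ρ' u (π p.1 * tw t π p.2) :=
      ⟨c p, ac_one.1 ((show θ ⟨f p, h'.nrm _ (c p)⟩ = 1 from e) ▸ hθ ⟨f p, h'.nrm _ (c p)⟩)⟩
    refine Prod.ext (Subtype.ext ?_) (Subtype.ext ?_)
    · by_contra n
      obtain ⟨v, hv, v2, hn⟩ := t3 _ p.1.2 n
      exact hn (h.w2_faith hp h' h1 k hv v2)
    · by_contra n
      obtain ⟨v, hv, v2, hn⟩ := s3 _ p.2.2 n
      exact hn (h.swap.w2_faith hp h' h2 (b := p.1) (by rwa [tw_tw h.tt, ← (h.comm _ _).eq]) hv v2)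
  have := Subgroup.card_dvd_of_injective f' inj
  rw [Nat.card_prod, t2, s2] at this
  exact not_dvd_729 (e1.imp_left fun e => ⟨e.1, e.2.1⟩) this

/-- `sing_w` for both factors (`Wr.swap`) -/
theorem Wr.w2 (hp : Par m F) (h : Wr ρ t π) (hu : IsConj t u) : u ∉ M0 t π := fun h0 => by
  have u2 := h.conj_sq hu
  obtain ⟨α, β, h1, h2⟩ := h.ac hp.1 h0
  have h3 := h.ac_swap h1
  have hm : 4 ≤ m := lt_of_le_of_ne hp.1 (h.w2_three hp hu h1 h2).symm
  refine h.w2_exc hp hu h1 h2 ((sing_w hm (h1.sq hp.1 h.frπ u2) (h.w2_inner hp hu h1 h2)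
    fun e => h.w2_g hp hu h1 h2 e.1 e.2).resolve_left ?_)
    ((sing_w hm (h2.sq hp.1 h.fr2 u2) (h.swap.w2_inner hp hu h2 h3)
    fun e => h.swap.w2_g hp hu h2 h3 e.1 e.2).resolve_left ?_)
  · rintro ⟨r, r1, r2, a, ha, e⟩
    exact h.w2_good hp hu h1 h2 r1 r2 ha e
  · rintro ⟨r, r1, r2, a, ha, e⟩
    exact h.swap.w2_good hp hu h2 h3 r1 r2 ha e

end CL.SC
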