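import Cfsg.Agent.INV.SC.W1
import Cfsg.Agent.INV.SC.W2

/-!
The wreathed case: the unique fixed point and the Sylow subgroup.
-/

set_option autoImplicit false
set_option linter.unusedSectionVars false
set_option linter.unusedVariables false

namespace CL.SC

open Matrix Subgroup
open scoped commutatorElement

variable {m : ℕ} [NeZero m] {F : Type*} [Field F] [Finite F] [CharP F 2]
variable {G : Type*} [Group G] [Finite G]
variable {ρ π : SL m F →* G} {t : G}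
variable {S : Sylow 2 G}

theorem Wr.uf (hp : Par m F) (h : Wr ρ t π) : UF (Mw t π) t :=
  ⟨h.t_mem, fun g hg => h.w1 hp.1 hg (h.w2 hp (isConj_iff.2 ⟨g, rfl⟩))⟩

theorem M0_rf (α : MulAut (SL m F)) : M0 t (rf π α) = M0 t π := by
  rw [M0, M0, range_rf, range_tw, range_tw, range_rf]

theorem Wr.odd_M0 (hm : 3 ≤ m) (h : Wr ρ t π) (hS : (S : Subgroup G) ≤ Mw t π) :
    Odd (((S : Subgroup G) ⊓ M0 t π).relIndex (M0 t π)) :=
  odd_relIndex_inf hS (odd_relIndex_sylow S hS) M0_le (h.norm_M0 hm)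

theorem Wr.exists_ws (hp : Par m F) (h : Wr ρ t π) :
    ∃ (ρ' π' : SL m F →* G) (S : Sylow 2 G), Ws ρ' t π' S := by
  have hm := hp.1
  obtain ⟨S, hS⟩ := (el_zpowers h.tt).pgroup.exists_le_sylow
  have tS : t ∈ S := hS (mem_zpowers t)
  have hM := (h.uf hp).le S.2 tS (IsConj.refl t) h.t_mem
  have p0 : IsPGroup 2 ((S : Subgroup G) ⊓ M0 t π : Subgroup G) := S.2.to_inf_left
  obtain ⟨g, hg⟩ := h.frπ.nf hm p0 (inf_le_right.trans inf_le_left)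
  have h' := h.rf (CL.SC.inn g)
  refine ⟨_, _, S, h', h'.uf hp, tS, fun a ha => (h'.frπ.U_le hm p0 inf_le_right (h.odd_M0 hm hM)
    ?_ ?_ hg a ha).1, fun s hs hn => hg s ⟨hs, h.mem_M0 hm (hM hs) ?_⟩⟩
  · rw [range_rf]; exact le_sup_left.trans h.G0_le
  · rw [range_rf]; exact inf_le_left
  · rwa [range_rf] at hn

theorem Ws.tt (h : Ws ρ t π S) : t * t = 1 := h.toWr.tt

theorem Ws.le_M (h : Ws ρ t π S) : (S : Subgroup G) ≤ Mw t π :=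
  h.uf.le S.2 h.tS (IsConj.refl t) h.t_mem

theorem Ws.conj_t (h : Ws ρ t π S) {s : G} (hs : s ∈ S) : t * s * t⁻¹ ∈ S :=
  mul_mem (mul_mem h.tS hs) (inv_mem h.tS)

theorem Ws.swap (h : Ws ρ t π S) : Ws ρ t (CL.SC.tw t π) S where
  toWr := h.toWr.swap
  uf := by rw [G0_swap h.tt]; exact h.uf
  tS := h.tS
  US a ha := h.conj_t (h.US a ha)
  sd s hs hn := by
    obtain ⟨a, ha, σ, ε, e⟩ := h.sd _ (h.conj_t hs) (cj_eq_iff.1 (by
      rw [h.t_inv, cj_mul', cj_mul', ← range_tw, cj_eq_iff.2 hn, h.cj_t]))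
    refine ⟨a, ha, σ, ε, ?_⟩
    have := e.tw t
    rwa [show t * (t * s * t⁻¹) * t⁻¹ = t * t * s * (t * t)⁻¹ by group, h.tt, one_mul, inv_one,
      mul_one] at this

theorem Ws.sd2 (h : Ws ρ t π S) {s : G} (hs : s ∈ S) (h0 : s ∈ M0 t π) :
    (∃ a ∈ U m F, ∃ σ ε, Ac π s (MulAut.conj a * std σ ε)) ∧
      ∃ a ∈ U m F, ∃ σ ε, Ac (tw t π) s (MulAut.conj a * std σ ε) :=
  ⟨h.sd s hs h0.1, h.swap.sd s hs h0.2⟩

theorem Ws.si (hm : 3 ≤ m) (h : Ws ρ t π S) {s : G} (hs : s ∈ S) {α : MulAut (SL m F)}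
    (h1 : Ac π s α) {σ : F ≃+* F} {ε : Bool} (hα : Ty α σ ε) : Si α σ ε ∧ α (zz 1) = zz 1 := by
  obtain ⟨a, ha, σ', ε', e⟩ := h.sd s hs h1.mem
  obtain rfl := Ac.unique hm h.frπ e h1
  obtain ⟨rfl, rfl⟩ := hα.unique hm (Si.ty ⟨a, rfl⟩)
  refine ⟨⟨a, rfl⟩, ?_⟩
  rw [MulAut.mul_apply, std_zz, map_one, MulAut.conj_apply, (zz_comm ha 1).symm.mul_inv_cancel]

theorem Ws.pr_le (h : Ws ρ t π S) : pr t π (U m F) (U m F) ≤ S :=
  sup_le (map_le_iff_le_comap.2 h.US) (map_le_iff_le_comap.2 h.swap.US)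

theorem Ws.mem_U (hm : 3 ≤ m) (h : Ws ρ t π S) {a b : SL m F} {n : ℕ} (ha : a ^ 2 ^ n = 1)
    (hs : π a * tw t π b ∈ S) : a ∈ U m F := by
  obtain ⟨a', ha', σ, ε, e⟩ := h.sd _ hs (h.ac_pr a b).1.mem
  have e' := Ac.unique hm h.frπ e (h.ac_pr a b).1
  obtain ⟨rfl, rfl⟩ := (Si.ty ⟨a', e'.symm⟩).unique hm (ty_conj a)
  rw [std_one, mul_one] at e'
  obtain ⟨k, hk⟩ := U_two ha'
  exact conj_inj2 hk ha e' ▸ ha'

theorem two_of_mem {s : G} (hs : s ∈ S) : ∃ n, s ^ 2 ^ n = 1 :=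
  (S.2 ⟨s, hs⟩).imp fun _ e => congrArg Subtype.val e

theorem Ws.inf_G0 (hm : 3 ≤ m) (h : Ws ρ t π S) {s : G} (hs : s ∈ S) (h0 : s ∈ G0 t π) :
    s ∈ pr t π (U m F) (U m F) := by
  obtain ⟨n, hn⟩ := two_of_mem hs
  obtain ⟨a, b, ha, hb, rfl⟩ := h.lift hm h0 hn
  refine h.mem_pr.2 ⟨a, h.mem_U hm ha hs, b, h.swap.mem_U hm (b := a) hb ?_, rfl⟩
  rwa [tw_tw h.tt, ← (h.comm a b).eq]

theorem Ws.z1_comm (h : Ws ρ t π S) {s : G} (hs : s ∈ S) (h0 : s ∈ M0 t π) :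
    Commute s (π (zz 1)) ∧ Commute s (tw t π (zz 1)) := by
  obtain ⟨⟨a, ha, σ, ε, e⟩, a', ha', σ', ε', e'⟩ := h.sd2 hs h0
  exact ⟨(e.sd_U ha).2, (e'.sd_U ha').2⟩

theorem Ws.z_comm (hm : 3 ≤ m) (h : Ws ρ t π S) {s : G} (hs : s ∈ S) : Commute s (ρ (zz 1)) := by
  have k : ∀ s ∈ S, s ∈ M0 t π → Commute s (ρ (zz 1)) := fun s hs h0 =>
    h.diag _ ▸ (h.z1_comm hs h0).1.mul_right (h.z1_comm hs h0).2
  refine (h.comp hm (h.le_M hs)).elim (k s hs) fun h0 => ?_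
  simpa using (h.tc _).inv_left.mul_left (k _ (mul_mem h.tS hs) h0)

theorem Ws.card_S (hm : 3 ≤ m) (h : Ws ρ t π S) :
    Nat.card S = 2 * Nat.card ((S : Subgroup G) ⊓ M0 t π : Subgroup G) := by
  rw [card_eq_rel (inf_le_left : (S : Subgroup G) ⊓ M0 t π ≤ S), mul_comm]
  congr 1
  rw [inf_relIndex_left, relIndex, index_eq_two_iff]
  refine ⟨⟨t, h.tS⟩, fun b => ?_⟩
  simp only [mem_subgroupOf, Subgroup.coe_mul]
  by_cases hb : (b : G) ∈ M0 t π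
  · exact Or.inr ⟨hb, fun e => h.t_not_mem hm ((mul_mem_cancel_left hb).1 e).1⟩
  · refine Or.inl ⟨?_, hb⟩
    have := (mem_normalizer_iff.1 h.t_norm _).1 ((h.comp hm (h.le_M b.2)).resolve_left hb)
    rwa [← mul_assoc, h.tt, one_mul, h.t_inv] at this

theorem Ws.odd_M0 (hm : 3 ≤ m) (h : Ws ρ t π S) :
    Odd (((S : Subgroup G) ⊓ M0 t π).relIndex (M0 t π)) := h.toWr.odd_M0 hm h.le_M

theorem Ws.comm_le (hm : 3 ≤ m) (h : Ws ρ t π S) :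
    ⁅(S : Subgroup G) ⊓ M0 t π, (S : Subgroup G) ⊓ M0 t π⁆ ≤ G0 t π := fun y hy => by
  have hy' : y ∈ (S : Subgroup G) ⊓ M0 t π := 
    Subgroup.commutator_le.2 (fun a ha b hb =>
      mul_mem (mul_mem (mul_mem ha hb) (inv_mem ha)) (inv_mem hb)) hy
  obtain ⟨α, β, h1, h2⟩ := h.ac hm hy'.2
  obtain ⟨n, hn⟩ := two_of_mem hy'.1
  obtain ⟨a, b, -, -, -, -, e⟩ := h.inn hm hn h1 h2
    (h.frπ.ty_comm hm (inf_le_right.trans inf_le_left) hy h1)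
    (h.fr2.ty_comm hm (inf_le_right.trans inf_le_right) hy h2)
  exact h.mem_G0.2 ⟨a, b, e⟩

theorem Ws.conj_S (hm : 3 ≤ m) (h : Ws ρ t π S) {P : Subgroup G} (hP : IsPGroup 2 P)
    (hM : P ≤ Mw t π) : ∃ n ∈ M0 t π, cj n P ≤ S := by
  obtain ⟨n, hn, e⟩ := conj_into S.2 h.le_M (odd_relIndex_sylow S h.le_M) hP hM
  refine (h.comp hm hn).elim (fun h0 => ⟨n, h0, e⟩) fun h0 => ⟨_, h0, ?_⟩
  rw [cj_mul']
  exact (map_mono e).trans (cj_eq_iff.2 (le_normalizer h.tS)).le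

theorem Ws.conj_inv (hm : 3 ≤ m) (h : Ws ρ t π S) {w : G} (hw : w * w = 1) (hM : w ∈ Mw t π) :
    ∃ n ∈ M0 t π, n * w * n⁻¹ ∈ S := by
  obtain ⟨n, hn, e⟩ := h.conj_S hm (el_zpowers hw).pgroup (zpowers_le.2 hM)
  exact ⟨n, hn, e (cj_mem (mem_zpowers w))⟩

theorem Ws.f5 (hp : Par m F) (h : Ws ρ t π S) {w u y : G} (hc : IsConj t u) (hM : u ∈ Mw t π)
    (hw : Commute w u) (hy : y ∈ G0 t π) (hy2 : y * y = 1) (hyw : IsConj y w) : w ∈ G0 t π := by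
  obtain ⟨B, -, h1, h2, h3⟩ := h.el_G0 hp.1 hy hy2
  refine h.uf.f5 h.tt (fun B hB hE hn => ?_) hc hM hw hyw h1 h2 h3.ge
  obtain ⟨s, s', d, d', -, -, rfl⟩ := h.k1 hp hB hE hn
  exact pr_le_G0 _ _

theorem Wr.commute_fst (hm : 3 ≤ m) (h : Wr ρ t π) {a b u : SL m F} (ha : a * a = 1)
    (hc : Commute (π u) (π a * tw t π b)) : Commute a u :=
  h.frπ.commute (sq_pow.2 ha) (by simpa using (hc.mul_right (h.comm u b).inv_right).symm)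

theorem Ws.f2 (hp : Par m F) (h : Ws ρ t π S) {i u : G} (hc : IsConj t u) (hM : u ∈ Mw t π)
    (hi : Commute i u) (hz : IsConj (ρ (zz 1)) i) :
    ∃ r r', IsRoot r ∧ IsRoot r' ∧ i = π r * tw t π r' := by
  have hm := hp.1
  have z2 := map_sq ρ (zz_sq (m := m) (1 : F))
  have hG := h.f5 hp hc hM hi (h.mem_G0.2 ⟨_, _, (h.diag _).symm⟩) z2 hz
  obtain ⟨S', h1, h2⟩ := h.uf.central h.tt hc hM hi hz S fun s hs => h.z_comm hm hs
  obtain ⟨n, hn, e⟩ := h.conj_S hm S'.2 h1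
  have e' : cj n S' = S := eq_of_le_of_card_ge e (by rw [card_cj]; exact (Nat.card_congr (S.equiv S').toEquiv).le)
  have c : ∀ s ∈ S, Commute s (n * i * n⁻¹) := fun s hs => by
    obtain ⟨s', hs', rfl⟩ := e'.ge hs
    exact commute_cj.2 (h2 s' hs')
  have hz' := hz.trans (isConj_iff.2 ⟨n, rfl⟩)
  obtain ⟨a, b, ha, hb, k⟩ := h.lift_inv hm ((mem_normalizer_iff.1 (M0_le hn) i).1 hG)
    (sq_of_conj hz' z2)
  rw [k] at c hz'
  obtain ⟨c1, rfl⟩ := cent_U (by omega) (sq_pow.2 ha) fun u hu =>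
    h.commute_fst hm ha (c _ (h.US u hu))
  obtain ⟨c2, rfl⟩ := cent_U (by omega) (sq_pow.2 hb) fun u hu =>
    h.swap.commute_fst hm (b := zz c1) hb (by
      rw [tw_tw h.tt, ← (h.comm _ _).eq]; exact c _ (h.swap.US u hu))
  have k2 := (c t h.tS).mul_inv_cancel
  rw [← conj_mul, ← tw_apply, ← tw_apply, tw_tw h.tt, ← (h.comm _ _).eq] at k2
  obtain ⟨k3, -⟩ := h.inj_inv hm hb ha ha hb k2
  rw [k3] at k hz'
  have r : IsRoot (zz c1 : SL m F) := isRoot_x hm (zero_ne_la (by omega)) fun e => by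
    refine ne_one_of_conj hz' (h.fr.zz_ne hm) ?_
    rw [e, zz, x_zero, map_one, map_one, mul_one]
  obtain ⟨α, β, p1, p2⟩ := h.ac hm (inv_mem hn)
  refine ⟨_, _, r.aut hm α, r.aut hm β, ?_⟩
  rw [← p1, ← p2, conj_mul, ← k]
  group

theorem Ws.eq_f5 (hp : Par m F) (h : Ws ρ t π S) {w y : G} {α β : MulAut (SL m F)} (h1 : Ac π w α)
    (h2 : Ac (tw t π) w β) (hc : Cj α β) (hy : y ∈ G0 t π) (hy2 : y * y = 1) (hyw : IsConj y w) :
    w ∈ G0 t π := by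
  obtain ⟨u, k1, k2, k3⟩ := h.eq hp.1 (sq_of_conj hyw hy2) h1 h2 hc
  exact h.f5 hp k1 k2 k3 hy hy2 hyw

end CL.SC
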