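import Cfsg.Agent.INV.SC.Pur2

/-!
The wreathed case does not occur.
-/

set_option autoImplicit false
set_option linter.unusedSectionVars false
set_option linter.unusedVariables false

namespace CL.SC

open Matrix Subgroup
open scoped commutatorElement

variable {m : ℕ} [NeZero m] {F : Type*} [Field F] [Finite F] [CharP F 2]
variable {G : Type*} [Group G] [Finite G]
variable {ρ π : SL m F →* G} {t : G} {S : Sylow 2 G}

namespace W5

theorem pow_mul {A B : Type*} [Group A] [Group B] [Finite A] (f : A →* B) (hf : f.ker ≤ center A)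
    {n : ℕ} (hn : Nat.card f.range ∣ n) (x y : A) : (x * y) ^ n = x ^ n * y ^ n := by
  obtain ⟨k, rfl⟩ := ((index_dvd_of_le hf).trans (index_ker f).dvd).trans hn
  have e : (x * y) ^ (center A).index = x ^ (center A).index * y ^ (center A).index :=
    congrArg Subtype.val (map_mul (MonoidHom.transferCenterPow A) x y)
  have c : Commute (x ^ (center A).index) (y ^ (center A).index) :=
    mem_center_iff.1 ((center A).pow_index_mem y) _
  rw [_root_.pow_mul, _root_.pow_mul, _root_.pow_mul, e, c.mul_pow]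

theorem pow_odd {A : Type*} [Group A] {c : A} (h : c * c = 1) {n : ℕ} (hn : Odd n) : c ^ n = c := by
  obtain ⟨k, rfl⟩ := hn
  rw [pow_succ, _root_.pow_mul, sq, h, one_pow, one_mul]

theorem core {C : Type*} [Group C] [Finite C] (S : Sylow 2 C) {z y : C} (hz : z * z = 1)
    (hc : ∀ g, Commute g z) (hy : y ∈ S) (hy2 : y * y = 1)
    (h1 : ∀ g, g * y * g⁻¹ ∈ S → g * y * g⁻¹ = y ∨ g * y * g⁻¹ = y * z)
    (h2 : ∀ Y : Subgroup C, Odd (Nat.card Y) → Y.Normal → ∀ o ∈ Y, Commute o y) (g : C) :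
    g * y * g⁻¹ = y ∨ g * y * g⁻¹ = y * z := by
  by_cases hyz : y ∈ zpowers z
  · obtain ⟨k, rfl⟩ := hyz
    exact Or.inl (mul_inv_eq_iff_eq_mul.2 ((hc g).zpow_right k).eq)
  have hn : (zpowers z).Normal := ⟨fun n hn g => by
    obtain ⟨k, rfl⟩ := hn
    exact ⟨k, (mul_inv_eq_iff_eq_mul.2 ((hc g).zpow_right k).eq).symm⟩⟩
  have zS : zpowers z ≤ S := (el_zpowers hz).pgroup.le_sylow_of_normal S
  have yi : y⁻¹ = y := inv_eq_of_mul_eq_one_right hy2
  have hs := QuotientGroup.mk'_surjective (zpowers z)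
  have hz1 : QuotientGroup.mk' (zpowers z) z = 1 := (QuotientGroup.eq_one_iff _).2 (mem_zpowers z)
  obtain ⟨N, n1, n2, n3⟩ := Cfsg.Agent.S0215.result (S.mapSurjective hs)
    (QuotientGroup.mk' (zpowers z) y)
    (orderOf_eq_prime (by rw [sq, ← map_mul, hy2, map_one])
      fun e => hyz ((QuotientGroup.eq_one_iff _).1 e))
    (mem_map_of_mem _ hy) fun g hg => by
      obtain ⟨g, rfl⟩ := hs g
      rw [← map_inv, ← map_mul, ← map_mul] at hg ⊢
      obtain ⟨s, s1, s2⟩ := hg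
      have := mul_mem s1 (zS (QuotientGroup.eq.1 s2))
      rw [mul_inv_cancel_left] at this
      rcases h1 g this with e | e <;> rw [e]
      rw [map_mul, hz1, mul_one]
  set A := N.comap (QuotientGroup.mk' (zpowers z)) with hA
  have pm : ∀ a ∈ A, ∀ b ∈ A, (a * b) ^ Nat.card N = a ^ Nat.card N * b ^ Nat.card N :=
    fun a ha b hb => congrArg Subtype.val (pow_mul ((QuotientGroup.mk' (zpowers z)).comp A.subtype)
      (fun c hc' => mem_center_iff.2 fun d => Subtype.ext (by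
        obtain ⟨k, e⟩ := (QuotientGroup.eq_one_iff (c : C)).1 hc'
        change (d : C) * c = c * d
        rw [← e]
        exact ((hc d).zpow_right k).eq))
      (card_dvd_of_le (by rintro _ ⟨c, rfl⟩; exact c.2)) ⟨a, ha⟩ ⟨b, hb⟩)
  let Y : Subgroup C :=
    { carrier := {a | a ∈ A ∧ a ^ Nat.card N = 1}
      mul_mem' := fun {a b} ha hb => ⟨mul_mem ha.1 hb.1, by rw [pm a ha.1 b hb.1, ha.2, hb.2, one_mul]⟩
      one_mem' := ⟨one_mem _, one_pow _⟩
      inv_mem' := fun {a} ha => ⟨inv_mem ha.1, by rw [inv_pow, ha.2, inv_one]⟩ }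
  have hY := h2 Y (odd_iff_not.2 fun d => by
      obtain ⟨c, hc⟩ := exists_prime_orderOf_dvd_card' 2 d
      have : orderOf c ∣ Nat.card N := orderOf_dvd_of_pow_eq_one (Subtype.ext c.2.2)
      exact odd_iff_not.1 n2 (hc ▸ this))
    ⟨fun a ha g => ⟨(n1.comap _).conj_mem a ha.1 g, by rw [conj_pow, ha.2, mul_one, mul_inv_cancel]⟩⟩
  have cA : y * g * y⁻¹ * g⁻¹ ∈ A := by
    have := n3 (QuotientGroup.mk' (zpowers z) g)
    rwa [← map_inv, ← map_inv, ← map_mul, ← map_mul, ← map_mul] at this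
  have ci : y * (y * g * y⁻¹ * g⁻¹) * y⁻¹ = (y * g * y⁻¹ * g⁻¹)⁻¹ := by
    rw [← mul_assoc, ← mul_assoc, ← mul_assoc, hy2, yi]
    simp only [_root_.mul_inv_rev, inv_inv, yi, one_mul, mul_assoc]
  have eg : g * y * g⁻¹ = y * (y * g * y⁻¹ * g⁻¹) := by
    rw [← mul_assoc, ← mul_assoc, ← mul_assoc, hy2, yi, one_mul]
  rw [eg]
  generalize y * g * y⁻¹ * g⁻¹ = c at *
  have key : Commute c y → c ^ Nat.card N = c := fun k => pow_odd (by
    rw [← k.eq, mul_inv_cancel_right] at ci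
    exact mul_eq_one_iff_eq_inv.2 ci) n2
  have hp : c ^ Nat.card N ∈ zpowers z := (QuotientGroup.eq_one_iff _).1 (by
    change QuotientGroup.mk' (zpowers z) (c ^ Nat.card N) = 1
    rw [map_pow]
    exact congrArg Subtype.val (pow_card_eq_one' (x := (⟨_, cA⟩ : N))))
  rcases (mem_zpowers_two hz).1 hp with e | e
  · rw [← key (hY c ⟨cA, e⟩), e, mul_one]
    exact Or.inl rfl
  · have zA : z ∈ A := by
      change QuotientGroup.mk' (zpowers z) z ∈ N
      rw [hz1]; exact one_mem _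
    have := hY (c * z) ⟨mul_mem cA zA, by rw [(hc c).mul_pow, e, pow_odd hz n2, hz]⟩
    have k : Commute c y := by
      have := this.mul_left (hc y).symm
      rwa [mul_assoc, hz, mul_one] at this
    rw [← key k, e]
    exact Or.inr rfl

theorem z_eq (h : Wr ρ t π) : ρ (zz 1) = π (zz 1) * tw t π (zz 1) := (h.diag _).symm

theorem z1_z (h : Wr ρ t π) : π (zz 1) * ρ (zz 1) = tw t π (zz 1) := by
  rw [z_eq h, ← mul_assoc, P2.z2, one_mul]

theorem c_z (h : Wr ρ t π) {a : SL m F} (ha : Commute a (zz 1)) : Commute (π a) (ρ (zz 1)) := by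
  rw [z_eq h]
  exact (ha.map π).mul_right (h.comm _ _)

end W5

/-- Glauberman's `Z*` theorem (S0215) in `C(z) / ⟨z⟩`.  The preimage of the odd core is
`⟨z⟩ × Y` with `Y` characteristic of odd order (the kernel of `x ↦ x ^ n`, `n` the order of the
core, which is the transfer to the central subgroup `⟨z⟩`). -/
theorem zstar_pair (S : Sylow 2 G) {z y : G} (hz : z * z = 1) (hS : ∀ s ∈ S, Commute s z)
    (hy : y ∈ S) (hy2 : y * y = 1)
    (h1 : ∀ g, Commute g z → g * y * g⁻¹ ∈ S → g * y * g⁻¹ = y ∨ g * y * g⁻¹ = y * z)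
    (h2 : ∀ Y : Subgroup G, Odd (Nat.card Y) → Y ≤ centralizer {z} →
      centralizer {z} ≤ normalizer (Y : Set G) → ∀ o ∈ Y, Commute o y)
    {g : G} (hg : Commute g z) : g * y * g⁻¹ = y ∨ g * y * g⁻¹ = y * z := by
  have hle : (S : Subgroup G) ≤ centralizer {z} := fun s hs =>
    mem_centralizer_singleton_iff.2 (hS s hs).eq
  have := W5.core (S.subtype hle) (z := ⟨z, mem_centralizer_singleton_iff.2 rfl⟩) (y := ⟨y, hle hy⟩)
    (Subtype.ext hz) (fun g => Subtype.ext (mem_centralizer_singleton_iff.1 g.2)) hy (Subtype.ext hy2)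
    (fun g hg => (h1 g (mem_centralizer_singleton_iff.1 g.2) hg).imp Subtype.ext Subtype.ext)
    (fun Y o1 o2 o ho => Subtype.ext (h2 (Y.map (centralizer {z}).subtype)
      (by rwa [card_map_of_injective (subtype_injective _)]) (map_subtype_le _)
      (fun n hn => mem_norm_of_le (by
        rintro _ ⟨a, ha, rfl⟩
        exact ⟨_, o2.conj_mem a ha ⟨n, hn⟩, rfl⟩)) o (mem_map_of_mem _ ho)).eq)
    ⟨g, mem_centralizer_singleton_iff.2 hg.eq⟩
  exact this.imp (congrArg Subtype.val) (congrArg Subtype.val)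

/-- `pur` for `g z1 g⁻¹` and `g z2 g⁻¹ = g z1 g⁻¹ z`; `not_pu` -/
theorem Ws.iso (hp : Par m F) (h : Ws ρ t π S) {g : G} (hg : Commute g (ρ (zz 1)))
    (hS : g * π (zz 1) * g⁻¹ ∈ S) :
    g * π (zz 1) * g⁻¹ = π (zz 1) ∨ g * π (zz 1) * g⁻¹ = π (zz 1) * ρ (zz 1) := by
  have hm := hp.1
  have z1S : π (zz 1) ∈ S := h.US _ (zz_mem_U 1)
  have zS : ρ (zz 1) ∈ S := by
    rw [W5.z_eq h.toWr, tw_apply]
    exact mul_mem z1S (mul_mem (mul_mem h.tS z1S) (inv_mem h.tS))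
  have e : g * tw t π (zz 1) * g⁻¹ = g * π (zz 1) * g⁻¹ * ρ (zz 1) := by
    rw [← W5.z1_z h.toWr, ← conj_mul, mul_inv_eq_iff_eq_mul.2 hg.eq]
  have p1 := (h.pur hp (P2.icj _ g) (h.le_M hS)).pu
  have p2 := (h.pur hp (P2.z1_z2.trans (P2.icj _ g)) (h.le_M (e ▸ mul_mem hS zS))).pu
  have s2 : g * tw t π (zz 1) * g⁻¹ * (g * tw t π (zz 1) * g⁻¹) = 1 := P2.cj_sq P2.z2 g
  rw [e, W5.z_eq h.toWr, ← sq] at s2
  rw [e, W5.z_eq h.toWr] at p2
  rw [W5.z1_z h.toWr]
  generalize g * π (zz 1) * g⁻¹ = w at *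
  have a1 := h.frπ.zz_ne hm
  have a2 := h.toWr.fr2.zz_ne hm
  rcases p1 with p | p
  · refine Or.inl ?_
    by_contra ne
    rw [← mul_assoc] at p2 s2
    have v := mul_mem p ⟨zz 1, rfl⟩
    refine h.toWr.not_pu' hm v ?_ (fun k => ne ?_) ⟨_, rfl⟩ P2.z2 a2 p2
    · rwa [(h.toWr.comm' v ⟨_, rfl⟩).mul_pow, sq (tw t π _), P2.z2, mul_one, sq] at s2
    · rw [eq_inv_of_mul_eq_one_left k, inv_eq_of_mul_eq_one_right P2.z2]
  · refine Or.inr ?_
    by_contra ne
    rw [← mul_assoc, ← (h.toWr.comm' ⟨_, rfl⟩ p).eq, mul_assoc] at p2 s2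
    have v := mul_mem p ⟨zz 1, rfl⟩
    refine h.toWr.not_pu' hm ⟨_, rfl⟩ P2.z2 a1 v ?_ (fun k => ne ?_) p2
    · rwa [(h.toWr.comm' ⟨_, rfl⟩ v).mul_pow, sq (π _), P2.z2, one_mul, sq] at s2
    · rw [eq_inv_of_mul_eq_one_left k, inv_eq_of_mul_eq_one_right P2.z2]

/-- `St.sig` with `a = x 0 j 1`, `j ≠ 0, la`, `y = π a`; conjugate `ρ a` by `π (x j la 1)` -/
theorem Wr.sig (hm : 3 ≤ m) (h : Wr ρ t π) {Y : Subgroup G} (hY : Odd (Nat.card Y))
    (h1 : Y ≤ centralizer {ρ (zz 1)}) (h2 : centralizer {ρ (zz 1)} ≤ normalizer (Y : Set G)) :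
    ∀ o ∈ Y, Commute o (π (zz 1)) := by
  obtain ⟨j, j0, jl⟩ := exists_third hm (0 : Fin m) la
  have l0 : (0 : Fin m) ≠ la := zero_ne_la (by omega)
  have aQ : (x 0 j 1 : SL m F) ∈ Q m F := mem_sup_left (x_mem ⟨rfl, j0⟩ 1)
  have nz : ∀ {n}, Commute n (ρ (zz 1)) → n ∈ normalizer (Y : Set G) := fun hn =>
    h2 (mem_centralizer_singleton_iff.2 hn.eq)
  have ca : Commute (π (x 0 j 1)) (tw t π (x 0 j 1)) := h.comm _ _
  have k := h.toSt.sig hm hY (nz (h.tc _)) (fun w hw => mem_centralizer_singleton_iff.1 (h1 hw))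
    (fun a ha => nz ((zz_comm (Q_le_U ha) 1).symm.map ρ)) aQ (x_sq ..) (y := π (x 0 j 1))
    (nz (W5.c_z h (zz_comm (Q_le_U aQ) 1).symm))
    (by
      rw [← h.diag, ca.eq, tw_apply, ← map_inv, x_inv, h.t_inv]
      simp only [← mul_assoc, h.tt, one_mul])
    (by rw [← h.diag]; exact (Commute.refl _).mul_right ca)
  have nb := nz (W5.c_z h (a := x j la 1) (x_comm jl l0.symm (1 : F) 1))
  have e : (x j la 1 : SL m F) * x 0 j 1 * (x j la 1)⁻¹ = x 0 j 1 * zz 1 := by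
    have := x_tri j0.symm jl l0 (1 : F) 1
    rw [mul_one] at this
    rw [zz, ← this, x_inv (0 : Fin m) j]
    simp only [← mul_assoc, x_sq, one_mul]
  have e2 : π (x j la 1) * ρ (x 0 j 1) * (π (x j la 1))⁻¹ = ρ (x 0 j 1) * π (zz 1) := by
    rw [← h.diag, ← conj_mul, mul_inv_eq_iff_eq_mul.2 (h.comm _ _).eq, ← map_inv, ← map_mul, ← map_mul,
      e, map_mul, mul_assoc, mul_assoc, (h.comm _ _).eq]
  intro o ho
  have k2 := commute_cj (g := π (x j la 1)).2 (k _ ((mem_normalizer_iff.1 (inv_mem nb) o).1 ho))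
  rw [e2, show π (x j la 1) * ((π (x j la 1))⁻¹ * o * (π (x j la 1))⁻¹⁻¹) * (π (x j la 1))⁻¹ = o by
    group] at k2
  have := (k o ho).inv_right.mul_right k2
  rwa [inv_mul_cancel_left] at this

theorem Ws.e1 (hp : Par m F) (h : Ws ρ t π S) {g : G} (hg : Commute g (ρ (zz 1))) :
    g * π (zz 1) * g⁻¹ ∈ G0 t π := by
  rcases zstar_pair S P2.z2 (fun s hs => h.z_comm hp.1 hs) (h.US _ (zz_mem_U 1)) P2.z2
    (fun g => h.iso hp) (fun Y => h.toWr.sig hp.1) hg with e | e <;> rw [e]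
  · exact P2.one_G0 _
  · exact mul_mem (P2.one_G0 _) (P2.z_G0 h.toWr)

/-- `y t` has even order (`conj_of_odd`, `not_conj`); `exists_central` gives `i`, `y ~ y i` (`z1`
for `t i`).  `om` for `⟨i⟩`: `g y g⁻¹ = z1`, `g (y i) g⁻¹` is a pure root element (`pur`), of the
second factor by `z1'`.  So one may assume `g i g⁻¹ = z`.  By `f2`, `conj_z`, `k i k⁻¹ = z` for some
`k ∈ G0`, and `e1` for `k g⁻¹`. -/
theorem Ws.e2 (hp : Par m F) (h : Ws ρ t π S) {y : G} (hy : IsConj (π (zz 1)) y) : y ∈ G0 t π := by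
  have hm := hp.1
  have tt := h.toSt.tt
  have y2 := P2.sq_of hy
  obtain ⟨i, -, i2, i1, iy, it, hc⟩ := exists_central y2 tt (Nat.not_odd_iff_even.1 fun ho => by
    obtain ⟨d, -, e⟩ := conj_of_odd y2 tt ho
    exact h.toWr.not_conj hp (P2.one_G0 _) ((isConj_iff.2 ⟨d, e⟩).trans hy.symm))
  replace hc := hc.resolve_left fun k =>
    h.z1 hp (hy.trans k) (IsConj.refl t) ((Commute.refl t).mul_left it)
  obtain ⟨g, hw, g1, -⟩ := h.om hp hy (el_zpowers i2).pgroup fun p hp =>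
    zp_comm i2 (V := zpowers y) (fun v hv => by
      obtain ⟨n, rfl⟩ := hv
      exact iy.zpow_right n) p hp y (mem_zpowers y)
  obtain ⟨r, hr, e⟩ := h.pur hp (P2.mul_cj hw hc)
    (M0_le (mul_mem (h.toWr.G0_le (P2.one_G0 _)) (g1 i (mem_zpowers i)).2))
  replace e := e.resolve_left fun k => h.z1' hp (y := g * i * g⁻¹)
    (Or.inl ((Subgroup.mul_mem_cancel_left π.range ⟨zz 1, rfl⟩).1 ⟨r, k.symm⟩)) (P2.cj_sq i2 g)
    (fun q => i1 (conj_eq_one_iff.1 q)) (P2.icj i g).symm (IsConj.refl t) it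
  obtain ⟨s, hs⟩ := isConj_iff.1 hr.symm
  have e1 : tw t π s * g * y * (tw t π s * g)⁻¹ = π (zz 1) := by
    rw [show tw t π s * g * y * (tw t π s * g)⁻¹ = tw t π s * (g * y * g⁻¹) * (tw t π s)⁻¹ by group,
      hw, ← (h.comm _ _).eq, mul_inv_cancel_right]
  have e2 : tw t π s * g * i * (tw t π s * g)⁻¹ = ρ (zz 1) := by
    rw [show tw t π s * g * i * (tw t π s * g)⁻¹ = tw t π s * (g * i * g⁻¹) * (tw t π s)⁻¹ by group,
      eq_inv_mul_of_mul_eq e, inv_eq_of_mul_eq_one_right P2.z2, ← conj_mul, ← (h.comm _ _).eq,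
      mul_inv_cancel_right, ← map_inv, ← map_mul, ← map_mul, hs, h.diag]
  generalize tw t π s * g = g' at e1 e2
  obtain ⟨r1, r2, q1, q2, e3⟩ := h.f2 hp (IsConj.refl t) h.toWr.t_mem it (isConj_iff.2 ⟨g', e2⟩).symm
  obtain ⟨k, k0, e4⟩ := h.toWr.conj_z q1 q2
  rw [← e3] at e4
  have := h.e1 hp (g := k * g'⁻¹) (mul_inv_eq_iff_eq_mul.1 (by
    conv_lhs => rw [← e2]
    rw [← e4]; group))
  rw [← e1, show k * g'⁻¹ * (g' * y * g'⁻¹) * (k * g'⁻¹)⁻¹ = k * y * k⁻¹ by group] at this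
  exact (Subgroup.mul_mem_cancel_left _ k0).1 ((Subgroup.mul_mem_cancel_right _ (inv_mem k0)).1 this)

/-- `closure_root` -/
theorem Ws.normal (hp : Par m F) (h : Ws ρ t π S) : (G0 t π).Normal := by
  have key : ∀ g a, g * π a * g⁻¹ ∈ G0 t π := fun g a => by
    have : closure {a : SL m F | IsRoot a} ≤ (G0 t π).comap (tw g π) := (closure_le _).2 fun r hr =>
      h.e2 hp ((PuR.isConj (t := t) ⟨r, hr, Or.inl rfl⟩).trans (P2.icj _ g))
    rw [closure_root hp.1] at this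
    exact this (mem_top a)
  refine ⟨fun n hn g => ?_⟩
  obtain ⟨a, b, rfl⟩ := h.toWr.mem_G0.1 hn
  rw [← conj_mul, tw_apply, show g * (t * π b * t⁻¹) * g⁻¹ = g * t * π b * (g * t)⁻¹ by group]
  exact mul_mem (key _ _) (key _ _)

/-- `N ≤ G0` (`le_of_normal`); `le_or_cent`: `N` centralises the first factor or equals it -/
theorem Ws.false (hp : Par m F) (h : Ws ρ t π S) {N : Subgroup G} (hN : Al N) : False := by
  have hm := hp.1
  have := hN.nrm
  have := hN.simple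
  have a2 := h.toWr.fr2.zz_ne hm
  have le := (hN.le_of_normal (h.normal hp) fun e => h.frπ.zz_ne hm
    (mem_bot.1 (e ▸ P2.one_G0 (t := t) (zz 1)))).trans h.toWr.G0_le
  have nr : N ≤ normalizer ((tw t π).range : Set G) := le.trans inf_le_right
  rcases h.toWr.fr2.le_or_cent hm (N := N) (le_normalizer_of_normal) nr with k | k
  · rcases ((normal_subgroupOf_iff_le_normalizer k).2 nr).eq_bot_or_eq_top with e | e
    · have : (⟨_, k ⟨zz 1, rfl⟩⟩ : N) ∈ (tw t π).range.subgroupOf N := ⟨zz 1, rfl⟩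
      rw [e, mem_bot] at this
      exact a2 (congrArg Subtype.val this)
    · refine h.toWr.range_ne hm (le_trans ?_ (subgroupOf_eq_top.1 e))
      rintro _ ⟨a, rfl⟩
      have := hN.nrm.conj_mem _ (k ⟨a, rfl⟩) t⁻¹
      rwa [tw_apply, show t⁻¹ * (t * π a * t⁻¹) * t⁻¹⁻¹ = π a by group] at this
  · have : tw t π (zz 1) ∈ centralizer (N : Set G) := mem_centralizer_iff.2 fun y hy => (k y hy _).eq
    rw [hN.cen, mem_bot] at this
    exact a2 this

theorem Wr.false (hp : Par m F) (h : Wr ρ t π) {N : Subgroup G} (hN : Al N) : False := by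
  obtain ⟨ρ', π', S, h'⟩ := h.exists_ws hp
  exact h'.false hp hN

end CL.SC
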